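import Cfsg.Agent.Helper8.ExtraPModel

namespace Cfsg.Agent.Helper8.AltSylow

open Cfsg.Agent.Helper8.ExtraP
open scoped Pointwise

/-- a `p`-subgroup of `Perm (Fin n)`, `n < p^2`, is commutative -/
theorem comm_of_lt {n p : ℕ} [Fact p.Prime] (hn : n < p ^ 2) (Q : Subgroup (Equiv.Perm (Fin n)))
    (hQ : IsPGroup p Q) (a b : Equiv.Perm (Fin n)) (ha : a ∈ Q) (hb : b ∈ Q) :
    a * b = b * a := by
  classical
  have hp := (Fact.out : p.Prime)
  apply Equiv.ext
  intro x
  obtain ⟨k, hk⟩ := hQ.card_orbit x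
  have hle : Nat.card (MulAction.orbit Q x) ≤ n := by
    have := Finite.card_subtype_le (fun y : Fin n => y ∈ MulAction.orbit Q x)
    simpa using this
  have hk1 : k ≤ 1 := by
    by_contra hk2
    push_neg at hk2
    have h1 : p ^ 2 ≤ p ^ k := Nat.pow_le_pow_right hp.pos hk2
    omega
  let φ : Q →* Equiv.Perm (MulAction.orbit Q x) := MulAction.toPermHom Q (MulAction.orbit Q x)
  have hR : IsPGroup p φ.range := hQ.of_surjective φ.rangeRestrict φ.rangeRestrict_surjective
  obtain ⟨j, hj⟩ := IsPGroup.iff_card.mp hR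
  have hdvd : p ^ j ∣ (p ^ k).factorial := by
    rw [← hj, ← hk, ← Nat.card_perm]
    exact Subgroup.card_subgroup_dvd_card φ.range
  have hj1 : j ≤ 1 := by
    by_contra hj2
    push_neg at hj2
    have h1 : p ^ 2 ∣ p.factorial := by
      refine (pow_dvd_pow p hj2).trans (hdvd.trans (Nat.factorial_dvd_factorial ?_))
      calc p ^ k ≤ p ^ 1 := Nat.pow_le_pow_right hp.pos hk1
        _ = p := pow_one p
    obtain ⟨q, hq⟩ : ∃ q, p = q + 1 := ⟨p - 1, by have := hp.pos; omega⟩
    rw [hq, Nat.factorial_succ, ← hq, sq] at h1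
    have h2 : p ∣ q.factorial := Nat.dvd_of_mul_dvd_mul_left hp.pos h1
    have h3 := (hp.dvd_factorial).mp h2
    omega
  have hcyc : IsCyclic φ.range := by
    interval_cases j
    · have h1 : Nat.card φ.range = 1 := by simpa using hj
      haveI : Subsingleton φ.range := (Nat.card_eq_one_iff_unique.mp h1).1
      infer_instance
    · exact isCyclic_of_prime_card (p := p) (by simpa using hj)
  obtain ⟨g0, hg0⟩ := hcyc.exists_generator
  have hcomm : φ ⟨a, ha⟩ * φ ⟨b, hb⟩ = φ ⟨b, hb⟩ * φ ⟨a, ha⟩ := by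
    obtain ⟨i, hi⟩ := Subgroup.mem_zpowers_iff.mp (hg0 ⟨φ ⟨a, ha⟩, ⟨_, rfl⟩⟩)
    obtain ⟨i', hi'⟩ := Subgroup.mem_zpowers_iff.mp (hg0 ⟨φ ⟨b, hb⟩, ⟨_, rfl⟩⟩)
    have h1 := congrArg Subtype.val hi
    have h2 := congrArg Subtype.val hi'
    simp only [Subgroup.coe_zpow] at h1 h2
    rw [← h1, ← h2]
    exact (Commute.zpow_zpow_self ((g0 : φ.range) : Equiv.Perm (MulAction.orbit Q x)) i i').eq
  have h1 := congrArg
    (fun σ => ((σ ⟨x, MulAction.mem_orbit_self x⟩ : MulAction.orbit Q x) : Fin n)) hcomm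
  exact h1

section big

variable {p : ℕ} [Fact p.Prime]

/-- the affine action of the Heisenberg group of order `p^3` on the plane -/
def planeAct (g : Heis 1 p) : Equiv.Perm (ZMod p × ZMod p) where
  toFun x := (x.1 + g.a 0 * x.2 + g.c, x.2 + g.b 0)
  invFun x := (x.1 - g.a 0 * (x.2 - g.b 0) - g.c, x.2 - g.b 0)
  left_inv x := by
    refine Prod.ext ?_ ?_
    · simp only; ring
    · simp only; ring
  right_inv x := by
    refine Prod.ext ?_ ?_
    · simp only; ring
    · simp only; ring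

theorem planeAct_apply (g : Heis 1 p) (x : ZMod p × ZMod p) :
    planeAct g x = (x.1 + g.a 0 * x.2 + g.c, x.2 + g.b 0) := rfl

/-- the action as a homomorphism -/
def planeHom : Heis 1 p →* Equiv.Perm (ZMod p × ZMod p) where
  toFun := planeAct
  map_one' := by
    apply Equiv.ext
    intro x
    rw [planeAct_apply]
    refine Prod.ext ?_ ?_ <;> simp
  map_mul' g h := by
    apply Equiv.ext
    intro x
    rw [Equiv.Perm.mul_apply, planeAct_apply, planeAct_apply, planeAct_apply]
    refine Prod.ext ?_ ?_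
    · simp [dotProduct]; ring
    · simp; ring

theorem planeHom_apply (g : Heis 1 p) (x : ZMod p × ZMod p) :
    planeHom g x = (x.1 + g.a 0 * x.2 + g.c, x.2 + g.b 0) := rfl

theorem planeHom_injective : Function.Injective (planeHom (p := p)) := by
  intro g h hgh
  have h0 := congrArg (fun σ : Equiv.Perm (ZMod p × ZMod p) => σ (0, 0)) hgh
  have h1 := congrArg (fun σ : Equiv.Perm (ZMod p × ZMod p) => σ (0, 1)) hgh
  simp only [planeHom_apply, zero_add, mul_zero, add_zero, mul_one, Prod.mk.injEq] at h0 h1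
  ext1
  · funext i
    have hi : i = 0 := Subsingleton.elim _ _
    subst hi
    linear_combination h1.1 - h0.1
  · funext i
    have hi : i = 0 := Subsingleton.elim _ _
    subst hi
    exact h0.2
  · exact h0.1

/-- a sign-compatible homomorphism into `Perm (Fin 2)` -/
def tauHom : ℤˣ →* Equiv.Perm (Fin 2) where
  toFun u := if u = 1 then 1 else Equiv.swap 0 1
  map_one' := by simp
  map_mul' u v := by
    rcases Int.units_eq_one_or u with rfl | rfl <;> rcases Int.units_eq_one_or v with rfl | rfl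
    · simp
    · simp
    · simp
    · have h : (-1 : ℤˣ) ≠ 1 := by decide
      simp [h]

theorem sign_tauHom (u : ℤˣ) : Equiv.Perm.sign (tauHom u) = u := by
  rcases Int.units_eq_one_or u with rfl | rfl
  · simp [tauHom]
  · have h : (-1 : ℤˣ) ≠ 1 := by decide
    have h01 : (0 : Fin 2) ≠ 1 := by decide
    simp [tauHom, h, Equiv.Perm.sign_swap h01]

theorem exists_even_hom (n : ℕ) (hn6 : 6 ≤ n) (hn : p ^ 2 ≤ n) :
    ∃ f : Heis 1 p →* Equiv.Perm (Fin n), Function.Injective f ∧
      ∀ g, Equiv.Perm.sign (f g) = 1 := by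
  classical
  have hp := (Fact.out : p.Prime)
  by_cases hp2 : p = 2
  · subst hp2
    let ρ : Heis 1 2 →* Equiv.Perm ((ZMod 2 × ZMod 2) ⊕ Fin 2) :=
      (Equiv.Perm.sumCongrHom (ZMod 2 × ZMod 2) (Fin 2)).comp
        (MonoidHom.prod planeHom (tauHom.comp (Equiv.Perm.sign.comp planeHom)))
    have hρinj : Function.Injective ρ := by
      intro g h hgh
      have h1 := Equiv.Perm.sumCongrHom_injective hgh
      exact planeHom_injective (congrArg Prod.fst h1)
    have hρsign : ∀ g, Equiv.Perm.sign (ρ g) = 1 := by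
      intro g
      show Equiv.Perm.sign (Equiv.sumCongr (planeHom g)
        (tauHom (Equiv.Perm.sign (planeHom g)))) = 1
      rw [Equiv.Perm.sign_sumCongr, sign_tauHom, Int.units_mul_self]
    have hcard : Fintype.card ((ZMod 2 × ZMod 2) ⊕ Fin 2) ≤ Fintype.card (Fin n) := by
      simp only [Fintype.card_sum, Fintype.card_prod, ZMod.card, Fintype.card_fin]
      omega
    obtain ⟨ι⟩ := Function.Embedding.nonempty_of_card_le hcard
    refine ⟨(Equiv.Perm.viaEmbeddingHom ι).comp ρ,
      (Equiv.Perm.viaEmbeddingHom_injective ι).comp hρinj, ?_⟩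
    intro g
    show Equiv.Perm.sign (Equiv.Perm.viaEmbeddingHom ι (ρ g)) = 1
    rw [← hρsign g]
    letI : DecidablePred (· ∈ Set.range ι.1) := fun a => Classical.propDecidable _
    exact Equiv.Perm.sign_extendDomain (ρ g) (Equiv.ofInjective ι.1 ι.2)
  · have hcard : Fintype.card (ZMod p × ZMod p) ≤ Fintype.card (Fin n) := by
      simp only [Fintype.card_prod, ZMod.card, Fintype.card_fin]
      rw [← sq]; exact hn
    obtain ⟨ι⟩ := Function.Embedding.nonempty_of_card_le hcard
    refine ⟨(Equiv.Perm.viaEmbeddingHom ι).comp planeHom,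
      (Equiv.Perm.viaEmbeddingHom_injective ι).comp planeHom_injective, ?_⟩
    intro g
    have h1 : Equiv.Perm.sign (((Equiv.Perm.viaEmbeddingHom ι).comp planeHom) g) ^ p = 1 := by
      rw [← map_pow, ← map_pow, Heis.pow_p hp2, map_one, map_one]
    rcases Int.units_eq_one_or
      (Equiv.Perm.sign (((Equiv.Perm.viaEmbeddingHom ι).comp planeHom) g)) with h | h
    · exact h
    · rw [h, (hp.odd_of_ne_two hp2).neg_one_pow] at h1
      exact absurd h1 (by decide)

theorem exists_nonabelian (n : ℕ) (hn6 : 6 ≤ n) (hn : p ^ 2 ≤ n) :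
    ∃ Q : Subgroup (alternatingGroup (Fin n)), IsPGroup p Q ∧
      ∃ x ∈ Q, ∃ y ∈ Q, x * y ≠ y * x := by
  classical
  obtain ⟨f, hf, hsign⟩ := exists_even_hom (p := p) n hn6 hn
  let f' : Heis 1 p →* alternatingGroup (Fin n) :=
    f.codRestrict (alternatingGroup (Fin n)) (fun g => Equiv.Perm.mem_alternatingGroup.mpr (hsign g))
  have hf' : Function.Injective f' := fun g h hgh => hf (congrArg Subtype.val hgh)
  refine ⟨f'.range, ?_, ?_⟩
  · have hH : IsPGroup p (Heis 1 p) := IsPGroup.of_card (n := 3) (by rw [Heis.card_heis])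
    exact hH.of_surjective f'.rangeRestrict f'.rangeRestrict_surjective
  · have hnc := Heis.noncomm_heis (n := 1) (p := p) le_rfl
    push_neg at hnc
    obtain ⟨g, k, hgk⟩ := hnc
    refine ⟨f' g, ⟨g, rfl⟩, f' k, ⟨k, rfl⟩, ?_⟩
    intro h
    apply hgk
    apply hf'
    rw [map_mul, map_mul, h]

end big

theorem main5164 (n p : ℕ) (hn : 6 ≤ n) [Fact p.Prime] (S : Sylow p (alternatingGroup (Fin n))) :
    IsMulCommutative S ↔ n < p ^ 2 := by
  constructor
  · intro hc
    by_contra hlt
    push_neg at hlt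
    obtain ⟨Q, hQ, x, hx, y, hy, hxy⟩ := exists_nonabelian (p := p) n hn hlt
    obtain ⟨P, hQP⟩ := hQ.exists_le_sylow
    obtain ⟨g, rfl⟩ := MulAction.exists_smul_eq (alternatingGroup (Fin n)) S P
    have key : ∀ z, z ∈ (g • S : Sylow p (alternatingGroup (Fin n))) →
        g⁻¹ * z * g ∈ (S : Subgroup (alternatingGroup (Fin n))) := by
      intro z hz
      have h1 : z ∈ MulAut.conj g • (S : Subgroup (alternatingGroup (Fin n))) := hz
      rw [Subgroup.mem_pointwise_smul_iff_inv_smul_mem] at h1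
      simpa [MulAut.smul_def, MulAut.conj_inv_apply] using h1
    have h1 := key x (hQP hx)
    have h2 := key y (hQP hy)
    have h3 : (g⁻¹ * x * g) * (g⁻¹ * y * g) = (g⁻¹ * y * g) * (g⁻¹ * x * g) := by
      have h := hc.is_comm.comm (⟨_, h1⟩ : S) ⟨_, h2⟩
      exact congrArg Subtype.val h
    apply hxy
    have h4 : g⁻¹ * (x * y) * g = g⁻¹ * (y * x) * g := by
      calc g⁻¹ * (x * y) * g = (g⁻¹ * x * g) * (g⁻¹ * y * g) := by group
        _ = (g⁻¹ * y * g) * (g⁻¹ * x * g) := h3
        _ = g⁻¹ * (y * x) * g := by group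
    exact mul_left_cancel (mul_right_cancel h4)
  · intro hlt
    refine ⟨⟨fun a b => ?_⟩⟩
    apply Subtype.ext
    apply Subtype.ext
    have hQ : IsPGroup p ((S : Subgroup (alternatingGroup (Fin n))).map
        (alternatingGroup (Fin n)).subtype) := S.isPGroup'.map _
    exact comm_of_lt hlt _ hQ a b (Subgroup.mem_map_of_mem _ a.2) (Subgroup.mem_map_of_mem _ b.2)

end Cfsg.Agent.Helper8.AltSylow
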