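import Cfsg.Prelude.Def_LieExceptional

set_option autoImplicit false

namespace Cfsg.Agent.Helper8.BN

open Cfsg

variable {G : Type*} [Group G] (P : BNPair G)

/-- `g` lies in the double coset `B n B`. -/
def InDC (n g : G) : Prop := ∃ b ∈ P.B, ∃ b' ∈ P.B, g = b * n * b'

theorem inDC_iff (n g : G) :
    InDC P n g ↔ g ∈ DoubleCoset.doubleCoset n (P.B : Set G) P.B := by
  rw [DoubleCoset.mem_doubleCoset]
  rfl

variable {P}

theorem inDC_refl (n : G) : InDC P n n := ⟨1, P.B.one_mem, 1, P.B.one_mem, by group⟩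

theorem inDC_symm {n g : G} (h : InDC P n g) : InDC P g n := by
  obtain ⟨b, hb, b', hb', rfl⟩ := h
  exact ⟨b⁻¹, P.B.inv_mem hb, b'⁻¹, P.B.inv_mem hb', by group⟩

theorem inDC_trans {n g h : G} (h1 : InDC P n g) (h2 : InDC P g h) : InDC P n h := by
  obtain ⟨b, hb, b', hb', rfl⟩ := h1
  obtain ⟨c, hc, c', hc', rfl⟩ := h2
  exact ⟨c * b, P.B.mul_mem hc hb, b' * c', P.B.mul_mem hb' hc', by group⟩

theorem inDC_mul_left {n g b : G} (hb : b ∈ P.B) (h : InDC P n g) : InDC P n (b * g) := by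
  obtain ⟨c, hc, c', hc', rfl⟩ := h
  exact ⟨b * c, P.B.mul_mem hb hc, c', hc', by group⟩

theorem inDC_mul_right {n g b : G} (hb : b ∈ P.B) (h : InDC P n g) : InDC P n (g * b) := by
  obtain ⟨c, hc, c', hc', rfl⟩ := h
  exact ⟨c, hc, c' * b, P.B.mul_mem hc' hb, by group⟩

theorem mem_B_of_inDC {n g : G} (hn : n ∈ P.B) (h : InDC P n g) : g ∈ P.B := by
  obtain ⟨c, hc, c', hc', rfl⟩ := h
  exact P.B.mul_mem (P.B.mul_mem hc hn) hc'

theorem inDC_of_mem_B {n g : G} (hn : n ∈ P.B) (hg : g ∈ P.B) : InDC P n g :=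
  ⟨g, hg, n⁻¹, P.B.inv_mem hn, by group⟩

theorem inDC_congr {n n' g : G} (h : n⁻¹ * n' ∈ P.B) (hg : InDC P n g) : InDC P n' g := by
  obtain ⟨c, hc, c', hc', rfl⟩ := hg
  exact ⟨c, hc, (n⁻¹ * n')⁻¹ * c', P.B.mul_mem (P.B.inv_mem h) hc', by group⟩

theorem inDC_congr' {n n' g : G} (h : n⁻¹ * n' ∈ P.B) (hg : InDC P n' g) : InDC P n g := by
  apply inDC_congr (n := n') _ hg
  have : n'⁻¹ * n = (n⁻¹ * n')⁻¹ := by group
  rw [this]
  exact P.B.inv_mem h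

theorem inDC_inv {n g : G} (h : InDC P n g) : InDC P n⁻¹ g⁻¹ := by
  obtain ⟨c, hc, c', hc', rfl⟩ := h
  exact ⟨c'⁻¹, P.B.inv_mem hc', c⁻¹, P.B.inv_mem hc, by group⟩

/-! ### Basic facts on the distinguished generators -/

theorem S_mem_N {s : G} (hs : s ∈ P.S) : s ∈ P.N := P.subset hs

theorem sq_inv_mem {s : G} (hs : s ∈ P.S) : (s * s)⁻¹ ∈ P.B := P.B.inv_mem (P.sq_mem s hs)

theorem T_conj {n t : G} (hn : n ∈ P.N) (ht : t ∈ P.B) (htN : t ∈ P.N) : n * t * n⁻¹ ∈ P.B :=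
  P.conj_mem n hn t ⟨ht, htN⟩

theorem T_conj' {n t : G} (hn : n ∈ P.N) (ht : t ∈ P.B) (htN : t ∈ P.N) : n⁻¹ * t * n ∈ P.B := by
  have := T_conj (P.N.inv_mem hn) ht htN
  rwa [inv_inv] at this

theorem exists_not_mem {s : G} (hs : s ∈ P.S) : ∃ b ∈ P.B, s * b * s ∉ P.B := by
  by_contra hcon
  push Not at hcon
  apply P.conj_ne s hs
  apply Set.Subset.antisymm
  · rintro _ ⟨b, hb, rfl⟩
    exact hcon b hb
  · intro b hb
    refine ⟨s⁻¹ * b * s⁻¹, ?_, by group⟩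
    have h1 : s⁻¹ * b * s⁻¹ = (s * s)⁻¹ * (s * b * s) * (s * s)⁻¹ := by group
    show s⁻¹ * b * s⁻¹ ∈ P.B
    rw [h1]
    exact P.B.mul_mem (P.B.mul_mem (sq_inv_mem hs) (hcon b hb)) (sq_inv_mem hs)

theorem S_not_mem_B {s : G} (hs : s ∈ P.S) : s ∉ P.B := by
  intro h
  obtain ⟨b, hb, hnb⟩ := exists_not_mem hs
  exact hnb (P.B.mul_mem (P.B.mul_mem h hb) h)

/-! ### The double coset axiom in several forms -/

theorem axiom_left {s n g : G} (hs : s ∈ P.S) (hn : n ∈ P.N) (hg : InDC P n g) :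
    InDC P (s * n) (s * g) ∨ InDC P n (s * g) := by
  obtain ⟨b, hb, b', hb', rfl⟩ := hg
  have h := P.mul_mem_union s hs n hn b hb
  have e : s * (b * n * b') = s * b * n * b' := by group
  rw [e]
  rcases h with h | h
  · left
    exact inDC_mul_right hb' ((inDC_iff P _ _).2 h)
  · right
    exact inDC_mul_right hb' ((inDC_iff P _ _).2 h)

theorem axiom_left_inv {s n g : G} (hs : s ∈ P.S) (hn : n ∈ P.N) (hg : InDC P n g) :
    InDC P (s * n) (s⁻¹ * g) ∨ InDC P n (s⁻¹ * g) := by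
  have e : s⁻¹ * g = s * ((s * s)⁻¹ * g) := by group
  rw [e]
  exact axiom_left hs hn (inDC_mul_left (sq_inv_mem hs) hg)

theorem axiom_right {s n g : G} (hs : s ∈ P.S) (hn : n ∈ P.N) (hg : InDC P n g) :
    InDC P (n * s) (g * s) ∨ InDC P n (g * s) := by
  have h := axiom_left_inv hs (P.N.inv_mem hn) (inDC_inv hg)
  have e : g * s = (s⁻¹ * g⁻¹)⁻¹ := by group
  rw [e]
  rcases h with h | h
  · left
    have h2 := inDC_inv h
    apply inDC_congr _ h2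
    have : ((s * n⁻¹)⁻¹)⁻¹ * (n * s) = s * s := by group
    rw [this]
    exact P.sq_mem s hs
  · right
    have h2 := inDC_inv h
    rwa [inv_inv] at h2

end Cfsg.Agent.Helper8.BN
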