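import Cfsg.Agent.Helper8.BNLength

set_option autoImplicit false

namespace Cfsg.Agent.Helper8.BN

open Cfsg

variable {G : Type*} [Group G]

/-- `s B n ⊆ B s n B`; equivalent to `len (s n) > len n`. -/
def Pl (P : BNPair G) (s n : G) : Prop := ∀ b ∈ P.B, InDC P (s * n) (s * b * n)

variable {P : BNPair G}

theorem exists_inDC_self {s : G} (hs : s ∈ P.S) : ∃ b ∈ P.B, InDC P s (s * b * s) := by
  obtain ⟨b, hb, hnb⟩ := exists_not_mem hs
  refine ⟨b, hb, ?_⟩
  rcases P.mul_mem_union s hs s (S_mem_N hs) b hb with h | h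
  · exfalso
    apply hnb
    exact mem_B_of_inDC (P.sq_mem s hs) ((inDC_iff P _ _).2 h)
  · exact (inDC_iff P _ _).2 h

theorem pl_congr {s n n' : G} (h : Eqv P n n') (hp : Pl P s n) : Pl P s n' := by
  intro b hb
  have h1 := hp b hb
  have h2 : InDC P (s * n) (s * b * n') := by
    have e : s * b * n' = s * b * n * (n⁻¹ * n') := by group
    rw [e]
    exact inDC_mul_right h h1
  exact inDC_congr (eqv_mul_left s h) h2

theorem pl_one (s : G) : Pl P s 1 := by
  intro b hb
  exact ⟨1, P.B.one_mem, b, hb, by group⟩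

theorem not_pl_both {s n : G} (hs : s ∈ P.S) (hn : n ∈ P.N) (h1 : Pl P s n)
    (h2 : Pl P s (s * n)) : False := by
  obtain ⟨b₀, hb₀, h0⟩ := exists_inDC_self hs
  obtain ⟨b₁, hb₁, b₂, hb₂, e⟩ := h0
  have hsN := S_mem_N hs
  have hA := h2 b₀ hb₀
  have hA' : InDC P n (s * b₀ * (s * n)) := inDC_congr (eqv_sq_mul hs hn) hA
  have e2 : s * b₀ * (s * n) = b₁ * (s * b₂ * n) := by
    have e3 : s * b₀ * (s * n) = (s * b₀ * s) * n := by group
    rw [e3, e]
    group
  have hB : InDC P (s * n) (s * b₀ * (s * n)) := by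
    rw [e2]
    exact inDC_mul_left hb₁ (h1 b₂ hb₂)
  have hC : InDC P n (s * n) := inDC_trans hA' (inDC_symm hB)
  have hD := dc_unique hn (P.N.mul_mem hsN hn) hC
  apply S_not_mem_B hs
  have e3 : s = n * (n⁻¹ * (s * n)) * n⁻¹ := by group
  rw [e3]
  exact T_conj hn hD (P.N.mul_mem (P.N.inv_mem hn) (P.N.mul_mem hsN hn))

theorem exists_of_not_pl {s n : G} (hs : s ∈ P.S) (hn : n ∈ P.N) (h : ¬ Pl P s n) :
    ∃ b ∈ P.B, InDC P n (s * b * n) := by
  unfold Pl at h
  push Not at h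
  obtain ⟨b, hb, hnb⟩ := h
  refine ⟨b, hb, ?_⟩
  rcases P.mul_mem_union s hs n hn b hb with h | h
  · exact absurd ((inDC_iff P _ _).2 h) hnb
  · exact (inDC_iff P _ _).2 h

theorem eqv_of_pl_of_not_pl {s s' n : G} (hs : s ∈ P.S) (hs' : s' ∈ P.S) (hn : n ∈ P.N)
    (h1 : Pl P s n) (h2 : ¬ Pl P s (n * s')) : Eqv P (s * n) (n * s') := by
  have hsN := S_mem_N hs
  have hs'N := S_mem_N hs'
  unfold Pl at h2
  push Not at h2
  obtain ⟨b, hb, hnb⟩ := h2
  have hA : InDC P (n * s') (s * b * (n * s')) := by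
    rcases P.mul_mem_union s hs (n * s') (P.N.mul_mem hn hs'N) b hb with h | h
    · exact absurd ((inDC_iff P _ _).2 h) hnb
    · exact (inDC_iff P _ _).2 h
  have hB := h1 b hb
  have e1 : s * (n * s') = s * n * s' := by group
  have e2 : s * b * (n * s') = s * b * n * s' := by group
  rcases axiom_right hs' (P.N.mul_mem hsN hn) hB with h | h
  · exfalso
    apply hnb
    rw [e1, e2]
    exact h
  · rw [e2] at hA
    exact dc_unique (P.N.mul_mem hsN hn) (P.N.mul_mem hn hs'N) (inDC_trans h (inDC_symm hA))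

/-- The exchange condition. -/
theorem exchange {s : G} (hs : s ∈ P.S) : ∀ l : List G, (∀ x ∈ l, x ∈ P.S) → ¬ Pl P s l.prod →
    ∃ l₁ x l₂, l = l₁ ++ x :: l₂ ∧ Eqv P (s * l₁.prod) (l₁.prod * x) := by
  intro l
  induction l using List.reverseRecOn with
  | nil =>
    intro _ h
    exfalso
    apply h
    rw [List.prod_nil]
    exact pl_one s
  | append_singleton l x ih =>
    intro hl h
    have hl' : ∀ y ∈ l, y ∈ P.S := fun y hy => hl y (List.mem_append_left _ hy)
    have hx : x ∈ P.S := hl x (by simp)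
    by_cases hp : Pl P s l.prod
    · refine ⟨l, x, [], rfl, ?_⟩
      rw [List.prod_append, List.prod_singleton] at h
      exact eqv_of_pl_of_not_pl hs hx (list_prod_mem_N hl') hp h
    · obtain ⟨l₁, y, l₂, e, he⟩ := ih hl' hp
      refine ⟨l₁, y, l₂ ++ [x], ?_, he⟩
      rw [e]
      simp

theorem exchange_eqv {s x : G} {l₁ l₂ : List G} (hs : s ∈ P.S) (hx : x ∈ P.S)
    (h1 : ∀ y ∈ l₁, y ∈ P.S) (h2 : ∀ y ∈ l₂, y ∈ P.S)
    (he : Eqv P (s * l₁.prod) (l₁.prod * x)) :
    Eqv P (l₁ ++ l₂).prod (s * (l₁ ++ x :: l₂).prod) := by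
  have hsN := S_mem_N hs
  have hxN := S_mem_N hx
  have ha := list_prod_mem_N h1
  have hc := list_prod_mem_N h2
  have e1 : Eqv P (s * l₁.prod * x) (l₁.prod * x * x) :=
    eqv_mul_right hxN (P.N.mul_mem hsN ha) (P.N.mul_mem ha hxN) he
  have e2 : Eqv P (s * l₁.prod * x) l₁.prod := eqv_trans e1 (eqv_mul_sq hx)
  have e3 : Eqv P (s * l₁.prod * x * l₂.prod) (l₁.prod * l₂.prod) :=
    eqv_mul_right hc (P.N.mul_mem (P.N.mul_mem hsN ha) hxN) ha e2
  rw [List.prod_append, List.prod_append, List.prod_cons]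
  have e4 : s * (l₁.prod * (x * l₂.prod)) = s * l₁.prod * x * l₂.prod := by group
  rw [e4]
  exact eqv_symm e3

theorem len_lt_of_not_pl {s n : G} (hs : s ∈ P.S) (hn : n ∈ P.N) (h : ¬ Pl P s n) :
    len P (s * n) < len P n := by
  obtain ⟨l, hl, hlen⟩ := exists_rep_len hn
  have h' : ¬ Pl P s l.prod := fun hp => h (pl_congr hl.2 hp)
  obtain ⟨l₁, x, l₂, e, he⟩ := exchange hs l hl.1 h'
  subst e
  have h1 : ∀ y ∈ l₁, y ∈ P.S := fun y hy => hl.1 y (by simp [hy])
  have h2 : ∀ y ∈ l₂, y ∈ P.S := fun y hy => hl.1 y (by simp [hy])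
  have hx : x ∈ P.S := hl.1 x (by simp)
  have hrep : Rep P (l₁ ++ l₂) (s * n) := by
    refine ⟨?_, eqv_trans (exchange_eqv hs hx h1 h2 he) (eqv_mul_left s hl.2)⟩
    intro y hy
    rcases List.mem_append.1 hy with h | h
    · exact h1 y h
    · exact h2 y h
  have h3 := len_le hrep
  simp only [List.length_append, List.length_cons] at hlen h3
  omega

theorem len_lt_of_pl {s n : G} (hs : s ∈ P.S) (hn : n ∈ P.N) (h : Pl P s n) :
    len P n < len P (s * n) := by
  have hsn : s * n ∈ P.N := P.N.mul_mem (S_mem_N hs) hn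
  have h' : ¬ Pl P s (s * n) := fun hp => not_pl_both hs hn h hp
  have h3 := len_lt_of_not_pl hs hsn h'
  rwa [len_congr (eqv_sq_mul hs hn)] at h3

theorem len_mul_of_pl {s n : G} (hs : s ∈ P.S) (hn : n ∈ P.N) (h : Pl P s n) :
    len P (s * n) = len P n + 1 := by
  have h1 := len_lt_of_pl hs hn h
  have h2 := len_mul_le (P := P) hs hn
  omega

theorem len_mul_of_not_pl {s n : G} (hs : s ∈ P.S) (hn : n ∈ P.N) (h : ¬ Pl P s n) :
    len P (s * n) + 1 = len P n := by
  have h1 := len_lt_of_not_pl hs hn h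
  have h2 := len_le_mul (P := P) hs hn
  omega

theorem pl_iff_len {s n : G} (hs : s ∈ P.S) (hn : n ∈ P.N) :
    Pl P s n ↔ len P n < len P (s * n) := by
  constructor
  · exact len_lt_of_pl hs hn
  · intro h
    by_contra hp
    have h1 := len_lt_of_not_pl hs hn hp
    omega

/-- The deletion condition: every word has a reduced subword with the same class. -/
theorem deletion : ∀ l : List G, (∀ x ∈ l, x ∈ P.S) →
    ∃ l' : List G, l'.Sublist l ∧ Eqv P l'.prod l.prod ∧ l'.length = len P l.prod := by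
  intro l
  induction l with
  | nil =>
    intro _
    refine ⟨[], List.Sublist.refl _, eqv_refl _, ?_⟩
    symm
    rw [List.length_nil, len_eq_zero_iff (by rw [List.prod_nil]; exact P.N.one_mem),
      List.prod_nil]
    exact P.B.one_mem
  | cons s l₀ ih =>
    intro hl
    have hs : s ∈ P.S := hl s List.mem_cons_self
    have hl₀ : ∀ x ∈ l₀, x ∈ P.S := fun x hx => hl x (List.mem_cons_of_mem _ hx)
    obtain ⟨l₀', hsub, heq, hlen⟩ := ih hl₀
    have hl₀' : ∀ x ∈ l₀', x ∈ P.S := fun x hx => hl₀ x (hsub.subset hx)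
    have hN₀ := list_prod_mem_N hl₀
    rw [List.prod_cons]
    by_cases hp : Pl P s l₀.prod
    · refine ⟨s :: l₀', hsub.cons_cons s, ?_, ?_⟩
      · rw [List.prod_cons]
        exact eqv_mul_left s heq
      · rw [List.length_cons, hlen, len_mul_of_pl hs hN₀ hp]
    · have hp' : ¬ Pl P s l₀'.prod := fun h => hp (pl_congr heq h)
      obtain ⟨l₁, x, l₂, e, he⟩ := exchange hs l₀' hl₀' hp'
      subst e
      have h1 : ∀ y ∈ l₁, y ∈ P.S := fun y hy => hl₀' y (by simp [hy])
      have h2 : ∀ y ∈ l₂, y ∈ P.S := fun y hy => hl₀' y (by simp [hy])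
      have hx : x ∈ P.S := hl₀' x (by simp)
      refine ⟨l₁ ++ l₂, ?_, ?_, ?_⟩
      · exact (((List.sublist_cons_self x l₂).append_left l₁).trans hsub).trans
          (List.sublist_cons_self s l₀)
      · exact eqv_trans (exchange_eqv hs hx h1 h2 he) (eqv_mul_left s heq)
      · have h3 := len_mul_of_not_pl hs hN₀ hp
        simp only [List.length_append, List.length_cons] at hlen ⊢
        omega

end Cfsg.Agent.Helper8.BN
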