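import Cfsg.Agent.Helper8.BNBasic

set_option autoImplicit false

namespace Cfsg.Agent.Helper8.BN

open Cfsg

variable {G : Type*} [Group G]

/-- `n` and `n'` have the same class modulo `B` (on `N`: modulo `B ⊓ N`). -/
def Eqv (P : BNPair G) (n n' : G) : Prop := n⁻¹ * n' ∈ P.B

variable {P : BNPair G}

theorem eqv_refl (n : G) : Eqv P n n := by
  show n⁻¹ * n ∈ P.B
  rw [inv_mul_cancel]
  exact P.B.one_mem

theorem eqv_symm {n n' : G} (h : Eqv P n n') : Eqv P n' n := by
  have e : n'⁻¹ * n = (n⁻¹ * n')⁻¹ := by group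
  show n'⁻¹ * n ∈ P.B
  rw [e]
  exact P.B.inv_mem h

theorem eqv_trans {a b c : G} (h1 : Eqv P a b) (h2 : Eqv P b c) : Eqv P a c := by
  have e : a⁻¹ * c = (a⁻¹ * b) * (b⁻¹ * c) := by group
  show a⁻¹ * c ∈ P.B
  rw [e]
  exact P.B.mul_mem h1 h2

theorem eqv_mul_left (m : G) {n n' : G} (h : Eqv P n n') : Eqv P (m * n) (m * n') := by
  have e : (m * n)⁻¹ * (m * n') = n⁻¹ * n' := by group
  show (m * n)⁻¹ * (m * n') ∈ P.B
  rw [e]
  exact h

theorem eqv_mul_right {m n n' : G} (hm : m ∈ P.N) (hn : n ∈ P.N) (hn' : n' ∈ P.N)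
    (h : Eqv P n n') : Eqv P (n * m) (n' * m) := by
  have e : (n * m)⁻¹ * (n' * m) = m⁻¹ * (n⁻¹ * n') * m := by group
  show (n * m)⁻¹ * (n' * m) ∈ P.B
  rw [e]
  exact T_conj' hm h (P.N.mul_mem (P.N.inv_mem hn) hn')

theorem eqv_inv {n n' : G} (hn : n ∈ P.N) (hn' : n' ∈ P.N) (h : Eqv P n n') :
    Eqv P n⁻¹ n'⁻¹ := by
  have e : (n⁻¹)⁻¹ * n'⁻¹ = n' * (n⁻¹ * n')⁻¹ * n'⁻¹ := by group
  show (n⁻¹)⁻¹ * n'⁻¹ ∈ P.B
  rw [e]
  exact T_conj hn' (P.B.inv_mem h) (P.N.inv_mem (P.N.mul_mem (P.N.inv_mem hn) hn'))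

theorem eqv_mul {a a' b b' : G} (ha : a ∈ P.N) (ha' : a' ∈ P.N) (hb : b ∈ P.N)
    (h1 : Eqv P a a') (h2 : Eqv P b b') : Eqv P (a * b) (a' * b') :=
  eqv_trans (eqv_mul_right hb ha ha' h1) (eqv_mul_left a' h2)

theorem inDC_of_eqv {n n' : G} (h : Eqv P n n') : InDC P n n' :=
  ⟨1, P.B.one_mem, n⁻¹ * n', h, by group⟩

theorem eqv_inv_self {s : G} (hs : s ∈ P.S) : Eqv P s⁻¹ s := by
  show (s⁻¹)⁻¹ * s ∈ P.B
  rw [inv_inv]
  exact P.sq_mem s hs

theorem eqv_sq_mul {s n : G} (hs : s ∈ P.S) (hn : n ∈ P.N) : Eqv P (s * (s * n)) n := by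
  have e : (s * (s * n))⁻¹ * n = n⁻¹ * (s * s)⁻¹ * n := by group
  show (s * (s * n))⁻¹ * n ∈ P.B
  rw [e]
  exact T_conj' hn (sq_inv_mem hs) (P.N.inv_mem (P.N.mul_mem (S_mem_N hs) (S_mem_N hs)))

theorem eqv_mul_sq {s n : G} (hs : s ∈ P.S) : Eqv P (n * s * s) n := by
  have e : (n * s * s)⁻¹ * n = (s * s)⁻¹ := by group
  show (n * s * s)⁻¹ * n ∈ P.B
  rw [e]
  exact sq_inv_mem hs

theorem mem_B_of_eqv {n n' : G} (h : Eqv P n n') (hn : n ∈ P.B) : n' ∈ P.B := by
  have e : n' = n * (n⁻¹ * n') := by group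
  rw [e]
  exact P.B.mul_mem hn h

/-! ### Words in the distinguished generators -/

theorem list_prod_mem_N {l : List G} (hl : ∀ x ∈ l, x ∈ P.S) : l.prod ∈ P.N :=
  P.N.list_prod_mem (fun x hx => P.subset (hl x hx))

theorem closure_le_N {K : Set G} (hK : K ⊆ P.S) : Subgroup.closure K ≤ P.N :=
  (Subgroup.closure_le _).2 (fun _ hx => P.subset (hK hx))

theorem closure_sup_le_N {K : Set G} (hK : K ⊆ P.S) :
    Subgroup.closure K ⊔ (P.B ⊓ P.N) ≤ P.N :=
  sup_le (closure_le_N hK) inf_le_right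

theorem exists_word_of_mem_closure_sup {K : Set G} (hK : K ⊆ P.S) {n : G}
    (hn : n ∈ Subgroup.closure K ⊔ (P.B ⊓ P.N)) :
    ∃ l : List G, (∀ x ∈ l, x ∈ K) ∧ Eqv P l.prod n := by
  have key : ∀ n ∈ Subgroup.closure K ⊔ (P.B ⊓ P.N),
      n ∈ P.N ∧ ∃ l : List G, (∀ x ∈ l, x ∈ K) ∧ Eqv P l.prod n := by
    intro n hn
    have e : Subgroup.closure K ⊔ (P.B ⊓ P.N)
        = Subgroup.closure (K ∪ ((P.B ⊓ P.N : Subgroup G) : Set G)) := by
      rw [Subgroup.closure_union, Subgroup.closure_eq]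
    rw [e] at hn
    induction hn using Subgroup.closure_induction'' with
    | mem x hx =>
      rcases hx with hx | hx
      · refine ⟨P.subset (hK hx), [x], ?_, ?_⟩
        · intro y hy
          rw [List.mem_singleton] at hy
          rw [hy]
          exact hx
        · rw [List.prod_singleton]
          exact eqv_refl x
      · refine ⟨hx.2, [], by simp, ?_⟩
        show ([] : List G).prod⁻¹ * x ∈ P.B
        rw [List.prod_nil, inv_one, one_mul]
        exact hx.1
    | inv_mem x hx =>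
      rcases hx with hx | hx
      · refine ⟨P.N.inv_mem (P.subset (hK hx)), [x], ?_, ?_⟩
        · intro y hy
          rw [List.mem_singleton] at hy
          rw [hy]
          exact hx
        · rw [List.prod_singleton]
          show x⁻¹ * x⁻¹ ∈ P.B
          have e2 : x⁻¹ * x⁻¹ = (x * x)⁻¹ := by group
          rw [e2]
          exact sq_inv_mem (hK hx)
      · refine ⟨P.N.inv_mem hx.2, [], by simp, ?_⟩
        show ([] : List G).prod⁻¹ * x⁻¹ ∈ P.B
        rw [List.prod_nil, inv_one, one_mul]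
        exact P.B.inv_mem hx.1
    | one =>
      refine ⟨P.N.one_mem, [], by simp, ?_⟩
      rw [List.prod_nil]
      exact eqv_refl 1
    | mul x y _ _ ihx ihy =>
      obtain ⟨hxN, l₁, hl₁, h₁⟩ := ihx
      obtain ⟨hyN, l₂, hl₂, h₂⟩ := ihy
      refine ⟨P.N.mul_mem hxN hyN, l₁ ++ l₂, ?_, ?_⟩
      · intro z hz
        rcases List.mem_append.1 hz with hz | hz
        · exact hl₁ z hz
        · exact hl₂ z hz
      · rw [List.prod_append]
        exact eqv_mul (list_prod_mem_N (fun z hz => hK (hl₁ z hz))) hxN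
          (list_prod_mem_N (fun z hz => hK (hl₂ z hz))) h₁ h₂
  exact (key n hn).2

/-- `l` is a word in the distinguished generators representing the class of `n`. -/
def Rep (P : BNPair G) (l : List G) (n : G) : Prop := (∀ x ∈ l, x ∈ P.S) ∧ Eqv P l.prod n

/-- The length of (the class of) `n`. -/
noncomputable def len (P : BNPair G) (n : G) : ℕ :=
  sInf {k | ∃ l : List G, Rep P l n ∧ l.length = k}

theorem exists_rep {n : G} (hn : n ∈ P.N) : ∃ l, Rep P l n := by
  have h : n ∈ Subgroup.closure P.S ⊔ (P.B ⊓ P.N) := by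
    rw [P.closure_sup]
    exact hn
  exact exists_word_of_mem_closure_sup (fun _ hx => hx) h

theorem exists_rep_len {n : G} (hn : n ∈ P.N) : ∃ l, Rep P l n ∧ l.length = len P n := by
  obtain ⟨l, hl⟩ := exists_rep hn
  exact Nat.sInf_mem (s := {k | ∃ l : List G, Rep P l n ∧ l.length = k}) ⟨l.length, l, hl, rfl⟩

theorem len_le {l : List G} {n : G} (h : Rep P l n) : len P n ≤ l.length :=
  Nat.sInf_le ⟨l, h, rfl⟩

theorem rep_congr {l : List G} {n n' : G} (h : Eqv P n n') (hl : Rep P l n) : Rep P l n' :=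
  ⟨hl.1, eqv_trans hl.2 h⟩

theorem len_congr {n n' : G} (h : Eqv P n n') : len P n = len P n' := by
  unfold len
  congr 1
  ext k
  constructor
  · rintro ⟨l, hl, rfl⟩
    exact ⟨l, rep_congr h hl, rfl⟩
  · rintro ⟨l, hl, rfl⟩
    exact ⟨l, rep_congr (eqv_symm h) hl, rfl⟩

theorem rep_self {l : List G} (hl : ∀ x ∈ l, x ∈ P.S) : Rep P l l.prod := ⟨hl, eqv_refl _⟩

theorem len_prod_le {l : List G} (hl : ∀ x ∈ l, x ∈ P.S) : len P l.prod ≤ l.length :=
  len_le (rep_self hl)

theorem len_eq_zero_iff {n : G} (hn : n ∈ P.N) : len P n = 0 ↔ n ∈ P.B := by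
  constructor
  · intro h
    obtain ⟨l, hl, hlen⟩ := exists_rep_len hn
    rw [h] at hlen
    have hl0 : l = [] := List.length_eq_zero_iff.1 hlen
    subst hl0
    have h2 : ([] : List G).prod⁻¹ * n ∈ P.B := hl.2
    rwa [List.prod_nil, inv_one, one_mul] at h2
  · intro h
    have hr : Rep P [] n := by
      refine ⟨by simp, ?_⟩
      show ([] : List G).prod⁻¹ * n ∈ P.B
      rwa [List.prod_nil, inv_one, one_mul]
    have h2 := len_le hr
    simpa using h2

theorem rep_cons {s : G} {l : List G} {n : G} (hs : s ∈ P.S) (h : Rep P l n) :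
    Rep P (s :: l) (s * n) := by
  refine ⟨?_, ?_⟩
  · intro x hx
    rcases List.mem_cons.1 hx with rfl | hx
    · exact hs
    · exact h.1 x hx
  · rw [List.prod_cons]
    exact eqv_mul_left s h.2

theorem len_mul_le {s n : G} (hs : s ∈ P.S) (hn : n ∈ P.N) : len P (s * n) ≤ len P n + 1 := by
  obtain ⟨l, hl, hlen⟩ := exists_rep_len hn
  have h := len_le (rep_cons hs hl)
  rw [List.length_cons, hlen] at h
  exact h

theorem len_le_mul {s n : G} (hs : s ∈ P.S) (hn : n ∈ P.N) : len P n ≤ len P (s * n) + 1 := by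
  have h := len_mul_le (P := P) hs (P.N.mul_mem (S_mem_N hs) hn)
  rwa [len_congr (eqv_sq_mul hs hn)] at h

theorem len_S {s : G} (hs : s ∈ P.S) : len P s = 1 := by
  have h1 : len P s ≤ 1 := by
    have hr : Rep P [s] s := by
      refine ⟨?_, ?_⟩
      · intro y hy
        rw [List.mem_singleton] at hy
        rw [hy]
        exact hs
      · rw [List.prod_singleton]
        exact eqv_refl s
    simpa using len_le hr
  have h2 : len P s ≠ 0 := fun h => S_not_mem_B hs ((len_eq_zero_iff (S_mem_N hs)).1 h)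
  omega

/-! ### Uniqueness in the Bruhat decomposition -/

theorem dc_unique_aux : ∀ k : ℕ, ∀ n n' : G, n ∈ P.N → n' ∈ P.N → len P n = k →
    k ≤ len P n' → InDC P n n' → Eqv P n n' := by
  intro k
  induction k with
  | zero =>
    intro n n' hn _ hk _ h
    have hnB : n ∈ P.B := (len_eq_zero_iff hn).1 hk
    have hn'B : n' ∈ P.B := mem_B_of_inDC hnB h
    exact P.B.mul_mem (P.B.inv_mem hnB) hn'B
  | succ k ih =>
    intro n n' hn hn' hk hle h
    obtain ⟨l, hl, hlen⟩ := exists_rep_len hn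
    rw [hk] at hlen
    cases l with
    | nil => simp at hlen
    | cons s l' =>
      have hs : s ∈ P.S := hl.1 s List.mem_cons_self
      have hsN := S_mem_N hs
      have hn₁N : s⁻¹ * n ∈ P.N := P.N.mul_mem (P.N.inv_mem hsN) hn
      have hrep : Rep P l' (s⁻¹ * n) := by
        refine ⟨fun x hx => hl.1 x (List.mem_cons_of_mem _ hx), ?_⟩
        have h2 : (s :: l').prod⁻¹ * n ∈ P.B := hl.2
        have e : l'.prod⁻¹ * (s⁻¹ * n) = (s :: l').prod⁻¹ * n := by
          rw [List.prod_cons]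
          group
        show l'.prod⁻¹ * (s⁻¹ * n) ∈ P.B
        rw [e]
        exact h2
      have e3 : s * (s⁻¹ * n) = n := by group
      have hlen₁ : len P (s⁻¹ * n) = k := by
        have h1 : len P (s⁻¹ * n) ≤ k := by
          have h3 := len_le hrep
          rw [List.length_cons] at hlen
          omega
        have h2 : len P n ≤ len P (s⁻¹ * n) + 1 := by
          have h3 := len_mul_le (P := P) hs hn₁N
          rwa [e3] at h3
        omega
      rcases axiom_left_inv hs hn' (inDC_symm h) with h2 | h2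
      · have hle2 : k ≤ len P (s * n') := by
          have h3 := len_le_mul (P := P) hs hn'
          omega
        have e1 := ih (s⁻¹ * n) (s * n') hn₁N (P.N.mul_mem hsN hn') hlen₁ hle2 (inDC_symm h2)
        have e2 : Eqv P (s * (s⁻¹ * n)) (s * (s * n')) := eqv_mul_left s e1
        rw [e3] at e2
        exact eqv_trans e2 (eqv_sq_mul hs hn')
      · have e1 := ih (s⁻¹ * n) n' hn₁N hn' hlen₁ (by omega) (inDC_symm h2)
        have h3 := len_congr e1
        omega

theorem dc_unique {n n' : G} (hn : n ∈ P.N) (hn' : n' ∈ P.N) (h : InDC P n n') :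
    Eqv P n n' := by
  rcases le_total (len P n) (len P n') with hle | hle
  · exact dc_unique_aux _ n n' hn hn' rfl hle h
  · exact eqv_symm (dc_unique_aux _ n' n hn' hn rfl hle (inDC_symm h))

end Cfsg.Agent.Helper8.BN
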