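import Cfsg.Agent.Helper8.BNParabolic

set_option autoImplicit false

namespace Cfsg.Agent.Helper8.BN

open Cfsg

variable {G : Type*} [Group G] {P : BNPair G}

/-- If `g B g⁻¹ ⊆ M` and `B ≤ M` then `g ∈ M`. -/
theorem mem_of_conj_B_le {M : Subgroup G} (hM : P.B ≤ M) {g : G}
    (h : ∀ x ∈ P.B, g * x * g⁻¹ ∈ M) : g ∈ M := by
  obtain ⟨n, hn, b, hb, b', hb', rfl⟩ := bruhat (P := P) g
  have hnM : n ∈ M := by
    apply mem_of_conj_le hn hM
    intro c hc
    have e : n * c * n⁻¹ = b⁻¹ * ((b * n * b') * (b'⁻¹ * c * b') * (b * n * b')⁻¹) * b := by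
      group
    rw [e]
    exact M.mul_mem (M.mul_mem (M.inv_mem (hM hb))
      (h _ (P.B.mul_mem (P.B.mul_mem (P.B.inv_mem hb') hc) hb'))) (hM hb)
  exact M.mul_mem (M.mul_mem (hM hb) hnM) (hM hb')

theorem word_singleton_cases {s : G} (hs : s ∈ P.S) : ∀ l : List G, (∀ x ∈ l, x ∈ ({s} : Set G)) →
    l.prod ∈ P.B ∨ Eqv P s l.prod := by
  intro l
  induction l with
  | nil =>
    intro _
    left
    rw [List.prod_nil]
    exact P.B.one_mem
  | cons x l' ih =>
    intro hl
    have hx : x = s := hl x List.mem_cons_self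
    subst hx
    rw [List.prod_cons]
    rcases ih (fun y hy => hl y (List.mem_cons_of_mem _ hy)) with h | h
    · right
      show x⁻¹ * (x * l'.prod) ∈ P.B
      rw [inv_mul_cancel_left]
      exact h
    · left
      have e : x * l'.prod = (x * x) * (x⁻¹ * l'.prod) := by group
      rw [e]
      exact P.B.mul_mem (P.sq_mem x hs) h

theorem closure_singleton_cases {s : G} (hs : s ∈ P.S) {m : G}
    (hm : m ∈ Subgroup.closure ({s} : Set G)) : m ∈ P.B ∨ Eqv P s m := by
  have hsub : ({s} : Set G) ⊆ P.S := by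
    intro x hx
    rw [Set.mem_singleton_iff] at hx
    rw [hx]
    exact hs
  obtain ⟨l, hl, hlm⟩ := exists_word_of_mem_closure_sup hsub
    (Subgroup.mem_sup_left hm : m ∈ Subgroup.closure ({s} : Set G) ⊔ (P.B ⊓ P.N))
  rcases word_singleton_cases hs l hl with h | h
  · left
    exact mem_B_of_eqv hlm h
  · right
    exact eqv_trans h hlm

theorem mem_parabolic_singleton {s : G} (hs : s ∈ P.S) {g : G} :
    g ∈ P.parabolic {s} ↔ g ∈ P.B ∨ InDC P s g := by
  have hsub : ({s} : Set G) ⊆ P.S := by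
    intro x hx
    rw [Set.mem_singleton_iff] at hx
    rw [hx]
    exact hs
  constructor
  · intro hg
    obtain ⟨m, hm, hmg⟩ := (mem_parabolic_iff hsub g).1 hg
    rcases closure_singleton_cases hs hm with h | h
    · left
      exact mem_B_of_inDC h hmg
    · right
      exact inDC_congr' h hmg
  · rintro (h | ⟨b, hb, b', hb', rfl⟩)
    · exact B_le_parabolic _ h
    · exact Subgroup.mul_mem _ (Subgroup.mul_mem _ (B_le_parabolic _ hb)
        (subset_parabolic {s} rfl)) (B_le_parabolic _ hb')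

theorem axiom_right_inv {s n g : G} (hs : s ∈ P.S) (hn : n ∈ P.N) (hg : InDC P n g) :
    InDC P (n * s) (g * s⁻¹) ∨ InDC P n (g * s⁻¹) := by
  have e : g * s⁻¹ = g * (s * s)⁻¹ * s := by group
  rw [e]
  exact axiom_right hs hn (inDC_mul_right (sq_inv_mem hs) hg)

end Cfsg.Agent.Helper8.BN
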