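import Cfsg.Agent.Helper8.BNExchange

set_option autoImplicit false

namespace Cfsg.Agent.Helper8.BN

open Cfsg

variable {G : Type*} [Group G] {P : BNPair G}

theorem B_le_parabolic (J : Set G) : P.B ≤ P.parabolic J := le_sup_left

theorem subset_parabolic (J : Set G) : J ⊆ (P.parabolic J : Set G) :=
  fun _ hx => Subgroup.mem_sup_right (Subgroup.subset_closure hx)

theorem closure_le_parabolic (J : Set G) : Subgroup.closure J ≤ P.parabolic J := le_sup_right

theorem parabolic_mono {J K : Set G} (h : J ⊆ K) : P.parabolic J ≤ P.parabolic K :=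
  sup_le_sup_left (Subgroup.closure_mono h) _

theorem parabolic_empty : P.parabolic ∅ = P.B := by
  unfold BNPair.parabolic
  rw [Subgroup.closure_empty, sup_bot_eq]

theorem mem_parabolic_iff {J : Set G} (hJ : J ⊆ P.S) (g : G) :
    g ∈ P.parabolic J ↔ ∃ n ∈ Subgroup.closure J, InDC P n g := by
  constructor
  · intro hg
    have key : ∀ g ∈ P.parabolic J, ∀ x, (∃ n ∈ Subgroup.closure J, InDC P n x) →
        ∃ n ∈ Subgroup.closure J, InDC P n (g * x) := by
      intro g hg
      unfold BNPair.parabolic at hg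
      have e : P.B ⊔ Subgroup.closure J = Subgroup.closure ((P.B : Set G) ∪ J) := by
        rw [Subgroup.closure_union, Subgroup.closure_eq]
      rw [e] at hg
      induction hg using Subgroup.closure_induction'' with
      | mem y hy =>
        rintro x ⟨n, hn, hx⟩
        rcases hy with hy | hy
        · exact ⟨n, hn, inDC_mul_left hy hx⟩
        · rcases axiom_left (hJ hy) (closure_le_N hJ hn) hx with h | h
          · exact ⟨y * n, Subgroup.mul_mem _ (Subgroup.subset_closure hy) hn, h⟩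
          · exact ⟨n, hn, h⟩
      | inv_mem y hy =>
        rintro x ⟨n, hn, hx⟩
        rcases hy with hy | hy
        · exact ⟨n, hn, inDC_mul_left (P.B.inv_mem hy) hx⟩
        · rcases axiom_left_inv (hJ hy) (closure_le_N hJ hn) hx with h | h
          · exact ⟨y * n, Subgroup.mul_mem _ (Subgroup.subset_closure hy) hn, h⟩
          · exact ⟨n, hn, h⟩
      | one =>
        intro x hx
        rw [one_mul]
        exact hx
      | mul a b _ _ iha ihb =>
        intro x hx
        rw [mul_assoc]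
        exact iha _ (ihb x hx)
    have h := key g hg 1 ⟨1, Subgroup.one_mem _, inDC_refl 1⟩
    rwa [mul_one] at h
  · rintro ⟨n, hn, b, hb, b', hb', rfl⟩
    exact Subgroup.mul_mem _ (Subgroup.mul_mem _ (Subgroup.mem_sup_left hb)
      (Subgroup.mem_sup_right hn)) (Subgroup.mem_sup_left hb')

theorem parabolic_S : P.parabolic P.S = ⊤ := by
  unfold BNPair.parabolic
  have h1 : P.N ≤ P.B ⊔ Subgroup.closure P.S := by
    intro n hn
    have h2 : n ∈ Subgroup.closure P.S ⊔ (P.B ⊓ P.N) := by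
      rw [P.closure_sup]
      exact hn
    have h3 : Subgroup.closure P.S ⊔ (P.B ⊓ P.N) ≤ P.B ⊔ Subgroup.closure P.S :=
      sup_le le_sup_right (inf_le_left.trans le_sup_left)
    exact h3 h2
  rw [eq_top_iff, ← P.sup_eq_top]
  exact sup_le le_sup_left h1

/-- The Bruhat decomposition. -/
theorem bruhat (g : G) : ∃ n ∈ P.N, InDC P n g := by
  have hg : g ∈ P.parabolic P.S := by
    rw [parabolic_S]
    trivial
  obtain ⟨n, hn, h⟩ := (mem_parabolic_iff (fun _ h => h) g).1 hg
  exact ⟨n, closure_le_N (fun _ h => h) hn, h⟩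

theorem exists_word_of_mem_parabolic {J : Set G} (hJ : J ⊆ P.S) {n : G} (hn : n ∈ P.N)
    (h : n ∈ P.parabolic J) : ∃ l : List G, (∀ x ∈ l, x ∈ J) ∧ Eqv P l.prod n := by
  obtain ⟨m, hm, hmn⟩ := (mem_parabolic_iff hJ n).1 h
  have hmN := closure_le_N hJ hm
  have e := dc_unique hmN hn hmn
  obtain ⟨l, hl, hlm⟩ := exists_word_of_mem_closure_sup hJ
    (Subgroup.mem_sup_left hm : m ∈ Subgroup.closure J ⊔ (P.B ⊓ P.N))
  exact ⟨l, hl, eqv_trans hlm e⟩

theorem exists_reduced_word_of_mem_parabolic {J : Set G} (hJ : J ⊆ P.S) {n : G}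
    (hn : n ∈ P.N) (h : n ∈ P.parabolic J) :
    ∃ l : List G, (∀ x ∈ l, x ∈ J) ∧ Eqv P l.prod n ∧ l.length = len P n := by
  obtain ⟨l, hl, hln⟩ := exists_word_of_mem_parabolic hJ hn h
  obtain ⟨l', hsub, heq, hlen⟩ := deletion l (fun x hx => hJ (hl x hx))
  exact ⟨l', fun x hx => hl x (hsub.subset hx), eqv_trans heq hln, by rw [hlen, len_congr hln]⟩

/-- `S ∩ P_J = J`. -/
theorem mem_of_mem_parabolic {J : Set G} (hJ : J ⊆ P.S) {s : G} (hs : s ∈ P.S)
    (h : s ∈ P.parabolic J) : s ∈ J := by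
  obtain ⟨l, hl, hls, hlen⟩ := exists_reduced_word_of_mem_parabolic hJ (S_mem_N hs) h
  rw [len_S hs] at hlen
  obtain ⟨x, rfl⟩ := List.length_eq_one_iff.1 hlen
  have hx : x ∈ J := hl x (by simp)
  rw [List.prod_singleton] at hls
  have e := P.inj x (hJ hx) s hs hls
  rw [← e]
  exact hx

theorem parabolic_injective {J K : Set G} (hJ : J ⊆ P.S) (hK : K ⊆ P.S)
    (h : P.parabolic J ≤ P.parabolic K) : J ⊆ K :=
  fun s hs => mem_of_mem_parabolic hK (hJ hs) (h (subset_parabolic J hs))

/-- A descent: a generator `s` with `len (s n) < len n`. -/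
theorem exists_descent {n : G} (hn : n ∈ P.N) (h0 : len P n ≠ 0) :
    ∃ s ∈ P.S, ¬ Pl P s n ∧ len P (s * n) + 1 = len P n := by
  obtain ⟨l, hl, hlen⟩ := exists_rep_len hn
  cases l with
  | nil => exact absurd hlen.symm h0
  | cons s l' =>
    have hs : s ∈ P.S := hl.1 s List.mem_cons_self
    have hsN := S_mem_N hs
    have hrep : Rep P l' (s * n) := by
      refine ⟨fun x hx => hl.1 x (List.mem_cons_of_mem _ hx), ?_⟩
      have h2 : (s :: l').prod⁻¹ * n ∈ P.B := hl.2
      have e : l'.prod⁻¹ * (s * n) = ((s :: l').prod⁻¹ * n) * (n⁻¹ * (s * s) * n) := by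
        rw [List.prod_cons]
        group
      show l'.prod⁻¹ * (s * n) ∈ P.B
      rw [e]
      exact P.B.mul_mem h2 (T_conj' hn (P.sq_mem s hs) (P.N.mul_mem hsN hsN))
    have h1 := len_le hrep
    have h2 := len_le_mul (P := P) hs hn
    rw [List.length_cons] at hlen
    have h3 : len P (s * n) + 1 = len P n := by omega
    refine ⟨s, hs, ?_, h3⟩
    intro hp
    have h4 := len_lt_of_pl hs hn hp
    omega

theorem mem_of_not_pl {M : Subgroup G} (hM : P.B ≤ M) {s n : G} (hs : s ∈ P.S)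
    (hn : n ∈ P.N) (hnM : n ∈ M) (h : ¬ Pl P s n) : s ∈ M := by
  obtain ⟨b, hb, b₁, hb₁, b₂, hb₂, e⟩ := exists_of_not_pl hs hn h
  have e2 : s = b₁ * n * b₂ * n⁻¹ * b⁻¹ := by
    have e3 : s = (s * b * n) * n⁻¹ * b⁻¹ := by group
    rw [e3, e]
  rw [e2]
  exact M.mul_mem (M.mul_mem (M.mul_mem (M.mul_mem (hM hb₁) hnM) (hM hb₂)) (M.inv_mem hnM))
    (M.inv_mem (hM hb))

theorem mem_parabolic_of_mem_N {M : Subgroup G} (hM : P.B ≤ M) : ∀ k : ℕ, ∀ n ∈ P.N,
    n ∈ M → len P n ≤ k → n ∈ P.parabolic (P.S ∩ M) := by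
  intro k
  induction k with
  | zero =>
    intro n hn _ hk
    exact Subgroup.mem_sup_left ((len_eq_zero_iff hn).1 (by omega))
  | succ k ih =>
    intro n hn hnM hk
    by_cases h0 : len P n = 0
    · exact Subgroup.mem_sup_left ((len_eq_zero_iff hn).1 h0)
    obtain ⟨s, hs, hnp, hlen⟩ := exists_descent hn h0
    have hsM : s ∈ M := mem_of_not_pl hM hs hn hnM hnp
    have h1 : s * n ∈ P.parabolic (P.S ∩ M) :=
      ih (s * n) (P.N.mul_mem (S_mem_N hs) hn) (M.mul_mem hsM hnM) (by omega)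
    have h2 : s ∈ P.parabolic (P.S ∩ M) := subset_parabolic _ ⟨hs, hsM⟩
    have e : n = s⁻¹ * (s * n) := by group
    rw [e]
    exact Subgroup.mul_mem _ (Subgroup.inv_mem _ h2) h1

/-- Every subgroup containing `B` is a standard parabolic. -/
theorem eq_parabolic_of_le {M : Subgroup G} (hM : P.B ≤ M) :
    M = P.parabolic (P.S ∩ M) := by
  apply le_antisymm
  · intro g hg
    obtain ⟨n, hn, b, hb, b', hb', rfl⟩ := bruhat (P := P) g
    have hnM : n ∈ M := by
      have e : n = b⁻¹ * (b * n * b') * b'⁻¹ := by group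
      rw [e]
      exact M.mul_mem (M.mul_mem (M.inv_mem (hM hb)) hg) (M.inv_mem (hM hb'))
    have h := mem_parabolic_of_mem_N hM _ n hn hnM le_rfl
    exact Subgroup.mul_mem _ (Subgroup.mul_mem _ (Subgroup.mem_sup_left hb) h)
      (Subgroup.mem_sup_left hb')
  · exact sup_le hM ((Subgroup.closure_le _).2 (fun x hx => hx.2))

theorem mem_of_conj_mem : ∀ k : ℕ, ∀ n ∈ P.N, len P n ≤ k → ∀ M : Subgroup G, P.B ≤ M →
    (∀ b ∈ P.B, n * b * n⁻¹ ∈ M) → n ∈ M := by
  intro k
  induction k with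
  | zero =>
    intro n hn hk M hM _
    exact hM ((len_eq_zero_iff hn).1 (by omega))
  | succ k ih =>
    intro n hn hk M hM hconj
    by_cases h0 : len P n = 0
    · exact hM ((len_eq_zero_iff hn).1 h0)
    obtain ⟨s, hs, hnp, hlen⟩ := exists_descent hn h0
    obtain ⟨b, hb, b₁, hb₁, b₂, hb₂, e⟩ := exists_of_not_pl hs hn hnp
    have hsM : s ∈ M := by
      have e2 : s = b₁ * (n * b₂ * n⁻¹) * b⁻¹ := by
        have e3 : s = (s * b * n) * n⁻¹ * b⁻¹ := by group
        rw [e3, e]
        group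
      rw [e2]
      exact M.mul_mem (M.mul_mem (hM hb₁) (hconj b₂ hb₂)) (M.inv_mem (hM hb))
    have hsn : s * n ∈ M := by
      refine ih (s * n) (P.N.mul_mem (S_mem_N hs) hn) (by omega) M hM ?_
      intro b hb
      have e2 : s * n * b * (s * n)⁻¹ = s * (n * b * n⁻¹) * s⁻¹ := by group
      rw [e2]
      exact M.mul_mem (M.mul_mem hsM (hconj b hb)) (M.inv_mem hsM)
    have e : n = s⁻¹ * (s * n) := by group
    rw [e]
    exact M.mul_mem (M.inv_mem hsM) hsn

/-- If a subgroup `M` contains `B` and `n B n⁻¹` (`n ∈ N`), then it contains `n`. -/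
theorem mem_of_conj_le {n : G} (hn : n ∈ P.N) {M : Subgroup G} (hM : P.B ≤ M)
    (hconj : ∀ b ∈ P.B, n * b * n⁻¹ ∈ M) : n ∈ M :=
  mem_of_conj_mem _ n hn le_rfl M hM hconj

/-- All letters of a reduced word whose product lies in `P_J` lie in `J`. -/
theorem letters_mem_of_reduced {J : Set G} (hJ : J ⊆ P.S) : ∀ l : List G,
    (∀ x ∈ l, x ∈ P.S) → l.length = len P l.prod → l.prod ∈ P.parabolic J →
    ∀ y ∈ l, y ∈ J := by
  intro l
  induction l with
  | nil =>
    intro _ _ _ y hy
    simp at hy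
  | cons s l' ih =>
    intro hl hlen hmem
    have hs : s ∈ P.S := hl s List.mem_cons_self
    have hl' : ∀ x ∈ l', x ∈ P.S := fun x hx => hl x (List.mem_cons_of_mem _ hx)
    have hN' := list_prod_mem_N hl'
    rw [List.prod_cons] at hlen hmem
    rw [List.length_cons] at hlen
    have h1 := len_prod_le hl'
    have h2 := len_mul_le (P := P) hs hN'
    have hred : l'.length = len P l'.prod := by omega
    have hnp : ¬ Pl P s (s * l'.prod) := by
      intro hp
      have h3 := len_lt_of_pl hs (P.N.mul_mem (S_mem_N hs) hN') hp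
      rw [len_congr (eqv_sq_mul hs hN')] at h3
      omega
    have hsP : s ∈ P.parabolic J :=
      mem_of_not_pl (B_le_parabolic J) hs (P.N.mul_mem (S_mem_N hs) hN') hmem hnp
    have hsJ : s ∈ J := mem_of_mem_parabolic hJ hs hsP
    have hmem' : l'.prod ∈ P.parabolic J := by
      have e : l'.prod = s⁻¹ * (s * l'.prod) := by group
      rw [e]
      exact Subgroup.mul_mem _ (Subgroup.inv_mem _ hsP) hmem
    intro y hy
    rcases List.mem_cons.1 hy with rfl | hy
    · exact hsJ
    · exact ih hl' hred hmem' y hy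

end Cfsg.Agent.Helper8.BN
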