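import Cfsg.Agent.Helper8.BNMore

set_option autoImplicit false

namespace Cfsg.Agent.Helper8.BN

open Cfsg

variable {G : Type*} [Group G] {P : BNPair G}

/-- For distinct generators `s₁ ≠ s₂`, the word `s₁ s₂` is reduced. -/
theorem pl_of_ne {s₁ s₂ : G} (hs₁ : s₁ ∈ P.S) (hs₂ : s₂ ∈ P.S) (hne : s₁ ≠ s₂) :
    Pl P s₁ s₂ := by
  by_contra hp
  have h1 := len_mul_of_not_pl hs₁ (S_mem_N hs₂) hp
  rw [len_S hs₂] at h1
  have h0 : len P (s₁ * s₂) = 0 := by omega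
  have hB : s₁ * s₂ ∈ P.B :=
    (len_eq_zero_iff (P.N.mul_mem (S_mem_N hs₁) (S_mem_N hs₂))).1 h0
  apply hne
  apply P.inj s₁ hs₁ s₂ hs₂
  have e : s₁⁻¹ * s₂ = (s₁ * s₁)⁻¹ * (s₁ * s₂) := by group
  rw [e]
  exact P.B.mul_mem (sq_inv_mem hs₁) hB

/-- Key lemma for the simplicity criterion: if `H` is normal, `s₁ ∈ B H` and `s₂ ∉ B H`, then
`s₁` and `s₂` commute modulo `B`. -/
theorem comm_mem_of_normal {H : Subgroup G} (hH : H.Normal) {s₁ s₂ : G} (hs₁ : s₁ ∈ P.S)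
    (hs₂ : s₂ ∈ P.S) (h1 : s₁ ∈ P.B ⊔ H) (h2 : s₂ ∉ P.B ⊔ H) :
    s₁ * s₂ * s₁⁻¹ * s₂⁻¹ ∈ P.B := by
  have hBM : P.B ≤ P.B ⊔ H := le_sup_left
  have hne : s₁ ≠ s₂ := fun h => h2 (h ▸ h1)
  have hs₁N := S_mem_N hs₁
  have hs₂N := S_mem_N hs₂
  have hmem : s₁ ∈ ((P.B ⊔ H : Subgroup G) : Set G) := h1
  rw [Subgroup.mul_normal] at hmem
  obtain ⟨b, hb, h, hh, e⟩ := Set.mem_mul.1 hmem
  have hg : s₂ * h * s₂⁻¹ ∈ H := hH.conj_mem h hh s₂
  have hh' : h = b⁻¹ * s₁ := by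
    rw [← e]
    group
  have hp := pl_of_ne hs₂ hs₁ (Ne.symm hne) b⁻¹ (P.B.inv_mem hb)
  have e2 : s₂ * h * s₂⁻¹ = (s₂ * b⁻¹ * s₁) * s₂⁻¹ := by
    rw [hh']
    group
  rcases axiom_right_inv hs₂ (P.N.mul_mem hs₂N hs₁N) hp with h3 | h3
  · rw [← e2] at h3
    have hmemM : s₂ * s₁ * s₂ ∈ P.B ⊔ H := by
      obtain ⟨c, hc, c', hc', e3⟩ := h3
      have e4 : s₂ * s₁ * s₂ = c⁻¹ * (s₂ * h * s₂⁻¹) * c'⁻¹ := by
        rw [e3]
        group
      rw [e4]
      exact Subgroup.mul_mem _ (Subgroup.mul_mem _ (Subgroup.inv_mem _ (hBM hc))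
        (Subgroup.mem_sup_right hg)) (Subgroup.inv_mem _ (hBM hc'))
    have eM := eq_parabolic_of_le hBM
    have hl : ∀ x ∈ [s₂, s₁, s₂], x ∈ P.S := by
      intro x hx
      simp only [List.mem_cons, List.not_mem_nil, or_false] at hx
      rcases hx with rfl | rfl | rfl <;> assumption
    have hprod : [s₂, s₁, s₂].prod = s₂ * (s₁ * s₂) := by
      simp
    have hnotred : ([s₂, s₁, s₂] : List G).length ≠ len P [s₂, s₁, s₂].prod := by
      intro hred
      have hmem' : [s₂, s₁, s₂].prod ∈ P.parabolic (P.S ∩ ((P.B ⊔ H : Subgroup G) : Set G)) := by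
        rw [hprod, ← eM, ← mul_assoc]
        exact hmemM
      have h4 := letters_mem_of_reduced (P := P) (J := P.S ∩ ((P.B ⊔ H : Subgroup G) : Set G))
        Set.inter_subset_left _ hl hred hmem' s₂ (by simp)
      exact h2 h4.2
    have hlen2 : len P (s₁ * s₂) = 2 := by
      rw [len_mul_of_pl hs₁ hs₂N (pl_of_ne hs₁ hs₂ hne), len_S hs₂]
    have hnp : ¬ Pl P s₂ (s₁ * s₂) := by
      intro hp2
      have h5 := len_mul_of_pl hs₂ (P.N.mul_mem hs₁N hs₂N) hp2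
      apply hnotred
      rw [hprod, h5, hlen2]
      rfl
    have hl2 : ∀ x ∈ [s₁, s₂], x ∈ P.S := by
      intro x hx
      simp only [List.mem_cons, List.not_mem_nil, or_false] at hx
      rcases hx with rfl | rfl <;> assumption
    have hnp' : ¬ Pl P s₂ [s₁, s₂].prod := by
      have e5 : [s₁, s₂].prod = s₁ * s₂ := by simp
      rw [e5]
      exact hnp
    obtain ⟨l₁, x, l₂, el, he⟩ := exchange hs₂ [s₁, s₂] hl2 hnp'
    rcases l₁ with _ | ⟨a, l₁⟩
    · exfalso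
      simp only [List.nil_append, List.cons.injEq] at el
      obtain ⟨rfl, -⟩ := el
      rw [List.prod_nil, mul_one, one_mul] at he
      exact hne (P.inj s₂ hs₂ s₁ hs₁ he).symm
    · rcases l₁ with _ | ⟨a', l₁⟩
      · simp only [List.cons_append, List.nil_append, List.cons.injEq] at el
        obtain ⟨rfl, rfl, -⟩ := el
        rw [List.prod_singleton] at he
        have e6 : s₁ * s₂ * s₁⁻¹ * s₂⁻¹ = (s₁ * s₂) * ((s₂ * s₁)⁻¹ * (s₁ * s₂)) * (s₁ * s₂)⁻¹ := by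
          group
        rw [e6]
        exact T_conj (P.N.mul_mem hs₁N hs₂N) he
          (P.N.mul_mem (P.N.inv_mem (P.N.mul_mem hs₂N hs₁N)) (P.N.mul_mem hs₁N hs₂N))
      · exfalso
        have h6 := congrArg List.length el
        simp only [List.length_cons, List.length_nil, List.length_append] at h6
        omega
  · exfalso
    apply h2
    rw [← e2] at h3
    obtain ⟨c, hc, c', hc', e3⟩ := h3
    have e4 : s₂ = c⁻¹ * (s₂ * h * s₂⁻¹) * c'⁻¹ * s₁⁻¹ := by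
      rw [e3]
      group
    rw [e4]
    exact Subgroup.mul_mem _ (Subgroup.mul_mem _ (Subgroup.mul_mem _ (Subgroup.inv_mem _ (hBM hc))
      (Subgroup.mem_sup_right hg)) (Subgroup.inv_mem _ (hBM hc'))) (Subgroup.inv_mem _ h1)

/-- In an irreducible (B,N)-pair, a normal subgroup `H` lies in `B` or satisfies `B H = G`. -/
theorem normal_cases (hirr : P.Irreducible) {H : Subgroup G} (hH : H.Normal) :
    H ≤ P.B ∨ P.B ⊔ H = ⊤ := by
  have hBM : P.B ≤ P.B ⊔ H := le_sup_left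
  have eM := eq_parabolic_of_le hBM
  by_cases hX : (P.S ∩ ((P.B ⊔ H : Subgroup G) : Set G)).Nonempty
  · by_cases hY : (P.S \ (P.S ∩ ((P.B ⊔ H : Subgroup G) : Set G))).Nonempty
    · exfalso
      obtain ⟨s, hs, s', hs', hnot⟩ := hirr _ Set.inter_subset_left hX hY
      exact hnot (comm_mem_of_normal hH hs.1 hs'.1 hs.2 (fun h => hs'.2 ⟨hs'.1, h⟩))
    · right
      rw [Set.not_nonempty_iff_eq_empty, Set.diff_eq_empty] at hY
      have e : P.S ∩ ((P.B ⊔ H : Subgroup G) : Set G) = P.S :=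
        Set.Subset.antisymm Set.inter_subset_left hY
      rw [e, parabolic_S] at eM
      exact eM
  · left
    rw [Set.not_nonempty_iff_eq_empty] at hX
    rw [hX, parabolic_empty] at eM
    exact le_sup_right.trans (le_of_eq eM)

end Cfsg.Agent.Helper8.BN
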