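import Mathlib

set_option autoImplicit false

namespace Cfsg.Agent.Helper8.BinaryQuad

variable {F V : Type*} [Field F] [CharP F 2] [AddCommGroup V] [Module F V]

theorem polar_self_zero (Q : QuadraticForm F V) (v : V) : QuadraticMap.polar Q v v = 0 := by
  rw [QuadraticMap.polar_self, nsmul_eq_mul]
  push_cast
  rw [CharTwo.two_eq_zero, zero_mul]

theorem Q_comb (Q : QuadraticForm F V) (x : F) (v w : V) :
    Q (x • v + w) = x * x * Q v + Q w + x * QuadraticMap.polar Q v w := by
  rw [QuadraticMap.map_add (⇑Q) (x • v) w, QuadraticMap.map_smul, QuadraticMap.polar_smul_left,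
    smul_eq_mul, smul_eq_mul]

theorem linInd (Q : QuadraticForm F V) {v w : V} (h : QuadraticMap.polar Q v w = 1) :
    LinearIndependent F ![v, w] := by
  rw [LinearIndependent.pair_iff]
  intro s t hst
  have h1 := congrArg (fun z => QuadraticMap.polar Q v z) hst
  have h2 := congrArg (fun z => QuadraticMap.polar Q z w) hst
  simp only [QuadraticMap.polar_add_right, QuadraticMap.polar_smul_right, polar_self_zero, h,
    smul_eq_mul, mul_zero, mul_one, zero_add, QuadraticMap.polar_zero_right] at h1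
  simp only [QuadraticMap.polar_add_left, QuadraticMap.polar_smul_left, polar_self_zero, h,
    smul_eq_mul, mul_zero, mul_one, add_zero, QuadraticMap.polar_zero_left] at h2
  exact ⟨h2, h1⟩

theorem main [Finite F] (Q : QuadraticForm F V) (h2 : Module.finrank F V = 2)
    (hQ : (QuadraticMap.polarBilin Q).Nondegenerate) :
    (∃ v w : V, LinearIndependent F ![v, w] ∧ Q v = 0 ∧ Q w = 0 ∧ QuadraticMap.polar Q v w = 1) ∨
    (∃ (v w : V) (μ : F), LinearIndependent F ![v, w] ∧ (∀ x : F, x ^ 2 + x + μ ≠ 0) ∧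
      Q v = 1 ∧ Q w = μ ∧ QuadraticMap.polar Q v w = 1) := by
  classical
  have hpart : ∀ v : V, v ≠ 0 → ∃ w, QuadraticMap.polar Q v w = 1 := by
    intro v hv
    obtain ⟨w0, hw0⟩ : ∃ w0, QuadraticMap.polarBilin Q v w0 ≠ 0 := by
      by_contra hcon
      push Not at hcon
      exact hv (hQ.1 v hcon)
    rw [QuadraticMap.polarBilin_apply_apply] at hw0
    refine ⟨(QuadraticMap.polar Q v w0)⁻¹ • w0, ?_⟩
    rw [QuadraticMap.polar_smul_right, smul_eq_mul, inv_mul_cancel₀ hw0]
  by_cases hiso : ∃ v : V, v ≠ 0 ∧ Q v = 0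
  · left
    obtain ⟨v, hv0, hv⟩ := hiso
    obtain ⟨w', hw'⟩ := hpart v hv0
    have hpol : QuadraticMap.polar Q v (Q w' • v + w') = 1 := by
      rw [QuadraticMap.polar_add_right, QuadraticMap.polar_smul_right, polar_self_zero, smul_zero,
        zero_add, hw']
    refine ⟨v, Q w' • v + w', linInd Q hpol, hv, ?_, hpol⟩
    rw [Q_comb, hv, hw']
    have h3 : Q w' + Q w' = 0 := by rw [← two_mul, CharTwo.two_eq_zero, zero_mul]
    linear_combination h3
  · right
    push Not at hiso
    have : Nontrivial V := Module.nontrivial_of_finrank_pos (R := F) (by omega)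
    obtain ⟨v0, hv0⟩ := exists_ne (0 : V)
    have hFin := Fintype.ofFinite F
    obtain ⟨s, hs⟩ := FiniteField.isSquare_of_char_two (ringChar.eq F 2) (Q v0)
    have hs0 : s ≠ 0 := by
      rintro rfl
      rw [mul_zero] at hs
      exact hiso v0 hv0 hs
    have hv : Q (s⁻¹ • v0) = 1 := by
      rw [QuadraticMap.map_smul, smul_eq_mul, hs]
      field_simp
    have hvne : s⁻¹ • v0 ≠ 0 := by
      intro h
      rw [h, QuadraticMap.map_zero] at hv
      exact zero_ne_one hv
    obtain ⟨w, hw⟩ := hpart _ hvne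
    refine ⟨s⁻¹ • v0, w, Q w, linInd Q hw, ?_, hv, rfl, hw⟩
    intro x hx
    have h3 : Q (x • (s⁻¹ • v0) + w) = 0 := by
      rw [Q_comb, hv, hw]
      linear_combination hx
    have h4 : x • (s⁻¹ • v0) + w = 0 := by
      by_contra hne
      exact hiso _ hne h3
    have h5 := (LinearIndependent.pair_iff.mp (linInd Q hw)) x 1 (by rw [one_smul]; exact h4)
    exact one_ne_zero h5.2

end Cfsg.Agent.Helper8.BinaryQuad
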