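import Mathlib

set_option autoImplicit false

namespace Cfsg.Agent.Helper8.CentAlt

open MulAction

section General
variable {H : Type*} [Group H] [Finite H] {X : Type*} [Finite X] [MulAction H X]

/-- number of points ≤ (number of orbits) * |H| -/
theorem card_le_orbits_mul :
    Nat.card X ≤ Nat.card (orbitRel.Quotient H X) * Nat.card H := by
  classical
  have := Fintype.ofFinite X
  have := Fintype.ofFinite H
  have := Fintype.ofFinite (orbitRel.Quotient H X)
  rw [Nat.card_congr (selfEquivSigmaOrbits H X), Nat.card_sigma]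
  calc ∑ ω : orbitRel.Quotient H X, Nat.card (orbit H ω.out)
      ≤ ∑ _ω : orbitRel.Quotient H X, Nat.card H := by
        apply Finset.sum_le_sum
        intro ω _
        exact Nat.card_le_card_of_surjective
          (fun h : H => (⟨h • ω.out, mem_orbit _ _⟩ : orbit H ω.out))
          (by rintro ⟨y, ⟨h, rfl⟩⟩; exact ⟨h, rfl⟩)
    _ = Nat.card (orbitRel.Quotient H X) * Nat.card H := by
        rw [Finset.sum_const, Finset.card_univ, smul_eq_mul,
          Nat.card_eq_fintype_card (α := orbitRel.Quotient H X)]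

theorem exists_points (r : ℕ) (hm : r * Nat.card H * 2 ^ Nat.card H ≤ Nat.card X) :
    ∃ (L : Subgroup H) (e : Fin r → X), (∀ i, stabilizer H (e i) = L) ∧
      (∀ i j, e j ∈ orbit H (e i) → i = j) := by
  classical
  have := Fintype.ofFinite X
  have := Fintype.ofFinite H
  have := Fintype.ofFinite (orbitRel.Quotient H X)
  have hn : 0 < Nat.card H := Nat.card_pos
  have h1 := card_le_orbits_mul (H := H) (X := X)
  have h2 : 2 ^ Nat.card H * r ≤ Nat.card (orbitRel.Quotient H X) := by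
    have h3 : (2 ^ Nat.card H * r) * Nat.card H
        ≤ Nat.card (orbitRel.Quotient H X) * Nat.card H := by
      calc (2 ^ Nat.card H * r) * Nat.card H = r * Nat.card H * 2 ^ Nat.card H := by ring
        _ ≤ _ := hm.trans h1
    exact Nat.le_of_mul_le_mul_right h3 hn
  let f : orbitRel.Quotient H X → Set H := fun ω => (stabilizer H ω.out : Set H)
  have hcard : Fintype.card (Set H) * r ≤ Fintype.card (orbitRel.Quotient H X) := by
    rw [Fintype.card_set, ← Nat.card_eq_fintype_card, ← Nat.card_eq_fintype_card]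
    exact h2
  obtain ⟨S, hS⟩ := Fintype.exists_le_card_fiber_of_mul_le_card f hcard
  by_cases hr : r = 0
  · subst hr
    exact ⟨⊥, Fin.elim0, fun i => i.elim0, fun i => i.elim0⟩
  have hcardT : Fintype.card (Fin r) ≤
      Fintype.card {ω : orbitRel.Quotient H X // f ω = S} := by
    rw [Fintype.card_fin, Fintype.card_subtype]
    exact hS
  obtain ⟨g⟩ : Nonempty (Fin r ↪ {ω : orbitRel.Quotient H X // f ω = S}) :=
    Function.Embedding.nonempty_of_card_le hcardT
  have i0 : Fin r := ⟨0, Nat.pos_of_ne_zero hr⟩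
  refine ⟨stabilizer H (g i0).1.out, fun i => (g i).1.out, ?_, ?_⟩
  · intro i
    apply SetLike.coe_injective
    exact ((g i).2).trans ((g i0).2).symm
  · intro i j hij
    have h3 : (Quotient.mk'' ((g j).1.out) : orbitRel.Quotient H X)
        = Quotient.mk'' ((g i).1.out) := Quotient.sound' hij
    rw [Quotient.out_eq', Quotient.out_eq'] at h3
    exact (g.injective (Subtype.ext h3)).symm

end General

section Emb
variable {H : Type*} [Group H] {X : Type*} [MulAction H X] {r : ℕ} (L : Subgroup H)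
  (e : Fin r → X) (hL : ∀ i, stabilizer H (e i) = L) (hO : ∀ i j, e j ∈ orbit H (e i) → i = j)

/-- the orbit map on the coset space of the common stabilizer -/
def iotaFun (i : Fin r) (q : H ⧸ L) : X :=
  Quotient.liftOn' q (fun h => h • e i) (by
    intro a b hab
    rw [QuotientGroup.leftRel_apply, ← hL i, mem_stabilizer_iff, mul_smul] at hab
    exact (inv_smul_eq_iff.mp hab).symm)

theorem iota_mk (i : Fin r) (h : H) :
    iotaFun L e hL i (QuotientGroup.mk h) = h • e i := rfl

include hO in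
theorem iota_inj :
    Function.Injective (fun p : Fin r × (H ⧸ L) => iotaFun L e hL p.1 p.2) := by
  rintro ⟨i, q⟩ ⟨j, q'⟩ h
  obtain ⟨a, rfl⟩ := QuotientGroup.mk_surjective q
  obtain ⟨b, rfl⟩ := QuotientGroup.mk_surjective q'
  simp only [iota_mk] at h
  have hij : i = j := by
    apply hO i j
    refine ⟨b⁻¹ * a, ?_⟩
    show (b⁻¹ * a) • e i = e j
    rw [mul_smul, h, inv_smul_smul]
  subst hij
  congr 1
  rw [QuotientGroup.eq, ← hL i, mem_stabilizer_iff, mul_smul, ← h, inv_smul_smul]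

theorem iota_smul (h : H) (i : Fin r) (q : H ⧸ L) :
    h • iotaFun L e hL i q = iotaFun L e hL i (h • q) := by
  obtain ⟨a, rfl⟩ := QuotientGroup.mk_surjective q
  rw [MulAction.Quotient.smul_mk, iota_mk, iota_mk, smul_eq_mul, mul_smul]

/-- the homomorphism permuting the `r` chosen orbits -/
noncomputable def psi : Equiv.Perm (Fin r) →* Equiv.Perm X :=
  (Equiv.Perm.viaEmbeddingHom ⟨_, iota_inj L e hL hO⟩).comp
    (MonoidHom.mk' (fun σ : Equiv.Perm (Fin r) =>
      (Equiv.prodCongr σ (Equiv.refl (H ⧸ L)) : Equiv.Perm (Fin r × (H ⧸ L))))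
      (by intro a b; ext ⟨i, q⟩ <;> rfl))

theorem psi_apply_iota (σ : Equiv.Perm (Fin r)) (i : Fin r) (q : H ⧸ L) :
    psi L e hL hO σ (iotaFun L e hL i q) = iotaFun L e hL (σ i) q := by
  have := Equiv.Perm.viaEmbedding_apply
    (Equiv.prodCongr σ (Equiv.refl (H ⧸ L)) : Equiv.Perm (Fin r × (H ⧸ L)))
    ⟨_, iota_inj L e hL hO⟩ (i, q)
  exact this

theorem psi_apply_not (σ : Equiv.Perm (Fin r)) (y : X)
    (hy : y ∉ Set.range (fun p : Fin r × (H ⧸ L) => iotaFun L e hL p.1 p.2)) :
    psi L e hL hO σ y = y :=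
  Equiv.Perm.viaEmbedding_apply_of_notMem
    (Equiv.prodCongr σ (Equiv.refl (H ⧸ L)) : Equiv.Perm (Fin r × (H ⧸ L)))
    ⟨_, iota_inj L e hL hO⟩ y hy

theorem psi_comm (σ : Equiv.Perm (Fin r)) (h : H) (y : X) :
    psi L e hL hO σ (h • y) = h • psi L e hL hO σ y := by
  by_cases hy : y ∈ Set.range (fun p : Fin r × (H ⧸ L) => iotaFun L e hL p.1 p.2)
  · obtain ⟨⟨i, q⟩, rfl⟩ := hy
    show psi L e hL hO σ (h • iotaFun L e hL i q) = h • psi L e hL hO σ (iotaFun L e hL i q)
    rw [iota_smul, psi_apply_iota, psi_apply_iota, iota_smul]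
  · have hy' : h • y ∉ Set.range (fun p : Fin r × (H ⧸ L) => iotaFun L e hL p.1 p.2) := by
      rintro ⟨⟨i, q⟩, hq⟩
      apply hy
      refine ⟨(i, h⁻¹ • q), ?_⟩
      show iotaFun L e hL i (h⁻¹ • q) = y
      rw [← iota_smul]
      have hq' : iotaFun L e hL i q = h • y := hq
      rw [hq', inv_smul_smul]
    rw [psi_apply_not L e hL hO σ _ hy', psi_apply_not L e hL hO σ _ hy]

theorem psi_injective : Function.Injective (psi L e hL hO) := by
  apply Function.Injective.comp (Equiv.Perm.viaEmbeddingHom_injective _)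
  intro a b hab
  ext i
  have h1 := congrArg (fun π : Equiv.Perm (Fin r × (H ⧸ L)) => (π (i, (QuotientGroup.mk 1 : H ⧸ L))).1) hab
  exact congrArg Fin.val h1

end Emb

theorem sign_eq_one_of_hom {r m : ℕ} (Ψ : Equiv.Perm (Fin r) →* Equiv.Perm (Fin m))
    (τ : Equiv.Perm (Fin r)) (hτ : τ ∈ alternatingGroup (Fin r)) :
    Equiv.Perm.sign (Ψ τ) = 1 := by
  have hle : alternatingGroup (Fin r) ≤ (Equiv.Perm.sign.comp Ψ).ker := by
    rw [← Equiv.Perm.closure_three_cycles_eq_alternating, Subgroup.closure_le]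
    intro σ hσ
    rw [SetLike.mem_coe, MonoidHom.mem_ker]
    have h3 : σ ^ 3 = 1 := by
      rw [← Equiv.Perm.IsThreeCycle.orderOf hσ]
      exact pow_orderOf_eq_one σ
    have h4 : ((Equiv.Perm.sign.comp Ψ) σ) ^ 3 = 1 := by rw [← map_pow, h3, map_one]
    have h5 : ((Equiv.Perm.sign.comp Ψ) σ) ^ 2 = 1 := Int.units_sq _
    calc (Equiv.Perm.sign.comp Ψ) σ
        = ((Equiv.Perm.sign.comp Ψ) σ) ^ 3 * (((Equiv.Perm.sign.comp Ψ) σ) ^ 2)⁻¹ := by group
      _ = 1 := by rw [h4, h5]; simp
  exact MonoidHom.mem_ker.mp (hle hτ)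

theorem main : ∃ f : ℕ → ℕ → ℕ, ∀ (m r : ℕ) (H : Subgroup ↥(alternatingGroup (Fin m))),
    f (Nat.card H) r ≤ m →
      ∃ K : Subgroup ↥(alternatingGroup (Fin m)),
        Nonempty (↥K ≃* ↥(alternatingGroup (Fin r))) ∧
        K ≤ Subgroup.centralizer (H : Set ↥(alternatingGroup (Fin m))) := by
  refine ⟨fun n r => r * n * 2 ^ n, ?_⟩
  intro m r H hm
  have hm' : r * Nat.card H * 2 ^ Nat.card H ≤ Nat.card (Fin m) := by simpa using hm
  obtain ⟨L, e, hL, hO⟩ := exists_points (H := ↥H) (X := Fin m) r hm'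
  let Θ : ↥(alternatingGroup (Fin r)) →* ↥(alternatingGroup (Fin m)) :=
    ((psi L e hL hO).comp (alternatingGroup (Fin r)).subtype).codRestrict
      (alternatingGroup (Fin m))
      (fun τ => Equiv.Perm.mem_alternatingGroup.mpr (sign_eq_one_of_hom (psi L e hL hO) τ τ.2))
  have hinj : Function.Injective Θ := by
    intro a b hab
    have h1 : psi L e hL hO a = psi L e hL hO b := congrArg Subtype.val hab
    exact Subtype.ext (psi_injective L e hL hO h1)
  refine ⟨Θ.range, ⟨(MonoidHom.ofInjective hinj).symm⟩, ?_⟩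
  rintro _ ⟨τ, rfl⟩
  rw [Subgroup.mem_centralizer_iff]
  intro h hh
  apply Subtype.ext
  apply Equiv.ext
  intro y
  have h1 := psi_comm L e hL hO (τ : Equiv.Perm (Fin r)) (⟨h, hh⟩ : ↥H) y
  exact h1.symm

end Cfsg.Agent.Helper8.CentAlt
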