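import Mathlib

set_option autoImplicit false

namespace Cfsg.Agent.Helper8.CentTrans

theorem mem_normalizer_of_conj_mem {Γ : Type*} [Group Γ] [Finite Γ] (H : Subgroup Γ) (g : Γ)
    (h : ∀ s ∈ H, g * s * g⁻¹ ∈ H) : g ∈ Subgroup.normalizer (H : Set Γ) := by
  rw [Subgroup.mem_normalizer_iff]
  intro x
  refine ⟨h x, fun hx => ?_⟩
  have hk : ∀ k : ℕ, ∀ s ∈ H, g ^ k * s * (g ^ k)⁻¹ ∈ H := by
    intro k
    induction k with
    | zero =>
      intro s hs
      simpa using hs
    | succ k ih =>
      intro s hs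
      have := h _ (ih s hs)
      have e : g ^ (k + 1) * s * (g ^ (k + 1))⁻¹ = g * (g ^ k * s * (g ^ k)⁻¹) * g⁻¹ := by
        rw [pow_succ']
        group
      rw [e]
      exact this
  have hpos := orderOf_pos g
  have hinv : g ^ (orderOf g - 1) = g⁻¹ := by
    rw [eq_inv_iff_mul_eq_one, ← pow_succ, Nat.sub_add_cancel hpos, pow_orderOf_eq_one]
  have := hk (orderOf g - 1) _ hx
  rw [hinv] at this
  simpa [mul_assoc] using this

variable {α : Type*} (G : Subgroup (Equiv.Perm α)) [MulAction.IsPretransitive G α] (a : α)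

noncomputable def fn (n : G) : α → α :=
  fun x => (Classical.choose (MulAction.exists_smul_eq G a x)) • (n⁻¹ • a)

theorem fn_apply (n : G)
    (hn : n ∈ Subgroup.normalizer ((MulAction.stabilizer G a : Subgroup G) : Set G)) (g : G) :
    fn G a n (g • a) = g • (n⁻¹ • a) := by
  unfold fn
  have hc := Classical.choose_spec (MulAction.exists_smul_eq G a (g • a))
  generalize Classical.choose (MulAction.exists_smul_eq G a (g • a)) = g' at hc
  have hs : g⁻¹ * g' ∈ MulAction.stabilizer G a := by
    rw [MulAction.mem_stabilizer_iff, mul_smul, hc, inv_smul_smul]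
  have hs' : n * (g⁻¹ * g') * n⁻¹ ∈ MulAction.stabilizer G a :=
    (Subgroup.mem_normalizer_iff.mp hn _).mp hs
  rw [MulAction.mem_stabilizer_iff] at hs'
  have h2 : (g⁻¹ * g') • (n⁻¹ • a) = n⁻¹ • a := by
    calc (g⁻¹ * g') • (n⁻¹ • a) = n⁻¹ • ((n * (g⁻¹ * g') * n⁻¹) • a) := by simp [mul_smul]
      _ = n⁻¹ • a := by rw [hs']
  calc g' • (n⁻¹ • a) = g • ((g⁻¹ * g') • (n⁻¹ • a)) := by simp [mul_smul]
    _ = g • (n⁻¹ • a) := by rw [h2]

noncomputable def theta
    (n : ↥(Subgroup.normalizer ((MulAction.stabilizer G a : Subgroup G) : Set G))) :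
    Equiv.Perm α where
  toFun := fn G a (n : G)
  invFun := fn G a ((n : G)⁻¹)
  left_inv := by
    intro x
    obtain ⟨g, rfl⟩ := MulAction.exists_smul_eq G a x
    rw [fn_apply G a _ n.2, ← mul_smul, fn_apply G a _ (inv_mem n.2), inv_inv, ← mul_smul,
      inv_mul_cancel_right]
  right_inv := by
    intro x
    obtain ⟨g, rfl⟩ := MulAction.exists_smul_eq G a x
    rw [fn_apply G a _ (inv_mem n.2), inv_inv, ← mul_smul, fn_apply G a _ n.2, ← mul_smul,
      mul_inv_cancel_right]

theorem theta_apply
    (n : ↥(Subgroup.normalizer ((MulAction.stabilizer G a : Subgroup G) : Set G))) (g : G) :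
    theta G a n (g • a) = g • ((n : G)⁻¹ • a) :=
  fn_apply G a _ n.2 g

theorem theta_mem
    (n : ↥(Subgroup.normalizer ((MulAction.stabilizer G a : Subgroup G) : Set G))) :
    theta G a n ∈ Subgroup.centralizer (G : Set (Equiv.Perm α)) := by
  rw [Subgroup.mem_centralizer_iff]
  intro k hk
  ext x
  obtain ⟨g, rfl⟩ := MulAction.exists_smul_eq G a x
  rw [Equiv.Perm.mul_apply, Equiv.Perm.mul_apply, theta_apply]
  have h1 : k (g • a) = ((⟨k, hk⟩ : G) * g) • a := by
    rw [mul_smul]
    rfl
  rw [h1, theta_apply, mul_smul]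
  rfl

noncomputable def phi :
    ↥(Subgroup.normalizer ((MulAction.stabilizer G a : Subgroup G) : Set G)) →*
      ↥(Subgroup.centralizer (G : Set (Equiv.Perm α))) :=
  MonoidHom.mk' (fun n => ⟨theta G a n, theta_mem G a n⟩) (by
    intro n m
    apply Subtype.ext
    ext x
    obtain ⟨g, rfl⟩ := MulAction.exists_smul_eq G a x
    change theta G a (n * m) (g • a) = theta G a n (theta G a m (g • a))
    have e1 : theta G a m (g • a) = (g * (m : G)⁻¹) • a := by rw [theta_apply, mul_smul]
    rw [e1, theta_apply, theta_apply]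
    simp [mul_smul])

theorem phi_ker : (phi G a).ker = (MulAction.stabilizer G a).subgroupOf
    (Subgroup.normalizer ((MulAction.stabilizer G a : Subgroup G) : Set G)) := by
  ext n
  rw [MonoidHom.mem_ker, Subgroup.mem_subgroupOf, MulAction.mem_stabilizer_iff]
  constructor
  · intro hn
    have h1 : theta G a n ((1 : G) • a) = (1 : G) • a := by
      have := congrArg (fun c : ↥(Subgroup.centralizer (G : Set (Equiv.Perm α))) =>
        (c : Equiv.Perm α) ((1 : G) • a)) hn
      exact this
    rw [theta_apply, one_smul, one_smul] at h1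
    have h2 : (n : G) • ((n : G)⁻¹ • a) = (n : G) • a := by rw [h1]
    rw [smul_inv_smul] at h2
    exact h2.symm
  · intro hn
    apply Subtype.ext
    ext x
    obtain ⟨g, rfl⟩ := MulAction.exists_smul_eq G a x
    change theta G a n (g • a) = g • a
    rw [theta_apply]
    have : (n : G)⁻¹ • a = a := by
      rw [inv_smul_eq_iff, hn]
    rw [this]

/-- a point fixed by the stabilizer comes from the normalizer -/
theorem exists_normalizer [Finite α] (b : α)
    (hb : ∀ s ∈ MulAction.stabilizer G a, s • b = b) :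
    ∃ n : ↥(Subgroup.normalizer ((MulAction.stabilizer G a : Subgroup G) : Set G)),
      ∀ g : G, theta G a n (g • a) = g • b := by
  obtain ⟨m, hm⟩ := MulAction.exists_smul_eq G a b
  have hmN : m⁻¹ ∈ Subgroup.normalizer ((MulAction.stabilizer G a : Subgroup G) : Set G) := by
    apply mem_normalizer_of_conj_mem
    intro s hs
    rw [MulAction.mem_stabilizer_iff, inv_inv, mul_smul, mul_smul, hm, hb s hs, ← hm,
      inv_smul_smul]
  refine ⟨⟨m⁻¹, hmN⟩, fun g => ?_⟩
  rw [theta_apply]
  simp only [inv_inv]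
  rw [hm]

theorem phi_surjective [Finite α] : Function.Surjective (phi G a) := by
  rintro ⟨c, hc⟩
  have hcomm : ∀ g : G, c (g • a) = g • c a := by
    intro g
    have := Subgroup.mem_centralizer_iff.mp hc (g : Equiv.Perm α) g.2
    have h2 := congrArg (fun σ : Equiv.Perm α => σ a) this
    exact h2.symm
  obtain ⟨n, hn⟩ := exists_normalizer G a (c a) (by
    intro s hs
    rw [← hcomm, MulAction.mem_stabilizer_iff.mp hs])
  refine ⟨n, ?_⟩
  apply Subtype.ext
  ext x
  obtain ⟨g, rfl⟩ := MulAction.exists_smul_eq G a x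
  change theta G a n (g • a) = c (g • a)
  rw [hn, hcomm]

theorem main [Finite α] :
    Nonempty (Subgroup.centralizer (G : Set (Equiv.Perm α)) ≃*
      Subgroup.normalizer ((MulAction.stabilizer G a : Subgroup G) : Set G) ⧸
        (MulAction.stabilizer G a).subgroupOf
          (Subgroup.normalizer ((MulAction.stabilizer G a : Subgroup G) : Set G))) ∧
    MulAction.orbit (Subgroup.centralizer (G : Set (Equiv.Perm α))) a
      = MulAction.fixedPoints (MulAction.stabilizer G a) α := by
  refine ⟨⟨((QuotientGroup.quotientMulEquivOfEq (phi_ker G a)).symm.trans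
    (QuotientGroup.quotientKerEquivOfSurjective (phi G a) (phi_surjective G a))).symm⟩, ?_⟩
  ext b
  constructor
  · rintro ⟨c, rfl⟩ s
    have := Subgroup.mem_centralizer_iff.mp c.2 ((s : G) : Equiv.Perm α) (s : G).2
    have h2 := congrArg (fun σ : Equiv.Perm α => σ a) this
    have hs : ((s : G) : Equiv.Perm α) a = a := s.2
    change ((s : G) : Equiv.Perm α) ((c : Equiv.Perm α) a) = (c : Equiv.Perm α) a
    simp only [Equiv.Perm.mul_apply] at h2
    rw [h2, hs]
  · intro hb
    obtain ⟨n, hn⟩ := exists_normalizer G a b (fun s hs => hb ⟨s, hs⟩)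
    refine ⟨⟨theta G a n, theta_mem G a n⟩, ?_⟩
    have := hn 1
    rw [one_smul, one_smul] at this
    exact this

end Cfsg.Agent.Helper8.CentTrans
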