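import Mathlib

set_option autoImplicit false

namespace Cfsg.Agent.Helper8.ClassSumNil

open MonoidAlgebra

lemma sum_eq_zero_of_pgroup {P X M : Type*} [Group P] [Fintype X] [MulAction P X]
    [AddCommGroup M] (p : ℕ) [Fact p.Prime] (hP : IsPGroup p P) (hM : ∀ m : M, p • m = 0)
    (f : X → M) (hf : ∀ (u : P) (x : X), f (u • x) = f x)
    (hfix : ∀ x : X, (∀ u : P, u • x = x) → f x = 0) : ∑ x, f x = 0 := by
  classical
  have h1 := Finset.sum_comp (s := (Finset.univ : Finset X)) (fun m : M => m) f
  rw [h1]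
  apply Finset.sum_eq_zero
  intro m _
  by_cases hm : m = 0
  · rw [hm, smul_zero]
  let S : SubMulAction P X :=
    { carrier := {x | f x = m}
      smul_mem' := fun u x hx => by show f (u • x) = m; rw [hf]; exact hx }
  have hcard := hP.card_modEq_card_fixedPoints S
  have hfixempty : Nat.card (MulAction.fixedPoints P S) = 0 := by
    rw [Nat.card_eq_zero]
    left
    constructor
    rintro ⟨⟨x, hx⟩, hfx⟩
    apply hm
    have h0 : f x = 0 := hfix x (fun u => congrArg Subtype.val (hfx u))
    have hx' : f x = m := hx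
    rw [← hx', h0]
  rw [hfixempty] at hcard
  have hdvd : p ∣ Nat.card S := (Nat.modEq_zero_iff_dvd).mp hcard
  have hcardeq : Nat.card S = (Finset.univ.filter (fun a => f a = m)).card := by
    show Nat.card {x // f x = m} = _
    rw [Nat.card_eq_fintype_card, Fintype.card_subtype]
  rw [hcardeq] at hdvd
  obtain ⟨k, hk⟩ := hdvd
  rw [hk, mul_smul]
  exact hM _

variable {G : Type*} [Group G] {F : Type*} [Field F]

lemma exists_fixed [Finite G] (p : ℕ) [Fact p.Prime] [CharP F p] (P : Subgroup G)
    (hP : IsPGroup p P) (M : Submodule F (MonoidAlgebra F G)) (hM : M ≠ ⊥)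
    (hinv : ∀ u ∈ P, ∀ b ∈ M, single u (1 : F) * b ∈ M) :
    ∃ w ∈ M, w ≠ 0 ∧ ∀ u ∈ P, single u (1 : F) * w = w := by
  classical
  obtain ⟨w₀, hw₀M, hw₀⟩ := Submodule.exists_mem_ne_zero_of_ne_bot hM
  letI : Algebra (ZMod p) F := ZMod.algebra F p
  let N : Submodule (ZMod p) (MonoidAlgebra F G) :=
    Submodule.span (ZMod p) (Set.range (fun u : P => single (u : G) (1 : F) * w₀))
  have hN_inv : ∀ u ∈ P, ∀ b ∈ N, single u (1 : F) * b ∈ N := by
    intro u hu b hb
    induction hb using Submodule.span_induction with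
    | mem x hx =>
      obtain ⟨v, rfl⟩ := hx
      apply Submodule.subset_span
      refine ⟨⟨u * v, P.mul_mem hu v.2⟩, ?_⟩
      simp only [← mul_assoc, single_mul_single, mul_one]
    | zero => rw [mul_zero]; exact Submodule.zero_mem _
    | add x y _ _ hx hy => rw [mul_add]; exact Submodule.add_mem _ hx hy
    | smul c x _ hx => rw [mul_smul_comm]; exact Submodule.smul_mem _ c hx
  have hN_M : ∀ b ∈ N, b ∈ M := by
    intro b hb
    induction hb using Submodule.span_induction with
    | mem x hx =>
      obtain ⟨v, rfl⟩ := hx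
      exact hinv v v.2 w₀ hw₀M
    | zero => exact Submodule.zero_mem _
    | add x y _ _ hx hy => exact Submodule.add_mem _ hx hy
    | smul c x _ hx =>
      rw [← algebraMap_smul F c x]
      exact M.smul_mem _ hx
  have hw₀N : w₀ ∈ N := by
    apply Submodule.subset_span
    refine ⟨⟨1, P.one_mem⟩, ?_⟩
    show single (1 : G) (1 : F) * w₀ = w₀
    rw [← MonoidAlgebra.one_def, one_mul]
  haveI : Module.Finite (ZMod p) N := Module.Finite.span_of_finite (ZMod p) (Set.finite_range _)
  haveI : Finite N := Module.finite_of_finite (ZMod p)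
  letI : MulAction P N :=
    { smul := fun u b => ⟨single (u : G) (1 : F) * b.1, hN_inv u u.2 b.1 b.2⟩
      one_smul := fun b => Subtype.ext (by
        show single (1 : G) (1 : F) * b.1 = b.1
        rw [← MonoidAlgebra.one_def, one_mul])
      mul_smul := fun u v b => Subtype.ext (by
        show single ((u : G) * (v : G)) (1 : F) * b.1 = single (u : G) 1 * (single (v : G) 1 * b.1)
        rw [← mul_assoc, single_mul_single, mul_one]) }
  have hcard := hP.card_modEq_card_fixedPoints N
  haveI : Nontrivial N := ⟨⟨⟨w₀, hw₀N⟩, 0, fun h => hw₀ (congrArg Subtype.val h)⟩⟩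
  have hNcard : p ∣ Nat.card N := by
    rw [Module.natCard_eq_pow_finrank (K := ZMod p) (V := N), Nat.card_zmod]
    exact dvd_pow_self p (Module.finrank_pos (R := ZMod p) (M := N)).ne'
  have hfixdvd : p ∣ Nat.card (MulAction.fixedPoints P N) :=
    (Nat.modEq_zero_iff_dvd).mp (hcard.symm.trans ((Nat.modEq_zero_iff_dvd).mpr hNcard))
  have h0fix : (0 : N) ∈ MulAction.fixedPoints P N := by
    intro u
    apply Subtype.ext
    show single (u : G) (1 : F) * (0 : MonoidAlgebra F G) = 0
    rw [mul_zero]
  have hpos : 0 < Nat.card (MulAction.fixedPoints P N) :=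
    Nat.card_pos_iff.mpr ⟨⟨⟨0, h0fix⟩⟩, inferInstance⟩
  have h2 : 1 < Nat.card (MulAction.fixedPoints P N) := by
    have := Nat.le_of_dvd hpos hfixdvd
    have hp2 := (Fact.out : p.Prime).two_le
    omega
  haveI : Nontrivial (MulAction.fixedPoints P N) := Finite.one_lt_card_iff_nontrivial.mp h2
  obtain ⟨b, hb⟩ := exists_ne (⟨0, h0fix⟩ : MulAction.fixedPoints P N)
  refine ⟨b.1.1, hN_M _ b.1.2, fun h => hb (Subtype.ext (Subtype.ext h)), fun u hu => ?_⟩
  have := b.2 ⟨u, hu⟩
  exact congrArg Subtype.val this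

theorem classSum_nilpotent [Finite G] (p : ℕ) [Fact p.Prime] [CharP F p] (P : Subgroup G)
    [P.Normal] (hP : IsPGroup p P) (K : Set G) (hKconj : ∀ x ∈ K, ∀ u : G, u * x * u⁻¹ ∈ K)
    (hK : ∀ x ∈ K, x ∉ Subgroup.centralizer (P : Set G)) :
    IsNilpotent (∑ᶠ x ∈ K, MonoidAlgebra.single x (1 : F) : MonoidAlgebra F G) := by
  classical
  haveI : Fintype G := Fintype.ofFinite G
  have hy : (∑ᶠ x ∈ K, MonoidAlgebra.single x (1 : F) : MonoidAlgebra F G) =
      ∑ x : G, if x ∈ K then single x (1 : F) else 0 := by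
    rw [finsum_mem_def, finsum_eq_sum_of_fintype]
    apply Finset.sum_congr rfl
    intro x _
    rw [Set.indicator_apply]
  rw [hy]
  set y : MonoidAlgebra F G := ∑ x : G, if x ∈ K then single x (1 : F) else 0 with hydef
  -- centrality
  have hcent : ∀ u : G, single u (1 : F) * y = y * single u 1 := by
    intro u
    rw [hydef, Finset.mul_sum, Finset.sum_mul]
    rw [← Equiv.sum_comp (MulAut.conj u).toEquiv
      (fun x => (if x ∈ K then single x (1 : F) else 0) * single u (1 : F))]
    apply Finset.sum_congr rfl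
    intro x _
    have e : (MulAut.conj u).toEquiv x = u * x * u⁻¹ := rfl
    rw [e]
    by_cases hx : x ∈ K
    · rw [if_pos hx, if_pos (hKconj x hx u), single_mul_single, single_mul_single]
      congr 1
      group
    · have hx' : u * x * u⁻¹ ∉ K := fun h => hx (by
        have := hKconj _ h u⁻¹
        simpa [mul_assoc] using this)
      rw [if_neg hx, if_neg hx', mul_zero, zero_mul]
  have hcentn : ∀ (n : ℕ) (u : G), single u (1 : F) * y ^ n = y ^ n * single u 1 := by
    intro n u
    exact ((show Commute (single u (1 : F)) y from hcent u).pow_right n).eq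
  -- left multiplication
  obtain ⟨L, hL⟩ : ∃ L : Module.End F (MonoidAlgebra F G), ∀ b, L b = y * b :=
    ⟨LinearMap.mulLeft F y, fun b => rfl⟩
  have hLn : ∀ n b, (L ^ n) b = y ^ n * b := by
    intro n
    induction n with
    | zero => intro b; simp
    | succ n ih =>
      intro b
      rw [pow_succ, Module.End.mul_apply, ih, hL, pow_succ, mul_assoc]
  obtain ⟨n, hn1, hn⟩ : ∃ n, 1 ≤ n ∧
      IsCompl (LinearMap.ker (L ^ n)) (LinearMap.range (L ^ n)) := by
    have := (L.eventually_isCompl_ker_pow_range_pow).and (Filter.eventually_ge_atTop 1)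
    obtain ⟨n, h1, h2⟩ := this.exists
    exact ⟨n, h2, h1⟩
  by_contra hnil
  have hMne : LinearMap.range (L ^ n) ≠ ⊥ := by
    intro h
    apply hnil
    refine ⟨n, ?_⟩
    have : (L ^ n) 1 ∈ LinearMap.range (L ^ n) := LinearMap.mem_range_self _ _
    rw [h, Submodule.mem_bot, hLn, mul_one] at this
    exact this
  have hMinv : ∀ u ∈ P, ∀ b ∈ LinearMap.range (L ^ n),
      single u (1 : F) * b ∈ LinearMap.range (L ^ n) := by
    rintro u _ b ⟨c, rfl⟩
    refine ⟨single u (1 : F) * c, ?_⟩
    rw [hLn, hLn, ← mul_assoc, ← hcentn, mul_assoc]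
  obtain ⟨w, hwM, hw0, hwfix⟩ := exists_fixed p P hP _ hMne hMinv
  -- y * w = 0
  have hyw : y * w = 0 := by
    rw [hydef, Finset.sum_mul]
    letI : MulAction P G := MulAction.compHom G ((MulAut.conj : G →* MulAut G).comp P.subtype)
    have hsmul : ∀ (u : P) (x : G), u • x = (u : G) * x * (u : G)⁻¹ := fun u x => rfl
    have hcharM : ∀ m : MonoidAlgebra F G, p • m = 0 := by
      intro m
      rw [← Nat.cast_smul_eq_nsmul F, CharP.cast_eq_zero F p, zero_smul]
    apply sum_eq_zero_of_pgroup p hP hcharM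
    · intro u x
      rw [hsmul]
      by_cases hx : x ∈ K
      · rw [if_pos hx, if_pos (hKconj x hx u)]
        have h1 : single ((u : G) * x * (u : G)⁻¹) (1 : F) =
            single x (1 : F) * single (x⁻¹ * (u : G) * x) (1 : F) * single ((u : G)⁻¹) (1 : F) := by
          rw [single_mul_single, single_mul_single, mul_one, mul_one]
          congr 1
          group
        have hmem : x⁻¹ * (u : G) * x ∈ P := by
          have := (inferInstance : P.Normal).conj_mem (u : G) u.2 x⁻¹
          simpa using this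
        rw [h1, mul_assoc, hwfix _ (P.inv_mem u.2), mul_assoc, hwfix _ hmem]
      · have hx' : (u : G) * x * (u : G)⁻¹ ∉ K := fun h => hx (by
          have := hKconj _ h (u : G)⁻¹
          simpa [mul_assoc] using this)
        rw [if_neg hx, if_neg hx']
    · intro x hx
      have hxc : x ∈ Subgroup.centralizer (P : Set G) := by
        rw [Subgroup.mem_centralizer_iff]
        intro u hu
        have := hx ⟨u, hu⟩
        rw [hsmul] at this
        have h2 : u * x = x * u := by
          have := congrArg (fun t => t * u) this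
          simpa [mul_assoc] using this
        exact h2
      have hxK : x ∉ K := fun h => hK x h hxc
      rw [if_neg hxK, zero_mul]
  obtain ⟨m, rfl⟩ : ∃ m, n = m + 1 := ⟨n - 1, by omega⟩
  have hker : (L ^ (m + 1)) w = 0 := by
    rw [pow_succ, Module.End.mul_apply, hL, hyw, map_zero]
  have : w ∈ LinearMap.ker (L ^ (m + 1)) ⊓ LinearMap.range (L ^ (m + 1)) :=
    ⟨LinearMap.mem_ker.mpr hker, hwM⟩
  rw [hn.inf_eq_bot] at this
  exact hw0 ((Submodule.mem_bot F).mp this)

end Cfsg.Agent.Helper8.ClassSumNil
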