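import Mathlib
import Cfsg.Agent.Helper3.Cores

set_option autoImplicit false

namespace Cfsg.Agent.Helper8.CoreFree

variable {G : Type*} [Group G]

theorem le_normalizer_of_conj {H K : Subgroup G} (h : ∀ k ∈ K, ∀ x ∈ H, k * x * k⁻¹ ∈ H) :
    K ≤ Subgroup.normalizer (H : Set G) := by
  intro k hk
  rw [Subgroup.mem_normalizer_iff]
  intro x
  constructor
  · exact h k hk x
  · intro hx
    have := h k⁻¹ (inv_mem hk) _ hx
    simpa [mul_assoc] using this

/-- a subgroup of a core-free `M`, normalized by `M` and centralized by `N` with `N ⊔ M = ⊤`,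
is trivial -/
theorem eq_bot_of_normalized {M N X : Subgroup G} (hcore : M.normalCore = ⊥) (hNM : N ⊔ M = ⊤)
    (hXM : X ≤ M) (hM : ∀ m ∈ M, ∀ x ∈ X, m * x * m⁻¹ ∈ X)
    (hN : ∀ n ∈ N, ∀ x ∈ X, n * x = x * n) : X = ⊥ := by
  have h1 : N ≤ Subgroup.normalizer (X : Set G) :=
    le_normalizer_of_conj (fun n hn x hx => by
      rw [hN n hn x hx, mul_inv_cancel_right]
      exact hx)
  have h2 : M ≤ Subgroup.normalizer (X : Set G) := le_normalizer_of_conj hM
  have h3 : Subgroup.normalizer (X : Set G) = ⊤ := top_le_iff.mp (hNM ▸ sup_le h1 h2)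
  have hXn : X.Normal := Subgroup.normalizer_eq_top_iff.mp h3
  have h4 : X ≤ M.normalCore := Subgroup.normal_le_normalCore.mpr hXM
  rw [hcore] at h4
  exact le_bot_iff.mp h4

theorem le_of_sup_eq_top {M N Y : Subgroup G} [N.Normal] (hNM : N ⊔ M = ⊤) (hNY : N ≤ Y)
    (hYM : Y ⊓ M = ⊥) : Y ≤ N := by
  intro y hy
  have h1 : y ∈ N ⊔ M := hNM ▸ Subgroup.mem_top y
  obtain ⟨n, hn, m, hm, rfl⟩ := Subgroup.mem_sup_of_normal_left.mp h1
  have h2 : m ∈ Y ⊓ M := by
    refine Subgroup.mem_inf.mpr ⟨?_, hm⟩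
    have : m = n⁻¹ * (n * m) := by group
    rw [this]
    exact mul_mem (inv_mem (hNY hn)) hy
  rw [hYM, Subgroup.mem_bot] at h2
  rw [h2, mul_one]
  exact hn

structure Cfg (p : ℕ) (L M : Subgroup G) : Prop where
  normal : L.Normal
  pgroup : IsPGroup p L
  ne_bot : L ≠ ⊥
  max : ∀ N : Subgroup G, N.Normal → IsPGroup p N → N ≤ L
  coatom : IsCoatom M
  core : M.normalCore = ⊥

namespace Cfg

variable {p : ℕ} [Fact p.Prime] {L M : Subgroup G} [Finite G]

omit [Fact p.Prime] [Finite G] in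
theorem sup_eq_top (h : Cfg p L M) (N : Subgroup G) [N.Normal] (hN : N ≠ ⊥) : N ⊔ M = ⊤ := by
  apply h.coatom.2
  rcases lt_or_eq_of_le (le_sup_right : M ≤ N ⊔ M) with h1 | h1
  · exact h1
  · exfalso
    apply hN
    have h2 : N ≤ M := by
      have : N ≤ N ⊔ M := le_sup_left
      rwa [← h1] at this
    have h3 : N ≤ M.normalCore := Subgroup.normal_le_normalCore.mpr h2
    rw [h.core] at h3
    exact le_bot_iff.mp h3

theorem center_ne_bot (h : Cfg p L M) : L ⊓ Subgroup.centralizer (L : Set G) ≠ ⊥ := by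
  have hnt : Nontrivial ↥L := (Subgroup.nontrivial_iff_ne_bot L).mpr h.ne_bot
  have hcn := h.pgroup.center_nontrivial
  obtain ⟨⟨z, hz⟩, hz1⟩ := exists_ne (1 : Subgroup.center ↥L)
  intro hbot
  apply hz1
  have h1 : (z : G) ∈ L ⊓ Subgroup.centralizer (L : Set G) := by
    refine Subgroup.mem_inf.mpr ⟨z.2, ?_⟩
    rw [Subgroup.mem_centralizer_iff]
    intro y hy
    exact congrArg Subtype.val (Subgroup.mem_center_iff.mp hz ⟨y, hy⟩)
  rw [hbot, Subgroup.mem_bot] at h1
  exact Subtype.ext (Subtype.ext h1)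

theorem inf_eq_bot (h : Cfg p L M) : L ⊓ M = ⊥ := by
  haveI := h.normal
  have hZ := h.sup_eq_top (L ⊓ Subgroup.centralizer (L : Set G)) h.center_ne_bot
  refine eq_bot_of_normalized h.core hZ inf_le_right ?_ ?_
  · intro m hm x hx
    exact Subgroup.mem_inf.mpr ⟨h.normal.conj_mem x (Subgroup.mem_inf.mp hx).1 m,
      mul_mem (mul_mem hm (Subgroup.mem_inf.mp hx).2) (inv_mem hm)⟩
  · intro n hn x hx
    exact (Subgroup.mem_centralizer_iff.mp (Subgroup.mem_inf.mp hn).2 x
      (Subgroup.mem_inf.mp hx).1).symm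

theorem le_of_normal (h : Cfg p L M) (N : Subgroup G) [N.Normal] (hN : N ≠ ⊥) (hNL : N ≤ L) :
    L ≤ N :=
  le_of_sup_eq_top (h.sup_eq_top N hN) hNL h.inf_eq_bot

theorem abelian (h : Cfg p L M) : L ≤ Subgroup.centralizer (L : Set G) := by
  haveI := h.normal
  exact (h.le_of_normal _ h.center_ne_bot inf_le_left).trans inf_le_right

theorem sup_top (h : Cfg p L M) : L ⊔ M = ⊤ := by
  haveI := h.normal
  exact h.sup_eq_top L h.ne_bot

theorem complement (h : Cfg p L M) : Subgroup.IsComplement' L M := by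
  haveI := h.normal
  apply Subgroup.isComplement'_of_disjoint_and_mul_eq_univ (disjoint_iff.mpr h.inf_eq_bot)
  rw [← Subgroup.normal_mul, h.sup_top, Subgroup.coe_top]

theorem centralizer_eq (h : Cfg p L M) : Subgroup.centralizer (L : Set G) = L := by
  haveI := h.normal
  apply le_antisymm _ h.abelian
  apply le_of_sup_eq_top h.sup_top h.abelian
  refine eq_bot_of_normalized h.core h.sup_top inf_le_right ?_ ?_
  · intro m hm x hx
    exact Subgroup.mem_inf.mpr
      ⟨(inferInstance : (Subgroup.centralizer (L : Set G)).Normal).conj_mem x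
        (Subgroup.mem_inf.mp hx).1 m,
      mul_mem (mul_mem hm (Subgroup.mem_inf.mp hx).2) (inv_mem hm)⟩
  · intro n hn x hx
    exact Subgroup.mem_centralizer_iff.mp (Subgroup.mem_inf.mp hx).1 n hn

theorem exponent (h : Cfg p L M) : ∀ a ∈ L, a ^ p = 1 := by
  haveI := h.normal
  have hp : p.Prime := Fact.out
  let K : Subgroup G :=
    { carrier := {x | x ∈ L ∧ x ^ p = 1}
      one_mem' := ⟨one_mem _, one_pow _⟩
      mul_mem' := by
        rintro x y ⟨hx, hx1⟩ ⟨hy, hy1⟩
        refine ⟨mul_mem hx hy, ?_⟩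
        have hc : Commute x y := (Subgroup.mem_centralizer_iff.mp (h.abelian hy) x hx)
        rw [hc.mul_pow, hx1, hy1, one_mul]
      inv_mem' := by
        rintro x ⟨hx, hx1⟩
        exact ⟨inv_mem hx, by rw [inv_pow, hx1, inv_one]⟩ }
  have hKn : K.Normal := by
    refine ⟨fun x hx g => ⟨h.normal.conj_mem x hx.1 g, ?_⟩⟩
    rw [conj_pow, hx.2]
    group
  have hKL : K ≤ L := fun x hx => hx.1
  have hK : K ≠ ⊥ := by
    have hnt : Nontrivial ↥L := (Subgroup.nontrivial_iff_ne_bot L).mpr h.ne_bot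
    obtain ⟨n, hn⟩ := IsPGroup.iff_card.mp h.pgroup
    have hn0 : n ≠ 0 := by
      rintro rfl
      rw [pow_zero] at hn
      have := Finite.one_lt_card (α := ↥L)
      omega
    have hdvd : p ∣ Nat.card ↥L := by
      rw [hn]
      exact dvd_pow_self p hn0
    obtain ⟨x, hx⟩ := exists_prime_orderOf_dvd_card' p hdvd
    intro hbot
    have h1 : (x : G) ∈ K := by
      refine ⟨x.2, ?_⟩
      have : x ^ p = 1 := by
        rw [← hx]
        exact pow_orderOf_eq_one x
      exact congrArg Subtype.val this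
    rw [hbot, Subgroup.mem_bot] at h1
    have h2 : x = 1 := Subtype.ext h1
    rw [h2, orderOf_one] at hx
    exact hp.one_lt.ne hx
  intro a ha
  exact (h.le_of_normal K hK hKL ha).2

/-- the `q`-part -/
theorem qpart (h : Cfg p L M) (q : ℕ) [Fact q.Prime] (Q : Subgroup G) (hQM : Q ≤ M) (hQ : Q ≠ ⊥)
    (hQq : IsPGroup q Q) (hMQ : ∀ m ∈ M, ∀ x ∈ Q, m * x * m⁻¹ ∈ Q) :
    Nat.card L % q = 1 % q ∧ q ≠ p := by
  haveI := h.normal
  have hqp : q ≠ p := by
    rintro rfl
    have hLQp : IsPGroup q (L ⊔ Q : Subgroup G) := IsPGroup.to_sup_of_normal_left h.pgroup hQq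
    have h1 : L ≤ Subgroup.normalizer ((L ⊔ Q : Subgroup G) : Set G) :=
      le_sup_left.trans Subgroup.le_normalizer
    have h2 : M ≤ Subgroup.normalizer ((L ⊔ Q : Subgroup G) : Set G) := by
      apply le_normalizer_of_conj
      intro m hm x hx
      obtain ⟨l, hl, y, hy, rfl⟩ := Subgroup.mem_sup_of_normal_left.mp hx
      have : m * (l * y) * m⁻¹ = (m * l * m⁻¹) * (m * y * m⁻¹) := by group
      rw [this]
      exact mul_mem (Subgroup.mem_sup_left (h.normal.conj_mem l hl m))
        (Subgroup.mem_sup_right (hMQ m hm y hy))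
    have h3 : Subgroup.normalizer ((L ⊔ Q : Subgroup G) : Set G) = ⊤ :=
      top_le_iff.mp (h.sup_top ▸ sup_le h1 h2)
    have h4 : (L ⊔ Q : Subgroup G).Normal := Subgroup.normalizer_eq_top_iff.mp h3
    have h5 : Q ≤ L := le_sup_right.trans (h.max _ h4 hLQp)
    have h6 : Q ≤ L ⊓ M := le_inf h5 hQM
    rw [h.inf_eq_bot] at h6
    exact hQ (le_bot_iff.mp h6)
  refine ⟨?_, hqp⟩
  -- `C_L(Q) = 1`
  have hC : L ⊓ Subgroup.centralizer (Q : Set G) = ⊥ := by
    by_contra hne
    have hCn : (L ⊓ Subgroup.centralizer (Q : Set G)).Normal := by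
      have h1 : L ≤ Subgroup.normalizer ((L ⊓ Subgroup.centralizer (Q : Set G) : Subgroup G) : Set G) := by
        apply le_normalizer_of_conj
        intro l hl x hx
        have : l * x * l⁻¹ = x := by
          rw [← Subgroup.mem_centralizer_iff.mp (h.abelian hl) x (Subgroup.mem_inf.mp hx).1]
          group
        rw [this]
        exact hx
      have h2 : M ≤ Subgroup.normalizer ((L ⊓ Subgroup.centralizer (Q : Set G) : Subgroup G) : Set G) := by
        apply le_normalizer_of_conj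
        intro m hm x hx
        refine Subgroup.mem_inf.mpr ⟨h.normal.conj_mem x (Subgroup.mem_inf.mp hx).1 m, ?_⟩
        rw [Subgroup.mem_centralizer_iff]
        intro y hy
        have hy' : m⁻¹ * y * m⁻¹⁻¹ ∈ Q := hMQ m⁻¹ (inv_mem hm) y hy
        have hc := Subgroup.mem_centralizer_iff.mp (Subgroup.mem_inf.mp hx).2 _ hy'
        calc y * (m * x * m⁻¹) = m * ((m⁻¹ * y * m⁻¹⁻¹) * x) * m⁻¹ := by group
          _ = m * (x * (m⁻¹ * y * m⁻¹⁻¹)) * m⁻¹ := by rw [hc]
          _ = m * x * m⁻¹ * y := by group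
      exact Subgroup.normalizer_eq_top_iff.mp (top_le_iff.mp (h.sup_top ▸ sup_le h1 h2))
    have h3 : L ≤ Subgroup.centralizer (Q : Set G) :=
      (h.le_of_normal _ hne inf_le_left).trans inf_le_right
    have h4 : Q ≤ Subgroup.centralizer (L : Set G) := by
      intro y hy
      rw [Subgroup.mem_centralizer_iff]
      intro x hx
      exact (Subgroup.mem_centralizer_iff.mp (h3 hx) y hy).symm
    rw [h.centralizer_eq] at h4
    have h6 : Q ≤ L ⊓ M := le_inf h4 hQM
    rw [h.inf_eq_bot] at h6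
    exact hQ (le_bot_iff.mp h6)
  letI : MulAction ↥Q ↥L := MulAction.compHom ↥L ((MulAut.conjNormal (H := L)).comp Q.subtype)
  have hmod := hQq.card_modEq_card_fixedPoints ↥L
  have hfix : MulAction.fixedPoints ↥Q ↥L = {1} := by
    ext x
    simp only [MulAction.mem_fixedPoints, Set.mem_singleton_iff]
    constructor
    · intro hx
      have h1 : (x : G) ∈ L ⊓ Subgroup.centralizer (Q : Set G) := by
        refine Subgroup.mem_inf.mpr ⟨x.2, ?_⟩
        rw [Subgroup.mem_centralizer_iff]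
        intro y hy
        have h2 := hx ⟨y, hy⟩
        have h3 : y * (x : G) * y⁻¹ = x := congrArg Subtype.val h2
        calc y * (x : G) = y * x * y⁻¹ * y := by group
          _ = x * y := by rw [h3]
      rw [hC, Subgroup.mem_bot] at h1
      exact Subtype.ext h1
    · rintro rfl y
      apply Subtype.ext
      change (y : G) * ((1 : ↥L) : G) * (y : G)⁻¹ = ((1 : ↥L) : G)
      simp
  rw [hfix] at hmod
  simpa [Nat.ModEq] using hmod

end Cfg

theorem main (p : ℕ) [Fact p.Prime] [Finite G] (hL : Cfsg.pCore p G ≠ ⊥) (M : Subgroup G)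
    (hM : IsCoatom M) (hcore : M.normalCore = ⊥) :
    Cfg p (Cfsg.pCore p G) M where
  normal := by
    haveI := Cfsg.Agent.Helper3.pCore_characteristic p G
    infer_instance
  pgroup := Cfsg.Agent.Helper3.pCore_isPGroup p G
  ne_bot := hL
  max := fun N hN hNp => le_sSup ⟨hN, hNp⟩
  coatom := hM
  core := hcore

end Cfsg.Agent.Helper8.CoreFree
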