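import Mathlib
import Cfsg.Prelude.Def_Transfer
import Cfsg.Agent.Lead.PGroupFrattini

namespace Cfsg.Agent.Helper8.InvCount

open scoped BigOperators commutatorElement

theorem sum_hom (H : Type*) [Group H] [Fintype H] (f : H → ℤ)
    (hmul : ∀ x y, f (x * y) = f x * f y) (hpm : ∀ x, f x = 1 ∨ f x = -1) :
    (∑ x, f x = Fintype.card H ∧ ∀ x, f x = 1) ∨ ∑ x, f x = 0 := by
  by_cases h : ∀ x, f x = 1
  · left
    refine ⟨?_, h⟩
    simp [h]
  · right
    push_neg at h
    obtain ⟨x0, hx0⟩ := h
    have h1 : f x0 = -1 := by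
      rcases hpm x0 with h | h
      · exact absurd h hx0
      · exact h
    have h2 : ∑ x, f x = ∑ x, f (x0 * x) :=
      (Fintype.sum_equiv (Equiv.mulLeft x0) (fun x => f (x0 * x)) (fun x => f x) (fun x => rfl)).symm
    have h3 : ∑ x, f (x0 * x) = - ∑ x, f x := by
      rw [← Finset.sum_neg_distrib]
      refine Finset.sum_congr rfl (fun x _ => ?_)
      rw [hmul, h1]; ring
    linarith

variable {G : Type*} [Group G] [Finite G]

theorem central_of_card_two (N : Subgroup G) [N.Normal] (h : Nat.card N = 2) :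
    N ≤ Subgroup.center G := by
  classical
  obtain ⟨z, hz1, hzu⟩ := (Nat.card_eq_two_iff' (1 : N)).mp h
  have hzne : (z : G) ≠ 1 := fun h => hz1 (Subtype.ext h)
  have hN2 : ∀ g ∈ N, g = 1 ∨ g = (z : G) := by
    intro g hg
    by_cases h : g = 1
    · exact Or.inl h
    · right
      have := hzu ⟨g, hg⟩ (fun h' => h (by simpa using congrArg Subtype.val h'))
      exact congrArg Subtype.val this
  intro u hu
  rw [Subgroup.mem_center_iff]
  intro g
  rcases hN2 u hu with rfl | rfl
  · simp
  · have hn : g * z * g⁻¹ ∈ N := (inferInstance : N.Normal).conj_mem _ z.2 g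
    rcases hN2 _ hn with h | h
    · exfalso; apply hzne
      have : (z : G) = g⁻¹ * (g * z * g⁻¹) * g := by group
      rw [this, h]; group
    · calc g * z = g * z * g⁻¹ * g := by group
        _ = z * g := by rw [h]

theorem not_all_sq (hΦ : Nat.card (frattini G) = 2) : ¬ ∀ x : G, x ^ 2 = 1 := by
  intro hall
  classical
  obtain ⟨z, hz1, hzu⟩ := (Nat.card_eq_two_iff' (1 : frattini G)).mp hΦ
  have hzne : (z : G) ≠ 1 := fun h => hz1 (Subtype.ext h)
  have hinv : ∀ x : G, x⁻¹ = x := fun x => by
    have := hall x; rw [pow_two] at this; exact inv_eq_of_mul_eq_one_left this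
  have hab : ∀ x y : G, x * y = y * x := by
    intro x y
    calc x * y = (x * y)⁻¹ := (hinv _).symm
      _ = y⁻¹ * x⁻¹ := mul_inv_rev x y
      _ = y * x := by rw [hinv, hinv]
  have hsq : ∀ x : G, x * x = 1 := fun x => by have := hall x; rwa [pow_two] at this
  obtain ⟨H, hzH, hmax⟩ := Set.exists_max_image {H : Subgroup G | (z : G) ∉ H}
    (fun H => Nat.card H) (Set.toFinite _) ⟨⊥, by simpa using hzne⟩
  have htop : H ⊔ frattini G = ⊤ := by
    rw [eq_top_iff]
    intro g _
    by_contra hg
    have hgH : g ∉ H := fun h => hg (Subgroup.mem_sup_left h)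
    let K : Subgroup G :=
      { carrier := {x | x ∈ H ∨ x * g ∈ H}
        one_mem' := Or.inl H.one_mem
        mul_mem' := by
          intro a b ha hb
          rcases ha with ha | ha <;> rcases hb with hb | hb
          · exact Or.inl (H.mul_mem ha hb)
          · right
            have : a * b * g = a * (b * g) := by group
            rw [this]; exact H.mul_mem ha hb
          · right
            have : a * b * g = (a * g) * b := by
              rw [mul_assoc, hab b g, ← mul_assoc]
            rw [this]; exact H.mul_mem ha hb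
          · left
            have : a * b = (a * g) * (b * g) := by
              calc a * b = a * (g * g) * b := by rw [hsq]; group
                _ = a * g * (g * b) := by group
                _ = (a * g) * (b * g) := by rw [hab g b]
            rw [this]; exact H.mul_mem ha hb
        inv_mem' := by
          intro a ha
          rw [hinv]; exact ha }
    have hHK : H ≤ K := fun x hx => Or.inl hx
    have hgK : g ∈ K := Or.inr (by rw [hsq]; exact H.one_mem)
    have hzK : (z : G) ∈ K := by
      by_contra hzK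
      have h1 := hmax K hzK
      have h2 : H = K := Subgroup.eq_of_le_of_card_ge hHK h1
      exact hgH (h2 ▸ hgK)
    rcases hzK with h | h
    · exact hzH h
    · apply hg
      have : g = (z * g) * z := by
        rw [hab (z : G) g, mul_assoc, hsq, mul_one]
      rw [this]
      exact Subgroup.mul_mem_sup h z.2
  have := frattini_nongenerating htop
  rw [this] at hzH
  exact hzH (Subgroup.mem_top _)

theorem key (hG : IsPGroup 2 G) (hΦ : Nat.card (frattini G) = 2) :
    ∃ S : ℤ, (S = 2 * (Nat.card {x : G // x ^ 2 = 1} : ℤ) - Nat.card G) ∧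
      (S = 0 ∨ (S * S = Nat.card G * Nat.card (Subgroup.center G) ∧
        ∀ w ∈ Subgroup.center G, w ^ 2 = 1)) := by
  classical
  haveI : Fact (Nat.Prime 2) := ⟨Nat.prime_two⟩
  letI : Fintype G := Fintype.ofFinite G
  obtain ⟨z, hz1, hzu⟩ := (Nat.card_eq_two_iff' (1 : frattini G)).mp hΦ
  have hΦ2 : ∀ g ∈ frattini G, g = 1 ∨ g = (z : G) := by
    intro g hg
    by_cases h : g = 1
    · exact Or.inl h
    · right
      have := hzu ⟨g, hg⟩ (fun h' => h (by simpa using congrArg Subtype.val h'))
      exact congrArg Subtype.val this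
  have hzne : (z : G) ≠ 1 := fun h => hz1 (Subtype.ext h)
  have hzz : (z : G) * z = 1 := by
    rcases hΦ2 _ (mul_mem z.2 z.2) with h | h
    · exact h
    · exfalso; apply hzne; simpa using h
  have hΦc : ∀ u ∈ frattini G, ∀ g : G, g * u = u * g := fun u hu g =>
    Subgroup.mem_center_iff.mp (central_of_card_two (frattini G) hΦ hu) g
  set ε : G → ℤ := fun g => if g = 1 then 1 else -1 with hε
  have hεmul : ∀ u ∈ frattini G, ∀ v ∈ frattini G, ε (u * v) = ε u * ε v := by
    intro u hu v hv
    rcases hΦ2 u hu with rfl | rfl <;> rcases hΦ2 v hv with rfl | rfl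
    · simp [hε]
    · simp [hε]
    · simp [hε]
    · simp [hε, hzz, hzne]
  have hεpm : ∀ g, ε g = 1 ∨ ε g = -1 := by
    intro g; simp only [hε]; split_ifs
    · exact Or.inl rfl
    · exact Or.inr rfl
  have hsq : ∀ x : G, x ^ 2 ∈ frattini G :=
    fun x => Cfsg.Agent.Lead.pow_mem_frattini_of_isPGroup 2 hG x
  have hcomm : ∀ x w : G, x⁻¹ * w * x * w⁻¹ ∈ frattini G := by
    intro x w
    apply Cfsg.Agent.Lead.commutator_le_frattini_of_isPGroup 2 hG
    rw [commutator_def]
    have : x⁻¹ * w * x * w⁻¹ = ⁅x⁻¹, w⁆ := by rw [commutatorElement_def]; group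
    rw [this]
    exact Subgroup.commutator_mem_commutator (Subgroup.mem_top _) (Subgroup.mem_top _)
  set χ : G → ℤ := fun x => ε (x ^ 2) with hχ
  have hxw : ∀ x w : G, χ (x * w) = χ x * ε (x⁻¹ * w * x * w⁻¹) * χ w := by
    intro x w
    have h1 : (x * w) ^ 2 = x ^ 2 * (x⁻¹ * w * x * w⁻¹) * w ^ 2 := by
      rw [pow_two, pow_two, pow_two]; group
    simp only [hχ]
    rw [h1, hεmul _ (mul_mem (hsq x) (hcomm x w)) _ (hsq w), hεmul _ (hsq x) _ (hcomm x w)]
  have hχχ : ∀ x, χ x * χ x = 1 := by
    intro x; rcases hεpm (x ^ 2) with h | h <;> simp [hχ, h]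
  have hchom : ∀ w x y : G, ε ((x * y)⁻¹ * w * (x * y) * w⁻¹) =
      ε (x⁻¹ * w * x * w⁻¹) * ε (y⁻¹ * w * y * w⁻¹) := by
    intro w x y
    rw [← hεmul _ (hcomm x w) _ (hcomm y w)]
    congr 1
    have := hΦc _ (hcomm x w) (y⁻¹)
    calc (x * y)⁻¹ * w * (x * y) * w⁻¹ = y⁻¹ * (x⁻¹ * w * x * w⁻¹) * w * y * w⁻¹ := by group
      _ = (x⁻¹ * w * x * w⁻¹) * y⁻¹ * w * y * w⁻¹ := by rw [this]
      _ = _ := by group
  have hcardpos : (0:ℤ) < Fintype.card G := by exact_mod_cast Fintype.card_pos
  have hinner : ∀ w : G, ∑ x : G, ε (x⁻¹ * w * x * w⁻¹) =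
      if w ∈ Subgroup.center G then (Fintype.card G : ℤ) else 0 := by
    intro w
    rcases sum_hom G (fun x => ε (x⁻¹ * w * x * w⁻¹)) (hchom w) (fun x => hεpm _) with ⟨h1, h2⟩ | h1
    · have : w ∈ Subgroup.center G := by
        rw [Subgroup.mem_center_iff]
        intro g
        have h3 := h2 g⁻¹
        simp only [hε] at h3
        have h4 : g⁻¹⁻¹ * w * g⁻¹ * w⁻¹ = 1 := by
          by_contra h5; rw [if_neg h5] at h3; norm_num at h3
        calc g * w = (g⁻¹⁻¹ * w * g⁻¹ * w⁻¹) * w * g := by group
          _ = w * g := by rw [h4]; group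
      rw [if_pos this, h1]
    · have : w ∉ Subgroup.center G := by
        intro hw
        rw [Subgroup.mem_center_iff] at hw
        have h5 : ∀ x : G, ε (x⁻¹ * w * x * w⁻¹) = 1 := by
          intro x
          have : x⁻¹ * w * x * w⁻¹ = 1 := by
            have := hw x
            calc x⁻¹ * w * x * w⁻¹ = x⁻¹ * (w * x) * w⁻¹ := by group
              _ = x⁻¹ * (x * w) * w⁻¹ := by rw [this]
              _ = 1 := by group
          simp [hε, this]
        rw [Finset.sum_congr rfl (fun x _ => h5 x)] at h1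
        have h6 : (∑ x : G, (1:ℤ)) = Fintype.card G := by simp
        rw [h6] at h1
        omega
      rw [if_neg this, h1]
  set S : ℤ := ∑ x : G, χ x with hS
  have hSS : S * S = Fintype.card G * ∑ w : Subgroup.center G, χ (w : G) := by
    calc S * S = ∑ x : G, ∑ y : G, χ x * χ y := by rw [hS, Finset.sum_mul_sum]
      _ = ∑ x : G, ∑ w : G, χ x * χ (x * w) := by
          refine Finset.sum_congr rfl (fun x _ => ?_)
          exact (Fintype.sum_equiv (Equiv.mulLeft x) (fun w => χ x * χ (x * w))
            (fun y => χ x * χ y) (fun w => rfl)).symm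
      _ = ∑ x : G, ∑ w : G, ε (x⁻¹ * w * x * w⁻¹) * χ w := by
          refine Finset.sum_congr rfl (fun x _ => Finset.sum_congr rfl (fun w _ => ?_))
          rw [hxw, ← mul_assoc, ← mul_assoc, hχχ, one_mul]
      _ = ∑ w : G, ∑ x : G, ε (x⁻¹ * w * x * w⁻¹) * χ w := Finset.sum_comm
      _ = ∑ w : G, (if w ∈ Subgroup.center G then (Fintype.card G : ℤ) * χ w else 0) := by
          refine Finset.sum_congr rfl (fun w _ => ?_)
          rw [← Finset.sum_mul, hinner]
          split_ifs <;> simp
      _ = ∑ w ∈ Finset.univ.filter (· ∈ Subgroup.center G), (Fintype.card G : ℤ) * χ w := by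
          rw [Finset.sum_filter]
      _ = ∑ w : Subgroup.center G, (Fintype.card G : ℤ) * χ (w : G) :=
          Finset.sum_subtype _ (fun x => by simp) _
      _ = _ := by rw [Finset.mul_sum]
  have hZ : (∑ w : Subgroup.center G, χ (w : G) = Fintype.card (Subgroup.center G) ∧
      ∀ w : Subgroup.center G, χ (w : G) = 1) ∨ ∑ w : Subgroup.center G, χ (w : G) = 0 := by
    apply sum_hom (Subgroup.center G) (fun w => χ (w : G))
    · intro u v
      simp only [hχ]
      have : ((u * v : Subgroup.center G) : G) ^ 2 = (u : G) ^ 2 * (v : G) ^ 2 := by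
        have := Subgroup.mem_center_iff.mp v.2 u
        push_cast
        rw [pow_two, pow_two, pow_two]
        calc (u:G) * v * (u * v) = u * (v * u) * v := by group
          _ = u * (u * v) * v := by rw [← this]
          _ = _ := by group
      rw [this, hεmul _ (hsq _) _ (hsq _)]
    · intro w; exact hεpm _
  have hSj : S = 2 * (Nat.card {x : G // x ^ 2 = 1} : ℤ) - Nat.card G := by
    have h1 : ∀ x : G, χ x = 2 * (if x ^ 2 = 1 then (1:ℤ) else 0) - 1 := by
      intro x; simp only [hχ, hε]; split_ifs <;> norm_num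
    rw [hS, Finset.sum_congr rfl (fun x _ => h1 x), Finset.sum_sub_distrib, ← Finset.mul_sum]
    have h2 : (∑ x : G, (if x ^ 2 = 1 then (1:ℤ) else 0)) =
        (Nat.card {x : G // x ^ 2 = 1} : ℤ) := by
      rw [Nat.card_eq_fintype_card, Fintype.card_subtype]
      simp
    rw [h2]
    simp [Nat.card_eq_fintype_card]
  refine ⟨S, hSj, ?_⟩
  rcases hZ with ⟨h1, h2⟩ | h1
  · right
    refine ⟨?_, ?_⟩
    · rw [hSS, h1]; simp [Nat.card_eq_fintype_card]
    · intro w hw
      have := h2 ⟨w, hw⟩
      simp only [hχ, hε] at this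
      by_contra h; rw [if_neg h] at this; norm_num at this
  · left
    have : S * S = 0 := by rw [hSS, h1, mul_zero]
    exact mul_self_eq_zero.mp this

theorem main (hG : IsPGroup 2 G) (hΦ : Nat.card (frattini G) = 2) (d : ℕ)
    (hd : (frattini G).index = 2 ^ d) :
    (Nat.card {x : G // x ^ 2 = 1} = 2 ^ d ∨ ∃ r : ℕ, 1 ≤ r ∧ 2 * r ≤ d ∧
      (Nat.card {x : G // x ^ 2 = 1} = 2 ^ d + 2 ^ (d - r) ∨
        Nat.card {x : G // x ^ 2 = 1} + 2 ^ (d - r) = 2 ^ d)) ∧
    (∀ r : ℕ, d = 2 * r → (Nat.card {x : G // x ^ 2 = 1} = 2 ^ d + 2 ^ r ∨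
      Nat.card {x : G // x ^ 2 = 1} + 2 ^ r = 2 ^ d) → Cfsg.IsExtraspecial 2 G) := by
  classical
  haveI : Fact (Nat.Prime 2) := ⟨Nat.prime_two⟩
  have hN : Nat.card G = 2 * 2 ^ d := by rw [← Subgroup.card_mul_index (frattini G), hΦ, hd]
  obtain ⟨S, hSj, hS⟩ := key hG hΦ
  generalize hj : Nat.card {x : G // x ^ 2 = 1} = j at hSj ⊢
  obtain ⟨c, hc⟩ := IsPGroup.iff_card.mp (hG.to_subgroup (Subgroup.center G))
  have hΦZ : frattini G ≤ Subgroup.center G := central_of_card_two (frattini G) hΦ
  have hc1 : 1 ≤ c := by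
    by_contra h
    have : c = 0 := by omega
    rw [this, pow_zero] at hc
    have := Subgroup.card_le_of_le hΦZ
    omega
  refine ⟨?_, ?_⟩
  · rcases hS with h0 | ⟨hSS, hall⟩
    · left
      have : (j : ℤ) = 2 ^ d := by
        rw [h0, hN] at hSj; push_cast at hSj; linarith
      exact_mod_cast this
    · have hcne : c ≠ d + 1 := by
        intro hcd
        have h1 : Nat.card (Subgroup.center G) = Nat.card G := by
          rw [hc, hN, hcd, pow_succ, mul_comm]
        have h2 : Subgroup.center G = ⊤ := (Subgroup.card_eq_iff_eq_top _).mp h1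
        exact not_all_sq hΦ (fun x => hall x (h2 ▸ Subgroup.mem_top x))
      have hcle : c ≤ d + 1 := by
        have h1 : 2 ^ c ∣ 2 ^ (d + 1) := by
          rw [pow_succ, mul_comm, ← hN, ← hc]; exact Subgroup.card_subgroup_dvd_card _
        exact (Nat.pow_dvd_pow_iff_le_right (by norm_num)).mp h1
      have hnat : S.natAbs * S.natAbs = 2 ^ (d + 1 + c) := by
        have : ((S.natAbs * S.natAbs : ℕ) : ℤ) = ((2 ^ (d + 1 + c) : ℕ) : ℤ) := by
          push_cast
          rw [abs_mul_abs_self, hSS, hN, hc]; push_cast; ring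
        exact_mod_cast this
      obtain ⟨m, hm, hSm⟩ := (Nat.dvd_prime_pow Nat.prime_two).mp (Dvd.intro _ hnat)
      have h2m : m + m = d + 1 + c := by
        rw [hSm, ← pow_add] at hnat
        exact Nat.pow_right_injective (le_refl 2) hnat
      have hm1 : 1 ≤ m := by omega
      have hmd : m ≤ d := by omega
      refine Or.inr ⟨d + 1 - m, by omega, by omega, ?_⟩
      have hdr : d - (d + 1 - m) = m - 1 := by omega
      rw [hdr]
      have h2m' : (2:ℤ) ^ m = 2 * 2 ^ (m - 1) := by
        rw [← pow_succ']; congr 1; omega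
      rcases Int.natAbs_eq S with h | h
      · left
        have : (j : ℤ) = 2 ^ d + 2 ^ (m - 1) := by
          rw [hSm] at h; push_cast at h; rw [hN] at hSj; push_cast at hSj; linarith
        exact_mod_cast this
      · right
        have : (j : ℤ) + 2 ^ (m - 1) = 2 ^ d := by
          rw [hSm] at h; push_cast at h; rw [hN] at hSj; push_cast at hSj; linarith
        exact_mod_cast this
  · intro r hdr hjr
    have hSr : S = 2 * 2 ^ r ∨ S = -(2 * 2 ^ r) := by
      rw [hN] at hSj; push_cast at hSj
      rcases hjr with h | h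
      · left
        have : (j : ℤ) = 2 ^ d + 2 ^ r := by exact_mod_cast h
        linarith
      · right
        have : (j : ℤ) + 2 ^ r = 2 ^ d := by exact_mod_cast h
        linarith
    have hSsq : S * S = 4 * 2 ^ d := by
      have : (2:ℤ) ^ d = 2 ^ r * 2 ^ r := by rw [hdr, two_mul, pow_add]
      rcases hSr with h | h <;> rw [h, this] <;> ring
    have hpos : (0:ℤ) < 2 ^ d := by positivity
    rcases hS with h0 | ⟨hSS, hall⟩
    · exfalso; rw [h0] at hSsq; linarith
    · have hcard : Nat.card (Subgroup.center G) = 2 := by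
        rw [hN] at hSS; push_cast at hSS
        have h1 : (2:ℤ) * 2 ^ d * (Nat.card (Subgroup.center G) : ℤ) = 2 * 2 ^ d * 2 := by
          linarith
        have h2 := mul_left_cancel₀ (by positivity : (2:ℤ) * 2 ^ d ≠ 0) h1
        exact_mod_cast h2
      have hZΦ : frattini G = Subgroup.center G :=
        Subgroup.eq_of_le_of_card_ge hΦZ (by rw [hcard, hΦ])
      have hcomle : commutator G ≤ frattini G :=
        Cfsg.Agent.Lead.commutator_le_frattini_of_isPGroup 2 hG
      have hcomne : commutator G ≠ ⊥ := by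
        intro hbot
        have h1 : Subgroup.center G = ⊤ := (commutator_eq_bot_iff_center_eq_top G).mp hbot
        have h2 : frattini G = ⊤ := hZΦ.trans h1
        have h3 : (⊥ : Subgroup G) = ⊤ := frattini_nongenerating (by rw [h2]; simp)
        have h4 : Nat.card (⊥ : Subgroup G) = Nat.card (⊤ : Subgroup G) := by rw [h3]
        rw [Subgroup.card_bot, Subgroup.card_top, hN] at h4
        have : 0 < 2 ^ d := by positivity
        omega
      have hcomcard : Nat.card (commutator G) = 2 := by
        have h1 : Nat.card (commutator G) ∣ 2 := by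
          rw [← hΦ]; exact Subgroup.card_dvd_of_le hcomle
        have h2 : Nat.card (commutator G) ≠ 1 := fun h => hcomne (Subgroup.card_eq_one.mp h)
        rcases (Nat.dvd_prime Nat.prime_two).mp h1 with h | h
        · exact absurd h h2
        · exact h
      have hcomΦ : commutator G = frattini G :=
        Subgroup.eq_of_le_of_card_ge hcomle (by rw [hcomcard, hΦ])
      exact ⟨⟨hG, hZΦ, hcomΦ.trans hZΦ⟩, hcard⟩

end Cfsg.Agent.Helper8.InvCount
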