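import Mathlib
import Cfsg.Prelude.Def_Transfer
import Cfsg.Agent.Lead.PGroupFrattini
import Cfsg.Agent.Helper5.Frattini
import Cfsg.Agent.Helper8.InvCount

namespace Cfsg.Agent.Helper8.Extra2

open scoped BigOperators commutatorElement

universe u v

/-- A group with a central involution `z` such that all squares and commutators lie in `{1, z}`
and the centre is `{1, z}`. -/
structure ES (E : Type*) [Group E] (z : E) : Prop where
  zne : z ≠ 1
  zz : z * z = 1
  zc : ∀ g : E, g * z = z * g
  sq : ∀ g : E, g * g = 1 ∨ g * g = z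
  comm : ∀ g h : E, g * h = h * g ∨ g * h = z * (h * g)
  cent : ∀ g : E, (∀ h, g * h = h * g) → g = 1 ∨ g = z

theorem zmod2_cases (a : ZMod 2) : a = 0 ∨ a = 1 := by
  revert a; decide

theorem zmod2_add_self (a : ZMod 2) : a + a = 0 := by
  revert a; decide

section pw

variable {E : Type*} [Group E]

/-- `pw x a = x ^ a` for `a : ZMod 2`. -/
def pw (x : E) (a : ZMod 2) : E := if a = 0 then 1 else x

@[simp] theorem pw_zero (x : E) : pw x 0 = 1 := by simp [pw]

@[simp] theorem pw_one (x : E) : pw x 1 = x := by
  have : (1 : ZMod 2) ≠ 0 := by decide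
  simp [pw, this]

theorem pw_add {x : E} (hx : x * x = 1) (a b : ZMod 2) : pw x (a + b) = pw x a * pw x b := by
  rcases zmod2_cases a with rfl | rfl <;> rcases zmod2_cases b with rfl | rfl
  · simp
  · simp
  · simp
  · have : (1 : ZMod 2) + 1 = 0 := by decide
    rw [this, pw_zero, pw_one, hx]

theorem pw_inj {x : E} (hx : x ≠ 1) {a b : ZMod 2} (h : pw x a = pw x b) : a = b := by
  rcases zmod2_cases a with rfl | rfl <;> rcases zmod2_cases b with rfl | rfl
  · rfl
  · simp at h; exact absurd h.symm hx
  · simp at h; exact absurd h hx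
  · rfl

theorem pw_comm {x g : E} (h : g * x = x * g) (a : ZMod 2) : g * pw x a = pw x a * g := by
  rcases zmod2_cases a with rfl | rfl
  · simp
  · simpa using h

end pw

/-- the sign character of `ZMod 2` -/
def eps (k : ZMod 2) : ℤ := if k = 0 then 1 else -1

theorem eps_add (a b : ZMod 2) : eps (a + b) = eps a * eps b := by
  revert a b; decide

theorem eps_pm (a : ZMod 2) : eps a = 1 ∨ eps a = -1 := by
  revert a; decide

@[simp] theorem eps_zero : eps 0 = 1 := rfl

@[simp] theorem eps_one : eps 1 = -1 := by decide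

section basic

variable {E : Type*} [Group E]

open Classical in
/-- `sqv g = 0` iff `g * g = 1` -/
noncomputable def sqv (g : E) : ZMod 2 := if g * g = 1 then 0 else 1

open Classical in
/-- `kap w g = 0` iff `g` and `w` commute -/
noncomputable def kap (w g : E) : ZMod 2 := if g * w = w * g then 0 else 1

theorem sqv_zero_iff (g : E) : sqv g = 0 ↔ g * g = 1 := by
  unfold sqv
  split_ifs with h
  · simp [h]
  · simp [h]

theorem kap_zero_iff (w g : E) : kap w g = 0 ↔ g * w = w * g := by
  unfold kap
  split_ifs with h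
  · simp [h]
  · simp [h]

theorem kap_symm (w g : E) : kap w g = kap g w := by
  unfold kap
  by_cases h : g * w = w * g
  · rw [if_pos h, if_pos h.symm]
  · rw [if_neg h, if_neg (fun h' => h h'.symm)]

theorem kap_self (g : E) : kap g g = 0 := by simp [kap]

variable {z : E}

theorem sq_eq (h : ES E z) (g : E) : g * g = pw z (sqv g) := by
  unfold sqv
  split_ifs with h1
  · simp [h1]
  · rcases h.sq g with h2 | h2
    · exact absurd h2 h1
    · simp [h2]

theorem kap_eq (h : ES E z) (w g : E) : g * w = pw z (kap w g) * (w * g) := by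
  unfold kap
  split_ifs with h1
  · simp [h1]
  · rcases h.comm g w with h2 | h2
    · exact absurd h2 h1
    · simp [h2]

theorem pwz_comm (h : ES E z) (a : ZMod 2) (g : E) : g * pw z a = pw z a * g :=
  pw_comm (h.zc g) a

theorem kap_mul (h : ES E z) (w g k : E) : kap w (g * k) = kap w g + kap w k := by
  apply pw_inj h.zne
  rw [pw_add h.zz]
  have h1 := kap_eq h w (g * k)
  have h2 := kap_eq h w g
  have h3 := kap_eq h w k
  have h4 : g * k * w = pw z (kap w g) * pw z (kap w k) * (w * (g * k)) := by
    calc g * k * w = g * (k * w) := by rw [mul_assoc]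
      _ = g * (pw z (kap w k) * (w * k)) := by rw [h3]
      _ = pw z (kap w k) * (g * w) * k := by
          rw [← mul_assoc g, pwz_comm h]; simp only [mul_assoc]
      _ = pw z (kap w k) * (pw z (kap w g) * (w * g)) * k := by rw [h2]
      _ = pw z (kap w g) * pw z (kap w k) * (w * (g * k)) := by
          rw [← mul_assoc (pw z (kap w k)), ← pwz_comm h (kap w k) (pw z (kap w g))]
          simp only [mul_assoc]
  rw [h1] at h4
  exact mul_right_cancel h4

theorem sqv_mul (h : ES E z) (g k : E) : sqv (g * k) = sqv g + sqv k + kap g k := by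
  apply pw_inj h.zne
  rw [pw_add h.zz, pw_add h.zz, ← sq_eq h, ← sq_eq h, ← sq_eq h]
  have h3 := kap_eq h g k
  calc g * k * (g * k) = g * (k * g) * k := by simp only [mul_assoc]
    _ = g * (pw z (kap g k) * (g * k)) * k := by rw [h3]
    _ = g * g * (k * k) * pw z (kap g k) := by
        rw [pwz_comm h (kap g k) (g * g * (k * k)), ← mul_assoc g, pwz_comm h]
        simp only [mul_assoc]

theorem kap_one (w : E) : kap w 1 = 0 := by
  rw [kap_zero_iff]; simp

theorem kap_inv (h : ES E z) (w g : E) : kap w g⁻¹ = kap w g := by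
  have h1 := kap_mul h w g g⁻¹
  rw [mul_inv_cancel, kap_one] at h1
  have h2 := zmod2_add_self (kap w g)
  have h3 : kap w g⁻¹ = kap w g⁻¹ + (kap w g + kap w g) := by rw [h2, add_zero]
  rw [h3, ← add_assoc, add_comm (kap w g⁻¹), ← h1, zero_add]

theorem sqv_one : sqv (1 : E) = 0 := by
  rw [sqv_zero_iff]; simp

theorem sqv_z (h : ES E z) : sqv z = 0 := by
  rw [sqv_zero_iff]; exact h.zz

theorem central_iff (h : ES E z) (w : E) : (∀ g, g * w = w * g) ↔ (w = 1 ∨ w = z) := by
  constructor
  · intro hw
    exact h.cent w (fun g => (hw g).symm)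
  · rintro (rfl | rfl) g
    · simp
    · exact h.zc g

end basic

section sums

variable {E : Type*} [Group E] [Fintype E] {z : E}

theorem sum_kap [DecidableEq E] (h : ES E z) (w : E) :
    ∑ g : E, eps (kap w g) = if (w = 1 ∨ w = z) then (Fintype.card E : ℤ) else 0 := by
  have hpos : (0 : ℤ) < Fintype.card E := by exact_mod_cast Fintype.card_pos
  rcases InvCount.sum_hom E (fun g => eps (kap w g))
    (fun g k => by rw [kap_mul h, eps_add]) (fun g => eps_pm _) with ⟨h1, h2⟩ | h1
  · have hw : w = 1 ∨ w = z := by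
      rw [← central_iff h]
      intro g
      rw [← kap_zero_iff]
      have := h2 g
      rcases zmod2_cases (kap w g) with h3 | h3
      · exact h3
      · simp only [h3, eps_one] at this; norm_num at this
    rw [if_pos hw, h1]
  · have hw : ¬ (w = 1 ∨ w = z) := by
      intro hw
      rw [← central_iff h] at hw
      have h5 : ∀ g : E, eps (kap w g) = 1 := by
        intro g
        rw [(kap_zero_iff w g).mpr (hw g)]; rfl
      rw [Finset.sum_congr rfl (fun g _ => h5 g)] at h1
      have h6 : (∑ g : E, (1 : ℤ)) = Fintype.card E := by simp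
      rw [h6] at h1
      omega
    rw [if_neg hw, h1]

theorem sum_sq (h : ES E z) :
    (∑ g : E, eps (sqv g)) * (∑ g : E, eps (sqv g)) = 2 * (Fintype.card E : ℤ) := by
  classical
  have hee : ∀ a : ZMod 2, eps a * eps a = 1 := by decide
  calc (∑ g : E, eps (sqv g)) * (∑ g : E, eps (sqv g))
      = ∑ g : E, ∑ k : E, eps (sqv g) * eps (sqv k) := by rw [Finset.sum_mul_sum]
    _ = ∑ g : E, ∑ w : E, eps (sqv g) * eps (sqv (g * w)) := by
        refine Finset.sum_congr rfl (fun g _ => ?_)
        exact (Fintype.sum_equiv (Equiv.mulLeft g) (fun w => eps (sqv g) * eps (sqv (g * w)))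
          (fun k => eps (sqv g) * eps (sqv k)) (fun w => rfl)).symm
    _ = ∑ g : E, ∑ w : E, eps (kap w g) * eps (sqv w) := by
        refine Finset.sum_congr rfl (fun g _ => Finset.sum_congr rfl (fun w _ => ?_))
        rw [sqv_mul h, eps_add, eps_add, kap_symm g w]
        have := hee (sqv g)
        calc eps (sqv g) * (eps (sqv g) * eps (sqv w) * eps (kap w g))
            = (eps (sqv g) * eps (sqv g)) * (eps (kap w g) * eps (sqv w)) := by ring
          _ = _ := by rw [this, one_mul]
    _ = ∑ w : E, ∑ g : E, eps (kap w g) * eps (sqv w) := Finset.sum_comm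
    _ = ∑ w : E, (if (w = 1 ∨ w = z) then (Fintype.card E : ℤ) * eps (sqv w) else 0) := by
        refine Finset.sum_congr rfl (fun w _ => ?_)
        rw [← Finset.sum_mul, sum_kap h]
        split_ifs <;> simp
    _ = ∑ w ∈ ({1, z} : Finset E), (Fintype.card E : ℤ) * eps (sqv w) := by
        rw [← Finset.sum_filter]
        congr 1
        ext w; simp
    _ = 2 * (Fintype.card E : ℤ) := by
        rw [Finset.sum_pair (Ne.symm h.zne), sqv_one, sqv_z h]
        simp; ring

end sums

/-- `Sval E = (#{g : g² = 1}) - (#{g : g² ≠ 1})` -/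
noncomputable def Sval (E : Type*) [Group E] : ℤ :=
  2 * (Nat.card {g : E // g * g = 1} : ℤ) - Nat.card E

theorem Sval_eq_sum {E : Type*} [Group E] [Fintype E] :
    Sval E = ∑ g : E, eps (sqv g) := by
  classical
  have h1 : ∀ g : E, eps (sqv g) = 2 * (if g * g = 1 then (1:ℤ) else 0) - 1 := by
    intro g
    by_cases hg : g * g = 1
    · rw [(sqv_zero_iff g).mpr hg, if_pos hg]; simp
    · rw [if_neg hg]
      have : sqv g = 1 := by
        rcases zmod2_cases (sqv g) with h | h
        · exact absurd ((sqv_zero_iff g).mp h) hg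
        · exact h
      rw [this]; simp
  rw [Finset.sum_congr rfl (fun g _ => h1 g), Finset.sum_sub_distrib, ← Finset.mul_sum]
  have h2 : (∑ g : E, (if g * g = 1 then (1:ℤ) else 0)) = (Nat.card {g : E // g * g = 1} : ℤ) := by
    rw [Nat.card_eq_fintype_card, Fintype.card_subtype]
    simp
  rw [h2]
  simp [Sval, Nat.card_eq_fintype_card]

theorem Sval_sq {E : Type*} [Group E] [Finite E] {z : E} (h : ES E z) :
    Sval E * Sval E = 2 * (Nat.card E : ℤ) := by
  classical
  letI : Fintype E := Fintype.ofFinite E
  rw [Sval_eq_sum, sum_sq h, Nat.card_eq_fintype_card]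

end Cfsg.Agent.Helper8.Extra2
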