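import Cfsg.Agent.Helper8.Extra2

namespace Cfsg.Agent.Helper8.Extra2

open scoped BigOperators

section decomp

variable {E : Type*} [Group E] {z : E}

/-- the centralizer of `x` and `y` -/
def E1 (x y : E) : Subgroup E := Subgroup.centralizer ({x, y} : Set E)

theorem mem_E1 (x y e : E) : e ∈ E1 x y ↔ e * x = x * e ∧ e * y = y * e := by
  unfold E1
  rw [Subgroup.mem_centralizer_iff]
  constructor
  · intro h
    exact ⟨(h x (by simp)).symm, (h y (by simp)).symm⟩
  · rintro ⟨h1, h2⟩ w hw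
    rcases hw with rfl | rfl
    · exact h1.symm
    · exact h2.symm

theorem z_mem_E1 (h : ES E z) (x y : E) : z ∈ E1 x y := by
  rw [mem_E1]; exact ⟨(h.zc x).symm, (h.zc y).symm⟩

/-- the parametrization -/
def Phi (x y : E) (p : ZMod 2 × ZMod 2 × E1 x y) : E := pw x p.1 * pw y p.2.1 * (p.2.2 : E)

theorem sqv_coe (x y : E) (e : E1 x y) : sqv e = sqv (e : E) := by
  unfold sqv
  by_cases h1 : e * e = 1
  · rw [if_pos h1, if_pos (by simpa using congrArg Subtype.val h1)]
  · rw [if_neg h1, if_neg (fun h2 => h1 (Subtype.ext (by simpa using h2)))]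

variable (h : ES E z) (x y : E) (hyx : y * x = z * (x * y))
include h hyx

theorem kap_x_y : kap x y = 1 := by
  rcases zmod2_cases (kap x y) with h1 | h1
  · exfalso
    rw [kap_zero_iff] at h1
    rw [h1] at hyx
    exact h.zne (by simpa using hyx.symm)
  · exact h1

theorem kap_y_x : kap y x = 1 := by rw [kap_symm]; exact kap_x_y h x y hyx

theorem kap_x_pw_y (b : ZMod 2) : kap x (pw y b) = b := by
  rcases zmod2_cases b with rfl | rfl
  · rw [pw_zero, kap_one]
  · rw [pw_one, kap_x_y h x y hyx]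

theorem kap_y_pw_x (a : ZMod 2) : kap y (pw x a) = a := by
  rcases zmod2_cases a with rfl | rfl
  · rw [pw_zero, kap_one]
  · rw [pw_one, kap_y_x h x y hyx]

omit h hyx in
theorem kap_x_pw_x (a : ZMod 2) : kap x (pw x a) = 0 := by
  rcases zmod2_cases a with rfl | rfl
  · rw [pw_zero, kap_one]
  · rw [pw_one, kap_self]

omit h hyx in
theorem kap_x_E1 (e : E1 x y) : kap x (e : E) = 0 := by
  rw [kap_zero_iff]; exact ((mem_E1 x y e).mp e.2).1

omit h hyx in
theorem kap_y_E1 (e : E1 x y) : kap y (e : E) = 0 := by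
  rw [kap_zero_iff]; exact ((mem_E1 x y e).mp e.2).2

theorem kap_x_Phi (p : ZMod 2 × ZMod 2 × E1 x y) : kap x (Phi x y p) = p.2.1 := by
  unfold Phi
  rw [kap_mul h, kap_mul h, kap_x_pw_x, kap_x_pw_y h x y hyx, kap_x_E1]; simp

theorem kap_y_Phi (p : ZMod 2 × ZMod 2 × E1 x y) : kap y (Phi x y p) = p.1 := by
  unfold Phi
  rw [kap_mul h, kap_mul h, kap_y_pw_x h x y hyx, kap_x_pw_x, kap_y_E1]; simp

theorem Phi_injective : Function.Injective (Phi x y) := by
  rintro ⟨a, b, e⟩ ⟨c, d, e'⟩ hpq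
  have h1 := congrArg (kap x) hpq
  have h2 := congrArg (kap y) hpq
  rw [kap_x_Phi h x y hyx, kap_x_Phi h x y hyx] at h1
  rw [kap_y_Phi h x y hyx, kap_y_Phi h x y hyx] at h2
  simp only at h1 h2
  subst h1 h2
  unfold Phi at hpq
  simp only at hpq
  have h3 : (e : E) = e' := mul_left_cancel hpq
  have h4 : e = e' := Subtype.ext h3
  rw [h4]

theorem Phi_surjective : Function.Surjective (Phi x y) := by
  intro g
  have he : (pw x (kap y g) * pw y (kap x g))⁻¹ * g ∈ E1 x y := by
    rw [mem_E1, ← kap_zero_iff, ← kap_zero_iff, kap_mul h, kap_mul h, kap_inv h, kap_inv h,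
      kap_mul h, kap_mul h, kap_x_pw_x, kap_x_pw_y h x y hyx, kap_y_pw_x h x y hyx, kap_x_pw_x]
    constructor
    · rw [zero_add]; exact zmod2_add_self _
    · rw [add_zero]; exact zmod2_add_self _
  refine ⟨(kap y g, kap x g, ⟨_, he⟩), ?_⟩
  unfold Phi
  simp only
  group

theorem es_E1 : ES (E1 x y) ⟨z, z_mem_E1 h x y⟩ where
  zne := fun h1 => h.zne (congrArg Subtype.val h1)
  zz := Subtype.ext h.zz
  zc := fun g => Subtype.ext (h.zc g)
  sq := fun g => by
    rcases h.sq g with h1 | h1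
    · exact Or.inl (Subtype.ext h1)
    · exact Or.inr (Subtype.ext h1)
  comm := fun g k => by
    rcases h.comm g k with h1 | h1
    · exact Or.inl (Subtype.ext h1)
    · exact Or.inr (Subtype.ext h1)
  cent := fun g hg => by
    have hg1 := (mem_E1 x y g).mp g.2
    have hall : ∀ k : E, (g : E) * k = k * g := by
      intro k
      obtain ⟨⟨a, b, e⟩, rfl⟩ := Phi_surjective h x y hyx k
      unfold Phi
      simp only
      have h1 := pw_comm hg1.1 a
      have h2 := pw_comm hg1.2 b
      have h3 : (g : E) * e = e * g := congrArg Subtype.val (hg e)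
      calc (g : E) * (pw x a * pw y b * e) = pw x a * (g * pw y b) * e := by
            rw [← mul_assoc, ← mul_assoc, h1]; simp only [mul_assoc]
        _ = pw x a * pw y b * (g * e) := by rw [h2]; simp only [mul_assoc]
        _ = pw x a * pw y b * e * g := by rw [h3]; simp only [mul_assoc]
    rcases h.cent g hall with h1 | h1
    · exact Or.inl (Subtype.ext h1)
    · exact Or.inr (Subtype.ext h1)

theorem card_E1 [Finite E] : Nat.card E = 4 * Nat.card (E1 x y) := by
  rw [← Nat.card_congr (Equiv.ofBijective (Phi x y)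
    ⟨Phi_injective h x y hyx, Phi_surjective h x y hyx⟩), Nat.card_prod, Nat.card_prod,
    Nat.card_zmod]
  ring

theorem sqv_Phi (p : ZMod 2 × ZMod 2 × E1 x y) :
    sqv (Phi x y p) = (sqv x * p.1 + sqv y * p.2.1 + p.1 * p.2.1) + sqv (p.2.2 : E) := by
  obtain ⟨a, b, e⟩ := p
  unfold Phi
  simp only
  have h1 : sqv (pw x a) = sqv x * a := by
    rcases zmod2_cases a with rfl | rfl
    · rw [pw_zero, sqv_one, mul_zero]
    · rw [pw_one, mul_one]
  have h2 : sqv (pw y b) = sqv y * b := by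
    rcases zmod2_cases b with rfl | rfl
    · rw [pw_zero, sqv_one, mul_zero]
    · rw [pw_one, mul_one]
  have h3 : kap (pw x a) (pw y b) = a * b := by
    rcases zmod2_cases a with rfl | rfl
    · rw [pw_zero, kap_symm, kap_one, zero_mul]
    · rw [pw_one, kap_x_pw_y h x y hyx, one_mul]
  have h4 : kap (pw x a * pw y b) (e : E) = 0 := by
    rw [kap_symm, kap_mul h, (kap_zero_iff _ _).mpr (pw_comm ((mem_E1 x y e).mp e.2).1 a).symm,
      (kap_zero_iff _ _).mpr (pw_comm ((mem_E1 x y e).mp e.2).2 b).symm, add_zero]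
  rw [sqv_mul h, sqv_mul h, h1, h2, h3, h4, add_zero]

theorem Sval_decomp [Finite E] : Sval E =
    (∑ a : ZMod 2, ∑ b : ZMod 2, eps (sqv x * a + sqv y * b + a * b)) * Sval (E1 x y) := by
  classical
  letI : Fintype E := Fintype.ofFinite E
  letI : Fintype (E1 x y) := Fintype.ofFinite _
  rw [Sval_eq_sum, Sval_eq_sum]
  rw [← Fintype.sum_equiv (Equiv.ofBijective (Phi x y)
    ⟨Phi_injective h x y hyx, Phi_surjective h x y hyx⟩) (fun p => eps (sqv (Phi x y p)))
    (fun g => eps (sqv g)) (fun p => rfl)]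
  rw [Fintype.sum_prod_type, Finset.sum_mul]
  refine Finset.sum_congr rfl (fun a _ => ?_)
  rw [Fintype.sum_prod_type, Finset.sum_mul]
  refine Finset.sum_congr rfl (fun b _ => ?_)
  rw [Finset.mul_sum]
  refine Finset.sum_congr rfl (fun e _ => ?_)
  rw [sqv_Phi h x y hyx, eps_add, sqv_coe]

end decomp

theorem c00 : (∑ a : ZMod 2, ∑ b : ZMod 2, eps (0 * a + 0 * b + a * b)) = 2 := by decide

theorem c11 : (∑ a : ZMod 2, ∑ b : ZMod 2, eps (1 * a + 1 * b + a * b)) = -2 := by decide

end Cfsg.Agent.Helper8.Extra2
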