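import Cfsg.Agent.Helper8.Extra2Model

namespace Cfsg.Agent.Helper8.Extra2

open scoped BigOperators commutatorElement

theorem extraspecial_of_es {E : Type*} [Group E] [Finite E] {z : E} (h : ES E z)
    (hnc : ∃ g k : E, g * k ≠ k * g) : Cfsg.IsExtraspecial 2 E := by
  classical
  haveI : Fact (Nat.Prime 2) := ⟨Nat.prime_two⟩
  have hP := es_isPGroup h
  have hzc : z ∈ Subgroup.center E := by
    rw [Subgroup.mem_center_iff]; exact h.zc
  have hcen : ∀ g ∈ Subgroup.center E, g = 1 ∨ g = z := by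
    intro g hg
    rw [Subgroup.mem_center_iff] at hg
    exact h.cent g (fun k => (hg k).symm)
  have hcard : Nat.card (Subgroup.center E) = 2 := by
    rw [Nat.card_eq_two_iff]
    refine ⟨1, ⟨z, hzc⟩, ?_, ?_⟩
    · intro h1; exact h.zne (congrArg Subtype.val h1).symm
    · ext ⟨g, hg⟩
      simp only [Set.mem_insert_iff, Set.mem_singleton_iff, Set.mem_univ, iff_true]
      rcases hcen g hg with h1 | h1
      · left; exact Subtype.ext h1
      · right; exact Subtype.ext h1
  have hcomm_le : commutator E ≤ Subgroup.center E := by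
    rw [commutator_def, Subgroup.commutator_le]
    intro g _ k _
    rcases h.comm g k with h1 | h1
    · have : ⁅g, k⁆ = 1 := by rw [commutatorElement_def, h1]; group
      rw [this]; exact Subgroup.one_mem _
    · have : ⁅g, k⁆ = z := by rw [commutatorElement_def, h1]; group
      rw [this]; exact hzc
  have hcomm_ge : Subgroup.center E ≤ commutator E := by
    obtain ⟨g, k, hgk⟩ := hnc
    have hz : z ∈ commutator E := by
      have h1 : g * k = z * (k * g) := by
        rcases h.comm g k with h1 | h1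
        · exact absurd h1 hgk
        · exact h1
      have : ⁅g, k⁆ = z := by rw [commutatorElement_def, h1]; group
      rw [← this, commutator_def]
      exact Subgroup.commutator_mem_commutator (Subgroup.mem_top g) (Subgroup.mem_top k)
    intro w hw
    rcases hcen w hw with rfl | rfl
    · exact Subgroup.one_mem _
    · exact hz
  have hcomm : commutator E = Subgroup.center E := le_antisymm hcomm_le hcomm_ge
  have hfrat : frattini E = Subgroup.center E := by
    apply le_antisymm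
    · apply Cfsg.Agent.Helper5.frattini_le_of_elementary_quotient Nat.prime_two
      · intro a b
        rcases h.comm a b with h1 | h1
        · have : a * b * a⁻¹ * b⁻¹ = 1 := by rw [h1]; group
          rw [this]; exact Subgroup.one_mem _
        · have : a * b * a⁻¹ * b⁻¹ = z := by rw [h1]; group
          rw [this]; exact hzc
      · intro a
        rw [pow_two]
        rcases h.sq a with h1 | h1
        · rw [h1]; exact Subgroup.one_mem _
        · rw [h1]; exact hzc
    · rw [← hcomm]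
      exact Cfsg.Agent.Lead.commutator_le_frattini_of_isPGroup 2 hP
  exact ⟨⟨hP, hfrat, hcomm⟩, hcard⟩

theorem es_c2 : ES (Multiplicative (ZMod 2)) (Multiplicative.ofAdd 1) where
  zne := by decide
  zz := by decide
  zc := fun g => mul_comm _ _
  sq := by decide
  comm := fun g k => Or.inl (mul_comm _ _)
  cent := fun g _ => by revert g; decide

theorem card_c2 : Nat.card (Multiplicative (ZMod 2)) = 2 := by
  rw [Nat.card_congr Multiplicative.toAdd, Nat.card_zmod]

theorem sval_c2 : Sval (Multiplicative (ZMod 2)) = 2 := by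
  rw [sval_of_no_inv es_c2 (by decide), card_c2]; norm_num

theorem exists_plus : ∀ m : ℕ, ∃ (E : Type) (_ : Group E) (_ : Finite E) (z : E),
    ES E z ∧ Nat.card E = 2 ^ (2 * m + 1) ∧ Sval E = 2 ^ (m + 1) := by
  intro m
  induction m with
  | zero =>
    exact ⟨Multiplicative (ZMod 2), inferInstance, inferInstance, _, es_c2,
      by rw [card_c2]; norm_num, by rw [sval_c2]; norm_num⟩
  | succ m ih =>
    obtain ⟨E1, _, _, z, h, hc, hS⟩ := ih
    refine ⟨TP h 0 0, inferInstance, inferInstance, ⟨0, 0, z⟩, TP.es_tp, ?_, ?_⟩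
    · rw [TP.card_tp, hc, show 2 * (m + 1) + 1 = (2 * m + 1) + 2 by ring, pow_add]; ring
    · rw [TP.sval_tp, d00, hS, pow_succ]; ring

theorem exists_models (n : ℕ) (hn : 1 ≤ n) :
    (∃ (E : Type) (_ : Group E) (_ : Finite E) (z : E), ES E z ∧
      Nat.card E = 2 ^ (2 * n + 1) ∧ Sval E = 2 ^ (n + 1) ∧ ∃ g k : E, g * k ≠ k * g) ∧
    (∃ (E : Type) (_ : Group E) (_ : Finite E) (z : E), ES E z ∧
      Nat.card E = 2 ^ (2 * n + 1) ∧ Sval E = -2 ^ (n + 1) ∧ ∃ g k : E, g * k ≠ k * g) := by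
  obtain ⟨m, rfl⟩ : ∃ m, n = m + 1 := ⟨n - 1, by omega⟩
  obtain ⟨E1, _, _, z, h, hc, hS⟩ := exists_plus m
  have hcard : 4 * 2 ^ (2 * m + 1) = 2 ^ (2 * (m + 1) + 1) := by
    rw [show 2 * (m + 1) + 1 = (2 * m + 1) + 2 by ring, pow_add]; ring
  refine ⟨⟨TP h 0 0, inferInstance, inferInstance, ⟨0, 0, z⟩, TP.es_tp, ?_, ?_, TP.noncomm_tp⟩,
    ⟨TP h 1 1, inferInstance, inferInstance, ⟨0, 0, z⟩, TP.es_tp, ?_, ?_, TP.noncomm_tp⟩⟩
  · rw [TP.card_tp, hc, hcard]
  · rw [TP.sval_tp, d00, hS, pow_succ]; ring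
  · rw [TP.card_tp, hc, hcard]
  · rw [TP.sval_tp, d11, hS, pow_succ]; ring

theorem main5396 (n : ℕ) (hn : 1 ≤ n) : ∀ r ∈ ({n, n + 1} : Set ℕ),
    ∃ (E : Type) (_ : Group E) (_ : Finite E), Cfsg.IsExtraspecial 2 E ∧
      Nat.card E = 2 ^ (2 * n + 1) ∧
      sSup {k : ℕ | ∃ A : Subgroup E, Cfsg.IsElementaryAbelian 2 A ∧ Nat.card A = 2 ^ k} = r := by
  intro r hr
  obtain ⟨⟨Ep, _, _, zp, hp, hcp, hSp, hncp⟩, ⟨Em, _, _, zm, hm, hcm, hSm, hncm⟩⟩ :=
    exists_models n hn
  have hpos : (0:ℤ) < 2 ^ (n + 1) := by positivity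
  rcases hr with h1 | h1
  · rw [h1]
    refine ⟨Em, inferInstance, inferInstance, extraspecial_of_es hm hncm, hcm, ?_⟩
    have hneg : Sval Em < 0 := by rw [hSm]; linarith
    apply IsGreatest.csSup_eq
    constructor
    · obtain ⟨A, hAc, hAsq, hAcard⟩ := (exists_elab n Em zm hm hcm).2 hneg
      exact ⟨A, ⟨⟨⟨fun a b => Subtype.ext (hAc a a.2 b b.2)⟩⟩,
        fun a ha => by rw [pow_two]; exact hAsq a ha⟩, hAcard⟩
    · rintro k ⟨A, ⟨hAc, hAsq⟩, hAcard⟩
      have := (prank_le_iff hm hcm).mpr hneg A hAc hAsq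
      rw [hAcard] at this
      exact (Nat.pow_le_pow_iff_right (by norm_num)).mp this
  · rw [h1]
    refine ⟨Ep, inferInstance, inferInstance, extraspecial_of_es hp hncp, hcp, ?_⟩
    have hposS : 0 < Sval Ep := by rw [hSp]; exact hpos
    apply IsGreatest.csSup_eq
    constructor
    · obtain ⟨A, hAc, hAsq, hAcard⟩ := (exists_elab n Ep zp hp hcp).1 hposS
      exact ⟨A, ⟨⟨⟨fun a b => Subtype.ext (hAc a a.2 b b.2)⟩⟩,
        fun a ha => by rw [pow_two]; exact hAsq a ha⟩, hAcard⟩
    · rintro k ⟨A, ⟨hAc, hAsq⟩, hAcard⟩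
      have := prank_le_succ hp hcp A hAc hAsq
      rw [hAcard] at this
      exact (Nat.pow_le_pow_iff_right (by norm_num)).mp this

end Cfsg.Agent.Helper8.Extra2
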