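import Cfsg.Agent.Helper8.Extra2Dec

namespace Cfsg.Agent.Helper8.Extra2

open scoped BigOperators

universe u v

theorem tp_formula {E : Type*} [Group E] (x y z : E) (α β : ZMod 2)
    (hzz : z * z = 1) (hzc : ∀ g : E, g * z = z * g) (hyx : y * x = z * (x * y))
    (hxx : x * x = pw z α) (hyy : y * y = pw z β)
    (e e' : E) (hex : e * x = x * e) (hey : e * y = y * e) (a b c d : ZMod 2) :
    (pw x a * pw y b * e) * (pw x c * pw y d * e') =
      pw x (a + c) * pw y (b + d) * (pw z (b * c + α * a * c + β * b * d) * e * e') := by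
  have zc : ∀ (s : ZMod 2) (g : E), g * pw z s = pw z s * g := fun s g => pw_comm (hzc g) s
  have lc : ∀ (s : ZMod 2) (g r : E), g * (pw z s * r) = pw z s * (g * r) := fun s g r => by
    rw [← mul_assoc, zc s g, mul_assoc]
  have h11 : (1 : ZMod 2) + 1 = 0 := by decide
  have h1 : pw y b * pw x c = pw z (b * c) * (pw x c * pw y b) := by
    rcases zmod2_cases b with rfl | rfl <;> rcases zmod2_cases c with rfl | rfl
    · simp
    · simp
    · simp
    · simp [hyx]
  have h2 : pw x a * pw x c = pw z (α * a * c) * pw x (a + c) := by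
    rcases zmod2_cases a with rfl | rfl <;> rcases zmod2_cases c with rfl | rfl
    · simp
    · simp
    · simp
    · simp [hxx, h11]
  have h3 : pw y b * pw y d = pw z (β * b * d) * pw y (b + d) := by
    rcases zmod2_cases b with rfl | rfl <;> rcases zmod2_cases d with rfl | rfl
    · simp
    · simp
    · simp
    · simp [hyy, h11]
  have h4 : e * (pw x c * pw y d) = (pw x c * pw y d) * e := by
    rw [← mul_assoc, pw_comm hex c, mul_assoc, pw_comm hey d, ← mul_assoc]
  calc (pw x a * pw y b * e) * (pw x c * pw y d * e')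
      = pw x a * pw y b * (e * (pw x c * pw y d)) * e' := by simp only [mul_assoc]
    _ = pw x a * (pw y b * pw x c) * pw y d * e * e' := by rw [h4]; simp only [mul_assoc]
    _ = pw x a * (pw z (b * c) * (pw x c * pw y b)) * pw y d * e * e' := by rw [h1]
    _ = pw z (b * c) * (pw x a * pw x c) * (pw y b * pw y d) * e * e' := by
        rw [lc (b * c) (pw x a)]; simp only [mul_assoc]
    _ = pw z (b * c) * (pw z (α * a * c) * pw x (a + c)) *
          (pw z (β * b * d) * pw y (b + d)) * e * e' := by rw [h2, h3]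
    _ = pw z (b * c) * (pw z (α * a * c) * (pw x (a + c) *
          (pw z (β * b * d) * (pw y (b + d) * (e * e'))))) := by simp only [mul_assoc]
    _ = pw z (b * c) * (pw z (α * a * c) * (pw z (β * b * d) *
          (pw x (a + c) * (pw y (b + d) * (e * e'))))) := by rw [lc (β * b * d) (pw x (a + c))]
    _ = (pw z (b * c) * pw z (α * a * c) * pw z (β * b * d)) *
          (pw x (a + c) * (pw y (b + d) * (e * e'))) := by simp only [mul_assoc]
    _ = pw z (b * c + α * a * c + β * b * d) *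
          (pw x (a + c) * (pw y (b + d) * (e * e'))) := by rw [← pw_add hzz, ← pw_add hzz]
    _ = pw x (a + c) * (pw y (b + d) * (pw z (b * c + α * a * c + β * b * d) * (e * e'))) := by
        rw [lc (b * c + α * a * c + β * b * d) (pw y (b + d)) (e * e'),
          lc (b * c + α * a * c + β * b * d) (pw x (a + c))]
    _ = _ := by simp only [mul_assoc]

theorem pwz_mem_E1 {E : Type*} [Group E] {z : E} (h : ES E z) (x y : E) (s : ZMod 2) :
    pw z s ∈ E1 x y := by
  rcases zmod2_cases s with rfl | rfl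
  · rw [pw_zero]; exact (E1 x y).one_mem
  · rw [pw_one]; exact z_mem_E1 h x y

theorem tp_iso {E : Type u} [Group E] {E' : Type v} [Group E'] {z : E} {z' : E'}
    (h : ES E z) (h' : ES E' z') (x y : E) (x' y' : E')
    (hyx : y * x = z * (x * y)) (hyx' : y' * x' = z' * (x' * y'))
    (hx : sqv x = sqv x') (hy : sqv y = sqv y')
    (φ : E1 x y ≃* E1 x' y') : Nonempty (E ≃* E') := by
  have hes := es_E1 h x y hyx
  have hes' := es_E1 h' x' y' hyx'
  have hφz : (φ ⟨z, z_mem_E1 h x y⟩ : E') = z' := by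
    have hc : ∀ k : E1 x' y', φ ⟨z, z_mem_E1 h x y⟩ * k = k * φ ⟨z, z_mem_E1 h x y⟩ := by
      intro k
      obtain ⟨k0, rfl⟩ := φ.surjective k
      rw [← map_mul, ← map_mul, hes.zc k0]
    rcases hes'.cent _ hc with h1 | h1
    · exfalso
      have : (⟨z, z_mem_E1 h x y⟩ : E1 x y) = 1 := φ.injective (by rw [h1, map_one])
      exact hes.zne this
    · exact congrArg Subtype.val h1
  have hφs : ∀ s : ZMod 2, (φ ⟨pw z s, pwz_mem_E1 h x y s⟩ : E') = pw z' s := by
    intro s
    rcases zmod2_cases s with rfl | rfl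
    · have : (⟨pw z 0, pwz_mem_E1 h x y 0⟩ : E1 x y) = 1 := Subtype.ext (pw_zero z)
      rw [this, map_one, pw_zero]; rfl
    · have : (⟨pw z 1, pwz_mem_E1 h x y 1⟩ : E1 x y) = ⟨z, z_mem_E1 h x y⟩ :=
        Subtype.ext (pw_one z)
      rw [this, hφz, pw_one]
  let e1 := Equiv.ofBijective (Phi x y) ⟨Phi_injective h x y hyx, Phi_surjective h x y hyx⟩
  let e2 := Equiv.ofBijective (Phi x' y')
    ⟨Phi_injective h' x' y' hyx', Phi_surjective h' x' y' hyx'⟩
  let τ : ZMod 2 × ZMod 2 × E1 x y ≃ ZMod 2 × ZMod 2 × E1 x' y' :=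
    Equiv.prodCongr (Equiv.refl _) (Equiv.prodCongr (Equiv.refl _) φ.toEquiv)
  refine ⟨⟨(e1.symm.trans τ).trans e2, ?_⟩⟩
  intro g k
  obtain ⟨⟨a, b, e⟩, rfl⟩ := e1.surjective g
  obtain ⟨⟨c, d, e'⟩, rfl⟩ := e1.surjective k
  have hprod : e1 (a, b, e) * e1 (c, d, e') = e1 (a + c, b + d,
      ⟨pw z (b * c + sqv x * a * c + sqv y * b * d), pwz_mem_E1 h x y _⟩ * e * e') :=
    tp_formula x y z (sqv x) (sqv y) h.zz h.zc hyx (sq_eq h x) (sq_eq h y) e e'
      ((mem_E1 x y e).mp e.2).1 ((mem_E1 x y e).mp e.2).2 a b c d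
  show e2 (τ (e1.symm (e1 (a, b, e) * e1 (c, d, e')))) =
    e2 (τ (e1.symm (e1 (a, b, e)))) * e2 (τ (e1.symm (e1 (c, d, e'))))
  rw [hprod, Equiv.symm_apply_apply, Equiv.symm_apply_apply, Equiv.symm_apply_apply]
  show Phi x' y' (a + c, b + d, φ (⟨pw z (b * c + sqv x * a * c + sqv y * b * d),
      pwz_mem_E1 h x y _⟩ * e * e')) = Phi x' y' (a, b, φ e) * Phi x' y' (c, d, φ e')
  unfold Phi
  simp only [map_mul, Subgroup.coe_mul]
  rw [hφs, hx, hy]
  exact (tp_formula x' y' z' (sqv x') (sqv y') h'.zz h'.zc hyx' (sq_eq h' x') (sq_eq h' y')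
    (φ e) (φ e') ((mem_E1 x' y' (φ e)).mp (φ e).2).1 ((mem_E1 x' y' (φ e)).mp (φ e).2).2
    a b c d).symm

theorem es_isPGroup {E : Type*} [Group E] {z : E} (h : ES E z) : IsPGroup 2 E := by
  intro g
  refine ⟨2, ?_⟩
  have h4 : g ^ 2 ^ 2 = (g * g) * (g * g) := by
    show g ^ 4 = _
    rw [show (4 : ℕ) = 2 + 2 from rfl, pow_add, pow_two]
  rw [h4]
  rcases h.sq g with h1 | h1
  · rw [h1, one_mul]
  · rw [h1, h.zz]

theorem exists_es_of_extraspecial {E : Type*} [Group E] [Finite E]
    (hE : Cfsg.IsExtraspecial 2 E) : ∃ z : E, ES E z := by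
  classical
  haveI : Fact (Nat.Prime 2) := ⟨Nat.prime_two⟩
  obtain ⟨⟨hP, hΦ, hC⟩, hZ⟩ := hE
  obtain ⟨z, hz1, hzu⟩ := (Nat.card_eq_two_iff' (1 : Subgroup.center E)).mp hZ
  have hzne : (z : E) ≠ 1 := fun h => hz1 (Subtype.ext h)
  have hZ2 : ∀ g ∈ Subgroup.center E, g = 1 ∨ g = (z : E) := by
    intro g hg
    by_cases h : g = 1
    · exact Or.inl h
    · right
      have := hzu ⟨g, hg⟩ (fun h' => h (by simpa using congrArg Subtype.val h'))
      exact congrArg Subtype.val this
  refine ⟨z, ⟨hzne, ?_, ?_, ?_, ?_, ?_⟩⟩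
  · rcases hZ2 _ (mul_mem z.2 z.2) with h | h
    · exact h
    · exfalso; apply hzne; simpa using h
  · intro g; exact Subgroup.mem_center_iff.mp z.2 g
  · intro g
    have h1 : g ^ 2 ∈ Subgroup.center E :=
      hΦ ▸ Cfsg.Agent.Lead.pow_mem_frattini_of_isPGroup 2 hP g
    rw [pow_two] at h1
    exact hZ2 _ h1
  · intro g k
    have h1 : g * k * g⁻¹ * k⁻¹ ∈ Subgroup.center E := by
      rw [← hC, commutator_def]
      exact Subgroup.commutator_mem_commutator (Subgroup.mem_top g) (Subgroup.mem_top k)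
    rcases hZ2 _ h1 with h2 | h2
    · left
      calc g * k = (g * k * g⁻¹ * k⁻¹) * (k * g) := by group
        _ = k * g := by rw [h2, one_mul]
    · right
      calc g * k = (g * k * g⁻¹ * k⁻¹) * (k * g) := by group
        _ = z * (k * g) := by rw [h2]
  · intro g hg
    apply hZ2
    rw [Subgroup.mem_center_iff]
    intro k; exact (hg k).symm

theorem exists_noncomm_of_extraspecial {E : Type*} [Group E] [Finite E]
    (hE : Cfsg.IsExtraspecial 2 E) : ∃ g k : E, g * k ≠ k * g := by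
  by_contra hcon
  push_neg at hcon
  have h1 : Subgroup.center E = ⊤ := by
    rw [eq_top_iff]; intro g _; rw [Subgroup.mem_center_iff]; intro k; exact hcon k g
  have h2 : commutator E = ⊥ := (commutator_eq_bot_iff_center_eq_top E).mpr h1
  have h3 := hE.2
  rw [← hE.1.2.2, h2, Subgroup.card_bot] at h3
  omega

theorem sval_pm {E : Type*} [Group E] [Finite E] {z : E} (h : ES E z) :
    ∃ m : ℕ, Nat.card E = 2 ^ (2 * m + 1) ∧ (Sval E = 2 ^ (m + 1) ∨ Sval E = -2 ^ (m + 1)) := by
  haveI : Fact (Nat.Prime 2) := ⟨Nat.prime_two⟩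
  obtain ⟨k, hk⟩ := IsPGroup.iff_card.mp (es_isPGroup h)
  have hS := Sval_sq h
  have hnat : (Sval E).natAbs * (Sval E).natAbs = 2 ^ (k + 1) := by
    have : (((Sval E).natAbs * (Sval E).natAbs : ℕ) : ℤ) = ((2 ^ (k + 1) : ℕ) : ℤ) := by
      push_cast
      rw [abs_mul_abs_self, hS, hk]; push_cast; ring
    exact_mod_cast this
  obtain ⟨t, ht, hSt⟩ := (Nat.dvd_prime_pow Nat.prime_two).mp (Dvd.intro _ hnat)
  have h2t : t + t = k + 1 := by
    rw [hSt, ← pow_add] at hnat
    exact Nat.pow_right_injective (le_refl 2) hnat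
  have ht1 : 1 ≤ t := by omega
  refine ⟨t - 1, ?_, ?_⟩
  · rw [hk]; congr 1; omega
  · have h3 : t - 1 + 1 = t := by omega
    rw [h3]
    rcases Int.natAbs_eq (Sval E) with h1 | h1
    · left; rw [h1, hSt]; push_cast; ring
    · right; rw [h1, hSt]; push_cast; ring

theorem pairD {E : Type*} [Group E] {z : E} (h : ES E z) (x : E) (hx1 : x ≠ 1) (hxz : x ≠ z)
    (hxx : x * x = 1) : ∃ y, y * x = z * (x * y) ∧ y * y = 1 := by
  have hnc : ¬ ∀ k, x * k = k * x := fun hc => by
    rcases h.cent x hc with h1 | h1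
    · exact hx1 h1
    · exact hxz h1
  push_neg at hnc
  obtain ⟨k, hk⟩ := hnc
  have hkx : k * x = z * (x * k) := by
    rcases h.comm k x with h1 | h1
    · exact absurd h1.symm hk
    · exact h1
  rcases h.sq k with hkk | hkk
  · exact ⟨k, hkx, hkk⟩
  · refine ⟨x * k, ?_, ?_⟩
    · calc x * k * x = x * (k * x) := by rw [mul_assoc]
        _ = x * (z * (x * k)) := by rw [hkx]
        _ = z * (x * (x * k)) := by rw [← mul_assoc, h.zc x, mul_assoc]
    · calc x * k * (x * k) = x * (k * x) * k := by simp only [mul_assoc]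
        _ = x * (z * (x * k)) * k := by rw [hkx]
        _ = z * (x * x) * (k * k) := by rw [← mul_assoc x z, h.zc x]; simp only [mul_assoc]
        _ = 1 := by rw [hxx, hkk, mul_one, h.zz]

theorem pairQ {E : Type*} [Group E] {z : E} (h : ES E z)
    (hno : ∀ g : E, g * g = 1 → g = 1 ∨ g = z) (x : E) (hx1 : x ≠ 1) (hxz : x ≠ z) :
    ∃ y, y * x = z * (x * y) ∧ x * x = z ∧ y * y = z := by
  have hnc : ¬ ∀ k, x * k = k * x := fun hc => by
    rcases h.cent x hc with h1 | h1
    · exact hx1 h1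
    · exact hxz h1
  push_neg at hnc
  obtain ⟨k, hk⟩ := hnc
  have hkx : k * x = z * (x * k) := by
    rcases h.comm k x with h1 | h1
    · exact absurd h1.symm hk
    · exact h1
  refine ⟨k, hkx, ?_, ?_⟩
  · rcases h.sq x with h1 | h1
    · rcases hno x h1 with h2 | h2
      · exact absurd h2 hx1
      · exact absurd h2 hxz
    · exact h1
  · rcases h.sq k with h1 | h1
    · exfalso
      rcases hno k h1 with h2 | h2
      · apply hk; rw [h2]; simp
      · apply hk; rw [h2]; exact h.zc x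
    · exact h1

theorem sval_of_no_inv {E : Type*} [Group E] [Finite E] {z : E} (h : ES E z)
    (hno : ∀ g : E, g * g = 1 → g = 1 ∨ g = z) : Sval E = 4 - Nat.card E := by
  have h2 : Nat.card {g : E // g * g = 1} = 2 := by
    rw [Nat.card_eq_two_iff]
    refine ⟨⟨1, by simp⟩, ⟨z, h.zz⟩, ?_, ?_⟩
    · intro h1; exact h.zne (congrArg Subtype.val h1).symm
    · ext ⟨g, hg⟩
      simp only [Set.mem_insert_iff, Set.mem_singleton_iff, Set.mem_univ, iff_true]
      rcases hno g hg with h1 | h1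
      · left; exact Subtype.ext h1
      · right; exact Subtype.ext h1
  unfold Sval; rw [h2]; push_cast; ring

theorem sval_of_inv {E : Type*} [Group E] [Finite E] {z : E} (h : ES E z) (x : E)
    (hx1 : x ≠ 1) (hxz : x ≠ z) (hxx : x * x = 1) : 6 - (Nat.card E : ℤ) ≤ Sval E := by
  have h3 : 3 ≤ Nat.card {g : E // g * g = 1} := by
    classical
    letI : Fintype E := Fintype.ofFinite E
    rw [Nat.card_eq_fintype_card, Fintype.card_subtype]
    have hsub : ({1, z, x} : Finset E) ⊆ Finset.univ.filter (fun g => g * g = 1) := by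
      intro g hg
      simp only [Finset.mem_insert, Finset.mem_singleton] at hg
      rw [Finset.mem_filter]
      refine ⟨Finset.mem_univ _, ?_⟩
      rcases hg with rfl | rfl | rfl
      · simp
      · exact h.zz
      · exact hxx
    have hc : ({1, z, x} : Finset E).card = 3 := by
      rw [Finset.card_insert_of_notMem, Finset.card_pair hxz.symm]
      simp only [Finset.mem_insert, Finset.mem_singleton, not_or]
      exact ⟨h.zne.symm, hx1.symm⟩
    calc 3 = ({1, z, x} : Finset E).card := hc.symm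
      _ ≤ _ := Finset.card_le_card hsub
  unfold Sval
  have : (3 : ℤ) ≤ (Nat.card {g : E // g * g = 1} : ℤ) := by exact_mod_cast h3
  linarith

theorem exists_noncentral {E : Type*} [Group E] [Finite E] {z : E}
    (hcard : 2 < Nat.card E) : ∃ x : E, x ≠ 1 ∧ x ≠ z := by
  classical
  by_contra hcon
  push_neg at hcon
  letI : Fintype E := Fintype.ofFinite E
  have hsub : (Finset.univ : Finset E) ⊆ {1, z} := by
    intro g _
    simp only [Finset.mem_insert, Finset.mem_singleton]
    by_cases hg : g = 1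
    · exact Or.inl hg
    · exact Or.inr (hcon g hg)
  have := Finset.card_le_card hsub
  rw [Finset.card_univ, ← Nat.card_eq_fintype_card] at this
  have h2 : ({1, z} : Finset E).card ≤ 2 := Finset.card_le_two
  omega

theorem sqv_of_sq_z {E : Type*} [Group E] {z : E} (h : ES E z) (x : E) (hx : x * x = z) :
    sqv x = 1 := by
  rcases zmod2_cases (sqv x) with h1 | h1
  · rw [sqv_zero_iff, hx] at h1; exact absurd h1 h.zne
  · exact h1

theorem iso_aux : ∀ (m : ℕ) (E : Type u) [Group E] [Finite E] (E' : Type v) [Group E'] [Finite E']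
    (z : E) (z' : E'), ES E z → ES E' z' → Nat.card E = 2 ^ (2 * m + 1) →
    Nat.card E' = 2 ^ (2 * m + 1) → Sval E = Sval E' → Nonempty (E ≃* E') := by
  intro m
  induction m with
  | zero =>
    intro E _ _ E' _ _ z z' h h' hc hc' hS
    haveI : Fact (Nat.Prime 2) := ⟨Nat.prime_two⟩
    exact ⟨mulEquivOfPrimeCardEq (p := 2) (by simpa using hc) (by simpa using hc')⟩
  | succ m ih =>
    intro E _ _ E' _ _ z z' h h' hc hc' hS
    have hbig : 2 < Nat.card E := by
      rw [hc]
      calc 2 = 2 ^ 1 := by norm_num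
        _ < 2 ^ (2 * (m + 1) + 1) := Nat.pow_lt_pow_right (by norm_num) (by omega)
    have hbig' : 2 < Nat.card E' := by rw [hc', ← hc]; exact hbig
    have hcc : (Nat.card E : ℤ) = Nat.card E' := by rw [hc, hc']
    have hc4 : ∀ n : ℕ, 2 ^ (2 * (m + 1) + 1) = 4 * n → n = 2 ^ (2 * m + 1) := by
      intro n hn
      have : 2 ^ (2 * (m + 1) + 1) = 4 * 2 ^ (2 * m + 1) := by
        rw [show 2 * (m + 1) + 1 = (2 * m + 1) + 2 by ring, pow_add]; ring
      omega
    by_cases hinv : ∃ x : E, x ≠ 1 ∧ x ≠ z ∧ x * x = 1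
    · obtain ⟨x, hx1, hxz, hxx⟩ := hinv
      have hS1 := sval_of_inv h x hx1 hxz hxx
      have hinv' : ∃ x' : E', x' ≠ 1 ∧ x' ≠ z' ∧ x' * x' = 1 := by
        by_contra hcon
        push_neg at hcon
        have := sval_of_no_inv h' (fun g hg => by
          by_contra hg2
          push_neg at hg2
          exact hcon g hg2.1 hg2.2 hg)
        linarith
      obtain ⟨x', hx1', hxz', hxx'⟩ := hinv'
      obtain ⟨y, hyx, hyy⟩ := pairD h x hx1 hxz hxx
      obtain ⟨y', hyx', hyy'⟩ := pairD h' x' hx1' hxz' hxx'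
      have hsx : sqv x = 0 := (sqv_zero_iff x).mpr hxx
      have hsy : sqv y = 0 := (sqv_zero_iff y).mpr hyy
      have hsx' : sqv x' = 0 := (sqv_zero_iff x').mpr hxx'
      have hsy' : sqv y' = 0 := (sqv_zero_iff y').mpr hyy'
      have hd := Sval_decomp h x y hyx
      have hd' := Sval_decomp h' x' y' hyx'
      rw [hsx, hsy, c00] at hd
      rw [hsx', hsy', c00] at hd'
      have hS2 : Sval (E1 x y) = Sval (E1 x' y') := by linarith
      obtain ⟨φ⟩ := ih (E1 x y) (E1 x' y') ⟨z, z_mem_E1 h x y⟩ ⟨z', z_mem_E1 h' x' y'⟩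
        (es_E1 h x y hyx) (es_E1 h' x' y' hyx')
        (hc4 _ (hc ▸ card_E1 h x y hyx)) (hc4 _ (hc' ▸ card_E1 h' x' y' hyx')) hS2
      exact tp_iso h h' x y x' y' hyx hyx' (hsx.trans hsx'.symm) (hsy.trans hsy'.symm) φ
    · push_neg at hinv
      have hno : ∀ g : E, g * g = 1 → g = 1 ∨ g = z := by
        intro g hg
        by_contra hg2
        push_neg at hg2
        exact hinv g hg2.1 hg2.2 hg
      have hS1 := sval_of_no_inv h hno
      have hno' : ∀ g : E', g * g = 1 → g = 1 ∨ g = z' := by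
        intro g hg
        by_contra hg2
        push_neg at hg2
        have := sval_of_inv h' g hg2.1 hg2.2 hg
        linarith
      obtain ⟨x, hx1, hxz⟩ := exists_noncentral (z := z) hbig
      obtain ⟨x', hx1', hxz'⟩ := exists_noncentral (z := z') hbig'
      obtain ⟨y, hyx, hxx, hyy⟩ := pairQ h hno x hx1 hxz
      obtain ⟨y', hyx', hxx', hyy'⟩ := pairQ h' hno' x' hx1' hxz'
      have hsx := sqv_of_sq_z h x hxx
      have hsy := sqv_of_sq_z h y hyy
      have hsx' := sqv_of_sq_z h' x' hxx'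
      have hsy' := sqv_of_sq_z h' y' hyy'
      have hd := Sval_decomp h x y hyx
      have hd' := Sval_decomp h' x' y' hyx'
      rw [hsx, hsy, c11] at hd
      rw [hsx', hsy', c11] at hd'
      have hS2 : Sval (E1 x y) = Sval (E1 x' y') := by linarith
      obtain ⟨φ⟩ := ih (E1 x y) (E1 x' y') ⟨z, z_mem_E1 h x y⟩ ⟨z', z_mem_E1 h' x' y'⟩
        (es_E1 h x y hyx) (es_E1 h' x' y' hyx')
        (hc4 _ (hc ▸ card_E1 h x y hyx)) (hc4 _ (hc' ▸ card_E1 h' x' y' hyx')) hS2
      exact tp_iso h h' x y x' y' hyx hyx' (hsx.trans hsx'.symm) (hsy.trans hsy'.symm) φ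

end Cfsg.Agent.Helper8.Extra2
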