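import Cfsg.Agent.Helper8.Extra2Iso

namespace Cfsg.Agent.Helper8.Extra2

universe u v

theorem card_sq_eq {E : Type*} [Group E] :
    Nat.card {x : E // x ^ 2 = 1} = Nat.card {g : E // g * g = 1} := by
  simp only [pow_two]

theorem one_le_m {E : Type*} [Group E] [Finite E] (hE : Cfsg.IsExtraspecial 2 E) {z : E}
    (h : ES E z) {m : ℕ} (hm : Nat.card E = 2 ^ (2 * m + 1)) : 1 ≤ m := by
  by_contra hm0
  have hm0' : m = 0 := by omega
  subst hm0'
  obtain ⟨g, k, hgk⟩ := exists_noncomm_of_extraspecial hE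
  have hc2 : Nat.card E = 2 := by simpa using hm
  obtain ⟨w, hw1, hwu⟩ := (Nat.card_eq_two_iff' (1 : E)).mp hc2
  have hg : g = w := hwu g (fun h1 => hgk (by rw [h1]; simp))
  have hz : z = w := hwu z h.zne
  apply hgk
  rw [hg, ← hz]; exact (h.zc k).symm

theorem main4416 (E : Type u) [Group E] [Finite E] (hE : Cfsg.IsExtraspecial 2 E) :
    (∃ m : ℕ, 1 ≤ m ∧ Nat.card E = 2 ^ (2 * m + 1) ∧
      (Nat.card {x : E // x ^ 2 = 1} = 2 ^ (2 * m) + 2 ^ m ∨
        Nat.card {x : E // x ^ 2 = 1} = 2 ^ (2 * m) - 2 ^ m)) ∧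
    ∀ (E' : Type v) [Group E'] [Finite E'], Cfsg.IsExtraspecial 2 E' →
      Nat.card E' = Nat.card E →
      Nat.card {x : E' // x ^ 2 = 1} = Nat.card {x : E // x ^ 2 = 1} → Nonempty (E ≃* E') := by
  obtain ⟨z, h⟩ := exists_es_of_extraspecial hE
  obtain ⟨m, hm, hS⟩ := sval_pm h
  have hm1 : 1 ≤ m := one_le_m hE h hm
  refine ⟨⟨m, hm1, hm, ?_⟩, ?_⟩
  · rw [card_sq_eq]
    have hpow : (2:ℤ) ^ (2 * m + 1) = 2 * 2 ^ (2 * m) := by rw [pow_succ]; ring
    have hpow2 : (2:ℤ) ^ (m + 1) = 2 * 2 ^ m := by rw [pow_succ]; ring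
    have hSv : Sval E = 2 * (Nat.card {g : E // g * g = 1} : ℤ) - Nat.card E := rfl
    rw [hm] at hSv; push_cast at hSv
    rcases hS with h1 | h1
    · left
      have : (Nat.card {g : E // g * g = 1} : ℤ) = 2 ^ (2 * m) + 2 ^ m := by linarith
      exact_mod_cast this
    · right
      have : (Nat.card {g : E // g * g = 1} : ℤ) + 2 ^ m = 2 ^ (2 * m) := by linarith
      have h2 : Nat.card {g : E // g * g = 1} + 2 ^ m = 2 ^ (2 * m) := by exact_mod_cast this
      exact (Nat.sub_eq_of_eq_add h2.symm).symm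
  · intro E' _ _ hE' hcard hj
    obtain ⟨z', h'⟩ := exists_es_of_extraspecial hE'
    have hSS : Sval E = Sval E' := by
      unfold Sval
      rw [← card_sq_eq, ← card_sq_eq, hj, hcard]
    exact iso_aux m E E' z z' h h' hm (hcard ▸ hm) hSS

end Cfsg.Agent.Helper8.Extra2
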