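import Cfsg.Agent.Helper8.Extra2Rank2

namespace Cfsg.Agent.Helper8.Extra2

open scoped BigOperators

/-- twisted product of `C₂ × C₂` with `E1` -/
@[ext] structure TP {E1 : Type} [Group E1] {z : E1} (h : ES E1 z) (α β : ZMod 2) where
  a : ZMod 2
  b : ZMod 2
  e : E1

namespace TP

variable {E1 : Type} [Group E1] {z : E1} {h : ES E1 z} {α β : ZMod 2}

instance : Mul (TP h α β) :=
  ⟨fun p q => ⟨p.a + q.a, p.b + q.b,
    pw z (p.b * q.a + α * p.a * q.a + β * p.b * q.b) * p.e * q.e⟩⟩

instance : One (TP h α β) := ⟨⟨0, 0, 1⟩⟩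

instance : Inv (TP h α β) :=
  ⟨fun p => ⟨p.a, p.b, pw z (p.b * p.a + α * p.a * p.a + β * p.b * p.b) * p.e⁻¹⟩⟩

@[simp] theorem mul_a (p q : TP h α β) : (p * q).a = p.a + q.a := rfl
@[simp] theorem mul_b (p q : TP h α β) : (p * q).b = p.b + q.b := rfl
theorem mul_e (p q : TP h α β) :
    (p * q).e = pw z (p.b * q.a + α * p.a * q.a + β * p.b * q.b) * p.e * q.e := rfl
@[simp] theorem one_a : (1 : TP h α β).a = 0 := rfl
@[simp] theorem one_b : (1 : TP h α β).b = 0 := rfl
@[simp] theorem one_e : (1 : TP h α β).e = 1 := rfl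
@[simp] theorem inv_a (p : TP h α β) : (p⁻¹).a = p.a := rfl
@[simp] theorem inv_b (p : TP h α β) : (p⁻¹).b = p.b := rfl
theorem inv_e (p : TP h α β) :
    (p⁻¹).e = pw z (p.b * p.a + α * p.a * p.a + β * p.b * p.b) * p.e⁻¹ := rfl

instance : Group (TP h α β) := Group.ofLeftAxioms
  (by
    intro p q r
    ext
    · simp only [mul_a]; exact add_assoc _ _ _
    · simp only [mul_b]; exact add_assoc _ _ _
    · simp only [mul_e, mul_a, mul_b]
      calc pw z ((p.b + q.b) * r.a + α * (p.a + q.a) * r.a + β * (p.b + q.b) * r.b) *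
            (pw z (p.b * q.a + α * p.a * q.a + β * p.b * q.b) * p.e * q.e) * r.e
          = (pw z ((p.b + q.b) * r.a + α * (p.a + q.a) * r.a + β * (p.b + q.b) * r.b) *
            pw z (p.b * q.a + α * p.a * q.a + β * p.b * q.b)) * (p.e * (q.e * r.e)) := by
            simp only [mul_assoc]
        _ = (pw z (p.b * (q.a + r.a) + α * p.a * (q.a + r.a) + β * p.b * (q.b + r.b)) *
            pw z (q.b * r.a + α * q.a * r.a + β * q.b * r.b)) * (p.e * (q.e * r.e)) := by
            rw [← pw_add h.zz, ← pw_add h.zz]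
            congr 2
            ring
        _ = pw z (p.b * (q.a + r.a) + α * p.a * (q.a + r.a) + β * p.b * (q.b + r.b)) * p.e *
            (pw z (q.b * r.a + α * q.a * r.a + β * q.b * r.b) * q.e * r.e) := by
            rw [mul_assoc (pw z _) p.e, ← mul_assoc p.e (pw z _ * q.e),
              ← mul_assoc p.e (pw z _) q.e, pwz_comm h _ p.e]
            simp only [mul_assoc])
  (by
    intro p
    ext
    · simp
    · simp
    · simp [mul_e])
  (by
    intro p
    ext
    · simp [zmod2_add_self]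
    · simp [zmod2_add_self]
    · simp only [mul_e, inv_a, inv_b, inv_e, one_e]
      rw [← mul_assoc (pw z _) (pw z _), ← pw_add h.zz, zmod2_add_self, pw_zero, one_mul,
        inv_mul_cancel])

theorem es_tp : ES (TP h α β) ⟨0, 0, z⟩ where
  zne := fun h1 => h.zne (congrArg TP.e h1)
  zz := by
    ext
    · simp
    · simp
    · simp [mul_e, h.zz]
  zc := fun g => by
    ext
    · simp
    · simp
    · simp [mul_e, h.zc g.e]
  sq := fun g => by
    have key : (g * g).e = pw z (g.b * g.a + α * g.a * g.a + β * g.b * g.b + sqv g.e) := by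
      rw [mul_e, mul_assoc, sq_eq h, ← pw_add h.zz]
    rcases zmod2_cases (g.b * g.a + α * g.a * g.a + β * g.b * g.b + sqv g.e) with h1 | h1
    · left
      ext
      · simp [zmod2_add_self]
      · simp [zmod2_add_self]
      · rw [key, h1, pw_zero]; rfl
    · right
      ext
      · simp [zmod2_add_self]
      · simp [zmod2_add_self]
      · rw [key, h1, pw_one]
  comm := fun g k => by
    have key : (g * k).e = pw z (g.b * k.a + k.b * g.a + kap k.e g.e) * (k * g).e := by
      rw [mul_e, mul_e, mul_assoc, kap_eq h k.e g.e, ← mul_assoc, ← pw_add h.zz,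
        mul_assoc (pw z (k.b * g.a + α * k.a * g.a + β * k.b * g.b)) k.e g.e,
        ← mul_assoc (pw z (g.b * k.a + k.b * g.a + kap k.e g.e)), ← pw_add h.zz]
      congr 2
      linear_combination (-1 : ZMod 2) * zmod2_add_self (k.b * g.a)
    rcases zmod2_cases (g.b * k.a + k.b * g.a + kap k.e g.e) with h1 | h1
    · left
      ext
      · simp [add_comm]
      · simp [add_comm]
      · rw [key, h1, pw_zero, one_mul]
    · right
      ext
      · simp [add_comm]
      · simp [add_comm]
      · rw [key, h1, pw_one, mul_e (⟨0, 0, z⟩ : TP h α β)]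
        simp
  cent := fun g hg => by
    have h1 : pw z (g.b * 1 + α * g.a * 1 + β * g.b * 0) * g.e * 1 =
        pw z (0 * g.a + α * 1 * g.a + β * 0 * g.b) * 1 * g.e := congrArg TP.e (hg ⟨1, 0, 1⟩)
    have h2 : pw z (g.b * 0 + α * g.a * 0 + β * g.b * 1) * g.e * 1 =
        pw z (1 * g.a + α * 0 * g.a + β * 1 * g.b) * 1 * g.e := congrArg TP.e (hg ⟨0, 1, 1⟩)
    simp only [mul_one, one_mul, mul_zero, zero_mul, add_zero, zero_add] at h1 h2
    have hb : g.b = 0 := by
      have := pw_inj h.zne (mul_right_cancel h1)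
      linear_combination this
    have ha : g.a = 0 := by
      have := pw_inj h.zne (mul_right_cancel h2)
      linear_combination (-1 : ZMod 2) * this
    have he : ∀ e' : E1, g.e * e' = e' * g.e := by
      intro e'
      have h3 : pw z (g.b * 0 + α * g.a * 0 + β * g.b * 0) * g.e * e' =
          pw z (0 * g.a + α * 0 * g.a + β * 0 * g.b) * e' * g.e := congrArg TP.e (hg ⟨0, 0, e'⟩)
      simpa using h3
    rcases h.cent g.e he with h4 | h4
    · left
      ext
      · exact ha
      · exact hb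
      · exact h4
    · right
      ext
      · exact ha
      · exact hb
      · exact h4

/-- the underlying equivalence -/
def equivProd : TP h α β ≃ ZMod 2 × ZMod 2 × E1 where
  toFun p := (p.a, p.b, p.e)
  invFun q := ⟨q.1, q.2.1, q.2.2⟩
  left_inv _ := rfl
  right_inv _ := rfl

instance [Finite E1] : Finite (TP h α β) := Finite.of_equiv _ equivProd.symm

theorem card_tp [Finite E1] : Nat.card (TP h α β) = 4 * Nat.card E1 := by
  rw [Nat.card_congr equivProd, Nat.card_prod, Nat.card_prod, Nat.card_zmod]; ring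

theorem sqv_tp (g : TP h α β) :
    sqv g = (g.b * g.a + α * g.a * g.a + β * g.b * g.b) + sqv g.e := by
  have key : (g * g).e = pw z (g.b * g.a + α * g.a * g.a + β * g.b * g.b + sqv g.e) := by
    rw [mul_e, mul_assoc, sq_eq h, ← pw_add h.zz]
  rcases zmod2_cases (g.b * g.a + α * g.a * g.a + β * g.b * g.b + sqv g.e) with h1 | h1
  · rw [h1, sqv_zero_iff]
    ext
    · simp [zmod2_add_self]
    · simp [zmod2_add_self]
    · rw [key, h1, pw_zero]; rfl
  · rw [h1]
    apply sqv_of_sq_z es_tp
    ext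
    · simp [zmod2_add_self]
    · simp [zmod2_add_self]
    · rw [key, h1, pw_one]

theorem sval_tp [Finite E1] : Sval (TP h α β) =
    (∑ a : ZMod 2, ∑ b : ZMod 2, eps (b * a + α * a * a + β * b * b)) * Sval E1 := by
  classical
  letI : Fintype E1 := Fintype.ofFinite E1
  letI : Fintype (TP h α β) := Fintype.ofFinite _
  rw [Sval_eq_sum, Sval_eq_sum]
  rw [Fintype.sum_equiv (equivProd (h := h) (α := α) (β := β)) (fun g => eps (sqv g))
    (fun q => eps ((q.2.1 * q.1 + α * q.1 * q.1 + β * q.2.1 * q.2.1) + sqv q.2.2))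
    (fun g => by rw [sqv_tp]; rfl)]
  rw [Fintype.sum_prod_type, Finset.sum_mul]
  refine Finset.sum_congr rfl (fun a _ => ?_)
  rw [Fintype.sum_prod_type, Finset.sum_mul]
  refine Finset.sum_congr rfl (fun b _ => ?_)
  rw [Finset.mul_sum]
  refine Finset.sum_congr rfl (fun e _ => ?_)
  rw [eps_add]

theorem noncomm_tp : ∃ g k : TP h α β, g * k ≠ k * g := by
  refine ⟨⟨1, 0, 1⟩, ⟨0, 1, 1⟩, ?_⟩
  intro h1
  have h2 : pw z ((0 : ZMod 2) * 0 + α * 1 * 0 + β * 0 * 1) * 1 * 1 =
      pw z ((1 : ZMod 2) * 1 + α * 0 * 1 + β * 1 * 0) * 1 * 1 := congrArg TP.e h1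
  simp only [mul_one, mul_zero, zero_mul, add_zero] at h2
  exact h.zne (by simpa using h2.symm)

end TP

theorem d00 : (∑ a : ZMod 2, ∑ b : ZMod 2, eps (b * a + 0 * a * a + 0 * b * b)) = 2 := by decide

theorem d11 : (∑ a : ZMod 2, ∑ b : ZMod 2, eps (b * a + 1 * a * a + 1 * b * b)) = -2 := by decide

end Cfsg.Agent.Helper8.Extra2
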