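import Cfsg.Agent.Helper8.Extra2Main
import Cfsg.Prelude.Def_CaseTheorems

namespace Cfsg.Agent.Helper8.Extra2

open scoped BigOperators

section rank

variable {E : Type*} [Group E] [Fintype E] {z : E}

theorem inner_sum (h : ES E z) (A : Subgroup E) [Fintype A] (g : E) :
    (∑ a : A, eps (kap g (a : E)) = Fintype.card A ∧ ∀ a : A, (a : E) * g = g * a) ∨
      ∑ a : A, eps (kap g (a : E)) = 0 := by
  rcases InvCount.sum_hom (↥A) (fun a => eps (kap g (a : E)))
    (fun a b => by rw [Subgroup.coe_mul, kap_mul h, eps_add]) (fun a => eps_pm _) with ⟨h1, h2⟩ | h1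
  · left
    refine ⟨h1, fun a => ?_⟩
    rw [← kap_zero_iff]
    rcases zmod2_cases (kap g (a : E)) with h3 | h3
    · exact h3
    · have := h2 a
      simp only [h3, eps_one] at this
      norm_num at this
  · right; exact h1

theorem abelian_bound (h : ES E z) (A : Subgroup E) (hA : ∀ a ∈ A, ∀ b ∈ A, a * b = b * a) :
    Nat.card A * Nat.card A ≤ 2 * Fintype.card E ∧
    (Nat.card A * Nat.card A = 2 * Fintype.card E → (∀ a ∈ A, a * a = 1) →
      Sval E = Nat.card A) := by
  classical
  letI : Fintype A := Fintype.ofFinite A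
  set P : E → Prop := fun g => ∀ a : A, (a : E) * g = g * a with hP
  have hcApos : (0:ℤ) < Fintype.card A := by exact_mod_cast Fintype.card_pos
  have hinner : ∀ g : E, ∑ a : A, eps (kap g (a : E)) =
      if P g then (Fintype.card A : ℤ) else 0 := by
    intro g
    rcases inner_sum h A g with ⟨h1, h2⟩ | h1
    · rw [if_pos h2, h1]
    · have hnP : ¬ P g := by
        intro hPg
        have h5 : ∀ a : A, eps (kap g (a : E)) = 1 := fun a => by
          rw [(kap_zero_iff _ _).mpr (hPg a)]; rfl
        rw [Finset.sum_congr rfl (fun a _ => h5 a)] at h1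
        have h6 : (∑ a : A, (1 : ℤ)) = Fintype.card A := by simp
        rw [h6] at h1
        omega
      rw [if_neg hnP, h1]
  have htot : ∑ g : E, ∑ a : A, eps (kap g (a : E)) =
      (Fintype.card A : ℤ) * (Finset.univ.filter P).card := by
    rw [Finset.sum_congr rfl (fun g _ => hinner g), ← Finset.sum_filter, Finset.sum_const,
      nsmul_eq_mul, mul_comm]
  have htot2 : ∑ g : E, ∑ a : A, eps (kap g (a : E)) = (Fintype.card E : ℤ) *
      (Finset.univ.filter (fun a : A => (a : E) = 1 ∨ (a : E) = z)).card := by
    rw [Finset.sum_comm]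
    have h7 : ∀ a : A, ∑ g : E, eps (kap g (a : E)) =
        if ((a : E) = 1 ∨ (a : E) = z) then (Fintype.card E : ℤ) else 0 := by
      intro a
      rw [Finset.sum_congr rfl (fun g _ => by rw [kap_symm])]
      exact sum_kap h (a : E)
    rw [Finset.sum_congr rfl (fun a _ => h7 a), ← Finset.sum_filter, Finset.sum_const,
      nsmul_eq_mul, mul_comm]
  have hle2 : (Finset.univ.filter (fun a : A => (a : E) = 1 ∨ (a : E) = z)).card ≤ 2 := by
    calc (Finset.univ.filter (fun a : A => (a : E) = 1 ∨ (a : E) = z)).card
        ≤ ({1, z} : Finset E).card :=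
          Finset.card_le_card_of_injOn (fun a : A => (a : E))
            (fun a ha => by simpa using ha) (fun a _ b _ hab => Subtype.ext hab)
      _ ≤ 2 := Finset.card_le_two
  have hsubP : (Finset.univ : Finset A).image (fun a : A => (a : E)) ⊆ Finset.univ.filter P := by
    intro g hg
    rw [Finset.mem_image] at hg
    obtain ⟨a, -, rfl⟩ := hg
    rw [Finset.mem_filter]
    exact ⟨Finset.mem_univ _, fun b => hA _ b.2 _ a.2⟩
  have hcimg : ((Finset.univ : Finset A).image (fun a : A => (a : E))).card = Fintype.card A := by
    rw [Finset.card_image_of_injective _ Subtype.val_injective, Finset.card_univ]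
  have hAP : Fintype.card A ≤ (Finset.univ.filter P).card := by
    rw [← hcimg]; exact Finset.card_le_card hsubP
  have hkey : (Fintype.card A : ℤ) * (Finset.univ.filter P).card ≤ 2 * (Fintype.card E : ℤ) := by
    rw [← htot, htot2]
    have : ((Finset.univ.filter (fun a : A => (a : E) = 1 ∨ (a : E) = z)).card : ℤ) ≤ 2 := by
      exact_mod_cast hle2
    have hE0 : (0:ℤ) ≤ Fintype.card E := by positivity
    nlinarith
  have hAPz : (Fintype.card A : ℤ) ≤ (Finset.univ.filter P).card := by exact_mod_cast hAP
  rw [Nat.card_eq_fintype_card]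
  refine ⟨?_, ?_⟩
  · have : ((Fintype.card A * Fintype.card A : ℕ) : ℤ) ≤ ((2 * Fintype.card E : ℕ) : ℤ) := by
      push_cast
      nlinarith
    exact_mod_cast this
  · intro heq hsq
    have heqz : (Fintype.card A : ℤ) * Fintype.card A = 2 * (Fintype.card E : ℤ) := by
      exact_mod_cast heq
    have hPle : (Finset.univ.filter P).card ≤ Fintype.card A := by
      have : ((Finset.univ.filter P).card : ℤ) ≤ Fintype.card A := by
        by_contra hlt
        push_neg at hlt
        nlinarith
      exact_mod_cast this
    have hPeq : (Finset.univ : Finset A).image (fun a : A => (a : E)) = Finset.univ.filter P :=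
      Finset.eq_of_subset_of_card_le hsubP (by rw [hcimg]; exact hPle)
    have hS : (Fintype.card A : ℤ) * Sval E = (Fintype.card A : ℤ) * Fintype.card A := by
      rw [Sval_eq_sum]
      calc (Fintype.card A : ℤ) * ∑ g : E, eps (sqv g)
          = ∑ a : A, ∑ g : E, eps (sqv g) := by
            rw [Finset.sum_const, Finset.card_univ, nsmul_eq_mul]
        _ = ∑ a : A, ∑ g : E, eps (sqv (g * (a : E))) := by
            refine Finset.sum_congr rfl (fun a _ => ?_)
            exact (Fintype.sum_equiv (Equiv.mulRight (a : E)) (fun g => eps (sqv (g * (a : E))))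
              (fun g => eps (sqv g)) (fun g => rfl)).symm
        _ = ∑ g : E, ∑ a : A, eps (sqv g) * eps (kap g (a : E)) := by
            rw [Finset.sum_comm]
            refine Finset.sum_congr rfl (fun g _ => Finset.sum_congr rfl (fun a _ => ?_))
            rw [sqv_mul h, (sqv_zero_iff (a : E)).mpr (hsq _ a.2), add_zero, eps_add]
        _ = ∑ g : E, (if P g then eps (sqv g) * (Fintype.card A : ℤ) else 0) := by
            refine Finset.sum_congr rfl (fun g _ => ?_)
            rw [← Finset.mul_sum, hinner]
            split_ifs <;> simp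
        _ = ∑ g ∈ Finset.univ.filter P, eps (sqv g) * (Fintype.card A : ℤ) := by
            rw [Finset.sum_filter]
        _ = ∑ a : A, eps (sqv (a : E)) * (Fintype.card A : ℤ) := by
            rw [← hPeq, Finset.sum_image (fun a _ b _ hab => Subtype.ext hab)]
        _ = ∑ a : A, (Fintype.card A : ℤ) := by
            refine Finset.sum_congr rfl (fun a _ => ?_)
            rw [(sqv_zero_iff (a : E)).mpr (hsq _ a.2)]; simp
        _ = (Fintype.card A : ℤ) * Fintype.card A := by
            rw [Finset.sum_const, Finset.card_univ, nsmul_eq_mul]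
    exact mul_left_cancel₀ (ne_of_gt hcApos) hS

end rank

end Cfsg.Agent.Helper8.Extra2
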