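import Cfsg.Agent.Helper8.Extra2Rank

namespace Cfsg.Agent.Helper8.Extra2

open scoped BigOperators

universe u v

theorem extend_by_inv {E : Type*} [Group E] [Finite E] (B : Subgroup E) (x : E)
    (hxx : x * x = 1) (hxB : x ∉ B) (hcomm : ∀ b ∈ B, x * b = b * x) :
    ∃ A : Subgroup E, Nat.card A = 2 * Nat.card B ∧
      ((∀ a ∈ B, ∀ b ∈ B, a * b = b * a) → ∀ a ∈ A, ∀ b ∈ A, a * b = b * a) ∧
      ((∀ b ∈ B, b * b = 1) → ∀ a ∈ A, a * a = 1) := by
  let A : Subgroup E :=
    { carrier := {g | g ∈ B ∨ x * g ∈ B}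
      one_mem' := Or.inl B.one_mem
      mul_mem' := by
        intro g k hg hk
        rcases hg with hg | hg <;> rcases hk with hk | hk
        · exact Or.inl (B.mul_mem hg hk)
        · right
          have : x * (g * k) = g * (x * k) := by rw [← mul_assoc, hcomm g hg, mul_assoc]
          rw [this]; exact B.mul_mem hg hk
        · right
          rw [← mul_assoc]; exact B.mul_mem hg hk
        · left
          have : g * k = (x * g) * (x * k) := by
            have h1 := hcomm _ hg
            calc g * k = (x * x) * g * k := by rw [hxx, one_mul]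
              _ = x * (x * g) * k := by simp only [mul_assoc]
              _ = (x * g) * x * k := by rw [h1]
              _ = (x * g) * (x * k) := by simp only [mul_assoc]
          rw [this]; exact B.mul_mem hg hk
      inv_mem' := by
        intro g hg
        rcases hg with hg | hg
        · exact Or.inl (B.inv_mem hg)
        · right
          have h1 := hcomm _ (B.inv_mem hg)
          have : x * g⁻¹ = (x * g)⁻¹ := by
            calc x * g⁻¹ = x * ((x * g)⁻¹ * x) := by group
              _ = (x * (x * g)⁻¹) * x := by rw [mul_assoc]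
              _ = ((x * g)⁻¹ * x) * x := by rw [h1]
              _ = (x * g)⁻¹ := by rw [mul_assoc, hxx, mul_one]
          rw [this]; exact B.inv_mem hg }
  have hmemA : ∀ g : E, g ∈ A ↔ (g ∈ B ∨ x * g ∈ B) := fun g => Iff.rfl
  have hBA : B ≤ A := fun g hg => Or.inl hg
  have hxA : x ∈ A := Or.inr (by rw [hxx]; exact B.one_mem)
  have hrep : ∀ g ∈ A, ∃ (s : ZMod 2) (b : E), b ∈ B ∧ g = pw x s * b := by
    intro g hg
    rcases hg with hg | hg
    · exact ⟨0, g, hg, by simp⟩
    · refine ⟨1, x * g, hg, ?_⟩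
      rw [pw_one, ← mul_assoc, hxx, one_mul]
  have hpwc : ∀ (s : ZMod 2) (b : E), b ∈ B → b * pw x s = pw x s * b :=
    fun s b hb => pw_comm (hcomm b hb).symm s
  have hpwpw : ∀ s t : ZMod 2, pw x s * pw x t = pw x t * pw x s := by
    intro s t
    rcases zmod2_cases s with rfl | rfl <;> rcases zmod2_cases t with rfl | rfl <;> simp
  have hpwsq : ∀ s : ZMod 2, pw x s * pw x s = 1 := by
    intro s
    rcases zmod2_cases s with rfl | rfl
    · simp
    · simpa using hxx
  refine ⟨A, ?_, ?_, ?_⟩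
  · have hidx : (B.subgroupOf A).index = 2 := by
      rw [Subgroup.index_eq_two_iff]
      refine ⟨⟨x, hxA⟩, ?_⟩
      intro b
      rw [Subgroup.mem_subgroupOf, Subgroup.mem_subgroupOf]
      by_cases hb : (b : E) ∈ B
      · right
        refine ⟨hb, ?_⟩
        intro hbx
        apply hxB
        have : x = (b : E)⁻¹ * ((b : E) * x) := by group
        rw [this]
        exact B.mul_mem (B.inv_mem hb) hbx
      · left
        refine ⟨?_, hb⟩
        have hxb : x * (b : E) ∈ B := by
          rcases b.2 with h1 | h1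
          · exact absurd h1 hb
          · exact h1
        have h1 := hcomm _ hxb
        have : ((b * ⟨x, hxA⟩ : A) : E) = x * (b : E) := by
          show (b : E) * x = x * b
          calc (b : E) * x = (x * x) * b * x := by rw [hxx, one_mul]
            _ = x * ((x * b) * x) := by simp only [mul_assoc]
            _ = x * (x * (x * b)) := by rw [← h1]
            _ = x * b := by rw [← mul_assoc x x, hxx, one_mul]
        rw [this]; exact hxb
    rw [← Subgroup.card_mul_index (B.subgroupOf A), hidx,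
      Nat.card_congr (Subgroup.subgroupOfEquivOfLe hBA).toEquiv, mul_comm]
  · intro hB a ha b hb
    obtain ⟨s, a', ha', rfl⟩ := hrep a ha
    obtain ⟨t, b', hb', rfl⟩ := hrep b hb
    calc pw x s * a' * (pw x t * b') = pw x s * (a' * pw x t) * b' := by simp only [mul_assoc]
      _ = pw x s * (pw x t * a') * b' := by rw [hpwc t a' ha']
      _ = (pw x s * pw x t) * (a' * b') := by simp only [mul_assoc]
      _ = (pw x t * pw x s) * (b' * a') := by rw [hpwpw, hB a' ha' b' hb']
      _ = pw x t * (pw x s * b') * a' := by simp only [mul_assoc]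
      _ = pw x t * (b' * pw x s) * a' := by rw [hpwc s b' hb']
      _ = pw x t * b' * (pw x s * a') := by simp only [mul_assoc]
  · intro hB a ha
    obtain ⟨s, a', ha', rfl⟩ := hrep a ha
    calc pw x s * a' * (pw x s * a') = pw x s * (a' * pw x s) * a' := by simp only [mul_assoc]
      _ = pw x s * (pw x s * a') * a' := by rw [hpwc s a' ha']
      _ = (pw x s * pw x s) * (a' * a') := by simp only [mul_assoc]
      _ = 1 := by rw [hpwsq, hB a' ha', one_mul]

theorem exists_elab : ∀ (m : ℕ) (E : Type u) [Group E] [Finite E] (z : E), ES E z →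
    Nat.card E = 2 ^ (2 * m + 1) →
    (0 < Sval E → ∃ A : Subgroup E, (∀ a ∈ A, ∀ b ∈ A, a * b = b * a) ∧ (∀ a ∈ A, a * a = 1) ∧
      Nat.card A = 2 ^ (m + 1)) ∧
    (Sval E < 0 → ∃ A : Subgroup E, (∀ a ∈ A, ∀ b ∈ A, a * b = b * a) ∧ (∀ a ∈ A, a * a = 1) ∧
      Nat.card A = 2 ^ m) := by
  intro m
  induction m with
  | zero =>
    intro E _ _ z h hc
    refine ⟨fun _ => ?_, fun _ => ?_⟩
    · have hc2 : Nat.card E = 2 := by simpa using hc
      obtain ⟨w, hw1, hwu⟩ := (Nat.card_eq_two_iff' (1 : E)).mp hc2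
      have hz : z = w := hwu z h.zne
      have hall : ∀ g : E, g = 1 ∨ g = z := by
        intro g
        by_cases hg : g = 1
        · exact Or.inl hg
        · exact Or.inr ((hwu g hg).trans hz.symm)
      refine ⟨⊤, ?_, ?_, ?_⟩
      · intro a _ b _
        rcases hall a with rfl | rfl
        · simp
        · exact (h.zc b).symm
      · intro a _
        rcases hall a with rfl | rfl
        · simp
        · exact h.zz
      · rw [Subgroup.card_top, hc2]; norm_num
    · refine ⟨⊥, ?_, ?_, ?_⟩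
      · intro a ha b hb
        rw [Subgroup.mem_bot] at ha hb
        rw [ha, hb]
      · intro a ha
        rw [Subgroup.mem_bot] at ha
        rw [ha, one_mul]
      · rw [Subgroup.card_bot, pow_zero]
  | succ m ih =>
    intro E _ _ z h hc
    have hbig : 2 < Nat.card E := by
      rw [hc]
      calc 2 = 2 ^ 1 := by norm_num
        _ < 2 ^ (2 * (m + 1) + 1) := Nat.pow_lt_pow_right (by norm_num) (by omega)
    have hc4 : ∀ n : ℕ, 2 ^ (2 * (m + 1) + 1) = 4 * n → n = 2 ^ (2 * m + 1) := by
      intro n hn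
      have : 2 ^ (2 * (m + 1) + 1) = 4 * 2 ^ (2 * m + 1) := by
        rw [show 2 * (m + 1) + 1 = (2 * m + 1) + 2 by ring, pow_add]; ring
      omega
    -- transport of a subgroup of E1 to E
    have htrans : ∀ (x y : E) (A1 : Subgroup (E1 x y)),
        (∀ a ∈ A1, ∀ b ∈ A1, a * b = b * a) → (∀ a ∈ A1, a * a = 1) →
        (∀ a ∈ A1.map (E1 x y).subtype, ∀ b ∈ A1.map (E1 x y).subtype, a * b = b * a) ∧
        (∀ a ∈ A1.map (E1 x y).subtype, a * a = 1) ∧
        Nat.card (A1.map (E1 x y).subtype) = Nat.card A1 ∧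
        (∀ a ∈ A1.map (E1 x y).subtype, a ∈ E1 x y) := by
      intro x y A1 hA1c hA1s
      refine ⟨?_, ?_, Subgroup.card_map_of_injective (E1 x y).subtype_injective, ?_⟩
      · rintro _ ⟨a, ha, rfl⟩ _ ⟨b, hb, rfl⟩
        exact congrArg Subtype.val (hA1c a ha b hb)
      · rintro _ ⟨a, ha, rfl⟩
        exact congrArg Subtype.val (hA1s a ha)
      · rintro _ ⟨a, ha, rfl⟩
        exact a.2
    by_cases hinv : ∃ x : E, x ≠ 1 ∧ x ≠ z ∧ x * x = 1
    · obtain ⟨x, hx1, hxz, hxx⟩ := hinv
      obtain ⟨y, hyx, hyy⟩ := pairD h x hx1 hxz hxx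
      have hsx : sqv x = 0 := (sqv_zero_iff x).mpr hxx
      have hsy : sqv y = 0 := (sqv_zero_iff y).mpr hyy
      have hd := Sval_decomp h x y hyx
      rw [hsx, hsy, c00] at hd
      have hxE1 : x ∉ E1 x y := by
        intro hx
        have h1 := ((mem_E1 x y x).mp hx).2
        have h2 := kap_x_y h x y hyx
        rw [(kap_zero_iff x y).mpr h1.symm] at h2
        exact absurd h2 (by decide)
      obtain ⟨ihp, ihn⟩ := ih (E1 x y) ⟨z, z_mem_E1 h x y⟩ (es_E1 h x y hyx)
        (hc4 _ (hc ▸ card_E1 h x y hyx))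
      have hbuild : ∀ (A1 : Subgroup (E1 x y)) (k : ℕ),
          (∀ a ∈ A1, ∀ b ∈ A1, a * b = b * a) → (∀ a ∈ A1, a * a = 1) → Nat.card A1 = 2 ^ k →
          ∃ A : Subgroup E, (∀ a ∈ A, ∀ b ∈ A, a * b = b * a) ∧ (∀ a ∈ A, a * a = 1) ∧
            Nat.card A = 2 ^ (k + 1) := by
        intro A1 k hA1c hA1s hA1card
        obtain ⟨hBc, hBs, hBcard, hBE1⟩ := htrans x y A1 hA1c hA1s
        obtain ⟨A, hAcard, hAc, hAs⟩ := extend_by_inv (A1.map (E1 x y).subtype) x hxx
          (fun hx => hxE1 (hBE1 x hx))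
          (fun b hb => (((mem_E1 x y b).mp (hBE1 b hb)).1).symm)
        exact ⟨A, hAc hBc, hAs hBs, by rw [hAcard, hBcard, hA1card, pow_succ]; ring⟩
      refine ⟨fun hpos => ?_, fun hneg => ?_⟩
      · obtain ⟨A1, h1, h2, h3⟩ := ihp (by linarith)
        exact hbuild A1 (m + 1) h1 h2 h3
      · obtain ⟨A1, h1, h2, h3⟩ := ihn (by linarith)
        exact hbuild A1 m h1 h2 h3
    · push_neg at hinv
      have hno : ∀ g : E, g * g = 1 → g = 1 ∨ g = z := by
        intro g hg
        by_contra hg2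
        push_neg at hg2
        exact hinv g hg2.1 hg2.2 hg
      have hS1 := sval_of_no_inv h hno
      have hbig8 : 8 ≤ Nat.card E := by
        rw [hc]
        calc 8 = 2 ^ 3 := by norm_num
          _ ≤ 2 ^ (2 * (m + 1) + 1) := Nat.pow_le_pow_right (by norm_num) (by omega)
      have hbigz : (8:ℤ) ≤ Nat.card E := by exact_mod_cast hbig8
      refine ⟨fun hpos => ?_, fun hneg => ?_⟩
      · exfalso; linarith
      · obtain ⟨x, hx1, hxz⟩ := exists_noncentral (z := z) hbig
        obtain ⟨y, hyx, hxx, hyy⟩ := pairQ h hno x hx1 hxz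
        have hsx := sqv_of_sq_z h x hxx
        have hsy := sqv_of_sq_z h y hyy
        have hd := Sval_decomp h x y hyx
        rw [hsx, hsy, c11] at hd
        obtain ⟨ihp, -⟩ := ih (E1 x y) ⟨z, z_mem_E1 h x y⟩ (es_E1 h x y hyx)
          (hc4 _ (hc ▸ card_E1 h x y hyx))
        obtain ⟨A1, h1, h2, h3⟩ := ihp (by linarith)
        obtain ⟨hBc, hBs, hBcard, -⟩ := htrans x y A1 h1 h2
        exact ⟨A1.map (E1 x y).subtype, hBc, hBs, by rw [hBcard, h3]⟩

theorem prank_le_succ {E : Type*} [Group E] [Finite E] {z : E} (h : ES E z) {m : ℕ}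
    (hm : Nat.card E = 2 ^ (2 * m + 1)) : Cfsg.PRankLE 2 (m + 1) E := by
  intro A hAc hAsq
  classical
  letI : Fintype E := Fintype.ofFinite E
  have hb := (abelian_bound h A (fun a ha b hb => by
      have := hAc.is_comm.comm (⟨a, ha⟩ : A) ⟨b, hb⟩
      exact congrArg Subtype.val this)).1
  rw [← Nat.card_eq_fintype_card, hm] at hb
  by_contra hlt
  push_neg at hlt
  have h1 : 2 ^ (m + 1) * 2 ^ (m + 1) < Nat.card A * Nat.card A := Nat.mul_lt_mul'' hlt hlt
  have h2 : 2 * 2 ^ (2 * m + 1) = 2 ^ (m + 1) * 2 ^ (m + 1) := by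
    rw [← pow_add, ← pow_succ']; congr 1; omega
  omega

theorem sval_ne_zero {E : Type*} [Group E] [Finite E] {z : E} (h : ES E z) : Sval E ≠ 0 := by
  intro h0
  have := Sval_sq h
  rw [h0] at this
  have hpos : (0:ℤ) < Nat.card E := by exact_mod_cast Nat.card_pos
  linarith

theorem prank_le_iff {E : Type u} [Group E] [Finite E] {z : E} (h : ES E z) {m : ℕ}
    (hm : Nat.card E = 2 ^ (2 * m + 1)) : Cfsg.PRankLE 2 m E ↔ Sval E < 0 := by
  constructor
  · intro hr
    by_contra hS
    have hpos : 0 < Sval E := lt_of_le_of_ne (not_lt.mp hS) (sval_ne_zero h).symm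
    obtain ⟨A, hAc, hAsq, hAcard⟩ := (exists_elab m E z h hm).1 hpos
    have := hr A ⟨⟨fun a b => Subtype.ext (hAc a a.2 b b.2)⟩⟩
      (fun a ha => by rw [pow_two]; exact hAsq a ha)
    rw [hAcard] at this
    have h2 : 2 ^ m < 2 ^ (m + 1) := Nat.pow_lt_pow_right (by norm_num) (by omega)
    omega
  · intro hS A hAc hAsq
    by_contra hlt
    push_neg at hlt
    classical
    letI : Fintype E := Fintype.ofFinite E
    have hle := prank_le_succ h hm A hAc hAsq
    obtain ⟨j, hj, hAj⟩ := (Nat.dvd_prime_pow Nat.prime_two).mp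
      (hm ▸ Subgroup.card_subgroup_dvd_card A)
    have hj1 : j = m + 1 := by
      rw [hAj] at hlt hle
      have h1 : m < j := (Nat.pow_lt_pow_iff_right (by norm_num)).mp hlt
      have h2 : j ≤ m + 1 := (Nat.pow_le_pow_iff_right (by norm_num)).mp hle
      omega
    have hAcomm : ∀ a ∈ A, ∀ b ∈ A, a * b = b * a := fun a ha b hb => by
      have := hAc.is_comm.comm (⟨a, ha⟩ : A) ⟨b, hb⟩
      exact congrArg Subtype.val this
    have hb := (abelian_bound h A hAcomm).2 (by
      rw [← Nat.card_eq_fintype_card, hm, hAj, hj1, ← pow_add, ← pow_succ']; congr 1; omega)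
      (fun a ha => by have := hAsq a ha; rwa [pow_two] at this)
    have hpos : (0:ℤ) < Nat.card A := by exact_mod_cast Nat.card_pos
    linarith

theorem main3763 {E : Type u} [Group E] [Finite E] (hE : Cfsg.IsExtraspecial 2 E) (n : ℕ)
    (hn : Nat.card E = 2 ^ (2 * n + 1)) :
    ((Cfsg.PRankLE 2 n E ∧ ¬ Cfsg.PRankLE 2 (n - 1) E) ∨
      (Cfsg.PRankLE 2 (n + 1) E ∧ ¬ Cfsg.PRankLE 2 n E)) ∧
    ∀ (E' : Type v) [Group E'] [Finite E'], Cfsg.IsExtraspecial 2 E' →
      Nat.card E' = Nat.card E →
      (∀ k : ℕ, Cfsg.PRankLE 2 k E ↔ Cfsg.PRankLE 2 k E') → Nonempty (E ≃* E') := by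
  obtain ⟨z, h⟩ := exists_es_of_extraspecial hE
  have hn1 : 1 ≤ n := one_le_m hE h hn
  have hiff := prank_le_iff h hn
  refine ⟨?_, ?_⟩
  · by_cases hS : Sval E < 0
    · left
      refine ⟨hiff.mpr hS, ?_⟩
      intro hr
      obtain ⟨A, hAc, hAsq, hAcard⟩ := (exists_elab n E z h hn).2 hS
      have := hr A ⟨⟨fun a b => Subtype.ext (hAc a a.2 b b.2)⟩⟩
        (fun a ha => by rw [pow_two]; exact hAsq a ha)
      rw [hAcard] at this
      have h2 : 2 ^ (n - 1) < 2 ^ n := Nat.pow_lt_pow_right (by norm_num) (by omega)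
      omega
    · right
      exact ⟨prank_le_succ h hn, fun hr => hS (hiff.mp hr)⟩
  · intro E' _ _ hE' hcard hranks
    obtain ⟨z', h'⟩ := exists_es_of_extraspecial hE'
    have hn' : Nat.card E' = 2 ^ (2 * n + 1) := by rw [hcard, hn]
    have hiff' := prank_le_iff h' hn'
    obtain ⟨m, hm, hS⟩ := sval_pm h
    obtain ⟨m', hm', hS'⟩ := sval_pm h'
    have hmn : m = n := by
      have := Nat.pow_right_injective (le_refl 2) (hm.symm.trans hn)
      omega
    have hmn' : m' = n := by
      have := Nat.pow_right_injective (le_refl 2) (hm'.symm.trans hn')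
      omega
    rw [hmn] at hS
    rw [hmn'] at hS'
    have hsign : Sval E < 0 ↔ Sval E' < 0 := by rw [← hiff, ← hiff']; exact hranks n
    have hSS : Sval E = Sval E' := by
      have hpos : (0:ℤ) < 2 ^ (n + 1) := by positivity
      rcases hS with h1 | h1 <;> rcases hS' with h2 | h2
      · rw [h1, h2]
      · exfalso
        have := hsign.mpr (by rw [h2]; linarith)
        rw [h1] at this; linarith
      · exfalso
        have := hsign.mp (by rw [h1]; linarith)
        rw [h2] at this; linarith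
      · rw [h1, h2]
    exact iso_aux n E E' z z' h h' hn hn' hSS

end Cfsg.Agent.Helper8.Extra2
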