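import Cfsg.Agent.Helper8.Extra2Main

namespace Cfsg.Agent.Helper8.Extra2

universe u v w

theorem main0099 {E₁ : Type u} {E₂ : Type v} {E₃ : Type w} [Group E₁] [Group E₂] [Group E₃]
    [Finite E₁] [Finite E₂] [Finite E₃] (h₁ : Cfsg.IsExtraspecial 2 E₁)
    (h₂ : Cfsg.IsExtraspecial 2 E₂) (h₃ : Cfsg.IsExtraspecial 2 E₃)
    (h12 : Nat.card E₁ = Nat.card E₂) (h23 : Nat.card E₂ = Nat.card E₃) :
    Nonempty (E₁ ≃* E₂) ∨ Nonempty (E₂ ≃* E₃) ∨ Nonempty (E₁ ≃* E₃) := by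
  obtain ⟨z1, e1⟩ := exists_es_of_extraspecial h₁
  obtain ⟨z2, e2⟩ := exists_es_of_extraspecial h₂
  obtain ⟨z3, e3⟩ := exists_es_of_extraspecial h₃
  obtain ⟨m, hm, hS1⟩ := sval_pm e1
  obtain ⟨m2, hm2, hS2⟩ := sval_pm e2
  obtain ⟨m3, hm3, hS3⟩ := sval_pm e3
  have hc2 : Nat.card E₂ = 2 ^ (2 * m + 1) := by rw [← h12, hm]
  have hc3 : Nat.card E₃ = 2 ^ (2 * m + 1) := by rw [← h23, hc2]
  have hmm2 : m2 = m := by
    have := Nat.pow_right_injective (le_refl 2) (hm2.symm.trans hc2)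
    omega
  have hmm3 : m3 = m := by
    have := Nat.pow_right_injective (le_refl 2) (hm3.symm.trans hc3)
    omega
  rw [hmm2] at hS2
  rw [hmm3] at hS3
  by_cases h1 : Sval E₁ = Sval E₂
  · exact Or.inl (iso_aux m E₁ E₂ z1 z2 e1 e2 hm hc2 h1)
  · by_cases h2 : Sval E₂ = Sval E₃
    · exact Or.inr (Or.inl (iso_aux m E₂ E₃ z2 z3 e2 e3 hc2 hc3 h2))
    · right; right
      have h3 : Sval E₁ = Sval E₃ := by
        rcases hS1 with a | a <;> rcases hS2 with b | b <;> rcases hS3 with c | c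
        · exact absurd (a.trans b.symm) h1
        · exact absurd (a.trans b.symm) h1
        · exact a.trans c.symm
        · exact absurd (b.trans c.symm) h2
        · exact absurd (b.trans c.symm) h2
        · exact a.trans c.symm
        · exact absurd (a.trans b.symm) h1
        · exact absurd (a.trans b.symm) h1
      exact iso_aux m E₁ E₃ z1 z3 e1 e3 hm hc3 h3

end Cfsg.Agent.Helper8.Extra2
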