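import Cfsg.Agent.Helper8.Extra2Dec

namespace Cfsg.Agent.Helper8.ExtraP

open Cfsg.Agent.Helper8.Extra2 (E1 mem_E1)

universe u v

section pwp

variable {p : ℕ} [Fact p.Prime] {E : Type*} [Group E]

/-- `pwp x a = x ^ a` for `a : ZMod p`. -/
def pwp (x : E) (a : ZMod p) : E := x ^ a.val

theorem pwp_zero (x : E) : pwp x (0 : ZMod p) = 1 := by simp [pwp]

theorem pwp_one (x : E) : pwp x (1 : ZMod p) = x := by
  haveI : Fact (1 < p) := ⟨(Fact.out : p.Prime).one_lt⟩
  simp [pwp, ZMod.val_one]

theorem pwp_add {x : E} (hx : x ^ p = 1) (a b : ZMod p) :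
    pwp x (a + b) = pwp x a * pwp x b := by
  unfold pwp
  rw [← pow_add, ZMod.val_add]
  exact (pow_eq_pow_mod _ hx).symm

theorem pwp_inj {x : E} (hx : x ^ p = 1) (hx1 : x ≠ 1) {a b : ZMod p}
    (h : pwp x a = pwp x b) : a = b := by
  have ho : orderOf x = p := orderOf_eq_prime hx hx1
  unfold pwp at h
  rw [pow_eq_pow_iff_modEq, ho] at h
  exact ZMod.val_injective p (Nat.ModEq.eq_of_lt_of_lt h (ZMod.val_lt a) (ZMod.val_lt b))

theorem pwp_comm {x g : E} (h : g * x = x * g) (a : ZMod p) : g * pwp x a = pwp x a * g :=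
  (Commute.pow_right (show Commute g x from h) a.val).eq

theorem pwp_natCast {x : E} (hx : x ^ p = 1) (n : ℕ) : pwp x (n : ZMod p) = x ^ n := by
  unfold pwp
  rw [ZMod.val_natCast]
  exact (pow_eq_pow_mod _ hx).symm

end pwp

/-- A group of exponent `p` with a central element `z` of order `p` such that all commutators
lie in `⟨z⟩` and the centre is `⟨z⟩`. -/
structure ESp (p : ℕ) [Fact p.Prime] (E : Type*) [Group E] (z : E) : Prop where
  zne : z ≠ 1
  zc : ∀ g : E, g * z = z * g
  expp : ∀ g : E, g ^ p = 1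
  comm : ∀ g h : E, ∃ k : ZMod p, g * h = pwp z k * (h * g)
  cent : ∀ g : E, (∀ h, g * h = h * g) → ∃ k : ZMod p, g = pwp z k

section basic

variable {p : ℕ} [Fact p.Prime] {E : Type*} [Group E] {z : E}

/-- the commutator pairing -/
noncomputable def kap (h : ESp p E z) (w g : E) : ZMod p := Classical.choose (h.comm g w)

theorem kap_eq (h : ESp p E z) (w g : E) : g * w = pwp z (kap h w g) * (w * g) :=
  Classical.choose_spec (h.comm g w)

theorem kap_unique (h : ESp p E z) (w g : E) (k : ZMod p) (hk : g * w = pwp z k * (w * g)) :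
    kap h w g = k := by
  apply pwp_inj (h.expp z) h.zne
  have := kap_eq h w g
  rw [hk] at this
  exact (mul_right_cancel this).symm

theorem pwz_comm (h : ESp p E z) (a : ZMod p) (g : E) : g * pwp z a = pwp z a * g :=
  pwp_comm (h.zc g) a

theorem kap_mul (h : ESp p E z) (w g k : E) : kap h w (g * k) = kap h w g + kap h w k := by
  apply pwp_inj (h.expp z) h.zne
  rw [pwp_add (h.expp z)]
  have h1 := kap_eq h w (g * k)
  have h2 := kap_eq h w g
  have h3 := kap_eq h w k
  have h4 : g * k * w = pwp z (kap h w g) * pwp z (kap h w k) * (w * (g * k)) := by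
    calc g * k * w = g * (k * w) := by rw [mul_assoc]
      _ = g * (pwp z (kap h w k) * (w * k)) := by rw [h3]
      _ = pwp z (kap h w k) * (g * w) * k := by
          rw [← mul_assoc g, pwz_comm h]; simp only [mul_assoc]
      _ = pwp z (kap h w k) * (pwp z (kap h w g) * (w * g)) * k := by rw [h2]
      _ = pwp z (kap h w g) * pwp z (kap h w k) * (w * (g * k)) := by
          rw [← mul_assoc (pwp z (kap h w k)), ← pwz_comm h (kap h w k) (pwp z (kap h w g))]
          simp only [mul_assoc]
  rw [h1] at h4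
  exact mul_right_cancel h4

theorem kap_zero_iff (h : ESp p E z) (w g : E) : kap h w g = 0 ↔ g * w = w * g := by
  constructor
  · intro h0
    have := kap_eq h w g
    rw [h0, pwp_zero, one_mul] at this
    exact this
  · intro hc
    apply kap_unique
    rw [pwp_zero, one_mul, hc]

theorem kap_one (h : ESp p E z) (w : E) : kap h w 1 = 0 := by
  rw [kap_zero_iff]; simp

theorem kap_self (h : ESp p E z) (g : E) : kap h g g = 0 := by
  rw [kap_zero_iff]

theorem kap_inv (h : ESp p E z) (w g : E) : kap h w g⁻¹ = - kap h w g := by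
  have h1 := kap_mul h w g g⁻¹
  rw [mul_inv_cancel, kap_one] at h1
  exact eq_neg_of_add_eq_zero_right h1.symm

theorem kap_antisymm (h : ESp p E z) (w g : E) : kap h g w = - kap h w g := by
  have h1 := kap_eq h w g
  have h2 := kap_eq h g w
  rw [h2, ← mul_assoc, ← pwp_add (h.expp z)] at h1
  have h3 : pwp z (kap h w g + kap h g w) = pwp z (0 : ZMod p) := by
    rw [pwp_zero]
    exact (mul_eq_right.mp h1.symm)
  have h4 := pwp_inj (h.expp z) h.zne h3
  exact eq_neg_of_add_eq_zero_right h4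

theorem kap_pow (h : ESp p E z) (w g : E) (n : ℕ) : kap h w (g ^ n) = n * kap h w g := by
  induction n with
  | zero => simp [kap_one]
  | succ n ih => rw [pow_succ, kap_mul, ih]; push_cast; ring

theorem kap_pwp (h : ESp p E z) (w g : E) (a : ZMod p) : kap h w (pwp g a) = a * kap h w g := by
  unfold pwp
  rw [kap_pow, ZMod.natCast_zmod_val]

theorem kap_pwp_left (h : ESp p E z) (w g : E) (a : ZMod p) :
    kap h (pwp w a) g = a * kap h w g := by
  rw [kap_antisymm, kap_pwp, kap_antisymm h w g]; ring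

theorem central_iff (h : ESp p E z) (w : E) : (∀ g, g * w = w * g) ↔ ∃ k : ZMod p, w = pwp z k := by
  constructor
  · intro hw
    exact h.cent w (fun g => (hw g).symm)
  · rintro ⟨k, rfl⟩ g
    exact pwz_comm h k g

end basic

section decomp

variable {p : ℕ} [Fact p.Prime] {E : Type*} [Group E] {z : E}

theorem z_mem_E1 (h : ESp p E z) (x y : E) : z ∈ E1 x y := by
  rw [mem_E1]; exact ⟨(h.zc x).symm, (h.zc y).symm⟩

theorem pwz_mem_E1 (h : ESp p E z) (x y : E) (s : ZMod p) : pwp z s ∈ E1 x y :=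
  pow_mem (z_mem_E1 h x y) _

/-- the parametrization -/
def Phi (x y : E) (q : ZMod p × ZMod p × E1 x y) : E := pwp x q.1 * pwp y q.2.1 * (q.2.2 : E)

variable (h : ESp p E z) (x y : E) (hxy : kap h x y = 1)

theorem kap_x_E1 (e : E1 x y) : kap h x (e : E) = 0 := by
  rw [kap_zero_iff]; exact ((mem_E1 x y e).mp e.2).1

theorem kap_y_E1 (e : E1 x y) : kap h y (e : E) = 0 := by
  rw [kap_zero_iff]; exact ((mem_E1 x y e).mp e.2).2

include hxy

theorem kap_y_x : kap h y x = -1 := by
  rw [kap_antisymm h x y, hxy]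

theorem kap_x_Phi (q : ZMod p × ZMod p × E1 x y) : kap h x (Phi x y q) = q.2.1 := by
  unfold Phi
  rw [kap_mul h, kap_mul h, kap_pwp, kap_pwp, kap_self, hxy, kap_x_E1]; ring

theorem kap_y_Phi (q : ZMod p × ZMod p × E1 x y) : kap h y (Phi x y q) = - q.1 := by
  unfold Phi
  rw [kap_mul h, kap_mul h, kap_pwp, kap_pwp, kap_self, kap_y_x h x y hxy, kap_y_E1]; ring

theorem Phi_injective : Function.Injective (Phi (p := p) x y) := by
  rintro ⟨a, b, e⟩ ⟨c, d, e'⟩ hpq
  have h1 := congrArg (kap h x) hpq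
  have h2 := congrArg (kap h y) hpq
  rw [kap_x_Phi h x y hxy, kap_x_Phi h x y hxy] at h1
  rw [kap_y_Phi h x y hxy, kap_y_Phi h x y hxy] at h2
  simp only [neg_inj] at h1 h2
  subst h1 h2
  unfold Phi at hpq
  simp only at hpq
  have h3 : (e : E) = e' := mul_left_cancel hpq
  have h4 : e = e' := Subtype.ext h3
  rw [h4]

theorem Phi_surjective : Function.Surjective (Phi (p := p) x y) := by
  intro g
  have he : (pwp x (- kap h y g) * pwp y (kap h x g))⁻¹ * g ∈ E1 x y := by
    rw [mem_E1, ← kap_zero_iff h, ← kap_zero_iff h, kap_mul h, kap_mul h, kap_inv h, kap_inv h,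
      kap_mul h, kap_mul h, kap_pwp, kap_pwp, kap_pwp, kap_pwp, kap_self, kap_self, hxy,
      kap_y_x h x y hxy]
    constructor
    · ring
    · ring
  refine ⟨(- kap h y g, kap h x g, ⟨_, he⟩), ?_⟩
  unfold Phi
  simp only
  group

theorem esp_E1 : ESp p (E1 x y) ⟨z, z_mem_E1 h x y⟩ where
  zne := fun h1 => h.zne (congrArg Subtype.val h1)
  zc := fun g => Subtype.ext (h.zc g)
  expp := fun g => Subtype.ext (by rw [Subgroup.coe_pow, h.expp]; rfl)
  comm := fun g k => by
    obtain ⟨c, hc⟩ := h.comm g k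
    refine ⟨c, Subtype.ext ?_⟩
    rw [Subgroup.coe_mul, Subgroup.coe_mul, Subgroup.coe_mul]
    unfold pwp
    rw [Subgroup.coe_pow]
    exact hc
  cent := fun g hg => by
    have hg1 := (mem_E1 x y g).mp g.2
    have hall : ∀ k : E, (g : E) * k = k * g := by
      intro k
      obtain ⟨⟨a, b, e⟩, rfl⟩ := Phi_surjective h x y hxy k
      unfold Phi
      simp only
      have h1 := pwp_comm hg1.1 a
      have h2 := pwp_comm hg1.2 b
      have h3 : (g : E) * e = e * g := congrArg Subtype.val (hg e)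
      calc (g : E) * (pwp x a * pwp y b * e) = pwp x a * (g * pwp y b) * e := by
            rw [← mul_assoc, ← mul_assoc, h1]; simp only [mul_assoc]
        _ = pwp x a * pwp y b * (g * e) := by rw [h2]; simp only [mul_assoc]
        _ = pwp x a * pwp y b * e * g := by rw [h3]; simp only [mul_assoc]
    obtain ⟨c, hc⟩ := h.cent g hall
    refine ⟨c, Subtype.ext ?_⟩
    unfold pwp
    rw [Subgroup.coe_pow]
    exact hc

theorem card_E1 [Finite E] : Nat.card E = p * p * Nat.card (E1 x y) := by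
  rw [← Nat.card_congr (Equiv.ofBijective (Phi (p := p) x y)
    ⟨Phi_injective h x y hxy, Phi_surjective h x y hxy⟩), Nat.card_prod, Nat.card_prod,
    Nat.card_zmod]
  ring

theorem tp_formula (e e' : E1 x y) (a b c d : ZMod p) :
    (pwp x a * pwp y b * e) * (pwp x c * pwp y d * e') =
      pwp x (a + c) * pwp y (b + d) * (pwp z (b * c) * e * e') := by
  have zc : ∀ (s : ZMod p) (g : E), g * pwp z s = pwp z s * g := fun s g => pwz_comm h s g
  have lc : ∀ (s : ZMod p) (g r : E), g * (pwp z s * r) = pwp z s * (g * r) := fun s g r => by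
    rw [← mul_assoc, zc s g, mul_assoc]
  have hex := ((mem_E1 x y e).mp e.2).1
  have hey := ((mem_E1 x y e).mp e.2).2
  have h1 : pwp y b * pwp x c = pwp z (b * c) * (pwp x c * pwp y b) := by
    have := kap_eq h (pwp x c) (pwp y b)
    rw [kap_pwp, kap_pwp_left, hxy, mul_one] at this
    exact this
  have h4 : (e : E) * (pwp x c * pwp y d) = (pwp x c * pwp y d) * e := by
    rw [← mul_assoc, pwp_comm hex c, mul_assoc, pwp_comm hey d, ← mul_assoc]
  calc (pwp x a * pwp y b * e) * (pwp x c * pwp y d * e')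
      = pwp x a * pwp y b * (e * (pwp x c * pwp y d)) * e' := by simp only [mul_assoc]
    _ = pwp x a * (pwp y b * pwp x c) * pwp y d * e * e' := by rw [h4]; simp only [mul_assoc]
    _ = pwp x a * (pwp z (b * c) * (pwp x c * pwp y b)) * pwp y d * e * e' := by rw [h1]
    _ = pwp z (b * c) * (pwp x a * pwp x c) * (pwp y b * pwp y d) * e * e' := by
        rw [lc (b * c) (pwp x a)]; simp only [mul_assoc]
    _ = pwp z (b * c) * pwp x (a + c) * pwp y (b + d) * e * e' := by
        rw [← pwp_add (h.expp x), ← pwp_add (h.expp y)]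
    _ = pwp z (b * c) * (pwp x (a + c) * (pwp y (b + d) * (e * e'))) := by
        simp only [mul_assoc]
    _ = pwp x (a + c) * (pwp y (b + d) * (pwp z (b * c) * (e * e'))) := by
        rw [lc (b * c) (pwp y (b + d)) (e * e'), lc (b * c) (pwp x (a + c))]
    _ = _ := by simp only [mul_assoc]

end decomp

section iso

variable {p : ℕ} [Fact p.Prime]

theorem exists_pair {E : Type*} [Group E] {z : E} (h : ESp p E z)
    (hnc : ¬ ∀ g k : E, g * k = k * g) : ∃ x y : E, kap h x y = 1 := by
  push_neg at hnc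
  obtain ⟨g, k, hgk⟩ := hnc
  have hk : kap h k g ≠ 0 := fun h0 => hgk ((kap_zero_iff h k g).mp h0)
  refine ⟨k, pwp g (kap h k g)⁻¹, ?_⟩
  rw [kap_pwp, inv_mul_cancel₀ hk]

theorem bij_of_comm {E : Type*} [Group E] {z : E} (h : ESp p E z)
    (hc : ∀ g k : E, g * k = k * g) : Function.Bijective (fun a : ZMod p => pwp z a) := by
  constructor
  · intro a b hab; exact pwp_inj (h.expp z) h.zne hab
  · intro g; obtain ⟨k, hk⟩ := h.cent g (hc g); exact ⟨k, hk.symm⟩

theorem iso_aux : ∀ (n : ℕ) (E : Type u) [Group E] [Finite E] (E' : Type v) [Group E']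
    [Finite E'] (z : E) (z' : E'), ESp p E z → ESp p E' z' → Nat.card E = n → Nat.card E' = n →
    ∃ φ : E ≃* E', φ z = z' := by
  intro n
  induction n using Nat.strong_induction_on with
  | _ n ih =>
    intro E _ _ E' _ _ z z' h h' hc hc'
    have hp := (Fact.out : p.Prime)
    have hp2 := hp.two_le
    by_cases hab : ∀ g k : E, g * k = k * g
    · have hb := bij_of_comm h hab
      have hcard : Nat.card E = p := by
        rw [← Nat.card_congr (Equiv.ofBijective _ hb), Nat.card_zmod]
      have hab' : ∀ g k : E', g * k = k * g := by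
        by_contra hnc
        obtain ⟨x', y', hxy'⟩ := exists_pair h' hnc
        have := card_E1 h' x' y' hxy'
        rw [hc', ← hc, hcard] at this
        have hpos : 0 < Nat.card (E1 x' y') := Nat.card_pos
        nlinarith
      have hb' := bij_of_comm h' hab'
      let e1 := Equiv.ofBijective _ hb
      let e2 := Equiv.ofBijective _ hb'
      refine ⟨⟨e1.symm.trans e2, ?_⟩, ?_⟩
      · intro g k
        obtain ⟨a, rfl⟩ := e1.surjective g
        obtain ⟨b, rfl⟩ := e1.surjective k
        have hprod : e1 a * e1 b = e1 (a + b) := (pwp_add (h.expp z) a b).symm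
        show e2 (e1.symm (e1 a * e1 b)) = e2 (e1.symm (e1 a)) * e2 (e1.symm (e1 b))
        rw [hprod, Equiv.symm_apply_apply, Equiv.symm_apply_apply, Equiv.symm_apply_apply]
        exact pwp_add (h'.expp z') a b
      · have hz : e1.symm z = 1 := by
          rw [Equiv.symm_apply_eq]; exact (pwp_one z).symm
        show e2 (e1.symm z) = z'
        rw [hz]
        exact pwp_one z'
    · obtain ⟨x, y, hxy⟩ := exists_pair h hab
      have hcE := card_E1 h x y hxy
      have hpos : 0 < Nat.card (E1 x y) := Nat.card_pos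
      have hab' : ¬ ∀ g k : E', g * k = k * g := by
        intro hab'
        have hb' := bij_of_comm h' hab'
        have hcard : Nat.card E' = p := by
          rw [← Nat.card_congr (Equiv.ofBijective _ hb'), Nat.card_zmod]
        rw [hc, ← hc', hcard] at hcE
        nlinarith
      obtain ⟨x', y', hxy'⟩ := exists_pair h' hab'
      have hcE' := card_E1 h' x' y' hxy'
      have hlt : Nat.card (E1 x y) < n := by
        rw [← hc, hcE]
        have h1 : 1 < p * p := by nlinarith
        exact lt_mul_of_one_lt_left hpos h1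
      have hcc : Nat.card (E1 x' y') = Nat.card (E1 x y) := by
        rw [hc, ← hc', hcE'] at hcE
        exact Nat.eq_of_mul_eq_mul_left (Nat.mul_pos hp.pos hp.pos) hcE
      obtain ⟨φ, hφ⟩ := ih _ hlt (E1 x y) (E1 x' y') ⟨z, z_mem_E1 h x y⟩
        ⟨z', z_mem_E1 h' x' y'⟩ (esp_E1 h x y hxy) (esp_E1 h' x' y' hxy') rfl hcc
      have hφs : ∀ s : ZMod p, (φ ⟨pwp z s, pwz_mem_E1 h x y s⟩ : E') = pwp z' s := by
        intro s
        have hs : (⟨pwp z s, pwz_mem_E1 h x y s⟩ : E1 x y) =
            (⟨z, z_mem_E1 h x y⟩ : E1 x y) ^ s.val :=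
          Subtype.ext (by rw [Subgroup.coe_pow]; rfl)
        rw [hs, map_pow, hφ, Subgroup.coe_pow]; rfl
      let e1 := Equiv.ofBijective (Phi (p := p) x y)
        ⟨Phi_injective h x y hxy, Phi_surjective h x y hxy⟩
      let e2 := Equiv.ofBijective (Phi (p := p) x' y')
        ⟨Phi_injective h' x' y' hxy', Phi_surjective h' x' y' hxy'⟩
      let τ : ZMod p × ZMod p × E1 x y ≃ ZMod p × ZMod p × E1 x' y' :=
        Equiv.prodCongr (Equiv.refl _) (Equiv.prodCongr (Equiv.refl _) φ.toEquiv)
      refine ⟨⟨(e1.symm.trans τ).trans e2, ?_⟩, ?_⟩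
      · intro g k
        obtain ⟨⟨a, b, e⟩, rfl⟩ := e1.surjective g
        obtain ⟨⟨c, d, e'⟩, rfl⟩ := e1.surjective k
        have hprod : e1 (a, b, e) * e1 (c, d, e') = e1 (a + c, b + d,
            ⟨pwp z (b * c), pwz_mem_E1 h x y _⟩ * e * e') :=
          tp_formula h x y hxy e e' a b c d
        show e2 (τ (e1.symm (e1 (a, b, e) * e1 (c, d, e')))) =
          e2 (τ (e1.symm (e1 (a, b, e)))) * e2 (τ (e1.symm (e1 (c, d, e'))))
        rw [hprod, Equiv.symm_apply_apply, Equiv.symm_apply_apply, Equiv.symm_apply_apply]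
        show Phi x' y' (a + c, b + d, φ (⟨pwp z (b * c), pwz_mem_E1 h x y _⟩ * e * e')) =
          Phi x' y' (a, b, φ e) * Phi x' y' (c, d, φ e')
        unfold Phi
        simp only [map_mul, Subgroup.coe_mul]
        rw [hφs]
        exact (tp_formula h' x' y' hxy' (φ e) (φ e') a b c d).symm
      · have hz : e1.symm z = (0, 0, ⟨z, z_mem_E1 h x y⟩) := by
          rw [Equiv.symm_apply_eq]
          show z = pwp x 0 * pwp y 0 * z
          rw [pwp_zero, pwp_zero, one_mul, one_mul]
        show e2 (τ (e1.symm z)) = z'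
        rw [hz]
        show pwp x' 0 * pwp y' 0 * (φ ⟨z, z_mem_E1 h x y⟩ : E') = z'
        rw [pwp_zero, pwp_zero, one_mul, one_mul, hφ]

theorem exists_esp {E : Type*} [Group E] [Finite E]
    (hE : Cfsg.IsExtraspecial p E) (he : Monoid.exponent E = p) : ∃ z : E, ESp p E z := by
  obtain ⟨⟨hP, hΦ, hC⟩, hZ⟩ := hE
  have hp := (Fact.out : p.Prime)
  haveI : Nontrivial (Subgroup.center E) := by
    rw [← Finite.one_lt_card_iff_nontrivial, hZ]; exact hp.one_lt
  obtain ⟨z, hz1⟩ := exists_ne (1 : Subgroup.center E)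
  have hzne : (z : E) ≠ 1 := fun h => hz1 (Subtype.ext h)
  have hexp : ∀ g : E, g ^ p = 1 := fun g => he ▸ Monoid.pow_exponent_eq_one g
  have hZp : ∀ g ∈ Subgroup.center E, ∃ k : ZMod p, g = pwp (z : E) k := by
    intro g hg
    obtain ⟨n, hn⟩ := mem_powers_of_prime_card (g' := (⟨g, hg⟩ : Subgroup.center E)) hZ hz1
    refine ⟨(n : ZMod p), ?_⟩
    rw [pwp_natCast (hexp _)]
    have := congrArg Subtype.val hn
    simpa using this.symm
  refine ⟨z, ⟨hzne, ?_, hexp, ?_, ?_⟩⟩
  · intro g; exact Subgroup.mem_center_iff.mp z.2 g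
  · intro g k
    have h1 : g * k * g⁻¹ * k⁻¹ ∈ Subgroup.center E := by
      rw [← hC, commutator_def]
      exact Subgroup.commutator_mem_commutator (Subgroup.mem_top g) (Subgroup.mem_top k)
    obtain ⟨c, hc⟩ := hZp _ h1
    refine ⟨c, ?_⟩
    calc g * k = (g * k * g⁻¹ * k⁻¹) * (k * g) := by group
      _ = pwp (z : E) c * (k * g) := by rw [hc]
  · intro g hg
    apply hZp
    rw [Subgroup.mem_center_iff]
    intro k; exact (hg k).symm

theorem main0098 {E₁ : Type u} {E₂ : Type v} [Group E₁] [Group E₂] [Finite E₁] [Finite E₂]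
    (h₁ : Cfsg.IsExtraspecial p E₁) (h₂ : Cfsg.IsExtraspecial p E₂)
    (he₁ : Monoid.exponent E₁ = p) (he₂ : Monoid.exponent E₂ = p)
    (hc : Nat.card E₁ = Nat.card E₂) : Nonempty (E₁ ≃* E₂) := by
  obtain ⟨z, hz⟩ := exists_esp h₁ he₁
  obtain ⟨z', hz'⟩ := exists_esp h₂ he₂
  obtain ⟨φ, -⟩ := iso_aux _ E₁ E₂ z z' hz hz' rfl hc.symm
  exact ⟨φ⟩

end iso

end Cfsg.Agent.Helper8.ExtraP
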