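import Cfsg.Agent.Helper8.ExtraP

namespace Cfsg.Agent.Helper8.ExtraP

open scoped BigOperators commutatorElement

section general

variable {p : ℕ} [Fact p.Prime]

theorem esp_isPGroup {E : Type*} [Group E] {z : E} (h : ESp p E z) : IsPGroup p E := by
  intro g
  exact ⟨1, by rw [pow_one]; exact h.expp g⟩

theorem extraspecial_of_esp {E : Type*} [Group E] [Finite E] {z : E} (h : ESp p E z)
    (hnc : ¬ ∀ g k : E, g * k = k * g) : Cfsg.IsExtraspecial p E := by
  classical
  have hp := (Fact.out : p.Prime)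
  have hP := esp_isPGroup h
  have hzc : z ∈ Subgroup.center E := by
    rw [Subgroup.mem_center_iff]; exact h.zc
  have hpz : ∀ k : ZMod p, pwp z k ∈ Subgroup.center E := fun k => pow_mem hzc _
  have hcen : ∀ g ∈ Subgroup.center E, ∃ k : ZMod p, g = pwp z k := by
    intro g hg
    rw [Subgroup.mem_center_iff] at hg
    exact h.cent g (fun k => (hg k).symm)
  have hcard : Nat.card (Subgroup.center E) = p := by
    have hb : Function.Bijective (fun k : ZMod p => (⟨pwp z k, hpz k⟩ : Subgroup.center E)) := by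
      constructor
      · intro a b hab
        exact pwp_inj (h.expp z) h.zne (congrArg Subtype.val hab)
      · rintro ⟨g, hg⟩
        obtain ⟨k, hk⟩ := hcen g hg
        exact ⟨k, Subtype.ext hk.symm⟩
    rw [← Nat.card_congr (Equiv.ofBijective _ hb), Nat.card_zmod]
  have hcomm_le : commutator E ≤ Subgroup.center E := by
    rw [commutator_def, Subgroup.commutator_le]
    intro g _ k _
    obtain ⟨c, hc⟩ := h.comm g k
    have : ⁅g, k⁆ = pwp z c := by rw [commutatorElement_def, hc]; group
    rw [this]; exact hpz c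
  have hcomm_ge : Subgroup.center E ≤ commutator E := by
    obtain ⟨x, y, hxy⟩ := exists_pair h hnc
    have hz : z ∈ commutator E := by
      have h1 := kap_eq h x y
      rw [hxy, pwp_one] at h1
      have : ⁅y, x⁆ = z := by rw [commutatorElement_def, h1]; group
      rw [← this, commutator_def]
      exact Subgroup.commutator_mem_commutator (Subgroup.mem_top y) (Subgroup.mem_top x)
    intro w hw
    obtain ⟨k, rfl⟩ := hcen w hw
    exact pow_mem hz _
  have hcomm : commutator E = Subgroup.center E := le_antisymm hcomm_le hcomm_ge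
  have hfrat : frattini E = Subgroup.center E := by
    apply le_antisymm
    · apply Cfsg.Agent.Helper5.frattini_le_of_elementary_quotient hp
      · intro a b
        obtain ⟨c, hc⟩ := h.comm a b
        have : a * b * a⁻¹ * b⁻¹ = pwp z c := by rw [hc]; group
        rw [this]; exact hpz c
      · intro a
        rw [h.expp]; exact Subgroup.one_mem _
    · rw [← hcomm]
      exact Cfsg.Agent.Lead.commutator_le_frattini_of_isPGroup p hP
  exact ⟨⟨hP, hfrat, hcomm⟩, hcard⟩

theorem esp_of_equiv {E : Type*} [Group E] {E' : Type*} [Group E'] {z : E} (h : ESp p E z)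
    (φ : E ≃* E') : ESp p E' (φ z) where
  zne := fun h1 => h.zne (φ.injective (by rw [h1, map_one]))
  zc := fun g => by
    obtain ⟨g0, rfl⟩ := φ.surjective g
    rw [← map_mul, ← map_mul, h.zc]
  expp := fun g => by
    obtain ⟨g0, rfl⟩ := φ.surjective g
    rw [← map_pow, h.expp, map_one]
  comm := fun g k => by
    obtain ⟨g0, rfl⟩ := φ.surjective g
    obtain ⟨k0, rfl⟩ := φ.surjective k
    obtain ⟨c, hc⟩ := h.comm g0 k0
    refine ⟨c, ?_⟩
    rw [← map_mul, hc, map_mul, map_mul]
    unfold pwp
    rw [map_pow]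
  cent := fun g hg => by
    obtain ⟨g0, rfl⟩ := φ.surjective g
    have h1 : ∀ k, g0 * k = k * g0 := fun k =>
      φ.injective (by rw [map_mul, map_mul]; exact hg (φ k))
    obtain ⟨c, hc⟩ := h.cent g0 h1
    refine ⟨c, ?_⟩
    rw [hc]; unfold pwp; rw [map_pow]

end general

/-- the Heisenberg group of order `p ^ (1 + 2 n)` -/
@[ext] structure Heis (n p : ℕ) where
  a : Fin n → ZMod p
  b : Fin n → ZMod p
  c : ZMod p

namespace Heis

section grp

variable {n p : ℕ}

instance : Mul (Heis n p) := ⟨fun g h => ⟨g.a + h.a, g.b + h.b, g.c + h.c + g.a ⬝ᵥ h.b⟩⟩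
instance : One (Heis n p) := ⟨⟨0, 0, 0⟩⟩
instance : Inv (Heis n p) := ⟨fun g => ⟨-g.a, -g.b, -g.c + g.a ⬝ᵥ g.b⟩⟩

@[simp] theorem mul_a (g h : Heis n p) : (g * h).a = g.a + h.a := rfl
@[simp] theorem mul_b (g h : Heis n p) : (g * h).b = g.b + h.b := rfl
@[simp] theorem mul_c (g h : Heis n p) : (g * h).c = g.c + h.c + g.a ⬝ᵥ h.b := rfl
@[simp] theorem one_a : (1 : Heis n p).a = 0 := rfl
@[simp] theorem one_b : (1 : Heis n p).b = 0 := rfl
@[simp] theorem one_c : (1 : Heis n p).c = 0 := rfl
@[simp] theorem inv_a (g : Heis n p) : (g⁻¹).a = -g.a := rfl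
@[simp] theorem inv_b (g : Heis n p) : (g⁻¹).b = -g.b := rfl
@[simp] theorem inv_c (g : Heis n p) : (g⁻¹).c = -g.c + g.a ⬝ᵥ g.b := rfl

instance : Group (Heis n p) where
  mul_assoc g h k := by
    ext1
    · simp [add_assoc]
    · simp [add_assoc]
    · simp [add_dotProduct, dotProduct_add]; ring
  one_mul g := by ext1 <;> simp
  mul_one g := by ext1 <;> simp
  inv_mul_cancel g := by ext1 <;> simp

theorem pow_formula (g : Heis n p) (k : ℕ) : (g ^ k).a = k • g.a ∧ (g ^ k).b = k • g.b ∧
    (g ^ k).c = k * g.c + (k.choose 2 : ZMod p) * (g.a ⬝ᵥ g.b) := by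
  induction k with
  | zero => simp
  | succ k ih =>
    obtain ⟨h1, h2, h3⟩ := ih
    rw [pow_succ]
    refine ⟨?_, ?_, ?_⟩
    · rw [mul_a, h1, succ_nsmul]
    · rw [mul_b, h2, succ_nsmul]
    · rw [mul_c, h3, h1, smul_dotProduct, Nat.choose_succ_succ' k 1, Nat.choose_one_right,
        nsmul_eq_mul]
      push_cast; ring

/-- the equivalence with the underlying product -/
def equivProd : Heis n p ≃ (Fin n → ZMod p) × (Fin n → ZMod p) × ZMod p where
  toFun g := (g.a, g.b, g.c)
  invFun q := ⟨q.1, q.2.1, q.2.2⟩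
  left_inv g := rfl
  right_inv q := rfl

end grp

section prime

variable {n p : ℕ} [Fact p.Prime]

instance : Finite (Heis n p) := Finite.of_equiv _ equivProd.symm

theorem card_heis : Nat.card (Heis n p) = p ^ (1 + 2 * n) := by
  rw [Nat.card_congr equivProd, Nat.card_prod, Nat.card_prod, Nat.card_fun, Nat.card_zmod,
    Nat.card_fin]
  ring

theorem pow_p (hp : p ≠ 2) (g : Heis n p) : g ^ p = 1 := by
  have hpp := (Fact.out : p.Prime)
  obtain ⟨h1, h2, h3⟩ := pow_formula g p
  have hc : ((p.choose 2 : ℕ) : ZMod p) = 0 := by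
    rw [ZMod.natCast_eq_zero_iff]
    exact hpp.dvd_choose_self (by norm_num) (by have := hpp.two_le; omega)
  ext1
  · rw [h1, one_a]; funext i; simp
  · rw [h2, one_b]; funext i; simp
  · rw [h3, one_c, hc]; simp

/-- the central generator -/
def zz (n p : ℕ) : Heis n p := ⟨0, 0, 1⟩

theorem pwp_zz (k : ZMod p) : pwp (zz n p) k = ⟨0, 0, k⟩ := by
  unfold pwp
  obtain ⟨h1, h2, h3⟩ := pow_formula (zz n p) k.val
  ext1
  · rw [h1]; simp [zz]
  · rw [h2]; simp [zz]
  · rw [h3]; simp [zz]

theorem esp_heis (hp : p ≠ 2) : ESp p (Heis n p) (zz n p) where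
  zne := fun h => by
    have := congrArg Heis.c h
    simp [zz] at this
  zc := fun g => by ext1 <;> simp [zz, add_comm]
  expp := pow_p hp
  comm := fun g h => by
    refine ⟨g.a ⬝ᵥ h.b - h.a ⬝ᵥ g.b, ?_⟩
    rw [pwp_zz]
    ext1
    · simp [add_comm]
    · simp [add_comm]
    · simp; ring
  cent := fun g hg => by
    refine ⟨g.c, ?_⟩
    rw [pwp_zz]
    have ha : g.a = 0 := by
      funext i
      have := congrArg Heis.c (hg ⟨0, Pi.single i 1, 0⟩)
      simpa using this
    have hb : g.b = 0 := by
      funext i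
      have := congrArg Heis.c (hg ⟨Pi.single i 1, 0, 0⟩)
      simpa using this.symm
    ext1
    · exact ha
    · exact hb
    · rfl

theorem noncomm_heis (hn : 1 ≤ n) : ¬ ∀ g k : Heis n p, g * k = k * g := by
  intro hab
  have := congrArg Heis.c (hab ⟨Pi.single ⟨0, hn⟩ 1, 0, 0⟩ ⟨0, Pi.single ⟨0, hn⟩ 1, 0⟩)
  simp at this

end prime

section action

variable {n p : ℕ}

/-- the natural module -/
abbrev WW (n p : ℕ) : Type := ZMod p × (Fin n → ZMod p) × ZMod p

/-- the action of the Heisenberg group on its natural module -/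
def act (g : Heis n p) : WW n p →ₗ[ZMod p] WW n p where
  toFun w := (w.1 + g.a ⬝ᵥ w.2.1 + g.c * w.2.2, w.2.1 + w.2.2 • g.b, w.2.2)
  map_add' w w' := by
    refine Prod.ext ?_ (Prod.ext ?_ ?_)
    · simp [dotProduct_add, mul_add]; ring
    · simp [add_smul]; abel
    · simp
  map_smul' r w := by
    refine Prod.ext ?_ (Prod.ext ?_ ?_)
    · simp [dotProduct_smul, mul_add]; ring
    · simp [mul_smul]
    · simp

theorem act_apply (g : Heis n p) (w : WW n p) :
    act g w = (w.1 + g.a ⬝ᵥ w.2.1 + g.c * w.2.2, w.2.1 + w.2.2 • g.b, w.2.2) := rfl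

theorem act_one : act (1 : Heis n p) = 1 := by
  apply LinearMap.ext
  intro w
  rw [act_apply]
  refine Prod.ext ?_ (Prod.ext ?_ ?_)
  · simp
  · simp
  · simp

theorem act_mul (g h : Heis n p) : act (g * h) = act g * act h := by
  apply LinearMap.ext
  intro w
  rw [Module.End.mul_apply, act_apply, act_apply, act_apply]
  refine Prod.ext ?_ (Prod.ext ?_ ?_)
  · simp [add_dotProduct, dotProduct_add, dotProduct_smul]; ring
  · simp only [mul_b, smul_add]; abel
  · simp

/-- the action as a monoid homomorphism -/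
def actHom (n p : ℕ) : Heis n p →* Module.End (ZMod p) (WW n p) where
  toFun := act
  map_one' := act_one
  map_mul' := act_mul

theorem act_injective : Function.Injective (act (n := n) (p := p)) := by
  intro g h hgh
  have h1 := congrArg (fun L : WW n p →ₗ[ZMod p] WW n p => L (0, 0, 1)) hgh
  simp only [act_apply] at h1
  have h2 : ∀ i, g.a i = h.a i := by
    intro i
    have h3 := congrArg (fun L : WW n p →ₗ[ZMod p] WW n p => (L (0, Pi.single i 1, 0)).1) hgh
    simpa [act_apply] using h3
  have hc : g.c = h.c := by simpa using congrArg Prod.fst h1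
  have hb : g.b = h.b := by simpa using congrArg (fun q => q.2.1) h1
  ext1
  · funext i; exact h2 i
  · exact hb
  · exact hc

end action

section embed

variable (n p : ℕ) [Fact p.Prime]

theorem finrank_WW : Module.finrank (ZMod p) (WW n p) = n + 2 := by
  rw [Module.finrank_prod, Module.finrank_prod, Module.finrank_self, Module.finrank_fin_fun]
  ring

/-- a basis of the natural module -/
noncomputable def basisWW : Module.Basis (Fin (n + 2)) (ZMod p) (WW n p) :=
  Module.finBasisOfFinrankEq (ZMod p) (WW n p) (finrank_WW n p)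

/-- the embedding into the general linear group -/
noncomputable def heisHom : Heis n p →* Matrix.GeneralLinearGroup (Fin (n + 2)) (ZMod p) :=
  (Units.mapEquiv (LinearMap.toMatrixAlgEquiv (basisWW n p)).toMulEquiv).toMonoidHom.comp
    (actHom n p).toHomUnits

theorem heisHom_injective : Function.Injective (heisHom n p) := by
  intro g h hgh
  have h1 : (actHom n p).toHomUnits g = (actHom n p).toHomUnits h :=
    (Units.mapEquiv (LinearMap.toMatrixAlgEquiv (basisWW n p)).toMulEquiv).injective hgh
  have h2 := congrArg Units.val h1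
  rw [MonoidHom.coe_toHomUnits, MonoidHom.coe_toHomUnits] at h2
  exact act_injective h2

end embed

end Heis

theorem main3799 (p : ℕ) [Fact p.Prime] (hp : p ≠ 2) (n : ℕ) (hn : 1 ≤ n) :
    ∃ E : Subgroup (Matrix.GeneralLinearGroup (Fin (n + 2)) (ZMod p)),
      Cfsg.IsExtraspecial p ↥E ∧ Nat.card E = p ^ (1 + 2 * n) ∧ ∀ x ∈ E, x ^ p = 1 := by
  have hf : Function.Injective (Heis.heisHom n p) := Heis.heisHom_injective n p
  let φ : Heis n p ≃* (Heis.heisHom n p).range := MonoidHom.ofInjective hf
  refine ⟨(Heis.heisHom n p).range, ?_, ?_, ?_⟩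
  · haveI : Finite (Heis.heisHom n p).range := Finite.of_equiv _ φ.toEquiv
    exact extraspecial_of_esp (esp_of_equiv (Heis.esp_heis hp) φ)
      (fun hab => Heis.noncomm_heis (p := p) hn (fun g k =>
        φ.injective (by rw [map_mul, map_mul]; exact hab _ _)))
  · rw [← Nat.card_congr φ.toEquiv, Heis.card_heis]
  · rintro x ⟨g, rfl⟩
    rw [← map_pow, Heis.pow_p hp, map_one]

end Cfsg.Agent.Helper8.ExtraP
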