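import Mathlib
import Cfsg.Agent.Helper8.Fixity

set_option autoImplicit false

namespace Cfsg.Agent.Helper8.FixOrb

open Cfsg.Agent.Helper8

variable {K α : Type*} [Group K] [MulAction K α] [Finite α]

/-- orbit counting on an invariant subset -/
theorem dvd_ncard_of_orbits (Y : Set α) (hY : ∀ (k : K), ∀ y ∈ Y, k • y ∈ Y) (d : ℕ)
    (h : ∀ y ∈ Y, Nat.card (MulAction.orbit K y) = d) : d ∣ Y.ncard := by
  let Ys : SubMulAction K α := ⟨Y, fun k y hy => hY k y hy⟩
  have h1 : d ∣ Nat.card ↥Ys := by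
    apply Fixity.dvd_card_of_orbits (G := K)
    intro y
    rw [← h (y : α) y.2, Nat.card_coe_set_eq, Nat.card_coe_set_eq]
    have himg : Subtype.val '' MulAction.orbit K y = MulAction.orbit K (y : α) := by
      ext z
      constructor
      · rintro ⟨_, ⟨k, rfl⟩, rfl⟩
        exact ⟨k, rfl⟩
      · rintro ⟨k, rfl⟩
        exact ⟨k • y, ⟨k, rfl⟩, rfl⟩
    rw [← himg]
    exact (Set.ncard_image_of_injective _ Subtype.val_injective).symm
  have h2 : Nat.card ↥Ys = Y.ncard := Nat.card_coe_set_eq Y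
  rwa [h2] at h1

/-- orbit counting on an invariant subset with one fixed point -/
theorem dvd_ncard_sub_one (Y : Set α) (hY : ∀ (k : K), ∀ y ∈ Y, k • y ∈ Y) (d : ℕ) (a : α)
    (haY : a ∈ Y) (ha : ∀ k : K, k • a = a)
    (h : ∀ y ∈ Y, y ≠ a → Nat.card (MulAction.orbit K y) = d) : d ∣ Y.ncard - 1 := by
  have h1 : d ∣ (Y \ {a}).ncard := by
    apply dvd_ncard_of_orbits (K := K)
    · rintro k y ⟨hy, hya⟩
      refine ⟨hY k y hy, ?_⟩
      intro hk
      apply hya
      have hk' : k • y = a := hk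
      have : y = k⁻¹ • a := by rw [← hk', inv_smul_smul]
      rw [this, ha]
      rfl
    · rintro y ⟨hy, hya⟩
      exact h y hy hya
  rwa [Set.ncard_diff_singleton_of_mem haY] at h1

variable {Γ : Type*} [Group Γ] [MulAction Γ α]

theorem orbit_card [Finite Γ] (s : Set α) (y : α) :
    Nat.card (MulAction.orbit ↥(fixingSubgroup Γ s) y) * Nat.card (fixingSubgroup Γ (insert y s))
      = Nat.card (fixingSubgroup Γ s) := by
  have hle : fixingSubgroup Γ (insert y s) ≤ fixingSubgroup Γ s :=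
    fixingSubgroup_antitone Γ α (Set.subset_insert y s)
  have h1 : MulAction.stabilizer ↥(fixingSubgroup Γ s) y
      = (fixingSubgroup Γ (insert y s)).subgroupOf (fixingSubgroup Γ s) := by
    ext g
    rw [MulAction.mem_stabilizer_iff, Subgroup.mem_subgroupOf, mem_fixingSubgroup_iff]
    constructor
    · intro hg z hz
      rcases hz with rfl | hz
      · exact hg
      · exact (mem_fixingSubgroup_iff Γ).mp g.2 z hz
    · intro hg
      exact hg y (Set.mem_insert y s)
  have h2 := Subgroup.card_mul_index (MulAction.stabilizer ↥(fixingSubgroup Γ s) y)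
  rw [MulAction.index_stabilizer, h1,
    Nat.card_congr (Subgroup.subgroupOfEquivOfLe hle).toEquiv, mul_comm,
    ← Nat.card_coe_set_eq] at h2
  exact h2

theorem trans_of_cards [Finite Γ] [FaithfulSMul Γ α] (t : Set α) (l m : ℕ) (hl : 1 < l)
    (h1 : ∀ a, a ∉ t → Nat.card (fixingSubgroup Γ (insert a t)) = l)
    (h2 : ∀ a, a ∉ t → ∀ b, b ∉ t → a ≠ b →
      Nat.card (fixingSubgroup Γ (insert b (insert a t))) = m)
    (a b : α) (ha : a ∉ t) (hb : b ∉ t) : ∃ g ∈ fixingSubgroup Γ t, g • a = b := by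
  by_contra hcon
  have hab : a ≠ b := by
    rintro rfl
    exact hcon ⟨1, one_mem _, one_smul _ _⟩
  have hba : b ∉ MulAction.orbit ↥(fixingSubgroup Γ t) a := by
    rintro ⟨g, hg⟩
    exact hcon ⟨g, g.2, hg⟩
  have hab' : a ∉ MulAction.orbit ↥(fixingSubgroup Γ t) b := by
    intro h
    exact hba ((MulAction.orbitRel ↥(fixingSubgroup Γ t) α).symm h)
  have hle : fixingSubgroup Γ (insert a t) ≤ fixingSubgroup Γ t :=
    fixingSubgroup_antitone Γ α (Set.subset_insert a t)
  have hNa := orbit_card (Γ := Γ) t a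
  have hNb := orbit_card (Γ := Γ) t b
  rw [h1 a ha] at hNa
  rw [h1 b hb] at hNb
  have hN : Nat.card (MulAction.orbit ↥(fixingSubgroup Γ t) a)
      = Nat.card (MulAction.orbit ↥(fixingSubgroup Γ t) b) := by
    have : Nat.card (MulAction.orbit ↥(fixingSubgroup Γ t) a) * l
        = Nat.card (MulAction.orbit ↥(fixingSubgroup Γ t) b) * l := by rw [hNa, hNb]
    exact Nat.eq_of_mul_eq_mul_right (by omega) this
  -- orbits of `K = fixingSubgroup (insert a t)`
  have hKorb : ∀ y, y ∉ t → y ≠ a →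
      Nat.card (MulAction.orbit ↥(fixingSubgroup Γ (insert a t)) y) * m = l := by
    intro y hy hya
    have h3 := orbit_card (Γ := Γ) (insert a t) y
    rw [h1 a ha, h2 a ha y hy (Ne.symm hya)] at h3
    exact h3
  have hm : 0 < m := by
    rcases Nat.eq_zero_or_pos m with h0 | h0
    · have := hKorb b hb (Ne.symm hab)
      rw [h0, mul_zero] at this
      omega
    · exact h0
  have hd : ∀ y, y ∉ t → y ≠ a → Nat.card (MulAction.orbit ↥(fixingSubgroup Γ (insert a t)) y)
      = Nat.card (MulAction.orbit ↥(fixingSubgroup Γ (insert a t)) b) := by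
    intro y hy hya
    have e1 := hKorb y hy hya
    have e2 := hKorb b hb (Ne.symm hab)
    exact Nat.eq_of_mul_eq_mul_right hm (e1.trans e2.symm)
  have horb_t : ∀ c : α, c ∉ t → ∀ y ∈ MulAction.orbit ↥(fixingSubgroup Γ t) c, y ∉ t := by
    rintro c hc _ ⟨g, rfl⟩ hy
    apply hc
    have h3 : (g⁻¹ : ↥(fixingSubgroup Γ t)) • (g • c) = g • c :=
      (mem_fixingSubgroup_iff Γ).mp (g⁻¹).2 _ hy
    rw [inv_smul_smul] at h3
    rw [h3]
    exact hy
  have hinv : ∀ c : α, ∀ (k : ↥(fixingSubgroup Γ (insert a t))),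
      ∀ y ∈ MulAction.orbit ↥(fixingSubgroup Γ t) c,
        k • y ∈ MulAction.orbit ↥(fixingSubgroup Γ t) c := by
    rintro c k _ ⟨g, rfl⟩
    refine ⟨⟨(k : Γ), hle k.2⟩ * g, ?_⟩
    change ((⟨(k : Γ), hle k.2⟩ : ↥(fixingSubgroup Γ t)) * g) • c = k • (g • c)
    rw [mul_smul]
    rfl
  have hdvd1 : Nat.card (MulAction.orbit ↥(fixingSubgroup Γ (insert a t)) b)
      ∣ (MulAction.orbit ↥(fixingSubgroup Γ t) b).ncard := by
    apply dvd_ncard_of_orbits (K := ↥(fixingSubgroup Γ (insert a t))) _ (hinv b)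
    intro y hy
    apply hd y (horb_t b hb y hy)
    rintro rfl
    exact hab' hy
  have hdvd2 : Nat.card (MulAction.orbit ↥(fixingSubgroup Γ (insert a t)) b)
      ∣ (MulAction.orbit ↥(fixingSubgroup Γ t) a).ncard - 1 := by
    apply dvd_ncard_sub_one (K := ↥(fixingSubgroup Γ (insert a t))) _ (hinv a) _ a
      (MulAction.mem_orbit_self a)
    · intro k
      exact (mem_fixingSubgroup_iff Γ).mp k.2 a (Set.mem_insert a t)
    · intro y hy hya
      exact hd y (horb_t a ha y hy) hya
  rw [← Nat.card_coe_set_eq] at hdvd1 hdvd2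
  rw [← hN] at hdvd1
  have hNpos : 0 < Nat.card (MulAction.orbit ↥(fixingSubgroup Γ t) a) :=
    Nat.card_pos_iff.mpr ⟨⟨⟨a, MulAction.mem_orbit_self a⟩⟩, inferInstance⟩
  have hd1 : Nat.card (MulAction.orbit ↥(fixingSubgroup Γ (insert a t)) b) = 1 := by
    have h3 := Nat.dvd_sub hdvd1 hdvd2
    have h4 : Nat.card (MulAction.orbit ↥(fixingSubgroup Γ t) a)
        - (Nat.card (MulAction.orbit ↥(fixingSubgroup Γ t) a) - 1) = 1 := by omega
    rw [h4] at h3
    exact Nat.dvd_one.mp h3
  -- `K` is trivial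
  have hKfix : ∀ (k : ↥(fixingSubgroup Γ (insert a t))) (y : α), k • y = y := by
    intro k y
    by_cases hy : y ∈ insert a t
    · exact (mem_fixingSubgroup_iff Γ).mp k.2 y hy
    · have hyt : y ∉ t := fun h => hy (Set.mem_insert_of_mem a h)
      have hya : y ≠ a := fun h => hy (h ▸ Set.mem_insert a t)
      have h3 := hd y hyt hya
      rw [hd1] at h3
      haveI : Subsingleton ↥(MulAction.orbit ↥(fixingSubgroup Γ (insert a t)) y) :=
        (Nat.card_eq_one_iff_unique.mp h3).1
      have h4 : (⟨k • y, MulAction.mem_orbit y k⟩ :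
          ↥(MulAction.orbit ↥(fixingSubgroup Γ (insert a t)) y))
          = ⟨y, MulAction.mem_orbit_self y⟩ := Subsingleton.elim _ _
      exact congrArg Subtype.val h4
  have hKbot : fixingSubgroup Γ (insert a t) = ⊥ := by
    rw [eq_bot_iff]
    intro k hk
    rw [Subgroup.mem_bot]
    apply FaithfulSMul.eq_of_smul_eq_smul (α := α)
    intro y
    rw [one_smul]
    exact hKfix ⟨k, hk⟩ y
  have := h1 a ha
  rw [hKbot, Subgroup.card_bot] at this
  omega

end Cfsg.Agent.Helper8.FixOrb
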