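import Mathlib

set_option autoImplicit false

namespace Cfsg.Agent.Helper8.FormSplit

variable {F : Type*} [Field F] {G : Type*} [Group G] {V : Type*} [AddCommGroup V] [Module F V]

theorem odd_case [FiniteDimensional F V] (h2 : (2 : F) ≠ 0) (ρ : Representation F G V)
    (B : LinearMap.BilinForm F V) (hB : B.Nondegenerate)
    (hBinv : ∀ g : G, ∀ x y : V, B (ρ g x) (ρ g y) = B x y) :
    ∃ U W : Submodule F V, IsCompl U W ∧ (∀ g : G, ∀ u ∈ U, ρ g u ∈ U) ∧
      (∀ g : G, ∀ w ∈ W, ρ g w ∈ W) ∧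
      (∃ A : LinearMap.BilinForm F V, (∀ x : V, A x x = 0) ∧
        (∀ g : G, ∀ x ∈ U, ∀ y ∈ U, A (ρ g x) (ρ g y) = A x y) ∧
        (∀ x ∈ U, (∀ y ∈ U, A x y = 0) → x = 0)) ∧
      (∃ S : LinearMap.BilinForm F V, (∀ x y : V, S x y = S y x) ∧
        (∀ g : G, ∀ x ∈ W, ∀ y ∈ W, S (ρ g x) (ρ g y) = S x y) ∧
        (∀ x ∈ W, (∀ y ∈ W, S x y = 0) → x = 0)) := by
  obtain ⟨σ, hσ⟩ : ∃ σ : Module.End F V, ∀ x y, B (σ x) y = B y x := by
    refine ⟨LinearMap.BilinForm.symmCompOfNondegenerate B.flip B hB, fun x y => ?_⟩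
    rw [LinearMap.BilinForm.symmCompOfNondegenerate_left_apply]
    rfl
  have hiso : ∀ x y, B (σ x) (σ y) = B x y := fun x y => by rw [hσ, hσ]
  have hρ : ∀ g y, ρ g (ρ g⁻¹ y) = y := fun g y => ρ.self_inv_apply g y
  have hcomm : ∀ g x, σ (ρ g x) = ρ g (σ x) := by
    intro g x
    have h : ∀ y, B (σ (ρ g x) - ρ g (σ x)) y = 0 := by
      intro y
      have e1 : B y (ρ g x) = B (ρ g⁻¹ y) x := by rw [← hBinv g (ρ g⁻¹ y) x, hρ]
      have e2 : B (ρ g (σ x)) y = B (ρ g⁻¹ y) x := by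
        rw [← hσ x (ρ g⁻¹ y), ← hBinv g (σ x) (ρ g⁻¹ y), hρ]
      rw [map_sub, LinearMap.sub_apply, hσ, e1, e2, sub_self]
    exact sub_eq_zero.mp (hB.1 _ h)
  obtain ⟨f, hf⟩ : ∃ f : Module.End F V, f = 1 + σ := ⟨_, rfl⟩
  have hfx : ∀ x, f x = x + σ x := fun x => by rw [hf]; rfl
  have hfρ : ∀ g x, f (ρ g x) = ρ g (f x) := by
    intro g x
    rw [hfx, hfx, hcomm, map_add]
  have hadj : ∀ x z, B x (f z) = B (f x) (σ z) := by
    intro x z
    rw [hfx, hfx, map_add, map_add, LinearMap.add_apply, hiso, add_comm]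
  have hfσ : Commute f σ := by
    rw [hf]
    exact (Commute.one_left σ).add_left (Commute.refl σ)
  have hfnσ : ∀ n x, (f ^ n) (σ x) = σ ((f ^ n) x) := by
    intro n x
    have := (hfσ.pow_left n).eq
    have h2 := congrArg (fun t : Module.End F V => t x) this
    simpa [Module.End.mul_apply] using h2
  have hfnρ : ∀ n g x, (f ^ n) (ρ g x) = ρ g ((f ^ n) x) := by
    intro n
    induction n with
    | zero => intro g x; simp
    | succ n ih =>
      intro g x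
      rw [pow_succ, Module.End.mul_apply, Module.End.mul_apply, hfρ, ih]
  have hUW : ∀ n u, (f ^ n) u = 0 → ∀ z, B u ((f ^ n) z) = 0 := by
    intro n
    induction n with
    | zero =>
      intro u hu z
      have : u = 0 := by simpa using hu
      rw [this]; simp
    | succ n ih =>
      intro u hu z
      rw [pow_succ', Module.End.mul_apply, hadj, ← hfnσ]
      apply ih
      rw [pow_succ, Module.End.mul_apply] at hu
      exact hu
  have hWU : ∀ n u, (f ^ n) u = 0 → ∀ z, B ((f ^ n) z) u = 0 := by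
    intro n u hu z
    rw [← hσ u ((f ^ n) z)]
    apply hUW
    rw [hfnσ, hu, map_zero]
  obtain ⟨n, hn1, hn⟩ : ∃ n, 1 ≤ n ∧
      IsCompl (LinearMap.ker (f ^ n)) (LinearMap.range (f ^ n)) := by
    have := (f.eventually_isCompl_ker_pow_range_pow).and (Filter.eventually_ge_atTop 1)
    obtain ⟨n, h1, h2⟩ := this.exists
    exact ⟨n, h2, h1⟩
  have hdecomp : ∀ v : V, ∃ u w, (f ^ n) u = 0 ∧ (∃ z, w = (f ^ n) z) ∧ v = u + w := by
    intro v
    have : v ∈ LinearMap.ker (f ^ n) ⊔ LinearMap.range (f ^ n) := by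
      rw [hn.sup_eq_top]; trivial
    obtain ⟨u, hu, w, hw, huw⟩ := Submodule.mem_sup.mp this
    obtain ⟨z, hz⟩ := hw
    exact ⟨u, w, LinearMap.mem_ker.mp hu, ⟨z, hz.symm⟩, huw.symm⟩
  refine ⟨LinearMap.ker (f ^ n), LinearMap.range (f ^ n), hn, ?_, ?_, ?_, ?_⟩
  · intro g u hu
    rw [LinearMap.mem_ker] at hu ⊢
    rw [hfnρ, hu, map_zero]
  · rintro g w ⟨z, rfl⟩
    exact ⟨ρ g z, hfnρ n g z⟩
  · refine ⟨B - B.flip, fun x => ?_, fun g x _ y _ => ?_, fun x hx hxy => ?_⟩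
    · simp [LinearMap.sub_apply, LinearMap.BilinForm.flip_apply]
    · simp only [LinearMap.sub_apply, LinearMap.BilinForm.flip_apply, hBinv]
    · rw [LinearMap.mem_ker] at hx
      have hd : (f ^ n) (x - σ x) = 0 := by rw [map_sub, hfnσ, hx, map_zero, sub_zero]
      have hdv : ∀ v, B (x - σ x) v = 0 := by
        intro v
        obtain ⟨u, w, hu, ⟨z, rfl⟩, rfl⟩ := hdecomp v
        rw [map_add, hUW n _ hd z, add_zero]
        have := hxy u (LinearMap.mem_ker.mpr hu)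
        simp only [LinearMap.sub_apply, LinearMap.BilinForm.flip_apply] at this
        rw [map_sub, LinearMap.sub_apply, hσ]
        exact this
      have hσx : σ x = x := (sub_eq_zero.mp (hB.1 _ hdv)).symm
      have hfx2 : ∀ k, (f ^ k) x = (2 : F) ^ k • x := by
        intro k
        induction k with
        | zero => simp
        | succ k ih =>
          rw [pow_succ', Module.End.mul_apply, ih, map_smul, hfx, hσx, pow_succ, mul_smul,
            two_smul]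
      rw [hfx2 n] at hx
      rcases smul_eq_zero.mp hx with h | h
      · exact absurd h (pow_ne_zero n h2)
      · exact h
  · refine ⟨B + B.flip, fun x y => ?_, fun g x _ y _ => ?_, fun x hx hxy => ?_⟩
    · simp only [LinearMap.add_apply, LinearMap.BilinForm.flip_apply]; rw [add_comm]
    · simp only [LinearMap.add_apply, LinearMap.BilinForm.flip_apply, hBinv]
    · obtain ⟨z, rfl⟩ := hx
      have hfz : f ((f ^ n) z) = (f ^ n) (f z) := by
        rw [← Module.End.mul_apply, ← Module.End.mul_apply, ← pow_succ', pow_succ]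
      have hdv : ∀ v, B (f ((f ^ n) z)) v = 0 := by
        intro v
        obtain ⟨u, w, hu, ⟨z', rfl⟩, rfl⟩ := hdecomp v
        rw [map_add]
        have h1 : B (f ((f ^ n) z)) u = 0 := by rw [hfz]; exact hWU n u hu (f z)
        have := hxy ((f ^ n) z') ⟨z', rfl⟩
        simp only [LinearMap.add_apply, LinearMap.BilinForm.flip_apply] at this
        rw [h1, zero_add, hfx, map_add, LinearMap.add_apply, hσ]
        exact this
      have hfx0 : f ((f ^ n) z) = 0 := hB.1 _ hdv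
      obtain ⟨m, rfl⟩ : ∃ m, n = m + 1 := ⟨n - 1, by omega⟩
      have hker0 : ∀ w, f w = 0 → (f ^ (m + 1)) w = 0 := fun w hw => by
        rw [pow_succ, Module.End.mul_apply, hw, map_zero]
      have hker : (f ^ (m + 1)) ((f ^ (m + 1)) z) = 0 := hker0 _ hfx0
      have : (f ^ (m + 1)) z ∈ LinearMap.ker (f ^ (m + 1)) ⊓ LinearMap.range (f ^ (m + 1)) :=
        ⟨LinearMap.mem_ker.mpr hker, ⟨z, rfl⟩⟩
      rw [hn.inf_eq_bot] at this
      exact (Submodule.mem_bot F).mp this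

section Two

variable (ρ : Representation F G V) (B : LinearMap.BilinForm F V)

def Ginv (Z : Submodule F V) : Prop := ∀ g : G, ∀ z ∈ Z, ρ g z ∈ Z

def FOn (C : LinearMap.BilinForm F V → Prop) (Z : Submodule F V) : Prop :=
  ∃ A : LinearMap.BilinForm F V, C A ∧
    (∀ g : G, ∀ x ∈ Z, ∀ y ∈ Z, A (ρ g x) (ρ g y) = A x y) ∧
    (∀ x ∈ Z, (∀ y ∈ Z, A x y = 0) → x = 0)

abbrev AltC : LinearMap.BilinForm F V → Prop := fun A => ∀ x : V, A x x = 0
abbrev SymC : LinearMap.BilinForm F V → Prop := fun S => ∀ x y : V, S x y = S y x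

omit [Group G] in
lemma exists_proj (Z₁ Z₂ : Submodule F V) (h : Disjoint Z₁ Z₂) :
    ∃ π : V →ₗ[F] V, (∀ v, π v ∈ Z₁) ∧ (∀ x ∈ Z₁, π x = x) ∧ (∀ y ∈ Z₂, π y = 0) := by
  obtain ⟨Q₀, hQ₀⟩ := Submodule.exists_isCompl (Z₁ ⊔ Z₂)
  have hQ : IsCompl Z₁ (Z₂ ⊔ Q₀) := by
    refine ⟨h.disjoint_sup_right_of_disjoint_sup_left hQ₀.disjoint, ?_⟩
    rw [codisjoint_iff, ← sup_assoc]
    exact hQ₀.sup_eq_top
  refine ⟨Z₁.projection (Z₂ ⊔ Q₀) hQ, fun v => Submodule.projection_apply_mem hQ v,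
    fun x hx => ?_, fun y hy => ?_⟩
  · exact Submodule.projection_apply_left hQ ⟨x, hx⟩
  · exact (Submodule.projection_apply_eq_zero_iff hQ).mpr (Submodule.mem_sup_left hy)

lemma ginv_sup {Z₁ Z₂ : Submodule F V} (h1 : Ginv ρ Z₁) (h2 : Ginv ρ Z₂) : Ginv ρ (Z₁ ⊔ Z₂) := by
  intro g z hz
  obtain ⟨a, ha, b, hb, rfl⟩ := Submodule.mem_sup.mp hz
  rw [map_add]
  exact Submodule.add_mem _ (Submodule.mem_sup_left (h1 g a ha)) (Submodule.mem_sup_right (h2 g b hb))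

lemma fOn_sup (C : LinearMap.BilinForm F V → Prop)
    (hC : ∀ (A₁ A₂ : LinearMap.BilinForm F V) (π₁ π₂ : V →ₗ[F] V), C A₁ → C A₂ →
      C (A₁.compl₁₂ π₁ π₁ + A₂.compl₁₂ π₂ π₂))
    (Z₁ Z₂ : Submodule F V) (h : Disjoint Z₁ Z₂) (h1 : Ginv ρ Z₁) (h2 : Ginv ρ Z₂)
    (a1 : FOn ρ C Z₁) (a2 : FOn ρ C Z₂) : FOn ρ C (Z₁ ⊔ Z₂) := by
  obtain ⟨A₁, hA₁a, hA₁i, hA₁n⟩ := a1
  obtain ⟨A₂, hA₂a, hA₂i, hA₂n⟩ := a2
  obtain ⟨π₁, -, hπ₁l, hπ₁r⟩ := exists_proj Z₁ Z₂ h
  obtain ⟨π₂, -, hπ₂l, hπ₂r⟩ := exists_proj Z₂ Z₁ h.symm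
  have key : ∀ z₁ ∈ Z₁, ∀ z₂ ∈ Z₂, ∀ w₁ ∈ Z₁, ∀ w₂ ∈ Z₂,
      (A₁.compl₁₂ π₁ π₁ + A₂.compl₁₂ π₂ π₂) (z₁ + z₂) (w₁ + w₂) = A₁ z₁ w₁ + A₂ z₂ w₂ := by
    intro z₁ hz₁ z₂ hz₂ w₁ hw₁ w₂ hw₂
    have e1 : π₁ (z₁ + z₂) = z₁ := by rw [map_add, hπ₁l z₁ hz₁, hπ₁r z₂ hz₂, add_zero]
    have e2 : π₁ (w₁ + w₂) = w₁ := by rw [map_add, hπ₁l w₁ hw₁, hπ₁r w₂ hw₂, add_zero]
    have e3 : π₂ (z₁ + z₂) = z₂ := by rw [map_add, hπ₂r z₁ hz₁, hπ₂l z₂ hz₂, zero_add]
    have e4 : π₂ (w₁ + w₂) = w₂ := by rw [map_add, hπ₂r w₁ hw₁, hπ₂l w₂ hw₂, zero_add]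
    rw [LinearMap.add_apply, LinearMap.add_apply, LinearMap.compl₁₂_apply,
      LinearMap.compl₁₂_apply, e1, e2, e3, e4]
  refine ⟨A₁.compl₁₂ π₁ π₁ + A₂.compl₁₂ π₂ π₂, hC A₁ A₂ π₁ π₂ hA₁a hA₂a,
    fun g x hx y hy => ?_, fun x hx hxy => ?_⟩
  · obtain ⟨z₁, hz₁, z₂, hz₂, rfl⟩ := Submodule.mem_sup.mp hx
    obtain ⟨w₁, hw₁, w₂, hw₂, rfl⟩ := Submodule.mem_sup.mp hy
    have ez : ρ g (z₁ + z₂) = ρ g z₁ + ρ g z₂ := map_add _ _ _
    have ew : ρ g (w₁ + w₂) = ρ g w₁ + ρ g w₂ := map_add _ _ _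
    rw [ez, ew, key _ (h1 g z₁ hz₁) _ (h2 g z₂ hz₂) _ (h1 g w₁ hw₁) _ (h2 g w₂ hw₂),
      key _ hz₁ _ hz₂ _ hw₁ _ hw₂, hA₁i g z₁ hz₁ w₁ hw₁, hA₂i g z₂ hz₂ w₂ hw₂]
  · obtain ⟨z₁, hz₁, z₂, hz₂, rfl⟩ := Submodule.mem_sup.mp hx
    have e1 : z₁ = 0 := hA₁n z₁ hz₁ (fun w hw => by
      have := hxy w (Submodule.mem_sup_left hw)
      have k := key z₁ hz₁ z₂ hz₂ w hw 0 (Submodule.zero_mem _)
      rw [add_zero] at k
      rw [k, map_zero, add_zero] at this
      exact this)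
    have e2 : z₂ = 0 := hA₂n z₂ hz₂ (fun w hw => by
      have := hxy w (Submodule.mem_sup_right hw)
      have k := key z₁ hz₁ z₂ hz₂ 0 (Submodule.zero_mem _) w hw
      rw [zero_add] at k
      rw [k, map_zero, zero_add] at this
      exact this)
    rw [e1, e2, add_zero]

omit [Group G] in
lemma altC_add (A₁ A₂ : LinearMap.BilinForm F V) (π₁ π₂ : V →ₗ[F] V) (h1 : AltC A₁)
    (h2 : AltC A₂) : AltC (A₁.compl₁₂ π₁ π₁ + A₂.compl₁₂ π₂ π₂) := by
  intro x
  simp only [LinearMap.add_apply, LinearMap.compl₁₂_apply]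
  rw [h1, h2, add_zero]

omit [Group G] in
lemma symC_add (A₁ A₂ : LinearMap.BilinForm F V) (π₁ π₂ : V →ₗ[F] V) (h1 : SymC A₁)
    (h2 : SymC A₂) : SymC (A₁.compl₁₂ π₁ π₁ + A₂.compl₁₂ π₂ π₂) := by
  intro x y
  simp only [LinearMap.add_apply, LinearMap.compl₁₂_apply]
  rw [h1 (π₁ x), h2 (π₂ x)]

lemma fOn_restrict (C : LinearMap.BilinForm F V → Prop) (Z : Submodule F V) (hZ : Ginv ρ Z)
    (hBinv : ∀ g : G, ∀ x y : V, B (ρ g x) (ρ g y) = B x y)
    (hC : ∀ π : V →ₗ[F] V, (∀ v, π v ∈ Z) → C (B.compl₁₂ π π))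
    (hnd : ∀ x ∈ Z, (∀ y ∈ Z, B x y = 0) → x = 0) : FOn ρ C Z := by
  obtain ⟨π, hπm, hπl, -⟩ := exists_proj Z ⊥ disjoint_bot_right
  refine ⟨B.compl₁₂ π π, hC π hπm, fun g x hx y hy => ?_, fun x hx hxy => ?_⟩
  · simp only [LinearMap.compl₁₂_apply]
    rw [hπl _ (hZ g x hx), hπl _ (hZ g y hy), hπl x hx, hπl y hy, hBinv]
  · apply hnd x hx
    intro y hy
    have := hxy y hy
    simp only [LinearMap.compl₁₂_apply] at this
    rwa [hπl x hx, hπl y hy] at this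

lemma altOn_hyp (h2 : ∀ a : F, a + a = 0) (N N' : Submodule F V) (hd : Disjoint N N')
    (hN : Ginv ρ N) (hN' : Ginv ρ N')
    (hBinv : ∀ g : G, ∀ x y : V, B (ρ g x) (ρ g y) = B x y)
    (h_i : ∀ x' ∈ N', (∀ y ∈ N, B y x' = 0) → x' = 0)
    (h_ii : ∀ x ∈ N, (∀ y' ∈ N', B x y' = 0) → x = 0) : FOn ρ AltC (N ⊔ N') := by
  obtain ⟨π, -, hπl, hπr⟩ := exists_proj N N' hd
  obtain ⟨π', -, hπ'l, hπ'r⟩ := exists_proj N' N hd.symm
  have key : ∀ x ∈ N, ∀ x' ∈ N', ∀ y ∈ N, ∀ y' ∈ N',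
      (B.compl₁₂ π π' + (B.compl₁₂ π π').flip) (x + x') (y + y') = B x y' + B y x' := by
    intro x hx x' hx' y hy y' hy'
    have e1 : π (x + x') = x := by rw [map_add, hπl x hx, hπr x' hx', add_zero]
    have e2 : π (y + y') = y := by rw [map_add, hπl y hy, hπr y' hy', add_zero]
    have e3 : π' (x + x') = x' := by rw [map_add, hπ'r x hx, hπ'l x' hx', zero_add]
    have e4 : π' (y + y') = y' := by rw [map_add, hπ'r y hy, hπ'l y' hy', zero_add]
    rw [LinearMap.add_apply, LinearMap.add_apply, LinearMap.flip_apply, LinearMap.compl₁₂_apply,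
      LinearMap.compl₁₂_apply, e1, e2, e3, e4]
  refine ⟨B.compl₁₂ π π' + (B.compl₁₂ π π').flip, fun x => ?_, fun g v hv w hw => ?_,
    fun v hv hvw => ?_⟩
  · simp only [LinearMap.add_apply, LinearMap.flip_apply, LinearMap.BilinForm.flip_apply]
    exact h2 _
  · obtain ⟨x, hx, x', hx', rfl⟩ := Submodule.mem_sup.mp hv
    obtain ⟨y, hy, y', hy', rfl⟩ := Submodule.mem_sup.mp hw
    have ez : ρ g (x + x') = ρ g x + ρ g x' := map_add _ _ _
    have ew : ρ g (y + y') = ρ g y + ρ g y' := map_add _ _ _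
    rw [ez, ew, key _ (hN g x hx) _ (hN' g x' hx') _ (hN g y hy) _ (hN' g y' hy'),
      key x hx x' hx' y hy y' hy', hBinv, hBinv]
  · obtain ⟨x, hx, x', hx', rfl⟩ := Submodule.mem_sup.mp hv
    have e' : x' = 0 := h_i x' hx' (fun y hy => by
      have := hvw y (Submodule.mem_sup_left hy)
      have k := key x hx x' hx' y hy 0 (Submodule.zero_mem _)
      rw [add_zero] at k
      rw [k, map_zero, zero_add] at this
      exact this)
    have e : x = 0 := h_ii x hx (fun y' hy' => by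
      have := hvw y' (Submodule.mem_sup_right hy')
      have k := key x hx x' hx' 0 (Submodule.zero_mem _) y' hy'
      rw [zero_add] at k
      rw [k, map_zero, LinearMap.zero_apply, add_zero] at this
      exact this)
    rw [e, e', add_zero]

omit [Group G] in
lemma right_of_left [FiniteDimensional F V] (T : Submodule F V)
    (h : ∀ x ∈ T, (∀ y ∈ T, B x y = 0) → x = 0) : ∀ y ∈ T, (∀ x ∈ T, B x y = 0) → y = 0 := by
  intro y hy hxy
  have hinj : Function.Injective (B.domRestrict₁₂ T T) := by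
    rw [← LinearMap.ker_eq_bot, LinearMap.ker_eq_bot']
    intro x hx
    have := h x x.2 (fun y hy => LinearMap.congr_fun hx ⟨y, hy⟩)
    exact Subtype.ext this
  have hsurj : Function.Surjective (B.domRestrict₁₂ T T) :=
    (LinearMap.injective_iff_surjective_of_finrank_eq_finrank
      (Subspace.dual_finrank_eq (K := F) (V := T)).symm).mp hinj
  have : (⟨y, hy⟩ : T) = 0 := by
    rw [← Module.forall_dual_apply_eq_zero_iff F]
    intro l
    obtain ⟨x, rfl⟩ := hsurj l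
    rw [LinearMap.domRestrict₁₂_apply]
    exact hxy x x.2
  exact congrArg Subtype.val this

omit [Group G] in
lemma left_of_right [FiniteDimensional F V] (T : Submodule F V)
    (h : ∀ y ∈ T, (∀ x ∈ T, B x y = 0) → y = 0) : ∀ x ∈ T, (∀ y ∈ T, B x y = 0) → x = 0 := by
  have := right_of_left B.flip T (fun x hx hxy => h x hx (fun y hy => by simpa using hxy y hy))
  intro x hx hxy
  exact this x hx (fun y hy => by simpa using hxy y hy)

def perpR (T P : Submodule F V) : Submodule F V where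
  carrier := {y | y ∈ T ∧ ∀ x ∈ P, B x y = 0}
  add_mem' := by
    rintro a b ⟨ha, ha'⟩ ⟨hb, hb'⟩
    exact ⟨T.add_mem ha hb, fun x hx => by rw [map_add, ha' x hx, hb' x hx, add_zero]⟩
  zero_mem' := ⟨T.zero_mem, fun x _ => by simp⟩
  smul_mem' := by
    rintro c a ⟨ha, ha'⟩
    exact ⟨T.smul_mem c ha, fun x hx => by rw [map_smul, ha' x hx, smul_zero]⟩

lemma perpR_inv (hBinv : ∀ g : G, ∀ x y : V, B (ρ g x) (ρ g y) = B x y) (T P : Submodule F V)
    (hT : Ginv ρ T) (hP : Ginv ρ P) : Ginv ρ (perpR B T P) := by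
  intro g y hy
  refine ⟨hT g y hy.1, fun x hx => ?_⟩
  have := hBinv g (ρ g⁻¹ x) y
  rw [ρ.self_inv_apply] at this
  rw [this]
  exact hy.2 _ (hP g⁻¹ x hx)

omit [Group G] in
lemma perp_lt (T P : Submodule F V) (hPT : P ≤ T) (hP0 : P ≠ ⊥)
    (hd : Disjoint P (perpR B T P)) : perpR B T P < T := by
  refine lt_of_le_of_ne (fun y hy => hy.1) (fun heq => hP0 ?_)
  rw [eq_bot_iff]
  have h1 : P ≤ perpR B T P := by rw [heq]; exact hPT
  have : P ≤ P ⊓ perpR B T P := le_inf le_rfl h1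
  rwa [hd.eq_bot] at this

lemma split [FiniteDimensional F V] (hBinv : ∀ g : G, ∀ x y : V, B (ρ g x) (ρ g y) = B x y)
    (T P : Submodule F V) (hPT : P ≤ T) (hT : Ginv ρ T) (hP : Ginv ρ P)
    (hTl : ∀ x ∈ T, (∀ y ∈ T, B x y = 0) → x = 0)
    (hPr : ∀ y ∈ P, (∀ x ∈ P, B x y = 0) → y = 0) :
    Disjoint P (perpR B T P) ∧ P ⊔ perpR B T P = T ∧ Ginv ρ (perpR B T P) ∧
      (∀ x ∈ perpR B T P, (∀ y ∈ perpR B T P, B x y = 0) → x = 0) := by
  have hTr := right_of_left B T hTl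
  have hsup : P ⊔ perpR B T P = T := by
    apply le_antisymm
    · exact sup_le hPT (fun y hy => hy.1)
    · intro t ht
      have hinj : Function.Injective (B.flip.domRestrict₁₂ P P) := by
        rw [← LinearMap.ker_eq_bot, LinearMap.ker_eq_bot']
        intro y hy
        have := hPr y y.2 (fun x hx => LinearMap.congr_fun hy ⟨x, hx⟩)
        exact Subtype.ext this
      have hsurj : Function.Surjective (B.flip.domRestrict₁₂ P P) :=
        (LinearMap.injective_iff_surjective_of_finrank_eq_finrank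
          (Subspace.dual_finrank_eq (K := F) (V := P)).symm).mp hinj
      obtain ⟨y, hy⟩ := hsurj ((B.flip t).domRestrict P)
      have hy' : ∀ x ∈ P, B x y = B x t := fun x hx => LinearMap.congr_fun hy ⟨x, hx⟩
      rw [Submodule.mem_sup]
      exact ⟨y, y.2, t - y, ⟨T.sub_mem ht (hPT y.2), fun x hx => by
        rw [map_sub, hy' x hx, sub_self]⟩, by abel⟩
  refine ⟨?_, hsup, perpR_inv ρ B hBinv T P hT hP, ?_⟩
  · rw [Submodule.disjoint_def]
    intro y hy hy'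
    exact hPr y hy (fun x hx => hy'.2 x hx)
  · apply left_of_right B
    intro y hy hxy
    apply hTr y hy.1
    intro t ht
    rw [← hsup] at ht
    obtain ⟨x, hx, z, hz, rfl⟩ := Submodule.mem_sup.mp ht
    rw [map_add, LinearMap.add_apply, hy.2 x hx, hxy z hz, add_zero]

lemma maschke [Finite G] (hG : (Nat.card G : F) ≠ 0) (Z : Submodule F V) (hZ : Ginv ρ Z) :
    ∃ Q : Submodule F V, Ginv ρ Q ∧ Disjoint Q Z ∧ Q ⊔ Z = ⊤ := by
  classical
  haveI : Fintype G := Fintype.ofFinite G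
  obtain ⟨π₀, hπ₀m, hπ₀l, -⟩ := exists_proj Z ⊥ disjoint_bot_right
  obtain ⟨π, hπapply⟩ : ∃ π : V →ₗ[F] V, ∀ v, π v =
      (Nat.card G : F)⁻¹ • ∑ g : G, ρ g (π₀ (ρ g⁻¹ v)) :=
    ⟨(Nat.card G : F)⁻¹ • ∑ g : G, (ρ g) ∘ₗ π₀ ∘ₗ (ρ g⁻¹), fun v => by
      simp [LinearMap.sum_apply]⟩
  have hπm : ∀ v, π v ∈ Z := by
    intro v
    rw [hπapply]
    exact Z.smul_mem _ (Submodule.sum_mem _ (fun g _ => hZ g _ (hπ₀m _)))
  have hπl : ∀ z ∈ Z, π z = z := by
    intro z hz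
    rw [hπapply]
    have : ∀ g : G, ρ g (π₀ (ρ g⁻¹ z)) = z := fun g => by
      rw [hπ₀l _ (hZ g⁻¹ z hz), ρ.self_inv_apply]
    simp only [this, Finset.sum_const, Finset.card_univ]
    rw [← Nat.card_eq_fintype_card, ← Nat.cast_smul_eq_nsmul F, smul_smul, inv_mul_cancel₀ hG,
      one_smul]
  have hπρ : ∀ h v, π (ρ h v) = ρ h (π v) := by
    intro h v
    rw [hπapply, hπapply, map_smul, map_sum]
    congr 1
    rw [← Equiv.sum_comp (Equiv.mulLeft h) (fun g => ρ g (π₀ (ρ g⁻¹ (ρ h v))))]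
    apply Finset.sum_congr rfl
    intro g _
    simp [mul_inv_rev, map_mul, Module.End.mul_apply]
  refine ⟨LinearMap.ker π, ?_, ?_, ?_⟩
  · intro g v hv
    rw [LinearMap.mem_ker] at hv ⊢
    rw [hπρ, hv, map_zero]
  · rw [Submodule.disjoint_def]
    intro v hv hvZ
    rw [LinearMap.mem_ker] at hv
    rw [← hπl v hvZ, hv]
  · rw [eq_top_iff]
    intro v _
    rw [Submodule.mem_sup]
    refine ⟨v - π v, ?_, π v, hπm v, by abel⟩
    rw [LinearMap.mem_ker, map_sub, hπl _ (hπm v), sub_self]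

lemma exists_min [FiniteDimensional F V] (R : Submodule F V) (hR : R ≠ ⊥) (hRinv : Ginv ρ R) :
    ∃ N : Submodule F V, N ≠ ⊥ ∧ N ≤ R ∧ Ginv ρ N ∧
      ∀ N' : Submodule F V, N' ≤ N → Ginv ρ N' → N' = ⊥ ∨ N' = N := by
  obtain ⟨N, hN, hmin⟩ := WellFounded.has_min
    (wellFounded_lt : WellFounded ((· < ·) : Submodule F V → Submodule F V → Prop))
    {N | N ≠ ⊥ ∧ N ≤ R ∧ Ginv ρ N} ⟨R, hR, le_refl _, hRinv⟩
  refine ⟨N, hN.1, hN.2.1, hN.2.2, fun N' hle hinv => ?_⟩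
  by_cases h0 : N' = ⊥
  · exact Or.inl h0
  · right
    have := hmin N' ⟨h0, hle.trans hN.2.1, hinv⟩
    exact eq_of_le_of_not_lt hle this

lemma dichotomy (h2 : ∀ a : F, a + a = 0)
    (hBinv : ∀ g : G, ∀ x y : V, B (ρ g x) (ρ g y) = B x y) (N : Submodule F V)
    (hNinv : Ginv ρ N) (hsym : ∀ x ∈ N, ∀ y ∈ N, B x y = B y x)
    (hirr : ∀ N' : Submodule F V, N' ≤ N → Ginv ρ N' → N' = ⊥ ∨ N' = N) :
    (∀ x ∈ N, B x x = 0) ∨ (∀ g : G, ∀ x ∈ N, ρ g x = x) := by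
  have expand : ∀ a ∈ N, ∀ b ∈ N, B (a + b) (a + b) = B a a + B b b + (B a b + B a b) := by
    intro a ha b hb
    simp only [map_add, LinearMap.add_apply, hsym b hb a ha]
    abel
  let K : Submodule F V :=
    { carrier := {x | x ∈ N ∧ B x x = 0}
      add_mem' := by
        rintro a b ⟨ha, ha'⟩ ⟨hb, hb'⟩
        refine ⟨N.add_mem ha hb, ?_⟩
        rw [expand a ha b hb, ha', hb', h2 (B a b), add_zero, add_zero]
      zero_mem' := ⟨N.zero_mem, by simp⟩
      smul_mem' := by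
        rintro c a ⟨ha, ha'⟩
        refine ⟨N.smul_mem c ha, ?_⟩
        rw [map_smul, map_smul, LinearMap.smul_apply, ha', smul_zero, smul_zero] }
  have hK : Ginv ρ K := fun g x hx => ⟨hNinv g x hx.1, by rw [hBinv]; exact hx.2⟩
  rcases hirr K (fun x hx => hx.1) hK with h | h
  · right
    intro g x hx
    have hmem : x + ρ g x ∈ K := by
      refine ⟨N.add_mem hx (hNinv g x hx), ?_⟩
      rw [expand x hx _ (hNinv g x hx), hBinv, h2 (B x (ρ g x)), add_zero, h2]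
    rw [h] at hmem
    have h0 : x + ρ g x = 0 := (Submodule.mem_bot F).mp hmem
    have hx2 : x + x = 0 := by
      have : (1 + 1 : F) • x = 0 := by rw [h2 1, zero_smul]
      rwa [add_smul, one_smul] at this
    exact add_left_cancel (h0.trans hx2.symm)
  · left
    intro x hx
    have : x ∈ K := by rw [h]; exact hx
    exact this.2

def Concl (T : Submodule F V) : Prop :=
  ∃ U W : Submodule F V, Disjoint U W ∧ U ⊔ W = T ∧ Ginv ρ U ∧ Ginv ρ W ∧ FOn ρ AltC U ∧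
    FOn ρ SymC W ∧ (∀ g : G, ∀ w ∈ W, ρ g w = w)

theorem two_case_aux [Finite G] [FiniteDimensional F V] (h2 : ∀ a : F, a + a = 0)
    (hG : (Nat.card G : F) ≠ 0) (hBinv : ∀ g : G, ∀ x y : V, B (ρ g x) (ρ g y) = B x y) :
    ∀ T : Submodule F V, Ginv ρ T → (∀ x ∈ T, (∀ y ∈ T, B x y = 0) → x = 0) → Concl ρ T := by
  intro T
  refine WellFounded.induction (r := ((· < ·) : Submodule F V → Submodule F V → Prop))
    wellFounded_lt
    (C := fun T => Ginv ρ T → (∀ x ∈ T, (∀ y ∈ T, B x y = 0) → x = 0) → Concl ρ T) T ?_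
  intro T ih hT hTl
  let R : Submodule F V :=
    { carrier := {x | x ∈ T ∧ ∀ y ∈ T, B x y = B y x}
      add_mem' := by
        rintro a b ⟨ha, ha'⟩ ⟨hb, hb'⟩
        exact ⟨T.add_mem ha hb, fun y hy => by
          rw [map_add, map_add, LinearMap.add_apply, ha' y hy, hb' y hy]⟩
      zero_mem' := ⟨T.zero_mem, fun y _ => by simp⟩
      smul_mem' := by
        rintro c a ⟨ha, ha'⟩
        exact ⟨T.smul_mem c ha, fun y hy => by
          rw [map_smul, map_smul, LinearMap.smul_apply, ha' y hy]⟩ }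
  have hRinv : Ginv ρ R := by
    intro g x hx
    refine ⟨hT g x hx.1, fun y hy => ?_⟩
    have e1 : B (ρ g x) y = B x (ρ g⁻¹ y) := by
      rw [← hBinv g x (ρ g⁻¹ y), ρ.self_inv_apply]
    have e2 : B y (ρ g x) = B (ρ g⁻¹ y) x := by
      rw [← hBinv g (ρ g⁻¹ y) x, ρ.self_inv_apply]
    rw [e1, e2]
    exact hx.2 _ (hT g⁻¹ y hy)
  by_cases hR : R = ⊥
  · refine ⟨T, ⊥, disjoint_bot_right, sup_bot_eq _, hT, ?_, ?_, ?_, ?_⟩
    · intro g z hz
      rw [(Submodule.mem_bot F).mp hz, map_zero]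
      exact Submodule.zero_mem _
    · refine ⟨B + B.flip, fun x => ?_, fun g x _ y _ => ?_, fun x hx hxy => ?_⟩
      · simp only [LinearMap.add_apply, LinearMap.BilinForm.flip_apply]
        exact h2 _
      · simp only [LinearMap.add_apply, LinearMap.BilinForm.flip_apply, hBinv]
      · have : x ∈ R := ⟨hx, fun y hy => by
          have := hxy y hy
          simp only [LinearMap.add_apply, LinearMap.BilinForm.flip_apply] at this
          have h3 := h2 (B y x)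
          exact add_right_cancel (this.trans h3.symm)⟩
        rw [hR] at this
        exact (Submodule.mem_bot F).mp this
    · exact ⟨0, fun x y => by simp, fun g x _ y _ => by simp,
        fun x hx _ => (Submodule.mem_bot F).mp hx⟩
    · intro g w hw
      rw [(Submodule.mem_bot F).mp hw, map_zero]
  · obtain ⟨N, hN0, hNR, hNinv, hNirr⟩ := exists_min ρ R hR hRinv
    have hNT : N ≤ T := fun x hx => (hNR hx).1
    have hNsym : ∀ x ∈ N, ∀ y ∈ T, B x y = B y x := fun x hx y hy => (hNR hx).2 y hy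
    by_cases hNd : Disjoint N (perpR B T N)
    · have hPr : ∀ y ∈ N, (∀ x ∈ N, B x y = 0) → y = 0 := by
        intro y hy hxy
        have : y ∈ N ⊓ perpR B T N := ⟨hy, hNT hy, hxy⟩
        rw [hNd.eq_bot] at this
        exact (Submodule.mem_bot F).mp this
      obtain ⟨hd, hsup, hT'inv, hT'l⟩ := split ρ B hBinv T N hNT hT hNinv hTl hPr
      have hlt : perpR B T N < T := perp_lt B T N hNT hN0 hd
      obtain ⟨U', W', hUW', hUWsup, hU'inv, hW'inv, hU'alt, hW'sym, hW'triv⟩ :=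
        ih _ hlt hT'inv hT'l
      have hNl : ∀ x ∈ N, (∀ y ∈ N, B x y = 0) → x = 0 := fun x hx hxy =>
        hPr x hx (fun y hy => by rw [← hNsym x hx y (hNT hy)]; exact hxy y hy)
      have hdNT' : Disjoint N (U' ⊔ W') := by rw [hUWsup]; exact hd
      rcases dichotomy ρ B h2 hBinv N hNinv (fun x hx y hy => hNsym x hx y (hNT hy)) hNirr with
        halt | htriv
      · have hNalt : FOn ρ AltC N :=
          fOn_restrict ρ B _ N hNinv hBinv (fun π hπ x => halt _ (hπ x)) hNl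
        refine ⟨N ⊔ U', W', hUW'.disjoint_sup_left_of_disjoint_sup_right hdNT', ?_,
          ginv_sup ρ hNinv hU'inv, hW'inv, ?_, hW'sym, hW'triv⟩
        · rw [sup_assoc, hUWsup, hsup]
        · exact fOn_sup ρ AltC altC_add N U' (hdNT'.mono_right le_sup_left) hNinv hU'inv hNalt
            hU'alt
      · have hNsymOn : FOn ρ SymC N :=
          fOn_restrict ρ B _ N hNinv hBinv
            (fun π hπ x y => hNsym _ (hπ x) _ (hNT (hπ y))) hNl
        refine ⟨U', N ⊔ W', ?_, ?_, hU'inv, ginv_sup ρ hNinv hW'inv, hU'alt, ?_, ?_⟩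
        · have := hUW'.disjoint_sup_right_of_disjoint_sup_left hdNT'.symm
          rwa [sup_comm] at this
        · rw [sup_left_comm, hUWsup, hsup]
        · exact fOn_sup ρ SymC symC_add N W' (hdNT'.mono_right le_sup_right) hNinv hW'inv
            hNsymOn hW'sym
        · intro g w hw
          obtain ⟨x, hx, w', hw', rfl⟩ := Submodule.mem_sup.mp hw
          rw [map_add, htriv g x hx, hW'triv g w' hw']
    · have hperpinv : Ginv ρ (perpR B T N) := perpR_inv ρ B hBinv T N hT hNinv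
      have hNperp : N ≤ perpR B T N := by
        have hinv : Ginv ρ (N ⊓ perpR B T N) :=
          fun g x hx => ⟨hNinv g x hx.1, hperpinv g x hx.2⟩
        rcases hNirr (N ⊓ perpR B T N) inf_le_left hinv with h | h
        · exact absurd (disjoint_iff.mpr h) hNd
        · exact h.symm.le.trans inf_le_right
      have hNN : ∀ x ∈ N, ∀ y ∈ N, B x y = 0 := fun x hx y hy => (hNperp hy).2 x hx
      obtain ⟨Q, hQinv, hQd, hQsup⟩ := maschke ρ hG (perpR B T N) hperpinv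
      have hN'inv : Ginv ρ (Q ⊓ T) := fun g x hx => ⟨hQinv g x hx.1, hT g x hx.2⟩
      have hN'd : Disjoint (Q ⊓ T) (perpR B T N) := hQd.mono_left inf_le_left
      have hN'sup : (Q ⊓ T) ⊔ perpR B T N = T := by
        have hle : perpR B T N ≤ T := fun y hy => hy.1
        rw [sup_comm, ← sup_inf_assoc_of_le Q hle, sup_comm, hQsup, top_inf_eq]
      have hN'T : Q ⊓ T ≤ T := inf_le_right
      have hdNN' : Disjoint N (Q ⊓ T) := (hN'd.mono_right hNperp).symm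
      have h_i : ∀ x' ∈ Q ⊓ T, (∀ y ∈ N, B y x' = 0) → x' = 0 := by
        intro x' hx' h
        have : x' ∈ (Q ⊓ T) ⊓ perpR B T N := ⟨hx', hN'T hx', h⟩
        rw [hN'd.eq_bot] at this
        exact (Submodule.mem_bot F).mp this
      have h_ii : ∀ x ∈ N, (∀ y' ∈ Q ⊓ T, B x y' = 0) → x = 0 := by
        intro x hx h
        apply hTl x (hNT hx)
        intro t ht
        rw [← hN'sup] at ht
        obtain ⟨y', hy', z, hz, rfl⟩ := Submodule.mem_sup.mp ht
        rw [map_add, h y' hy', hz.2 x hx, add_zero]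
      have hPalt : FOn ρ AltC (N ⊔ Q ⊓ T) :=
        altOn_hyp ρ B h2 N (Q ⊓ T) hdNN' hNinv hN'inv hBinv h_i h_ii
      have hPinv : Ginv ρ (N ⊔ Q ⊓ T) := ginv_sup ρ hNinv hN'inv
      have hPT : N ⊔ Q ⊓ T ≤ T := sup_le hNT hN'T
      have hPr : ∀ y ∈ N ⊔ Q ⊓ T, (∀ x ∈ N ⊔ Q ⊓ T, B x y = 0) → y = 0 := by
        intro v hv hxv
        obtain ⟨x, hx, x', hx', rfl⟩ := Submodule.mem_sup.mp hv
        have hx'0 : x' = 0 := h_i x' hx' (fun y hy => by
          have := hxv y (Submodule.mem_sup_left hy)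
          rw [map_add, hNN y hy x hx, zero_add] at this
          exact this)
        have hx0 : x = 0 := h_ii x hx (fun y' hy' => by
          have := hxv y' (Submodule.mem_sup_right hy')
          rw [hx'0, add_zero, ← hNsym x hx y' (hN'T hy')] at this
          exact this)
        rw [hx0, hx'0, add_zero]
      obtain ⟨hd, hsup, hT'inv, hT'l⟩ :=
        split ρ B hBinv T (N ⊔ Q ⊓ T) hPT hT hPinv hTl hPr
      have hP0 : N ⊔ Q ⊓ T ≠ ⊥ := fun h => hN0 (eq_bot_iff.mpr (le_sup_left.trans h.le))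
      have hlt : perpR B T (N ⊔ Q ⊓ T) < T := perp_lt B T _ hPT hP0 hd
      obtain ⟨U', W', hUW', hUWsup, hU'inv, hW'inv, hU'alt, hW'sym, hW'triv⟩ :=
        ih _ hlt hT'inv hT'l
      have hdPT' : Disjoint (N ⊔ Q ⊓ T) (U' ⊔ W') := by rw [hUWsup]; exact hd
      refine ⟨(N ⊔ Q ⊓ T) ⊔ U', W', hUW'.disjoint_sup_left_of_disjoint_sup_right hdPT', ?_,
        ginv_sup ρ hPinv hU'inv, hW'inv, ?_, hW'sym, hW'triv⟩
      · rw [sup_assoc, hUWsup, hsup]
      · exact fOn_sup ρ AltC altC_add _ U' (hdPT'.mono_right le_sup_left) hPinv hU'inv hPalt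
          hU'alt

end Two

theorem main4966 {F : Type*} [Field F] [Fintype F] (p : ℕ) [Fact p.Prime] [CharP F p]
    {G : Type*} [Group G] [Finite G] (hcop : ¬ p ∣ Nat.card G) {V : Type*} [AddCommGroup V]
    [Module F V] [FiniteDimensional F V] (ρ : Representation F G V)
    (B : LinearMap.BilinForm F V) (hB : B.Nondegenerate)
    (hBinv : ∀ g : G, ∀ x y : V, B (ρ g x) (ρ g y) = B x y) :
    ∃ U W : Submodule F V, IsCompl U W ∧ (∀ g : G, ∀ u ∈ U, ρ g u ∈ U) ∧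
      (∀ g : G, ∀ w ∈ W, ρ g w ∈ W) ∧
      (∃ A : LinearMap.BilinForm F V, (∀ x : V, A x x = 0) ∧
        (∀ g : G, ∀ x ∈ U, ∀ y ∈ U, A (ρ g x) (ρ g y) = A x y) ∧
        (∀ x ∈ U, (∀ y ∈ U, A x y = 0) → x = 0)) ∧
      (∃ S : LinearMap.BilinForm F V, (∀ x y : V, S x y = S y x) ∧
        (∀ g : G, ∀ x ∈ W, ∀ y ∈ W, S (ρ g x) (ρ g y) = S x y) ∧
        (∀ x ∈ W, (∀ y ∈ W, S x y = 0) → x = 0)) ∧
      (p = 2 → ∀ g : G, ∀ w ∈ W, ρ g w = w) := by
  by_cases hp : p = 2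
  · subst hp
    have h2 : ∀ a : F, a + a = 0 := fun a => CharTwo.add_self_eq_zero a
    have hG : (Nat.card G : F) ≠ 0 := fun h => hcop ((CharP.cast_eq_zero_iff F 2 _).mp h)
    obtain ⟨U, W, hd, hsup, hUinv, hWinv, hUalt, hWsym, hWtriv⟩ :=
      two_case_aux ρ B h2 hG hBinv ⊤ (fun g z _ => trivial)
        (fun x _ hxy => hB.1 x (fun y => hxy y trivial))
    exact ⟨U, W, ⟨hd, codisjoint_iff.mpr hsup⟩, hUinv, hWinv, hUalt, hWsym, fun _ => hWtriv⟩
  · have h2 : (2 : F) ≠ 0 := by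
      intro h
      have h' : ((2 : ℕ) : F) = 0 := by exact_mod_cast h
      have hdvd := (CharP.cast_eq_zero_iff F p 2).mp h'
      exact hp ((Nat.prime_dvd_prime_iff_eq (Fact.out) Nat.prime_two).mp hdvd)
    obtain ⟨U, W, h1, h2', h3, h4, h5⟩ := odd_case h2 ρ B hB hBinv
    exact ⟨U, W, h1, h2', h3, h4, h5, fun h => absurd h hp⟩

end Cfsg.Agent.Helper8.FormSplit
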