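import Cfsg.Agent.Helper8.FusionRS

set_option autoImplicit false

namespace Cfsg.Agent.Helper8

open Cfsg

variable {Ω : Type*} [Group Ω] {S : Subgroup Ω}

/-- A `p`-element `β` of `Aut_F(N)` becomes conjugation by an element of `S` after transport to a
fully automized conjugate `N'` of `N` by a suitable isomorphism of the system. -/
theorem exists_iso_conj [Finite S] (F : FusionSystem S) (p : ℕ) [Fact p.Prime] {N N' : Subgroup Ω}
    (hN'a : F.IsFullyAutomized p N') (e₀ : N ≃* N') (he₀ : IsIso F e₀) {β : MulAut N}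
    (hβA : β ∈ F.autGroup N) {k : ℕ} (hβ : β ^ (p ^ k) = 1) :
    ∃ e : N ≃* N', IsIso F e ∧ ∃ s ∈ S, ∀ n : N,
      ((e (β n) : N') : Ω) = s * ((e n : N') : Ω) * s⁻¹ := by
  have hN'S := hN'a.1
  have hT' : (Subgroup.zpowers β).map (MulAut.congr e₀).toMonoidHom ≤ F.autGroup N' := by
    rw [← map_congr_autGroup F he₀]
    apply Subgroup.map_mono
    rw [Subgroup.zpowers_le]
    exact hβA
  have hT'p : IsPGroup p ((Subgroup.zpowers β).map (MulAut.congr e₀).toMonoidHom) := by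
    apply IsPGroup.map
    rintro ⟨y, i, rfl⟩
    refine ⟨k, Subtype.ext ?_⟩
    show (β ^ i) ^ (p ^ k) = 1
    rw [← zpow_natCast, ← zpow_mul, mul_comm, zpow_mul, zpow_natCast, hβ, one_zpow]
  obtain ⟨χ, hχ, hχT⟩ := exists_conj_le_autInducedBy F p hN'a hT' hT'p
  have hχF := (mem_autGroup_iff F hN'S χ).mp hχ
  have he : IsIso F (e₀.trans χ) := isIso_trans F he₀ hχF
  have hmem : χ * MulAut.congr e₀ β * χ⁻¹ ∈ autInducedBy S N' :=
    hχT ⟨_, ⟨_, Subgroup.mem_zpowers _, rfl⟩, rfl⟩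
  obtain ⟨s, hs, Hs⟩ := (mem_autInducedBy_iff S N' _).mp hmem
  refine ⟨e₀.trans χ, he, s, hs, fun n => ?_⟩
  rw [← Hs ((e₀.trans χ) n)]
  simp [MulAut.congr]

theorem centric_of_isConj (F : FusionSystem S) {Q Q' : Subgroup Ω} (hQ : F.IsCentric Q)
    (h : F.IsConj Q Q') : F.IsCentric Q' :=
  ⟨isConj_le_right F h, fun R hR => hQ.2 R (isConj_trans F h hR)⟩

theorem centric_of_le (F : FusionSystem S) {Q N : Subgroup Ω} (hQ : F.IsCentric Q) (hQN : Q ≤ N)
    (hNS : N ≤ S) : F.IsCentric N := by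
  refine ⟨hNS, ?_⟩
  rintro N' ⟨θ, hθ, rfl⟩
  have hθQ := restrict_mem F hθ hQN
  have hconj : F.IsConj Q ((Q.subgroupOf N).map θ) := ⟨_, hθQ, range_comp_inclusion _ _⟩
  have h1 := hQ.2 _ hconj
  have h2 : (Q.subgroupOf N).map θ ≤ θ.range := by
    rintro _ ⟨n, -, rfl⟩
    exact ⟨n, rfl⟩
  intro c hc
  apply h2
  apply h1
  exact ⟨hc.1, Subgroup.centralizer_le h2 hc.2⟩

/-- The normal case of AKO-style rigidity: a map of the system on `N ≤ N_S(Q)` fixing the centric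
subgroup `Q` pointwise is conjugation by an element of `Z(Q)`. -/
theorem eq_conj_of_fix_normal [Finite S] (p : ℕ) [Fact p.Prime] (hS : IsPGroup p S)
    (F : FusionSystem S) (hF : F.IsSaturated p) {Q N : Subgroup Ω} (hQN : Q ≤ N)
    (hNQ : N ≤ Subgroup.normalizer (Q : Set Ω)) (hQ : F.IsCentric Q) {γ : N →* Ω}
    (hγ : γ ∈ F.Hom N) (hfix : ∀ x : N, (x : Ω) ∈ Q → γ x = x) :
    ∃ z : Ω, z ∈ Q ∧ z ∈ Subgroup.centralizer (Q : Set Ω) ∧ ∀ n : N, γ n = z * n * z⁻¹ := by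
  have hNS := hom_le F hγ
  have hQS := hQ.1
  have hCQ : FusionSystem.centralizerIn S Q ≤ Q := hQ.2 Q (isConj_refl F hQS)
  have hζ : ∀ g : N, (g : Ω)⁻¹ * γ g ∈ Q ∧ (g : Ω)⁻¹ * γ g ∈ Subgroup.centralizer (Q : Set Ω) := by
    intro g
    have hc : (g : Ω)⁻¹ * γ g ∈ FusionSystem.centralizerIn S Q := by
      refine ⟨S.mul_mem (S.inv_mem (hNS g.2)) (hom_mem F hγ g), ?_⟩
      show _ ∈ Subgroup.centralizer (Q : Set Ω)
      rw [Subgroup.mem_centralizer_iff]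
      intro x hx
      have hgx : (g : Ω) * x * (g : Ω)⁻¹ ∈ Q := (Subgroup.mem_normalizer_iff.mp (hNQ g.2) x).mp hx
      have h1 : γ (g * ⟨x, hQN hx⟩ * g⁻¹) = (g : Ω) * x * (g : Ω)⁻¹ := hfix _ hgx
      rw [map_mul, map_mul, map_inv, hfix ⟨x, hQN hx⟩ hx] at h1
      calc x * ((g : Ω)⁻¹ * γ g) = (g : Ω)⁻¹ * ((g : Ω) * x * (g : Ω)⁻¹) * γ g := by group
        _ = (g : Ω)⁻¹ * (γ g * x * (γ g)⁻¹) * γ g := by rw [h1]
        _ = (g : Ω)⁻¹ * γ g * x := by group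
    exact ⟨hCQ hc, hc.2⟩
  have hval : ∀ g : N, γ g ∈ N := by
    intro g
    have h1 := N.mul_mem g.2 (hQN (hζ g).1)
    have h2 : (g : Ω) * ((g : Ω)⁻¹ * γ g) = γ g := by group
    rw [h2] at h1
    exact h1
  have : Finite N := finite_of_le_finite hNS
  have : Finite Q := finite_of_le_finite hQS
  have hrange : γ.range = N := by
    apply Subgroup.eq_of_le_of_card_ge
    · rintro _ ⟨n, rfl⟩
      exact hval n
    · exact le_of_eq (Nat.card_congr (Equiv.ofInjective _ (F.injective_of_mem hγ)))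
  have hβA : equivOfRange γ (F.injective_of_mem hγ) hrange ∈ F.autGroup N :=
    (mem_autGroup_iff F hNS _).mpr (isIso_equivOfRange F hγ hrange)
  have hpowk : ∀ k : ℕ, ∀ g : N,
      ((((equivOfRange γ (F.injective_of_mem hγ) hrange : MulAut N) ^ k) g : N) : Ω)
        = (g : Ω) * ((g : Ω)⁻¹ * γ g) ^ k := by
    intro k
    induction k with
    | zero =>
      intro g
      simp
    | succ k ihk =>
      intro g
      rw [pow_succ', MulAut.mul_apply]
      show γ (((equivOfRange γ (F.injective_of_mem hγ) hrange : MulAut N) ^ k) g) = _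
      have hz : ((equivOfRange γ (F.injective_of_mem hγ) hrange : MulAut N) ^ k) g
          = g * (⟨(g : Ω)⁻¹ * γ g, hQN (hζ g).1⟩ : N) ^ k := Subtype.ext (ihk g)
      rw [hz, map_mul, map_pow, hfix ⟨_, hQN (hζ g).1⟩ (hζ g).1, pow_succ']
      show γ g * ((g : Ω)⁻¹ * γ g) ^ k = (g : Ω) * ((g : Ω)⁻¹ * γ g * ((g : Ω)⁻¹ * γ g) ^ k)
      rw [← mul_assoc (g : Ω), mul_inv_cancel_left]
  obtain ⟨e', he'⟩ := IsPGroup.iff_card.mp (hS.to_le hQS)
  have hβp : (equivOfRange γ (F.injective_of_mem hγ) hrange : MulAut N) ^ (p ^ e') = 1 := by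
    ext g
    rw [hpowk, ← he']
    have h1 : ((⟨_, (hζ g).1⟩ : Q) ^ Nat.card Q) = 1 := pow_card_eq_one'
    have h2 : ((g : Ω)⁻¹ * γ g) ^ Nat.card Q = 1 := congrArg Subtype.val h1
    rw [h2, mul_one]
    rfl
  obtain ⟨N₁, hNN₁, hN₁n⟩ := exists_fullyNormalized F hNS
  have props := fullyNormalized_props p hS F hF hN₁n
  obtain ⟨e₀, he₀⟩ := (isConj_iff_exists_isIso F).mp hNN₁
  obtain ⟨e, he, s, hs, Hs⟩ := exists_iso_conj F p props.2 e₀ he₀ hβA hβp
  have hθ := restrict_mem F he hQN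
  have hconj : F.IsConj Q ((Q.subgroupOf N).map (N₁.subtype.comp e.toMonoidHom)) :=
    ⟨_, hθ, range_comp_inclusion _ _⟩
  have hCQ₁ := hQ.2 _ hconj
  have hsC : s ∈ FusionSystem.centralizerIn S ((Q.subgroupOf N).map (N₁.subtype.comp e.toMonoidHom)) := by
    refine ⟨hs, ?_⟩
    show s ∈ Subgroup.centralizer _
    rw [Subgroup.mem_centralizer_iff]
    rintro _ ⟨n, hn, rfl⟩
    have hβn : equivOfRange γ (F.injective_of_mem hγ) hrange n = n := Subtype.ext (hfix n hn)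
    have h1 := Hs n
    rw [hβn] at h1
    show ((e n : N₁) : Ω) * s = s * ((e n : N₁) : Ω)
    calc ((e n : N₁) : Ω) * s = (s * ((e n : N₁) : Ω) * s⁻¹) * s := by rw [← h1]
      _ = s * ((e n : N₁) : Ω) := by group
  obtain ⟨z, hz, hzs⟩ := hCQ₁ hsC
  have hzs' : ((e z : N₁) : Ω) = s := hzs
  have hγz : ∀ n : N, γ n = (z : Ω) * n * (z : Ω)⁻¹ := by
    intro n
    have h1 : equivOfRange γ (F.injective_of_mem hγ) hrange n = z * n * z⁻¹ := by
      apply e.injective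
      apply Subtype.ext
      rw [Hs n, map_mul, map_mul, map_inv, ← hzs']
      rfl
    exact congrArg Subtype.val h1
  refine ⟨z, hz, ?_, hγz⟩
  rw [Subgroup.mem_centralizer_iff]
  intro x hx
  have h1 := hγz ⟨x, hQN hx⟩
  rw [hfix ⟨x, hQN hx⟩ hx] at h1
  have h2 : x = (z : Ω) * x * (z : Ω)⁻¹ := h1
  calc x * (z : Ω) = ((z : Ω) * x * (z : Ω)⁻¹) * (z : Ω) := by rw [← h2]
    _ = (z : Ω) * x := by group

/-- A map of the system on `P` fixing a centric subgroup `Q ≤ P` pointwise is conjugation by an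
element of `Z(Q)`. -/
theorem eq_conj_of_fix [Finite S] (p : ℕ) [Fact p.Prime] (hS : IsPGroup p S)
    (F : FusionSystem S) (hF : F.IsSaturated p) :
    ∀ n : ℕ, ∀ (Q P : Subgroup Ω), Q ≤ P → Nat.card P - Nat.card Q = n → F.IsCentric Q →
      ∀ γ : P →* Ω, γ ∈ F.Hom P → (∀ x : P, (x : Ω) ∈ Q → γ x = x) →
        ∃ z : Ω, z ∈ Q ∧ z ∈ Subgroup.centralizer (Q : Set Ω) ∧ ∀ y : P, γ y = z * y * z⁻¹ := by
  intro n
  induction n using Nat.strong_induction_on with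
  | _ n ih =>
    intro Q P hQP hn hQ γ hγ hfix
    have hPS := hom_le F hγ
    have hQS := hQ.1
    have : Finite P := finite_of_le_finite hPS
    by_cases hQPeq : Q = P
    · subst hQPeq
      refine ⟨1, Q.one_mem, Subgroup.one_mem _, fun y => ?_⟩
      rw [hfix y y.2]
      simp
    · have hlt : Q < P := lt_of_le_of_ne hQP hQPeq
      obtain ⟨g, hgP, hgN, hgQ⟩ := exists_mem_normalizer_not_mem (hS.to_le hPS) hlt
      have hQN : Q ≤ P ⊓ Subgroup.normalizer (Q : Set Ω) := le_inf hQP Subgroup.le_normalizer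
      have hNP : P ⊓ Subgroup.normalizer (Q : Set Ω) ≤ P := inf_le_left
      have hNS : P ⊓ Subgroup.normalizer (Q : Set Ω) ≤ S := hNP.trans hPS
      have hQNlt : Q < P ⊓ Subgroup.normalizer (Q : Set Ω) := by
        refine lt_of_le_of_ne hQN ?_
        intro h
        apply hgQ
        rw [h]
        exact ⟨hgP, hgN⟩
      have hγN := restrict_mem F hγ hNP
      obtain ⟨z, hzQ, hzC, hz⟩ := eq_conj_of_fix_normal p hS F hF hQN inf_le_right hQ hγN
        (fun x hx => hfix _ hx)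
      have hzS : z ∈ S := hQS hzQ
      -- γ' = c_{z⁻¹} ∘ γ
      have hc : conjHom γ.range z⁻¹ ∈ F.Hom γ.range := F.conj_mem (range_le F hγ) (S.inv_mem hzS)
      have hγ' : (conjHom γ.range z⁻¹).comp (γ.codRestrict γ.range (fun x => ⟨x, rfl⟩)) ∈ F.Hom P :=
        F.comp_mem hγ hc _
      have hγ'apply : ∀ y : P, ((conjHom γ.range z⁻¹).comp
          (γ.codRestrict γ.range (fun x => ⟨x, rfl⟩))) y = z⁻¹ * γ y * z := by
        intro y
        show z⁻¹ * γ y * z⁻¹⁻¹ = z⁻¹ * γ y * z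
        rw [inv_inv]
      have hfix' : ∀ x : P, (x : Ω) ∈ P ⊓ Subgroup.normalizer (Q : Set Ω) →
          ((conjHom γ.range z⁻¹).comp (γ.codRestrict γ.range (fun x => ⟨x, rfl⟩))) x = x := by
        intro x hx
        rw [hγ'apply]
        have h1 : γ x = z * (x : Ω) * z⁻¹ := hz ⟨x, hx⟩
        rw [h1]
        group
      have hNc : F.IsCentric (P ⊓ Subgroup.normalizer (Q : Set Ω)) := centric_of_le F hQ hQN hNS
      have hc1 : Nat.card Q < Nat.card (P ⊓ Subgroup.normalizer (Q : Set Ω) : Subgroup Ω) := by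
        have : Finite (P ⊓ Subgroup.normalizer (Q : Set Ω) : Subgroup Ω) := finite_of_le_finite hNS
        exact card_lt_card_of_lt hQNlt
      have hc2 : Nat.card (P ⊓ Subgroup.normalizer (Q : Set Ω) : Subgroup Ω) ≤ Nat.card P :=
        Subgroup.card_le_of_le hNP
      obtain ⟨z', hz'N, hz'C, hz'⟩ := ih _ (by omega) _ P hNP rfl hNc _ hγ' hfix'
      have hz'CQ : z' ∈ Subgroup.centralizer (Q : Set Ω) := Subgroup.centralizer_le hQN hz'C
      have hCQ : FusionSystem.centralizerIn S Q ≤ Q := hQ.2 Q (isConj_refl F hQS)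
      have hz'Q : z' ∈ Q := hCQ ⟨hNS hz'N, hz'CQ⟩
      refine ⟨z * z', Q.mul_mem hzQ hz'Q, Subgroup.mul_mem _ hzC hz'CQ, fun y => ?_⟩
      have h1 := hz' y
      rw [hγ'apply] at h1
      calc γ y = z * (z⁻¹ * γ y * z) * z⁻¹ := by group
        _ = z * (z' * (y : Ω) * z'⁻¹) * z⁻¹ := by rw [h1]
        _ = z * z' * (y : Ω) * (z * z')⁻¹ := by group

/-- Two maps of a saturated system on `P` agreeing on a centric subgroup `Q ≤ P` differ by
conjugation by an element of `Z(Q)`. -/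
theorem maps_agreeing_on_centric [Finite S] (p : ℕ) [Fact p.Prime] (hS : IsPGroup p S)
    (F : FusionSystem S) (hF : F.IsSaturated p) (P Q : Subgroup Ω) (hQP : Q ≤ P)
    (hQ : F.IsCentric Q) (φ φ' : P →* Ω) (hφ : φ ∈ F.Hom P) (hφ' : φ' ∈ F.Hom P)
    (h : ∀ x : P, (x : Ω) ∈ Q → φ x = φ' x) :
    ∃ z : P, (z : Ω) ∈ Q ∧ (z : Ω) ∈ Subgroup.centralizer (Q : Set Ω) ∧
      ∀ y : P, φ' y = φ (z * y * z⁻¹) := by
  obtain ⟨ψ, hψ, hinv, hψr⟩ := inv_mem' F hφ rfl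
  have hψP : ∀ w : φ.range, ψ w ∈ P := by
    intro w
    have h1 : ψ w ∈ ψ.range := ⟨w, rfl⟩
    rw [hψr] at h1
    exact h1
  have hβ : φ'.comp (ψ.codRestrict P hψP) ∈ F.Hom φ.range := F.comp_mem hψ hφ' hψP
  have hβφ : ∀ y : P, (φ'.comp (ψ.codRestrict P hψP)) ⟨φ y, ⟨y, rfl⟩⟩ = φ' y := by
    intro y
    show φ' ⟨ψ ⟨φ y, ⟨y, rfl⟩⟩, _⟩ = φ' y
    congr 1
    exact Subtype.ext (hinv y ⟨y, rfl⟩)
  have hQ₁le : (Q.subgroupOf P).map φ ≤ φ.range := by
    rintro _ ⟨x, -, rfl⟩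
    exact ⟨x, rfl⟩
  have hconj : F.IsConj Q ((Q.subgroupOf P).map φ) :=
    ⟨_, restrict_mem F hφ hQP, range_comp_inclusion _ _⟩
  have hQ₁c := centric_of_isConj F hQ hconj
  have hfix : ∀ w : φ.range, (w : Ω) ∈ (Q.subgroupOf P).map φ →
      (φ'.comp (ψ.codRestrict P hψP)) w = w := by
    rintro ⟨_, hw⟩ ⟨x, hx, rfl⟩
    rw [hβφ x]
    exact (h x hx).symm
  obtain ⟨z₁, hz₁Q, hz₁C, hz₁⟩ := eq_conj_of_fix p hS F hF _ _ _ hQ₁le rfl hQ₁c _ hβ hfix
  obtain ⟨z, hzQ, rfl⟩ := hz₁Q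
  refine ⟨z, hzQ, ?_, fun y => ?_⟩
  · rw [Subgroup.mem_centralizer_iff]
    intro x hx
    have h1 := Subgroup.mem_centralizer_iff.mp hz₁C (φ ⟨x, hQP hx⟩) ⟨⟨x, hQP hx⟩, hx, rfl⟩
    rw [← map_mul, ← map_mul] at h1
    exact congrArg Subtype.val (F.injective_of_mem hφ h1)
  · rw [← hβφ y, hz₁, map_mul, map_mul, map_inv]

end Cfsg.Agent.Helper8
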