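import Cfsg.Agent.Helper8.FusionMisc

/-!
# Dihedral and generalized quaternion 2-groups: `Aut_F(S) = Inn(S)`

A finite group with a characteristic cyclic subgroup of `2`-power order and index `2` has an
automorphism group which is a `2`-group.
-/

namespace Cfsg.Agent.Helper8

open Cfsg

theorem isPGroup_mulAut_of_char_cyclic {G : Type*} [Group G] [Finite G] (c : G) (k : ℕ)
    (hc : orderOf c = 2 ^ k) (hidx : (Subgroup.zpowers c).index = 2)
    (hchar : ∀ α : MulAut G, α c ∈ Subgroup.zpowers c) : IsPGroup 2 (MulAut G) := by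
  intro α
  obtain ⟨m, hm⟩ : ∃ m : ℕ, c ^ m = α c := by
    have h1 := hchar α
    rw [← mem_powers_iff_mem_zpowers] at h1
    exact Submonoid.mem_powers_iff _ _ |>.mp h1
  have hcop : Nat.Coprime m (2 ^ k) := by
    have h1 : orderOf (c ^ m) = orderOf c := by rw [hm]; exact MulEquiv.orderOf_eq α c
    rw [orderOf_pow, hc] at h1
    rcases Nat.div_eq_self.mp h1 with h2 | h2
    · exact absurd h2 (by positivity)
    · exact (Nat.coprime_comm.mp h2)
  set t := (2 ^ k).totient with ht
  have hmt : m ^ t ≡ 1 [MOD 2 ^ k] := Nat.ModEq.pow_totient hcop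
  have hpow : ∀ j : ℕ, (α ^ j) c = c ^ (m ^ j) := by
    intro j
    induction j with
    | zero => simp
    | succ j ih =>
      rw [pow_succ', MulAut.mul_apply, ih, map_pow, ← hm, ← pow_mul, pow_succ']
  set β := α ^ t with hβ
  have hβc : β c = c := by
    rw [hβ, hpow t]
    have : c ^ (m ^ t) = c ^ 1 := by
      rw [pow_eq_pow_iff_modEq, hc]
      exact hmt
    rw [this, pow_one]
  have hβC : ∀ x ∈ Subgroup.zpowers c, β x = x := by
    intro x hx
    obtain ⟨i, rfl⟩ := Subgroup.mem_zpowers_iff.mp hx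
    rw [map_zpow, hβc]
  have hβd : ∀ g : G, g⁻¹ * β g ∈ Subgroup.zpowers c := by
    intro g
    rw [Subgroup.mul_mem_iff_of_index_two hidx, inv_mem_iff]
    constructor
    · intro hg
      rw [hβC g hg]
      exact hg
    · intro hg
      have h1 := hβC (β g) hg
      have h2 : β g = g := β.injective h1
      rw [← h2]
      exact hg
  have hβpow : ∀ (g : G) (j : ℕ), (β ^ j) g = g * (g⁻¹ * β g) ^ j := by
    intro g j
    induction j with
    | zero => simp
    | succ j ih =>
      rw [pow_succ', MulAut.mul_apply, ih, map_mul, map_pow, hβC _ (hβd g), pow_succ',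
        ← mul_assoc, mul_inv_cancel_left]
  have hβ1 : β ^ (2 ^ k) = 1 := by
    ext g
    rw [hβpow g (2 ^ k)]
    have h1 : (g⁻¹ * β g) ^ (2 ^ k) = 1 := by
      rw [← orderOf_dvd_iff_pow_eq_one, ← hc]
      exact orderOf_dvd_of_mem_zpowers (hβd g)
    rw [h1, mul_one]
    rfl
  have ht2 : ∃ j : ℕ, t = 2 ^ j := by
    rcases Nat.eq_zero_or_pos k with h0 | h0
    · refine ⟨0, ?_⟩
      rw [ht, h0]
      simp
    · refine ⟨k - 1, ?_⟩
      rw [ht, Nat.totient_prime_pow Nat.prime_two h0]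
      simp
  obtain ⟨j, hj⟩ := ht2
  refine ⟨j + k, ?_⟩
  rw [pow_add, pow_mul, ← hj]
  exact hβ1

theorem isPGroup_mulAut_dihedral (n : ℕ) (hn : 4 ≤ n) :
    IsPGroup 2 (MulAut (DihedralGroup (2 ^ (n - 1)))) := by
  have hN : 8 ≤ 2 ^ (n - 1) := by
    calc 8 = 2 ^ 3 := by norm_num
      _ ≤ 2 ^ (n - 1) := Nat.pow_le_pow_right (by norm_num) (by omega)
  have : NeZero (2 ^ (n - 1)) := ⟨by positivity⟩
  apply isPGroup_mulAut_of_char_cyclic (DihedralGroup.r 1) (n - 1) DihedralGroup.orderOf_r_one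
  · have h1 := Subgroup.card_mul_index (Subgroup.zpowers (DihedralGroup.r 1 : DihedralGroup (2 ^ (n - 1))))
    rw [Nat.card_zpowers, DihedralGroup.orderOf_r_one, DihedralGroup.nat_card, mul_comm] at h1
    exact Nat.eq_of_mul_eq_mul_right (by positivity) h1
  · intro α
    have ho : orderOf (α (DihedralGroup.r 1)) = 2 ^ (n - 1) := by
      rw [MulEquiv.orderOf_eq, DihedralGroup.orderOf_r_one]
    rcases h : α (DihedralGroup.r 1) with j | j
    · rw [Subgroup.mem_zpowers_iff]
      refine ⟨(j.val : ℤ), ?_⟩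
      rw [zpow_natCast, DihedralGroup.r_one_pow, ZMod.natCast_zmod_val]
    · rw [h, DihedralGroup.orderOf_sr] at ho
      omega

theorem isPGroup_mulAut_quaternion (n : ℕ) (hn : 4 ≤ n) :
    IsPGroup 2 (MulAut (QuaternionGroup (2 ^ (n - 2)))) := by
  have hN : 4 ≤ 2 ^ (n - 2) := by
    calc 4 = 2 ^ 2 := by norm_num
      _ ≤ 2 ^ (n - 2) := Nat.pow_le_pow_right (by norm_num) (by omega)
  have : NeZero (2 ^ (n - 2)) := ⟨by positivity⟩
  have hord : orderOf (QuaternionGroup.a 1 : QuaternionGroup (2 ^ (n - 2))) = 2 ^ (n - 2 + 1) := by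
    rw [QuaternionGroup.orderOf_a_one, pow_succ, mul_comm]
  apply isPGroup_mulAut_of_char_cyclic (QuaternionGroup.a 1) (n - 2 + 1) hord
  · have h1 := Subgroup.card_mul_index
      (Subgroup.zpowers (QuaternionGroup.a 1 : QuaternionGroup (2 ^ (n - 2))))
    rw [Nat.card_zpowers, QuaternionGroup.orderOf_a_one, Nat.card_eq_fintype_card,
      QuaternionGroup.card] at h1
    have h2 : 2 * 2 ^ (n - 2) * (Subgroup.zpowers
        (QuaternionGroup.a 1 : QuaternionGroup (2 ^ (n - 2)))).index = 2 * 2 ^ (n - 2) * 2 := by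
      rw [h1]; ring
    exact Nat.eq_of_mul_eq_mul_left (by positivity) h2
  · intro α
    have ho : orderOf (α (QuaternionGroup.a 1)) = 2 * 2 ^ (n - 2) := by
      rw [MulEquiv.orderOf_eq, QuaternionGroup.orderOf_a_one]
    rcases h : α (QuaternionGroup.a 1) with j | j
    · rw [Subgroup.mem_zpowers_iff]
      refine ⟨(j.val : ℤ), ?_⟩
      rw [zpow_natCast, QuaternionGroup.a_one_pow, ZMod.natCast_zmod_val]
    · rw [h, QuaternionGroup.orderOf_xa] at ho
      omega

variable {Ω : Type*} [Group Ω] {S : Subgroup Ω}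

theorem autGroup_top_eq_inn_of_isPGroup_mulAut [Finite S] (p : ℕ) [Fact p.Prime]
    (hS : IsPGroup p S) (F : FusionSystem S) (hF : F.IsSaturated p)
    (h : IsPGroup p (MulAut S)) : F.autGroup S = Inn S := by
  apply le_antisymm
  · have props := fullyNormalized_props p hS F hF (isFullyNormalized_top F)
    obtain ⟨R, hR⟩ := props.2.2
    have hRtop : (R : Subgroup (F.autGroup S)) = ⊤ :=
      (R.3 ((h.to_subgroup (F.autGroup S)).to_subgroup ⊤) le_top).symm
    intro α hα
    have h1 : (⟨α, hα⟩ : F.autGroup S) ∈ (R : Subgroup (F.autGroup S)) := by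
      rw [hRtop]
      trivial
    rw [hR, Subgroup.mem_subgroupOf] at h1
    obtain ⟨g, hg, hgα⟩ := (mem_autInducedBy_iff S S α).mp h1
    refine ⟨⟨g, hg⟩, ?_⟩
    ext x
    rw [hgα x]
    rfl
  · rintro _ ⟨s, rfl⟩
    exact autInducedBy_le_autGroup F le_rfl
      ((mem_autInducedBy_iff S S _).mpr ⟨s, s.2, fun x => rfl⟩)

theorem autGroup_top_dihedral_quaternion [Finite S] (n : ℕ) (hn : 4 ≤ n)
    (hshape : Nonempty (S ≃* DihedralGroup (2 ^ (n - 1))) ∨
      Nonempty (S ≃* QuaternionGroup (2 ^ (n - 2))))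
    (F : FusionSystem S) (hF : F.IsSaturated 2) : F.autGroup S = Inn S := by
  have hA : IsPGroup 2 (MulAut S) := by
    rcases hshape with ⟨⟨e⟩⟩ | ⟨⟨e⟩⟩
    · exact (isPGroup_mulAut_dihedral n hn).of_equiv (MulAut.congr e).symm
    · exact (isPGroup_mulAut_quaternion n hn).of_equiv (MulAut.congr e).symm
  have hS : IsPGroup 2 S := by
    rcases hshape with ⟨⟨e⟩⟩ | ⟨⟨e⟩⟩
    · apply IsPGroup.of_card (n := n)
      rw [Nat.card_congr e.toEquiv, DihedralGroup.nat_card, ← pow_succ']
      congr 1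
      omega
    · have : NeZero (2 ^ (n - 2)) := ⟨by positivity⟩
      apply IsPGroup.of_card (n := n)
      rw [Nat.card_congr e.toEquiv, Nat.card_eq_fintype_card, QuaternionGroup.card]
      have : n = (n - 2) + 2 := by omega
      conv_rhs => rw [this, pow_add]
      ring
  exact autGroup_top_eq_inn_of_isPGroup_mulAut 2 hS F hF hA

end Cfsg.Agent.Helper8
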