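import Cfsg.Agent.Helper8.FusionInv5
import Cfsg.Agent.Helper8.FusionKNorm4

set_option autoImplicit false

namespace Cfsg.Agent.Helper8

open Cfsg

variable {Ω : Type*} [Group Ω] {S : Subgroup Ω}

theorem extender_mono {S₁ S : Subgroup Ω} (h : S₁ ≤ S) (Q : Subgroup Ω) (φ : Q →* Ω) :
    FusionSystem.extender S₁ Q φ ≤ FusionSystem.extender S Q φ := by
  intro g hg
  obtain ⟨hgS, hgN, k, hk, H⟩ := (mem_extender_iff S₁ Q φ g).mp hg
  exact (mem_extender_iff S Q φ g).mpr ⟨h hgS, hgN, k, h hk, H⟩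

/-- The full subsystem on a strongly closed subgroup `S₁` with a centralizing complement `Z`
(`S = S₁ Z`) is saturated. -/
theorem saturated_of_complement [Finite S] (p : ℕ) [Fact p.Prime] (hS : IsPGroup p S)
    (F : FusionSystem S) (hF : F.IsSaturated p) {S₁ Z : Subgroup Ω} (h₁ : F.StronglyClosed S₁)
    (hcomm : ∀ a ∈ S₁, ∀ b ∈ Z, a * b = b * a) (hsup : S ≤ S₁ ⊔ Z)
    (R : FusionSystem S₁) (hR : ∀ P : Subgroup Ω, P ≤ S₁ → R.Hom P = F.Hom P) :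
    R.IsSaturated p := by
  have hS₁S := h₁.1
  have hnorm : S₁ ≤ Subgroup.normalizer (Z : Set Ω) := by
    intro a ha
    rw [Subgroup.mem_normalizer_iff]
    intro b
    constructor
    · intro hb
      rw [hcomm a ha b hb, mul_inv_cancel_right]
      exact hb
    · intro hb
      have h1 := hcomm a ha _ hb
      have h2 : a * b * a⁻¹ = b := by
        have h3 : a * (a * b * a⁻¹) = a * b := by rw [h1]; group
        exact mul_left_cancel h3
      rw [← h2]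
      exact hb
  intro P hP
  have hPS := hP.trans hS₁S
  obtain ⟨Q, hPQ, hQn⟩ := exists_fullyNormalized F hPS
  have hQS₁ : Q ≤ S₁ := by
    obtain ⟨χ, hχ, rfl⟩ := hPQ
    rintro _ ⟨x, rfl⟩
    exact h₁.2 P hP χ hχ x
  have hQS := hQn.1
  have props := fullyNormalized_props p hS F hF hQn
  have hrec := receptive_of_fullyCentralized p hS F hF props.1
  have hautEq : R.autGroup Q = F.autGroup Q := by
    ext α
    rw [mem_autGroup_iff R hQS₁, mem_autGroup_iff F hQS]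
    show Q.subtype.comp α.toMonoidHom ∈ R.Hom Q ↔ Q.subtype.comp α.toMonoidHom ∈ F.Hom Q
    rw [hR Q hQS₁]
  have hindEq : autInducedBy S₁ Q = autInducedBy S Q := by
    ext α
    rw [mem_autInducedBy_iff, mem_autInducedBy_iff]
    constructor
    · rintro ⟨g, hg, H⟩
      exact ⟨g, hS₁S hg, H⟩
    · rintro ⟨g, hg, H⟩
      obtain ⟨s, hs, z, hz, rfl⟩ := mem_sup_of_le_normalizer hnorm (hsup hg)
      refine ⟨s, hs, fun x => ?_⟩
      rw [H x]
      have h1 := hcomm x (hQS₁ x.2) z hz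
      have h2 : z * (x : Ω) * z⁻¹ = x := by rw [← h1, mul_inv_cancel_right]
      calc s * z * (x : Ω) * (s * z)⁻¹ = s * (z * (x : Ω) * z⁻¹) * s⁻¹ := by group
        _ = s * (x : Ω) * s⁻¹ := by rw [h2]
  refine ⟨Q, ?_, ⟨hQS₁, ?_⟩, hQS₁, ?_⟩
  · obtain ⟨χ, hχ, hr⟩ := hPQ
    refine ⟨χ, ?_, hr⟩
    rw [hR P hP]
    exact hχ
  · rw [hautEq, hindEq]
    exact props.2.2
  · intro P' φ hφ hr
    have hP'S₁ := hom_le R hφ
    have hφF : φ ∈ F.Hom P' := by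
      rw [← hR P' hP'S₁]
      exact hφ
    obtain ⟨ψ, hψ, hext⟩ := hrec.2 P' φ hφF hr
    have hle := extender_mono hS₁S P' φ
    have hN₁ : FusionSystem.extender S₁ P' φ ≤ S₁ :=
      (extender_le_normalizerIn S₁ P' φ).trans (normalizerIn_le_left S₁ P')
    refine ⟨ψ.comp (Subgroup.inclusion hle), ?_, fun x hxP hxN => hext x hxP (hle hxN)⟩
    rw [hR _ hN₁]
    exact restrict_mem F hψ hle

/-- The conjugate of a map of `F` under an element of `Aut_F(T)`, as a map of `F`. -/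
theorem exists_conj_map (F : FusionSystem S) {T : Subgroup Ω} (hTS : T ≤ S)
    {α : MulAut T} (hα : α ∈ F.autGroup T) {P : Subgroup Ω} (hPT : P ≤ T) {φ : P →* Ω}
    (hφ : φ ∈ F.Hom P) (hφT : ∀ x : P, φ x ∈ T) : ∃ χ ∈ F.Hom (img α P), IsConjOf α hPT φ χ := by
  have he := isIso_imgEquiv F hTS hα hPT
  have hαF : T.subtype.comp α.toMonoidHom ∈ F.Hom T := (mem_autGroup_iff F hTS α).mp hα
  have h1 : (P.subtype.comp (imgEquiv α hPT).symm.toMonoidHom) ∈ F.Hom (img α P) :=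
    isIso_symm F he
  have h2 := F.comp_mem h1 hφ (fun y => ((imgEquiv α hPT).symm y).2)
  have h3 := F.comp_mem h2 hαF (fun y => hφT _)
  refine ⟨_, h3, ?_⟩
  intro x hφx hαx
  have h4 : (⟨(α ⟨x, hPT x.2⟩ : T), hαx⟩ : img α P) = imgEquiv α hPT x := Subtype.ext rfl
  show ((α ⟨φ ((imgEquiv α hPT).symm ⟨(α ⟨x, hPT x.2⟩ : T), hαx⟩), _⟩ : T) : Ω) = _
  congr 2
  apply Subtype.ext
  show φ ((imgEquiv α hPT).symm ⟨(α ⟨x, hPT x.2⟩ : T), hαx⟩) = φ x
  rw [h4, MulEquiv.symm_apply_apply]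

/-- `φ` extends to the product with `S₂`, acting trivially on `S₂`. -/
def CentExt (F : FusionSystem S) (S₂ : Subgroup Ω) {P : Subgroup Ω} (φ : P →* Ω) : Prop :=
  ∃ ψ ∈ F.Hom (P ⊔ S₂), (∀ x : P, ψ (Subgroup.inclusion le_sup_left x) = φ x) ∧
    ∀ x : S₂, ψ (Subgroup.inclusion le_sup_right x) = x

theorem le_centralizerIn_of_comm {S₁ S₂ : Subgroup Ω} (hS₁S : S₁ ≤ S)
    (hcomm : ∀ a ∈ S₁, ∀ b ∈ S₂, a * b = b * a) : S₁ ≤ FusionSystem.centralizerIn S S₂ := by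
  intro a ha
  exact Subgroup.mem_inf.mpr ⟨hS₁S ha,
    Subgroup.mem_centralizer_iff.mpr (fun b hb => (hcomm a ha b hb).symm)⟩

theorem le_centralizerIn_of_comm' {S₁ S₂ : Subgroup Ω} (hS₂S : S₂ ≤ S)
    (hcomm : ∀ a ∈ S₁, ∀ b ∈ S₂, a * b = b * a) : S₂ ≤ FusionSystem.centralizerIn S S₁ := by
  intro b hb
  exact Subgroup.mem_inf.mpr ⟨hS₂S hb,
    Subgroup.mem_centralizer_iff.mpr (fun a ha => hcomm a ha b hb)⟩

theorem mem_centralizerHom_iff (F : FusionSystem S) {S₁ S₂ : Subgroup Ω}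
    (h₁ : F.StronglyClosed S₁) (hcomm : ∀ a ∈ S₁, ∀ b ∈ S₂, a * b = b * a) {P : Subgroup Ω}
    (hP : P ≤ S₁) (φ : P →* Ω) :
    φ ∈ F.centralizerHom S₂ P ↔ φ ∈ F.Hom P ∧ CentExt F S₂ φ := by
  have hS₁C := le_centralizerIn_of_comm h₁.1 hcomm
  constructor
  · rintro ⟨hφ, -, -, hext⟩
    exact ⟨hφ, hext⟩
  · rintro ⟨hφ, hext⟩
    exact ⟨hφ, hP.trans hS₁C, fun x => hS₁C (h₁.2 P hP φ hφ x), hext⟩

theorem exists_aut_extension_sup [Finite S] (F : FusionSystem S) {Q S₂ : Subgroup Ω}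
    (hrec : F.IsReceptive Q) (h₂ : F.StronglyClosed S₂)
    (hcomm : ∀ a ∈ Q, ∀ b ∈ S₂, a * b = b * a) {β : MulAut Q} (hβ : β ∈ F.autGroup Q) :
    ∃ β' ∈ F.autGroup (Q ⊔ S₂), ∀ x : Q,
      ((β' (Subgroup.inclusion le_sup_left x) : ↥(Q ⊔ S₂)) : Ω) = ((β x : Q) : Ω) := by
  have hQS := hrec.1
  have hS₂C := le_centralizerIn_of_comm' (S := S) h₂.1 hcomm
  have hN : Q ⊔ S₂ ≤ FusionSystem.extender S Q (Q.subtype.comp β.toMonoidHom) :=
    sup_le (le_extender S Q _ hQS (fun x => hQS (β x).2))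
      (hS₂C.trans (centralizerIn_le_extender S Q _))
  obtain ⟨ψ, hψ, hext⟩ := exists_extension_of_receptive F hrec hβ le_sup_left hN
  have hr : ∀ y : ↥(Q ⊔ S₂), ψ y ∈ Q ⊔ S₂ := by
    apply sup_induction_map ψ
    · intro x hx
      have h1 : x = Subgroup.inclusion le_sup_left (⟨(x : Ω), hx⟩ : Q) := Subtype.ext rfl
      rw [h1, hext]
      exact (le_sup_left : Q ≤ Q ⊔ S₂) (β ⟨(x : Ω), hx⟩).2
    · intro x hx
      exact (le_sup_right : S₂ ≤ Q ⊔ S₂) (map_mem_of_stronglyClosed' F h₂ hψ x hx)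
  obtain ⟨β', hβ', hβ'ψ⟩ := exists_aut_of_hom_range_le F hψ hr
  exact ⟨β', hβ', fun x => by rw [hβ'ψ, hext]⟩

end Cfsg.Agent.Helper8
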