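import Cfsg.Agent.Helper8.FusionDirect

set_option autoImplicit false

namespace Cfsg.Agent.Helper8

open Cfsg

variable {Ω : Type*} [Group Ω] {S : Subgroup Ω}

theorem le_normalizer_of_comm {S₁ S₂ : Subgroup Ω} (hcomm : ∀ a ∈ S₁, ∀ b ∈ S₂, a * b = b * a) :
    S₁ ≤ Subgroup.normalizer (S₂ : Set Ω) := by
  intro a ha
  rw [Subgroup.mem_normalizer_iff]
  intro b
  constructor
  · intro hb
    rw [hcomm a ha b hb, mul_inv_cancel_right]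
    exact hb
  · intro hb
    have h1 := hcomm a ha _ hb
    have h2 : a * b * a⁻¹ = b := by
      have h3 : a * (a * b * a⁻¹) = a * b := by rw [h1]; group
      exact mul_left_cancel h3
    rw [← h2]
    exact hb

theorem conjInv_centralizer [Finite S] (p : ℕ) [Fact p.Prime] (hS : IsPGroup p S)
    (F : FusionSystem S) (hF : F.IsSaturated p) {S₁ S₂ : Subgroup Ω} (h₁ : F.StronglyClosed S₁)
    (h₂ : F.StronglyClosed S₂) (hcomm : ∀ a ∈ S₁, ∀ b ∈ S₂, a * b = b * a) (R' : FusionSystem S₁)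
    (hR' : ∀ P : Subgroup Ω, P ≤ S₁ → R'.Hom P = F.centralizerHom S₂ P) : ConjInv F R' := by
  intro P hPT φ hφ α hα
  rw [hR' P hPT, mem_centralizerHom_iff F h₁ hcomm hPT] at hφ
  obtain ⟨hφF, ψ, hψ, hψφ, hψid⟩ := hφ
  have hφS₁ : ∀ x : P, φ x ∈ S₁ := fun x => h₁.2 P hPT φ hφF x
  obtain ⟨χ, hχ, hχc⟩ := exists_conj_map F h₁.1 hα hPT hφF hφS₁
  refine ⟨χ, ?_, hχc⟩
  rw [hR' _ (img_le α P), mem_centralizerHom_iff F h₁ hcomm (img_le α P)]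
  refine ⟨hχ, ?_⟩
  have hrec₁ : F.IsReceptive S₁ := receptive_of_fullyCentralized p hS F hF
    (fullyNormalized_props p hS F hF (isFullyNormalized_of_stronglyClosed F h₁)).1
  obtain ⟨α', hα', hα'α⟩ := exists_aut_extension_sup F hrec₁ h₂ hcomm hα
  have hUS : S₁ ⊔ S₂ ≤ S := sup_le h₁.1 h₂.1
  have hPU : P ⊔ S₂ ≤ S₁ ⊔ S₂ := sup_le_sup_right hPT S₂
  have hα'S₁ : ∀ (u : ↥(S₁ ⊔ S₂)) (hu : (u : Ω) ∈ S₁),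
      ((α' u : ↥(S₁ ⊔ S₂)) : Ω) = ((α ⟨u, hu⟩ : S₁) : Ω) := fun u hu => hα'α ⟨(u : Ω), hu⟩
  have hψP : ∀ (v : ↥(P ⊔ S₂)) (hv : (v : Ω) ∈ P), ψ v = φ ⟨v, hv⟩ :=
    fun v hv => hψφ ⟨(v : Ω), hv⟩
  have hψS₂ : ∀ (v : ↥(P ⊔ S₂)), (v : Ω) ∈ S₂ → ψ v = v := fun v hv => hψid ⟨(v : Ω), hv⟩
  have hψU : ∀ y : ↥(P ⊔ S₂), ψ y ∈ S₁ ⊔ S₂ := by
    apply sup_induction_map ψ
    · intro x hx
      rw [hψP x hx]
      exact (le_sup_left : S₁ ≤ S₁ ⊔ S₂) (hφS₁ _)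
    · intro x hx
      rw [hψS₂ x hx]
      exact (le_sup_right : S₂ ≤ S₁ ⊔ S₂) hx
  obtain ⟨ψ', hψ', hψ'c⟩ := exists_conj_map F hUS hα' hPU hψ hψU
  have hinvS₂ : ∀ s ∈ S₂, ∀ hs : s ∈ S₁ ⊔ S₂, ((α'⁻¹ ⟨s, hs⟩ : ↥(S₁ ⊔ S₂)) : Ω) ∈ S₂ :=
    fun s hs hsU => stronglyClosed_invariant F h₂ hUS (inv_mem hα') _ hs
  have hle : img α P ⊔ S₂ ≤ img α' (P ⊔ S₂) := by
    apply sup_le
    · rintro _ ⟨x, hx, rfl⟩
      refine ⟨Subgroup.inclusion le_sup_left x, (le_sup_left : P ≤ P ⊔ S₂) hx, ?_⟩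
      exact hα'α x
    · intro s hs
      have hsU : s ∈ S₁ ⊔ S₂ := (le_sup_right : S₂ ≤ S₁ ⊔ S₂) hs
      refine ⟨α'⁻¹ ⟨s, hsU⟩, (le_sup_right : S₂ ≤ P ⊔ S₂) (hinvS₂ s hs hsU), ?_⟩
      show ((α' (α'⁻¹ ⟨s, hsU⟩) : ↥(S₁ ⊔ S₂)) : Ω) = s
      rw [MulAut.apply_inv_self]
  refine ⟨ψ'.comp (Subgroup.inclusion hle), restrict_mem F hψ' hle, ?_, ?_⟩
  · intro y
    obtain ⟨x, hx, hxy⟩ := y.2
    have hxP : (x : Ω) ∈ P := hx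
    have hxPS : (x : Ω) ∈ P ⊔ S₂ := (le_sup_left : P ≤ P ⊔ S₂) hxP
    have e1 := hψ'c ⟨(x : Ω), hxPS⟩ (hψU _) (apply_mem_img α' hPU _)
    have e2 := hχc ⟨(x : Ω), hxP⟩ (hφS₁ _) (apply_mem_img α hPT _)
    have h1 : ψ ⟨(x : Ω), hxPS⟩ = φ ⟨(x : Ω), hxP⟩ := hψP _ hxP
    have e3 : ((α' ⟨ψ ⟨(x : Ω), hxPS⟩, hψU _⟩ : ↥(S₁ ⊔ S₂)) : Ω) =
        ((α ⟨φ ⟨(x : Ω), hxP⟩, hφS₁ _⟩ : S₁) : Ω) := by
      have hu : ψ ⟨(x : Ω), hxPS⟩ ∈ S₁ := by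
        rw [h1]
        exact hφS₁ _
      rw [hα'S₁ _ hu]
      congr 2
      exact Subtype.ext h1
    have e4 : (ψ'.comp (Subgroup.inclusion hle)) (Subgroup.inclusion le_sup_left y) =
        ψ' ⟨((α' ⟨(x : Ω), hPU hxPS⟩ : ↥(S₁ ⊔ S₂)) : Ω), apply_mem_img α' hPU ⟨(x : Ω), hxPS⟩⟩ := by
      show ψ' _ = ψ' _
      congr 1
      apply Subtype.ext
      show (y : Ω) = _
      rw [← hxy, hα'S₁ _ x.2]
      rfl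
    have e5 : χ y = χ ⟨((α ⟨(x : Ω), hPT hxP⟩ : S₁) : Ω), apply_mem_img α hPT ⟨(x : Ω), hxP⟩⟩ := by
      congr 1
      exact Subtype.ext hxy.symm
    rw [e4, e1, e3, e5, e2]
  · intro s
    have hsU : (s : Ω) ∈ S₁ ⊔ S₂ := (le_sup_right : S₂ ≤ S₁ ⊔ S₂) s.2
    have hs' := hinvS₂ s s.2 hsU
    have hs'PS : ((α'⁻¹ ⟨s, hsU⟩ : ↥(S₁ ⊔ S₂)) : Ω) ∈ P ⊔ S₂ :=
      (le_sup_right : S₂ ≤ P ⊔ S₂) hs'
    have e1 := hψ'c ⟨_, hs'PS⟩ (hψU _) (apply_mem_img α' hPU _)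
    have h1 : ψ ⟨((α'⁻¹ ⟨s, hsU⟩ : ↥(S₁ ⊔ S₂)) : Ω), hs'PS⟩ =
        ((α'⁻¹ ⟨s, hsU⟩ : ↥(S₁ ⊔ S₂)) : Ω) := hψS₂ _ hs'
    have e3 : ((α' ⟨ψ ⟨((α'⁻¹ ⟨s, hsU⟩ : ↥(S₁ ⊔ S₂)) : Ω), hs'PS⟩, hψU _⟩ : ↥(S₁ ⊔ S₂)) : Ω)
        = s := by
      have h2 : (⟨ψ ⟨((α'⁻¹ ⟨s, hsU⟩ : ↥(S₁ ⊔ S₂)) : Ω), hs'PS⟩, hψU _⟩ : ↥(S₁ ⊔ S₂)) =
          α'⁻¹ ⟨s, hsU⟩ := Subtype.ext h1
      rw [h2, MulAut.apply_inv_self]
    have e4 : (ψ'.comp (Subgroup.inclusion hle)) (Subgroup.inclusion le_sup_right s) =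
        ψ' ⟨((α' ⟨((α'⁻¹ ⟨s, hsU⟩ : ↥(S₁ ⊔ S₂)) : Ω), hPU hs'PS⟩ : ↥(S₁ ⊔ S₂)) : Ω),
          apply_mem_img α' hPU ⟨_, hs'PS⟩⟩ := by
      show ψ' _ = ψ' _
      congr 1
      apply Subtype.ext
      show (s : Ω) = ((α' ⟨((α'⁻¹ ⟨s, hsU⟩ : ↥(S₁ ⊔ S₂)) : Ω), _⟩ : ↥(S₁ ⊔ S₂)) : Ω)
      have h3 : (⟨((α'⁻¹ ⟨s, hsU⟩ : ↥(S₁ ⊔ S₂)) : Ω), hPU hs'PS⟩ : ↥(S₁ ⊔ S₂)) =
          α'⁻¹ ⟨s, hsU⟩ := Subtype.ext rfl
      rw [h3, MulAut.apply_inv_self]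
    rw [e4, e1, e3]

theorem centralizer_aut_normal [Finite S] (p : ℕ) [Fact p.Prime] (hS : IsPGroup p S)
    (F : FusionSystem S) (hF : F.IsSaturated p) {S₁ S₂ : Subgroup Ω} (h₁ : F.StronglyClosed S₁)
    (h₂ : F.StronglyClosed S₂) (hcomm : ∀ a ∈ S₁, ∀ b ∈ S₂, a * b = b * a) (R' : FusionSystem S₁)
    (hR' : ∀ P : Subgroup Ω, P ≤ S₁ → R'.Hom P = F.centralizerHom S₂ P)
    {Q : Subgroup Ω} (hQ : Q ≤ S₁) (hQn : F.IsFullyNormalized Q) {β γ : MulAut Q}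
    (hβ : β ∈ F.autGroup Q) (hγ : γ ∈ R'.autGroup Q) : β * γ * β⁻¹ ∈ R'.autGroup Q := by
  have hQS := hQn.1
  have hrec := receptive_of_fullyCentralized p hS F hF (fullyNormalized_props p hS F hF hQn).1
  have hcommQ : ∀ a ∈ Q, ∀ b ∈ S₂, a * b = b * a := fun a ha => hcomm a (hQ ha)
  have hUS : Q ⊔ S₂ ≤ S := sup_le hQS h₂.1
  rw [mem_autGroup_iff R' hQ] at hγ ⊢
  have hγ' : Q.subtype.comp γ.toMonoidHom ∈ R'.Hom Q := hγ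
  rw [hR' Q hQ, mem_centralizerHom_iff F h₁ hcomm hQ] at hγ'
  obtain ⟨hγF, ψ, hψ, hψγ, hψid⟩ := hγ'
  obtain ⟨β', hβ', hβ'β⟩ := exists_aut_extension_sup F hrec h₂ hcommQ hβ
  have hψr : ∀ y : ↥(Q ⊔ S₂), ψ y ∈ Q ⊔ S₂ := by
    apply sup_induction_map ψ
    · intro x hx
      have h1 : ψ x = (Q.subtype.comp γ.toMonoidHom) ⟨(x : Ω), hx⟩ := hψγ ⟨(x : Ω), hx⟩
      rw [h1]
      exact (le_sup_left : Q ≤ Q ⊔ S₂) (γ _).2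
    · intro x hx
      have h1 : ψ x = (x : Ω) := hψid ⟨(x : Ω), hx⟩
      rw [h1]
      exact x.2
  obtain ⟨γ', hγ', hγ'ψ⟩ := exists_aut_of_hom_range_le F hψ hψr
  have hδ : β' * γ' * β'⁻¹ ∈ F.autGroup (Q ⊔ S₂) := mul_mem (mul_mem hβ' hγ') (inv_mem hβ')
  have hδF : (Q ⊔ S₂).subtype.comp (β' * γ' * β'⁻¹).toMonoidHom ∈ F.Hom (Q ⊔ S₂) :=
    (mem_autGroup_iff F hUS _).mp hδ
  show Q.subtype.comp (β * γ * β⁻¹).toMonoidHom ∈ R'.Hom Q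
  rw [hR' Q hQ, mem_centralizerHom_iff F h₁ hcomm hQ]
  refine ⟨(mem_autGroup_iff F hQS _).mp (mul_mem (mul_mem hβ
    ((mem_autGroup_iff F hQS γ).mpr hγF)) (inv_mem hβ)), _, hδF, ?_, ?_⟩
  · intro x
    have h1 : β'⁻¹ (Subgroup.inclusion le_sup_left x) =
        Subgroup.inclusion le_sup_left (β⁻¹ x) := by
      have h2 : β' (Subgroup.inclusion le_sup_left (β⁻¹ x)) = Subgroup.inclusion le_sup_left x := by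
        apply Subtype.ext
        rw [hβ'β, MulAut.apply_inv_self]
        rfl
      rw [← h2, MulAut.inv_apply_self]
    have h3 : γ' (Subgroup.inclusion le_sup_left (β⁻¹ x)) =
        Subgroup.inclusion le_sup_left (γ (β⁻¹ x)) := by
      apply Subtype.ext
      rw [hγ'ψ, hψγ]
      rfl
    show ((β' (γ' (β'⁻¹ (Subgroup.inclusion le_sup_left x))) : ↥(Q ⊔ S₂)) : Ω) =
      ((β (γ (β⁻¹ x)) : Q) : Ω)
    rw [h1, h3, hβ'β]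
  · intro s
    have hs' : ((β'⁻¹ (Subgroup.inclusion le_sup_right s) : ↥(Q ⊔ S₂)) : Ω) ∈ S₂ :=
      stronglyClosed_invariant F h₂ hUS (inv_mem hβ') _ s.2
    have h1 : γ' (β'⁻¹ (Subgroup.inclusion le_sup_right s)) =
        β'⁻¹ (Subgroup.inclusion le_sup_right s) := by
      apply Subtype.ext
      rw [hγ'ψ]
      exact hψid ⟨_, hs'⟩
    show ((β' (γ' (β'⁻¹ (Subgroup.inclusion le_sup_right s))) : ↥(Q ⊔ S₂)) : Ω) = s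
    rw [h1, MulAut.apply_inv_self]
    rfl

theorem centralizer_goodExt [Finite S] (F : FusionSystem S) {S₁ S₂ : Subgroup Ω}
    (h₁ : F.StronglyClosed S₁) (h₂S : S₂ ≤ S) (hcomm : ∀ a ∈ S₁, ∀ b ∈ S₂, a * b = b * a)
    (hsup : S₁ ⊔ S₂ = S) (R' : FusionSystem S₁)
    (hR' : ∀ P : Subgroup Ω, P ≤ S₁ → R'.Hom P = F.centralizerHom S₂ P) {α : MulAut S₁}
    (hα : α ∈ R'.autGroup S₁) : GoodExt F S₁ α := by
  have hS₁S := h₁.1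
  rw [mem_autGroup_iff R' le_rfl] at hα
  have hα' : S₁.subtype.comp α.toMonoidHom ∈ R'.Hom S₁ := hα
  rw [hR' S₁ le_rfl, mem_centralizerHom_iff F h₁ hcomm le_rfl] at hα'
  obtain ⟨hαF, ψ, hψ, hψα, hψid⟩ := hα'
  have hV : S₁ ⊔ FusionSystem.centralizerIn S S₁ = S₁ ⊔ S₂ := by
    apply le_antisymm
    · rw [hsup]
      exact sup_le hS₁S (centralizerIn_le_left S S₁)
    · exact sup_le_sup_left (le_centralizerIn_of_comm' h₂S hcomm) S₁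
  have hle : S₁ ⊔ FusionSystem.centralizerIn S S₁ ≤ S₁ ⊔ S₂ := le_of_eq hV
  have hψ₂ := restrict_mem F hψ hle
  have hr : ∀ y, (ψ.comp (Subgroup.inclusion hle)) y ∈ S₁ ⊔ FusionSystem.centralizerIn S S₁ := by
    intro y
    have h0 := hom_mem F hψ₂ y
    have hSeq : S = S₁ ⊔ FusionSystem.centralizerIn S S₁ := (hV.trans hsup).symm
    exact (le_of_eq hSeq) h0
  obtain ⟨β, hβ, hβψ⟩ := exists_aut_of_hom_range_le F hψ₂ hr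
  refine ⟨β, hβ, fun x => ?_, fun c hc => ?_⟩
  · rw [hβψ]
    exact hψα x
  · have hcS : (c : Ω) ∈ S₁ ⊔ S₂ := hle c.2
    obtain ⟨s₁, hs₁, s₂, hs₂, hcs⟩ := mem_sup_of_le_normalizer (le_normalizer_of_comm hcomm) hcS
    have hcC := (Subgroup.mem_inf.mp hc).2
    have hs₂C : s₂ ∈ Subgroup.centralizer (S₁ : Set Ω) :=
      Subgroup.mem_centralizer_iff.mpr (fun a ha => hcomm a ha s₂ hs₂)
    have hs₁C : s₁ ∈ Subgroup.centralizer (S₁ : Set Ω) := by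
      have h0 : s₁ = (c : Ω) * s₂⁻¹ := by rw [hcs]; group
      rw [h0]
      exact mul_mem hcC (inv_mem hs₂C)
    have h1 : ((β c : ↥(S₁ ⊔ FusionSystem.centralizerIn S S₁)) : Ω) =
        ((α ⟨s₁, hs₁⟩ : S₁) : Ω) * s₂ := by
      rw [hβψ]
      have h2 : (Subgroup.inclusion hle c) = Subgroup.inclusion le_sup_left (⟨s₁, hs₁⟩ : S₁) *
          Subgroup.inclusion le_sup_right (⟨s₂, hs₂⟩ : S₂) := Subtype.ext hcs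
      show ψ (Subgroup.inclusion hle c) = _
      rw [h2, map_mul, hψα, hψid]
      rfl
    rw [h1, hcs]
    have h3 : ((α ⟨s₁, hs₁⟩ : S₁) : Ω) * s₂ = s₂ * ((α ⟨s₁, hs₁⟩ : S₁) : Ω) :=
      hcomm _ (α ⟨s₁, hs₁⟩).2 s₂ hs₂
    have h4 : (s₁ * s₂)⁻¹ * (((α ⟨s₁, hs₁⟩ : S₁) : Ω) * s₂) =
        s₁⁻¹ * ((α ⟨s₁, hs₁⟩ : S₁) : Ω) := by
      rw [hcomm s₁ hs₁ s₂ hs₂, h3]
      group
    rw [h4]
    have h5 := aut_apply_mem_center α ⟨s₁, hs₁⟩ hs₁C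
    exact mul_mem (inv_mem (Subgroup.mem_inf.mpr ⟨hs₁, hs₁C⟩)) h5

end Cfsg.Agent.Helper8
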