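import Cfsg.Agent.Helper8.FusionDirect2

set_option autoImplicit false

namespace Cfsg.Agent.Helper8

open Cfsg

variable {Ω : Type*} [Group Ω] {S : Subgroup Ω}

theorem centralizer_full_saturated [Finite S] (p : ℕ) [Fact p.Prime] (hS : IsPGroup p S)
    (F : FusionSystem S) (hF : F.IsSaturated p) {S₁ S₂ : Subgroup Ω} (h₁ : F.StronglyClosed S₁)
    (h₂ : F.StronglyClosed S₂) (hcomm : ∀ a ∈ S₁, ∀ b ∈ S₂, a * b = b * a)
    (hsup : S₁ ⊔ S₂ = S) (R' : FusionSystem S₁)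
    (hR' : ∀ P : Subgroup Ω, P ≤ S₁ → R'.Hom P = F.centralizerHom S₂ P) : R'.IsSaturated p := by
  have hS₁S := h₁.1
  have hS₂S := h₂.1
  have hfin : Finite (FusionSystem.centralizerIn S S₂) :=
    finite_of_le_finite (centralizerIn_le_left S S₂)
  have hS' : IsPGroup p (FusionSystem.centralizerIn S S₂) := hS.to_le (centralizerIn_le_left S S₂)
  have hS₂fc : F.IsFullyCentralized S₂ :=
    (fullyNormalized_props p hS F hF (isFullyNormalized_of_stronglyClosed F h₂)).1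
  have Csat := centralizerSystem_saturated p hS F hF S₂ hS₂fc (centralizerSystem F S₂ hS₂S)
    (isCentralizerSystem_centralizerSystem F S₂ hS₂S)
  have h₁' : (centralizerSystem F S₂ hS₂S).StronglyClosed S₁ :=
    ⟨le_centralizerIn_of_comm hS₁S hcomm, fun P hP φ hφ x => h₁.2 P hP φ hφ.1 x⟩
  have hcomm' : ∀ a ∈ S₁, ∀ b ∈ S₂ ⊓ Subgroup.centralizer (S₂ : Set Ω), a * b = b * a :=
    fun a ha b hb => hcomm a ha b (Subgroup.mem_inf.mp hb).1
  have hsup' : FusionSystem.centralizerIn S S₂ ≤ S₁ ⊔ (S₂ ⊓ Subgroup.centralizer (S₂ : Set Ω)) := by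
    intro g hg
    have hgS : g ∈ S₁ ⊔ S₂ := by
      rw [hsup]
      exact (Subgroup.mem_inf.mp hg).1
    have hgC : g ∈ Subgroup.centralizer (S₂ : Set Ω) := (Subgroup.mem_inf.mp hg).2
    obtain ⟨s₁, hs₁, s₂, hs₂, rfl⟩ := mem_sup_of_le_normalizer (le_normalizer_of_comm hcomm) hgS
    have hs₁C : s₁ ∈ Subgroup.centralizer (S₂ : Set Ω) :=
      Subgroup.mem_centralizer_iff.mpr (fun b hb => (hcomm s₁ hs₁ b hb).symm)
    have hs₂C : s₂ ∈ Subgroup.centralizer (S₂ : Set Ω) := by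
      have h0 : s₂ = s₁⁻¹ * (s₁ * s₂) := by group
      rw [h0]
      exact mul_mem (inv_mem hs₁C) hgC
    exact Subgroup.mul_mem_sup hs₁ (Subgroup.mem_inf.mpr ⟨hs₂, hs₂C⟩)
  exact saturated_of_complement p hS' (centralizerSystem F S₂ hS₂S) Csat h₁' hcomm' hsup' R'
    (fun P hP => hR' P hP)

theorem centralizer_full_isNormalIn [Finite S] (p : ℕ) [Fact p.Prime] (hS : IsPGroup p S)
    (F : FusionSystem S) (hF : F.IsSaturated p) {S₁ S₂ : Subgroup Ω} (h₁ : F.StronglyClosed S₁)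
    (h₂ : F.StronglyClosed S₂) (hcomm : ∀ a ∈ S₁, ∀ b ∈ S₂, a * b = b * a)
    (hsup : S₁ ⊔ S₂ = S) (R' : FusionSystem S₁)
    (hR' : ∀ P : Subgroup Ω, P ≤ S₁ → R'.Hom P = F.centralizerHom S₂ P) : R'.IsNormalIn F p := by
  have hsubF : R'.IsSubsystemOf F := by
    intro P φ hφ
    have hP := hom_le R' hφ
    rw [hR' P hP] at hφ
    exact hφ.1
  have hc := conjInv_centralizer p hS F hF h₁ h₂ hcomm R' hR'
  refine ⟨⟨centralizer_full_saturated p hS F hF h₁ h₂ hcomm hsup R' hR', hF, hsubF, h₁, hc,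
    fun P hPT φ hφ => frattini_of_normal_aut p hS F hF h₁ R' hsubF hc
      (fun Q hQ hQn β hβ γ hγ => centralizer_aut_normal p hS F hF h₁ h₂ hcomm R' hR' hQ hQn hβ hγ)
      P hPT hφ⟩,
    fun α hα => centralizer_goodExt F h₁ h₂.1 hcomm hsup R' hR' hα⟩

theorem full_isWeaklyNormalIn [Finite S] (p : ℕ) [Fact p.Prime] (hS : IsPGroup p S)
    (F : FusionSystem S) (hF : F.IsSaturated p) {S₁ S₂ : Subgroup Ω} (h₁ : F.StronglyClosed S₁)
    (hcomm : ∀ a ∈ S₁, ∀ b ∈ S₂, a * b = b * a)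
    (hsup : S₁ ⊔ S₂ = S) (R : FusionSystem S₁)
    (hR : ∀ P : Subgroup Ω, P ≤ S₁ → R.Hom P = F.Hom P) : R.IsWeaklyNormalIn F p := by
  refine ⟨saturated_of_complement p hS F hF h₁ hcomm (le_of_eq hsup.symm) R hR, hF, ?_, h₁, ?_, ?_⟩
  · intro P φ hφ
    have hP := hom_le R hφ
    rw [hR P hP] at hφ
    exact hφ
  · intro P hPT φ hφ α hα
    have hφF : φ ∈ F.Hom P := by
      rw [← hR P hPT]
      exact hφ
    obtain ⟨χ, hχ, hχc⟩ := exists_conj_map F h₁.1 hα hPT hφF (fun x => hom_mem R hφ x)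
    refine ⟨χ, ?_, hχc⟩
    rw [hR _ (img_le α P)]
    exact hχ
  · intro P hPT φ hφ
    refine ⟨1, one_mem _, φ, ?_, fun x hx => rfl⟩
    rw [hR P hPT]
    exact hφ

theorem centralizer_full_isNormalIn_full [Finite S] (p : ℕ) [Fact p.Prime] (hS : IsPGroup p S)
    (F : FusionSystem S) (hF : F.IsSaturated p) {S₁ S₂ : Subgroup Ω} (h₁ : F.StronglyClosed S₁)
    (h₂ : F.StronglyClosed S₂) (hcomm : ∀ a ∈ S₁, ∀ b ∈ S₂, a * b = b * a)
    (hsup : S₁ ⊔ S₂ = S) (R R' : FusionSystem S₁)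
    (hR : ∀ P : Subgroup Ω, P ≤ S₁ → R.Hom P = F.Hom P)
    (hR' : ∀ P : Subgroup Ω, P ≤ S₁ → R'.Hom P = F.centralizerHom S₂ P) : R'.IsNormalIn R p := by
  have hfin : Finite S₁ := finite_of_le_finite h₁.1
  have hN := centralizer_full_isNormalIn p hS F hF h₁ h₂ hcomm hsup R' hR'
  obtain ⟨⟨hR'sat, -, hsubF, -, hc, hfr⟩, -⟩ := hN
  have hRsat := saturated_of_complement p hS F hF h₁ hcomm (le_of_eq hsup.symm) R hR
  have hautle : R.autGroup S₁ ≤ F.autGroup S₁ := by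
    intro α hα
    rw [mem_autGroup_iff F h₁.1]
    have h1 : S₁.subtype.comp α.toMonoidHom ∈ R.Hom S₁ := (mem_autGroup_iff R le_rfl α).mp hα
    rw [hR S₁ le_rfl] at h1
    exact h1
  have hautge : F.autGroup S₁ ≤ R.autGroup S₁ := by
    intro α hα
    rw [mem_autGroup_iff R le_rfl]
    have h1 : S₁.subtype.comp α.toMonoidHom ∈ F.Hom S₁ := (mem_autGroup_iff F h₁.1 α).mp hα
    rw [← hR S₁ le_rfl] at h1
    exact h1
  refine ⟨⟨hR'sat, hRsat, ?_, ⟨le_rfl, fun P hP φ hφ x => hom_mem R hφ x⟩, ?_, ?_⟩, ?_⟩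
  · intro P φ hφ
    have hP := hom_le R' hφ
    rw [hR P hP]
    exact hsubF P hφ
  · intro P hPT φ hφ α hα
    exact hc P hPT φ hφ α (hautle hα)
  · intro P hPT φ hφ
    rw [hR P hPT] at hφ
    obtain ⟨α, hα, φ₀, hφ₀, H⟩ := hfr P hPT φ hφ
    exact ⟨α, hautge hα, φ₀, hφ₀, H⟩
  · intro α hα
    have hle : S₁ ⊔ FusionSystem.centralizerIn S₁ S₁ ≤ S₁ :=
      sup_le le_rfl (centralizerIn_le_left S₁ S₁)
    have hαR : S₁.subtype.comp α.toMonoidHom ∈ R.Hom S₁ :=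
      (mem_autGroup_iff R le_rfl α).mp (by
        rw [mem_autGroup_iff R le_rfl]
        have h1 : S₁.subtype.comp α.toMonoidHom ∈ R'.Hom S₁ := (mem_autGroup_iff R' le_rfl α).mp hα
        show S₁.subtype.comp α.toMonoidHom ∈ R.Hom S₁
        rw [hR S₁ le_rfl]
        exact hsubF S₁ h1)
    have hψ := restrict_mem R hαR hle
    have hr : ∀ y, ((S₁.subtype.comp α.toMonoidHom).comp (Subgroup.inclusion hle)) y ∈
        S₁ ⊔ FusionSystem.centralizerIn S₁ S₁ :=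
      fun y => (le_sup_left : S₁ ≤ S₁ ⊔ FusionSystem.centralizerIn S₁ S₁) (α _).2
    obtain ⟨β, hβ, hβψ⟩ := exists_aut_of_hom_range_le R hψ hr
    refine ⟨β, hβ, fun x => ?_, fun c hc => ?_⟩
    · rw [hβψ]
      show ((α (Subgroup.inclusion hle (Subgroup.inclusion le_sup_left x)) : S₁) : Ω) = _
      congr 2
    · rw [hβψ]
      have hc1 : (c : Ω) ∈ S₁ := (Subgroup.mem_inf.mp hc).1
      have hc2 : (c : Ω) ∈ Subgroup.centralizer (S₁ : Set Ω) := (Subgroup.mem_inf.mp hc).2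
      have h5 := aut_apply_mem_center α ⟨(c : Ω), hc1⟩ hc2
      exact mul_mem (inv_mem (Subgroup.mem_inf.mpr ⟨hc1, hc2⟩)) h5

end Cfsg.Agent.Helper8
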