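import Cfsg.Agent.Helper8.FusionInv2

set_option autoImplicit false

namespace Cfsg.Agent.Helper8

open Cfsg

variable {Ω : Type*} [Group Ω] {S T : Subgroup Ω}

theorem img_mul (α β : MulAut T) (P : Subgroup Ω) : img (β * α) P = img β (img α P) := by
  ext y
  constructor
  · rintro ⟨x, hx, rfl⟩
    exact ⟨α x, ⟨x, hx, rfl⟩, rfl⟩
  · rintro ⟨z, ⟨x, hx, hxz⟩, rfl⟩
    refine ⟨x, hx, ?_⟩
    have h1 : α x = z := Subtype.ext hxz
    show ((β (α x) : T) : Ω) = _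
    rw [h1]
    rfl

/-- The subsystem of `E` of the maps all of whose conjugates under `Aut_F(T)` lie in `E`. -/
def invSystem (F : FusionSystem S) (E : FusionSystem T) : FusionSystem T where
  Hom P := {φ | φ ∈ E.Hom P ∧ ∀ (hPT : P ≤ T), ∀ α ∈ F.autGroup T,
    ∃ χ ∈ E.Hom (img α P), IsConjOf α hPT φ χ}
  le_of_mem := fun h => E.le_of_mem h.1
  injective_of_mem := fun h => E.injective_of_mem h.1
  conj_mem := by
    intro P g hP hg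
    refine ⟨E.conj_mem hP hg, fun hPT α hα => ⟨conjHom (img α P) (α ⟨g, hg⟩),
      E.conj_mem (img_le α P) (α ⟨g, hg⟩).2, ?_⟩⟩
    intro x hφx hαx
    show ((α ⟨g, hg⟩ : T) : Ω) * ((α ⟨x, hPT x.2⟩ : T) : Ω) * ((α ⟨g, hg⟩ : T) : Ω)⁻¹ =
      ((α ⟨conjHom P g x, hφx⟩ : T) : Ω)
    have h1 : (⟨conjHom P g x, hφx⟩ : T) = ⟨g, hg⟩ * ⟨x, hPT x.2⟩ * ⟨g, hg⟩⁻¹ := Subtype.ext rfl
    rw [h1, map_mul, map_mul, map_inv]
    rfl
  comp_mem := by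
    rintro P Q φ ψ ⟨hφ, hφc⟩ ⟨hψ, hψc⟩ h
    refine ⟨E.comp_mem hφ hψ h, fun hPT α hα => ?_⟩
    have hQT := hom_le E hψ
    obtain ⟨χ₁, hχ₁, hc₁⟩ := hφc hPT α hα
    obtain ⟨χ₂, hχ₂, hc₂⟩ := hψc hQT α hα
    have h' : ∀ y : img α P, χ₁ y ∈ img α Q := by
      intro y
      obtain ⟨x, hx, hxy⟩ := y.2
      have h1 := hc₁ ⟨x, hx⟩ (hom_mem E hφ _) ⟨x, hx, rfl⟩
      have h2 : y = ⟨((α x : T) : Ω), ⟨x, hx, rfl⟩⟩ := Subtype.ext hxy.symm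
      have h3 : χ₁ y = ((α ⟨φ ⟨x, hx⟩, hom_mem E hφ _⟩ : T) : Ω) := by
        rw [h2]
        exact h1
      rw [h3]
      exact ⟨⟨φ ⟨x, hx⟩, hom_mem E hφ _⟩, h ⟨x, hx⟩, rfl⟩
    refine ⟨χ₂.comp (χ₁.codRestrict _ h'), E.comp_mem hχ₁ hχ₂ h', ?_⟩
    intro x hφx hαx
    have e1 := hc₁ x (hom_mem E hφ x) hαx
    have e2 := hc₂ ⟨φ x, h x⟩ hφx (apply_mem_img α hQT ⟨φ x, h x⟩)
    show χ₂ ⟨χ₁ ⟨(α ⟨x, hPT x.2⟩ : T), hαx⟩, h' _⟩ = ((α ⟨ψ ⟨φ x, h x⟩, hφx⟩ : T) : Ω)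
    rw [← e2]
    congr 1
    exact Subtype.ext e1
  inv_mem := by
    rintro P φ ⟨hφ, hφc⟩
    obtain ⟨ψ, hψ, hinv⟩ := E.inv_mem hφ
    refine ⟨ψ, ⟨hψ, fun hRT α hα => ?_⟩, hinv⟩
    have hPT := hom_le E hφ
    obtain ⟨χ, hχ, hc⟩ := hφc hPT α hα
    obtain ⟨χ', hχ', hinv'⟩ := E.inv_mem hχ
    have hle : img α φ.range ≤ χ.range := by
      rintro _ ⟨y, ⟨x, hx⟩, rfl⟩
      refine ⟨⟨α ⟨x, hPT x.2⟩, apply_mem_img α hPT x⟩, ?_⟩
      rw [hc x (hom_mem E hφ x) _]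
      show ((α ⟨φ x, hom_mem E hφ x⟩ : T) : Ω) = ((α y : T) : Ω)
      congr 2
      exact Subtype.ext hx
    refine ⟨χ'.comp (Subgroup.inclusion hle), restrict_mem E hχ' hle, ?_⟩
    rintro ⟨_, x, rfl⟩ hψy hαy
    have e1 := hc x (hom_mem E hφ x) (apply_mem_img α hPT x)
    have e2 := hinv' ⟨α ⟨x, hPT x.2⟩, apply_mem_img α hPT x⟩
    have e3 := hinv x
    have e4 : ((α ⟨ψ ⟨φ x, ⟨x, rfl⟩⟩, hψy⟩ : T) : Ω) = ((α ⟨(x : Ω), hPT x.2⟩ : T) : Ω) := by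
      congr 2
      exact Subtype.ext e3
    rw [e4, ← e2]
    show χ' _ = χ' _
    congr 1
    exact Subtype.ext e1.symm

theorem invSystem_le (F : FusionSystem S) (E : FusionSystem T) (P : Subgroup Ω) :
    (invSystem F E).Hom P ⊆ E.Hom P := fun _ h => h.1

theorem conjInv_invSystem (F : FusionSystem S) (E : FusionSystem T) :
    ConjInv F (invSystem F E) := by
  intro P hPT φ hφ α hα
  obtain ⟨χ, hχ, hc⟩ := hφ.2 hPT α hα
  refine ⟨χ, ⟨hχ, fun hPT' β hβ => ?_⟩, hc⟩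
  obtain ⟨χ', hχ', hc'⟩ := hφ.2 hPT (β * α) (mul_mem hβ hα)
  have hle : img β (img α P) ≤ img (β * α) P := le_of_eq (img_mul α β P).symm
  refine ⟨χ'.comp (Subgroup.inclusion hle), restrict_mem E hχ' hle, ?_⟩
  intro y hχy hβy
  obtain ⟨x, hx, hxy⟩ := y.2
  have e1 := hc ⟨x, hx⟩ (hom_mem E hφ.1 _) ⟨x, hx, rfl⟩
  have e2 := hc' ⟨x, hx⟩ (hom_mem E hφ.1 _) ⟨x, hx, rfl⟩
  have hy : y = ⟨((α x : T) : Ω), ⟨x, hx, rfl⟩⟩ := Subtype.ext hxy.symm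
  have e1' : χ y = ((α ⟨φ ⟨x, hx⟩, hom_mem E hφ.1 _⟩ : T) : Ω) := by
    rw [hy]
    exact e1
  have e3 : ((β ⟨χ y, hχy⟩ : T) : Ω) =
      (((β * α) ⟨φ ⟨x, hx⟩, hom_mem E hφ.1 _⟩ : T) : Ω) := by
    rw [MulAut.mul_apply]
    congr 2
    exact Subtype.ext e1'
  rw [e3, ← e2]
  show χ' _ = χ' _
  congr 1
  apply Subtype.ext
  show ((β ⟨(y : Ω), hPT' y.2⟩ : T) : Ω) = (((β * α) x : T) : Ω)
  rw [MulAut.mul_apply]
  congr 2
  exact Subtype.ext hxy.symm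

/-- The isomorphism `P ≃ α(P)` given by an automorphism `α` of `T`. -/
noncomputable def imgEquiv (α : MulAut T) {P : Subgroup Ω} (hPT : P ≤ T) : P ≃* img α P :=
  equivOfRange ((T.subtype.comp α.toMonoidHom).comp (Subgroup.inclusion hPT))
    (fun x y hxy => by
      have h1 : α (Subgroup.inclusion hPT x) = α (Subgroup.inclusion hPT y) := Subtype.ext hxy
      exact Subgroup.inclusion_injective hPT (α.injective h1))
    (by
      ext y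
      constructor
      · rintro ⟨x, rfl⟩
        exact apply_mem_img α hPT x
      · rintro ⟨x, hx, rfl⟩
        exact ⟨⟨x, hx⟩, rfl⟩)

theorem imgEquiv_apply (α : MulAut T) {P : Subgroup Ω} (hPT : P ≤ T) (x : P) :
    ((imgEquiv α hPT x : img α P) : Ω) = ((α ⟨x, hPT x.2⟩ : T) : Ω) := rfl

theorem isIso_imgEquiv (F : FusionSystem S) (hTS : T ≤ S) {α : MulAut T} (hα : α ∈ F.autGroup T)
    {P : Subgroup Ω} (hPT : P ≤ T) : IsIso F (imgEquiv α hPT) := by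
  have h1 : IsIso F α := (mem_autGroup_iff F hTS α).mp hα
  exact (isIso_iff F _ (fun _ => rfl)).mpr (restrict_mem F h1 hPT)

theorem isConjOf_congr (α : MulAut T) {P : Subgroup Ω} (hPT : P ≤ T) (γ : MulAut P) :
    IsConjOf α hPT (P.subtype.comp γ.toMonoidHom)
      ((img α P).subtype.comp (MulAut.congr (imgEquiv α hPT) γ).toMonoidHom) := by
  intro x hφx hαx
  have h1 : (⟨(α ⟨x, hPT x.2⟩ : T), hαx⟩ : img α P) = imgEquiv α hPT x := Subtype.ext rfl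
  show (((imgEquiv α hPT) (γ ((imgEquiv α hPT).symm ⟨(α ⟨x, hPT x.2⟩ : T), hαx⟩)) : img α P) : Ω)
    = _
  rw [h1, MulEquiv.symm_apply_apply]
  rfl

/-- Criterion for an automorphism to lie in the invariant subsystem. -/
theorem aut_mem_invSystem (F : FusionSystem S) (E : FusionSystem T) {P : Subgroup Ω}
    (hPT : P ≤ T) {γ : MulAut P} (hγ : γ ∈ E.autGroup P)
    (h : ∀ α ∈ F.autGroup T, MulAut.congr (imgEquiv α hPT) γ ∈ E.autGroup (img α P)) :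
    γ ∈ (invSystem F E).autGroup P := by
  rw [mem_autGroup_iff (invSystem F E) hPT]
  refine ⟨(mem_autGroup_iff E hPT γ).mp hγ, fun hPT' α hα => ?_⟩
  exact ⟨_, (mem_autGroup_iff E (img_le α P) _).mp (h α hα), isConjOf_congr α hPT γ⟩

end Cfsg.Agent.Helper8
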