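import Cfsg.Agent.Helper8.FusionInv3

set_option autoImplicit false

namespace Cfsg.Agent.Helper8

open Cfsg

variable {Ω : Type*} [Group Ω] {S T : Subgroup Ω}

theorem autGroup_le_of_isSubsystemOf {F : FusionSystem S} {E : FusionSystem T}
    (hE : E.IsSubsystemOf F) (hTS : T ≤ S) {Q : Subgroup Ω} (hQT : Q ≤ T) :
    E.autGroup Q ≤ F.autGroup Q := by
  intro γ hγ
  rw [mem_autGroup_iff F (hQT.trans hTS)]
  exact hE Q ((mem_autGroup_iff E hQT γ).mp hγ)

theorem autGroup_le_frattiniSystem (F : FusionSystem S) (E : FusionSystem T) (hc : ConjInv F E)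
    {Q : Subgroup Ω} (hQT : Q ≤ T) : E.autGroup Q ≤ (frattiniSystem F E hc).autGroup Q := by
  intro κ hκ
  rw [mem_autGroup_iff _ hQT]
  exact ⟨1, one_mem _, Q.subtype.comp κ.toMonoidHom, (mem_autGroup_iff E hQT κ).mp hκ,
    fun x hx => rfl⟩

theorem autGroup_top_le_frattiniSystem (F : FusionSystem S) (E : FusionSystem T)
    (hc : ConjInv F E) : F.autGroup T ≤ (frattiniSystem F E hc).autGroup T := by
  intro β hβ
  rw [mem_autGroup_iff _ le_rfl]
  exact ⟨β, hβ, T.subtype, subtype_mem E le_rfl, fun x hx => rfl⟩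

/-- If `Aut_E(Q)` is normal in `Aut_F(Q)` for all `Q ≤ T` and `E` is stable under `Aut_F(T)`, then
every map of `F` between subgroups of `T` is an element of `Aut_F(T)` composed with a map of
`E`. -/
theorem frattini_of_normal_aut [Finite S] (p : ℕ) [Fact p.Prime] (hS : IsPGroup p S)
    (F : FusionSystem S) (hF : F.IsSaturated p) (hT : F.StronglyClosed T) (E : FusionSystem T)
    (hE : E.IsSubsystemOf F) (hc : ConjInv F E)
    (hn : ∀ Q : Subgroup Ω, Q ≤ T → F.IsFullyNormalized Q → ∀ β ∈ F.autGroup Q,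
      ∀ γ ∈ E.autGroup Q, β * γ * β⁻¹ ∈ E.autGroup Q) :
    ∀ P : Subgroup Ω, P ≤ T → F.Hom P ⊆ (frattiniSystem F E hc).Hom P := by
  have hTS := hT.1
  have hfT : Finite T := finite_of_le_finite hTS
  have hTp : IsPGroup p T := hS.to_le hTS
  apply relAlperin p hS F hF hT
  intro Q hQT hQn IH β hβ
  by_cases hQeq : Q = T
  · subst hQeq
    exact autGroup_top_le_frattiniSystem F E hc hβ
  · have hQlt : Q < T := lt_of_le_of_ne hQT hQeq
    have hQS := hQT.trans hTS
    have props := fullyNormalized_props p hS F hF hQn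
    have hrec := receptive_of_fullyCentralized p hS F hF props.1
    have : Finite Q := finite_of_le_finite hQS
    have : Finite (MulAut Q) := MulEquiv.finite_left
    obtain ⟨κ, hκ, ν, hν, rfl, hνX⟩ := frattini_decomp (A := F.autGroup Q)
      (R := autInducedBy S Q) (K := E.autGroup Q) props.2.2 (isPGroup_autInducedBy hS Q)
      (autGroup_le_of_isSubsystemOf hE hTS hQT) (hn Q hQT hQn) hβ
    refine mul_mem (autGroup_le_frattiniSystem F E hc hQT hκ) ?_
    have hQN : Q ≤ FusionSystem.normalizerIn T Q := le_normalizerIn hQT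
    have hN : FusionSystem.normalizerIn T Q ≤
        FusionSystem.extender S Q (Q.subtype.comp ν.toMonoidHom) := by
      rintro g ⟨hgT, hgN⟩
      refine mem_extender_of_conj_mem S ν (hTS hgT) hgN ?_
      have h1 : conjAut Q g hgN ∈ autInducedBy S Q ⊓ E.autGroup Q :=
        ⟨conjAut_mem_autInducedBy Q (hTS hgT) hgN,
          autInducedBy_le_autGroup E hQT (conjAut_mem_autInducedBy Q hgT hgN)⟩
      exact (hνX _ h1).1
    obtain ⟨ψ, hψ, hext⟩ := exists_extension_of_receptive F hrec hν hQN hN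
    have hψD := IH _ (normalizerIn_le_left T Q) (lt_normalizerIn hTp hQlt) hψ
    rw [mem_autGroup_iff _ hQT]
    exact restrict_mem' _ hψD hQN (χ := Q.subtype.comp ν.toMonoidHom) (fun x => (hext x).symm)

end Cfsg.Agent.Helper8
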