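import Cfsg.Agent.Helper8.GroupHyperfocal
import Cfsg.Agent.Helper8.FusionAlperin2

set_option autoImplicit false

namespace Cfsg.Agent.Helper8

open Cfsg

/-- A saturated subsystem `E₁` of `F` over `T` is contained in any system `E₂` over `T` whose
automorphism groups contain all the `O^p(Aut_F(P))`. -/
theorem pPowerIndex_le {Ω : Type*} [Group Ω] {S T : Subgroup Ω} [Finite T] (p : ℕ) [Fact p.Prime]
    (hT : IsPGroup p T) (F : FusionSystem S) (E₁ E₂ : FusionSystem T) (hE₁ : E₁.IsSaturated p)
    (h₁ : E₁.IsSubsystemOf F)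
    (h₂ : ∀ P : Subgroup Ω, P ≤ T →
      (pResidual p (F.autGroup P)).map (F.autGroup P).subtype ≤ E₂.autGroup P) :
    ∀ P : Subgroup Ω, E₁.Hom P ⊆ E₂.Hom P := by
  apply alperin p hT E₁ hE₁ E₂
  intro R hR α hα
  have hRn : E₁.IsFullyNormalized R := by
    rcases hR with rfl | hess
    · exact isFullyNormalized_top E₁
    · exact hess.2.1
  have hRT := hRn.1
  have props := fullyNormalized_props p hT E₁ hE₁ hRn
  obtain ⟨b, hb, g, hg, hbg⟩ := exists_pResidual_mul_induced p E₁ props.2 hα
  have hle : E₁.autGroup R ≤ F.autGroup R := Subgroup.closure_mono (fun β hβ => h₁ R hβ)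
  have hb2 : (b : MulAut R) ∈ E₂.autGroup R :=
    h₂ R hRT ⟨Subgroup.inclusion hle b,
      map_mem_pResidual p (Subgroup.inclusion hle) (Subgroup.inclusion_injective hle) hb, rfl⟩
  have hc : (b : MulAut R)⁻¹ * α ∈ autInducedBy T R := by
    rw [mem_autInducedBy_iff]
    refine ⟨g, hg, fun x => ?_⟩
    obtain ⟨y, hy, hαx⟩ := hbg x
    rw [MulAut.mul_apply, hαx, MulAut.inv_apply_self]
    exact hy
  have h3 : α = (b : MulAut R) * ((b : MulAut R)⁻¹ * α) := by group
  rw [h3]
  exact mul_mem hb2 (autInducedBy_le_autGroup E₂ hRT hc)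

variable {G : Type*} [Group G]

/-- The `p`-residual subsystem of the fusion system of `G` is the fusion system of `O^p(G)`. -/
theorem pResidual_system_eq [Finite G] (p : ℕ) [Fact p.Prime] (S : Sylow p G) (T : Subgroup G)
    (hT : T = (S : Subgroup G) ⊓ pResidual p G) (E : FusionSystem T) (hsat : E.IsSaturated p)
    (hsub : E.IsSubsystemOf (groupFusionSystem (S : Subgroup G)))
    (hidx : ∀ P : Subgroup G, P ≤ T →
      (pResidual p ((groupFusionSystem (S : Subgroup G)).autGroup P)).map
        ((groupFusionSystem (S : Subgroup G)).autGroup P).subtype ≤ E.autGroup P) :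
    ∀ P : Subgroup G, E.Hom P = (fusionSystemOfSubgroup (pResidual p G)
      ((S : Subgroup G) ⊓ pResidual p G) inf_le_right).Hom P := by
  subst hT
  have := pResidual_normal p G
  obtain ⟨R, hR⟩ := Cfsg.Agent.Helper5.exists_sylow_map_eq_inf S (pResidual p G)
  have hTp : IsPGroup p ↥((S : Subgroup G) ⊓ pResidual p G) := S.isPGroup'.to_le inf_le_left
  have hsat' := fusionSystemOfSubgroup_saturated p (pResidual p G)
    ((S : Subgroup G) ⊓ pResidual p G) inf_le_right R hR
  have hsub' : (fusionSystemOfSubgroup (pResidual p G)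
      ((S : Subgroup G) ⊓ pResidual p G) inf_le_right).IsSubsystemOf
        (groupFusionSystem (S : Subgroup G)) := by
    rintro P φ ⟨hP, hφT, g, -, h⟩
    exact ⟨hP.trans inf_le_left, fun x => (hφT x).1, g, h⟩
  intro P
  apply Set.Subset.antisymm
  · apply pPowerIndex_le p hTp (groupFusionSystem (S : Subgroup G)) E _ hsat hsub
    rintro Q hQ _ ⟨α, hα, rfl⟩
    obtain ⟨g, hg, h⟩ := exists_conj_of_mem_pResidual_autGroup p (hQ.trans inf_le_left) α hα
    rw [mem_autGroup_iff _ hQ]
    exact ⟨hQ, fun x => hQ ((α : MulAut Q) x).2, g, hg, fun x => h x⟩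
  · exact pPowerIndex_le p hTp (groupFusionSystem (S : Subgroup G)) _ E hsat' hsub' hidx P

end Cfsg.Agent.Helper8
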