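import Cfsg.Agent.Helper8.FusionInv4
import Cfsg.Agent.Helper8.GroupHyperfocal2
import Cfsg.Agent.Helper8.FusionCong
import Cfsg.Agent.Helper8.FusionTate
import Cfsg.Agent.Helper8.FusionNonCentric

set_option autoImplicit false

namespace Cfsg.Agent.Helper8

open Cfsg

variable {Ω : Type*} [Group Ω] {S T : Subgroup Ω}

/-- A subgroup normal in `S` containing the hyperfocal subgroup is strongly closed. -/
theorem stronglyClosed_of_hyperfocal_le [Finite S] (p : ℕ) [Fact p.Prime] (hS : IsPGroup p S)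
    (F : FusionSystem S) (hF : F.IsSaturated p) (hTS : T ≤ S)
    (hTn : ∀ g ∈ S, ∀ x ∈ T, g * x * g⁻¹ ∈ T) (hT : F.hyperfocalSubgroup p ≤ T) :
    F.StronglyClosed T := by
  apply stronglyClosed_of_autGroup_stable p hS F hF _ hTS hTn
  intro R hR α hα x hx
  have hRn : F.IsFullyNormalized R := by
    rcases hR with rfl | hess
    · exact isFullyNormalized_top F
    · exact hess.2.1
  have hRS := hRn.1
  have props := fullyNormalized_props p hS F hF hRn
  obtain ⟨b, hb, g, hg, hbg⟩ := exists_pResidual_mul_induced p F props.2 hα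
  obtain ⟨y, hy, hαx⟩ := hbg x
  rw [hαx]
  have h1 : (y : Ω) ∈ T := by
    rw [hy]
    exact hTn g hg x hx
  have h2 : (y : Ω)⁻¹ * (((b : MulAut R) y : R) : Ω) ∈ T := by
    apply hT
    apply Subgroup.subset_closure
    exact ⟨R, b, y, hRS, hb, rfl⟩
  have h3 := Subgroup.mul_mem _ h1 h2
  have h4 : (y : Ω) * ((y : Ω)⁻¹ * (((b : MulAut R) y : R) : Ω)) = (((b : MulAut R) y : R) : Ω) := by
    group
  rw [h4] at h3
  exact h3

/-- A saturated subsystem of `p`-power index is stable under `Aut_F(T)`. -/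
theorem conjInv_of_pPowerIndex [Finite S] (p : ℕ) [Fact p.Prime] (hS : IsPGroup p S)
    (F : FusionSystem S) (hTS : T ≤ S) (E : FusionSystem T) (hEs : E.IsSaturated p)
    (hEi : E.HasPPowerIndexIn F p) : ConjInv F E := by
  have hfT : Finite T := finite_of_le_finite hTS
  have hTp : IsPGroup p T := hS.to_le hTS
  have hle : ∀ P : Subgroup Ω, E.Hom P ⊆ (invSystem F E).Hom P := by
    apply pPowerIndex_le p hTp F E (invSystem F E) hEs hEi.1
    rintro P hPT _ ⟨b, hb, rfl⟩
    refine aut_mem_invSystem F E hPT (hEi.2.2 P hPT ⟨b, hb, rfl⟩) (fun α hα => ?_)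
    have he := isIso_imgEquiv F hTS hα hPT
    have h1 := map_mem_pResidual p (autGroupMap F _ he) (autGroupMap_injective F _ he) hb
    exact hEi.2.2 (img α P) (img_le α P) ⟨autGroupMap F _ he b, h1, rfl⟩
  intro P hPT φ hφ α hα
  exact (hle P hφ).2 hPT α hα

/-- The Frattini condition for a subsystem of `p`-power index on a normal subgroup of `S`. -/
theorem frattini_of_pPowerIndex [Finite S] (p : ℕ) [Fact p.Prime] (hS : IsPGroup p S)
    (F : FusionSystem S) (hF : F.IsSaturated p) (hT : F.StronglyClosed T)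
    (E : FusionSystem T) (hEi : E.HasPPowerIndexIn F p) (hc : ConjInv F E) :
    ∀ P : Subgroup Ω, P ≤ T → F.Hom P ⊆ (frattiniSystem F E hc).Hom P := by
  have hTS := hT.1
  have hSN : S ≤ Subgroup.normalizer (T : Set Ω) := stronglyClosed_le_normalizer F hT
  apply relAlperin p hS F hF hT
  intro Q hQT hQn IH β hβ
  have hQS := hQT.trans hTS
  have props := fullyNormalized_props p hS F hF hQn
  have : Finite Q := finite_of_le_finite hQS
  have : Finite (MulAut Q) := MulEquiv.finite_left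
  obtain ⟨R', hR'⟩ := props.2.2
  obtain ⟨b, hb, c, hc', hβbc⟩ := exists_mul_of_sylow R' (⟨β, hβ⟩ : F.autGroup Q)
  have hc'' : (c : MulAut Q) ∈ autInducedBy S Q := by
    have h1 : c ∈ (R' : Subgroup (F.autGroup Q)) := hc'
    rw [hR', Subgroup.mem_subgroupOf] at h1
    exact h1
  obtain ⟨g, hg, hgc⟩ := (mem_autInducedBy_iff S Q _).mp hc''
  have hβeq : β = (b : MulAut Q) * (c : MulAut Q) := congrArg Subtype.val hβbc
  rw [hβeq]
  refine mul_mem (autGroup_le_frattiniSystem F E hc hQT (hEi.2.2 Q hQT ⟨b, hb, rfl⟩)) ?_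
  rw [mem_autGroup_iff _ hQT]
  refine ⟨conjAut T g (hSN hg), autInducedBy_le_autGroup F hTS (conjAut_mem_autInducedBy T hg _),
    Q.subtype, subtype_mem E hQT, fun x hx => ?_⟩
  exact hgc x

/-- `α ∈ Aut(T)` has an extension to `T C_S(T)` in `F` with `[C_S(T), β] ≤ Z(T)`. -/
def GoodExt (F : FusionSystem S) (T : Subgroup Ω) (α : MulAut T) : Prop :=
  ∃ β ∈ F.autGroup (T ⊔ FusionSystem.centralizerIn S T),
    (∀ x : T, ((β (Subgroup.inclusion le_sup_left x) : ↥(T ⊔ FusionSystem.centralizerIn S T)) : Ω)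
      = ((α x : T) : Ω)) ∧
    ∀ c : ↥(T ⊔ FusionSystem.centralizerIn S T), (c : Ω) ∈ FusionSystem.centralizerIn S T →
      (c : Ω)⁻¹ * ((β c : ↥(T ⊔ FusionSystem.centralizerIn S T)) : Ω) ∈
        T ⊓ Subgroup.centralizer (T : Set Ω)

theorem goodExt_one (F : FusionSystem S) (T : Subgroup Ω) : GoodExt F T 1 := by
  refine ⟨1, one_mem _, fun x => rfl, fun c hc => ?_⟩
  show (c : Ω)⁻¹ * (c : Ω) ∈ _
  rw [inv_mul_cancel]
  exact one_mem _

theorem aut_apply_mem_center (α : MulAut T) (z : T)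
    (hz : (z : Ω) ∈ Subgroup.centralizer (T : Set Ω)) :
    ((α z : T) : Ω) ∈ T ⊓ Subgroup.centralizer (T : Set Ω) := by
  refine Subgroup.mem_inf.mpr ⟨(α z).2, ?_⟩
  rw [Subgroup.mem_centralizer_iff]
  intro t ht
  have h2 : α⁻¹ ⟨t, ht⟩ * z = z * α⁻¹ ⟨t, ht⟩ :=
    Subtype.ext (Subgroup.mem_centralizer_iff.mp hz _ (α⁻¹ ⟨t, ht⟩).2)
  have h3 := congrArg (fun y => ((α y : T) : Ω)) h2
  simp only [map_mul, Subgroup.coe_mul] at h3
  rw [MulAut.apply_inv_self] at h3
  exact h3

theorem goodExt_mul (F : FusionSystem S) (T : Subgroup Ω) {α₁ α₂ : MulAut T}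
    (h₁ : GoodExt F T α₁) (h₂ : GoodExt F T α₂) : GoodExt F T (α₁ * α₂) := by
  obtain ⟨β₁, hβ₁, he₁, hc₁⟩ := h₁
  obtain ⟨β₂, hβ₂, he₂, hc₂⟩ := h₂
  refine ⟨β₁ * β₂, mul_mem hβ₁ hβ₂, fun x => ?_, fun c hc => ?_⟩
  · have h1 : β₂ (Subgroup.inclusion le_sup_left x) = Subgroup.inclusion le_sup_left (α₂ x) :=
      Subtype.ext (he₂ x)
    rw [MulAut.mul_apply, h1, he₁, MulAut.mul_apply]
  · have hz₂ := Subgroup.mem_inf.mp (hc₂ c hc)
    obtain ⟨z, hz1, hz2⟩ : ∃ z : T, β₂ c = c * Subgroup.inclusion le_sup_left z ∧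
        (z : Ω) ∈ Subgroup.centralizer (T : Set Ω) := by
      refine ⟨⟨(c : Ω)⁻¹ * ((β₂ c : ↥(T ⊔ FusionSystem.centralizerIn S T)) : Ω), hz₂.1⟩, ?_,
        hz₂.2⟩
      apply Subtype.ext
      show _ = (c : Ω) * ((c : Ω)⁻¹ * _)
      rw [mul_inv_cancel_left]
    have h2 : (c : Ω)⁻¹ * (((β₁ * β₂) c : ↥(T ⊔ FusionSystem.centralizerIn S T)) : Ω) =
        ((c : Ω)⁻¹ * ((β₁ c : ↥(T ⊔ FusionSystem.centralizerIn S T)) : Ω)) *
          ((α₁ z : T) : Ω) := by
      rw [MulAut.mul_apply, hz1, map_mul, Subgroup.coe_mul, he₁, mul_assoc]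
    rw [h2]
    exact mul_mem (hc₁ c hc) (aut_apply_mem_center α₁ _ hz2)

theorem goodExt_inv [Finite S] (F : FusionSystem S) (T : Subgroup Ω) (hTS : T ≤ S)
    {α : MulAut T} (h : GoodExt F T α) : GoodExt F T α⁻¹ := by
  have : Finite T := finite_of_le_finite hTS
  have : Finite (MulAut T) := MulEquiv.finite_left
  have hpow : ∀ k : ℕ, GoodExt F T (α ^ k) := by
    intro k
    induction k with
    | zero =>
      rw [pow_zero]
      exact goodExt_one F T
    | succ k ih =>
      rw [pow_succ]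
      exact goodExt_mul F T ih h
  have h0 : α ^ (orderOf α - 1) * α = 1 := by
    rw [← pow_succ, Nat.sub_add_cancel (orderOf_pos α), pow_orderOf_eq_one]
  rw [← eq_inv_of_mul_eq_one_left h0]
  exact hpow _

theorem goodExt_conj (F : FusionSystem S) (T : Subgroup Ω) (hTS : T ≤ S) {α : MulAut T} {t : Ω}
    (ht : t ∈ T) (hα : ∀ x : T, ((α x : T) : Ω) = t * x * t⁻¹) : GoodExt F T α := by
  have hU : T ⊔ FusionSystem.centralizerIn S T ≤ S := sup_le hTS (centralizerIn_le_left S T)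
  have htU : t ∈ T ⊔ FusionSystem.centralizerIn S T :=
    (le_sup_left : T ≤ T ⊔ FusionSystem.centralizerIn S T) ht
  have htN : t ∈ Subgroup.normalizer ((T ⊔ FusionSystem.centralizerIn S T : Subgroup Ω) : Set Ω) :=
    Subgroup.le_normalizer htU
  refine ⟨conjAut _ t htN, autInducedBy_le_autGroup F hU (conjAut_mem_autInducedBy _ (hTS ht) htN),
    fun x => (hα x).symm, fun c hc => ?_⟩
  show (c : Ω)⁻¹ * (t * c * t⁻¹) ∈ _
  have h1 : t * (c : Ω) = c * t := Subgroup.mem_centralizer_iff.mp hc.2 t ht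
  rw [h1, mul_inv_cancel_right, inv_mul_cancel]
  exact one_mem _

theorem pow_extend {P R : Subgroup Ω} (hPR : P ≤ R) (α : MulAut P) (β : MulAut R)
    (h : ∀ x : P, ((β (Subgroup.inclusion hPR x) : R) : Ω) = ((α x : P) : Ω)) (m : ℕ) (x : P) :
    (((β ^ m) (Subgroup.inclusion hPR x) : R) : Ω) = (((α ^ m) x : P) : Ω) := by
  induction m generalizing x with
  | zero => rfl
  | succ m ih =>
    rw [pow_succ, pow_succ, MulAut.mul_apply, MulAut.mul_apply]
    have h1 : β (Subgroup.inclusion hPR x) = Subgroup.inclusion hPR (α x) := Subtype.ext (h x)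
    rw [h1]
    exact ih (α x)

/-- Elements of `Aut_F(T)` of order prime to `p` have good extensions when `T` contains the
hyperfocal subgroup. -/
theorem goodExt_of_coprime [Finite S] (p : ℕ) [Fact p.Prime] (hS : IsPGroup p S)
    (F : FusionSystem S) (hF : F.IsSaturated p) {T : Subgroup Ω} (hT : F.StronglyClosed T)
    (hhyp : F.hyperfocalSubgroup p ≤ T) {α : MulAut T} (hα : α ∈ F.autGroup T)
    (hord : Nat.Coprime (orderOf α) p) : GoodExt F T α := by
  have hTS := hT.1
  have hTn := isFullyNormalized_of_stronglyClosed F hT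
  have props := fullyNormalized_props p hS F hF hTn
  have hrec := receptive_of_fullyCentralized p hS F hF props.1
  have hUsc := stronglyClosed_sup_centralizerIn p hS F hF hT
  have hUS := hUsc.1
  have hle : T ⊔ FusionSystem.centralizerIn S T ≤
      FusionSystem.extender S T (T.subtype.comp α.toMonoidHom) :=
    sup_le (le_extender S T _ hTS (fun x => hTS (α x).2)) (centralizerIn_le_extender S T _)
  obtain ⟨ψ, hψ, hext⟩ := exists_extension_of_receptive F hrec hα le_sup_left hle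
  obtain ⟨β₀, hβ₀, hβ₀ψ⟩ := exists_aut_of_hom_range_le F hψ (fun y => hUsc.2 _ le_rfl ψ hψ y)
  have hβ₀α : ∀ x : T, ((β₀ (Subgroup.inclusion le_sup_left x) :
      ↥(T ⊔ FusionSystem.centralizerIn S T)) : Ω) = ((α x : T) : Ω) := fun x => by
    rw [hβ₀ψ, hext]
  have : Finite ↥(T ⊔ FusionSystem.centralizerIn S T) := finite_of_le_finite hUS
  have : Finite (MulAut ↥(T ⊔ FusionSystem.centralizerIn S T)) := MulEquiv.finite_left
  have : Finite T := finite_of_le_finite hTS
  have : Finite (MulAut T) := MulEquiv.finite_left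
  obtain ⟨a, n', hn', hN⟩ := Nat.exists_eq_pow_mul_and_not_dvd (orderOf_pos β₀).ne' p
    (Fact.out : p.Prime).ne_one
  have hco : Nat.Coprime (orderOf α) (p ^ a) := Nat.Coprime.pow_right a hord
  obtain ⟨e, he1, he2⟩ := Nat.chineseRemainder hco 1 0
  have hαe : α ^ e = α := by
    have h1 := (pow_eq_pow_iff_modEq (x := α)).mpr he1
    rwa [pow_one] at h1
  have hβe : (β₀ ^ e) ^ n' = 1 := by
    rw [← pow_mul]
    apply orderOf_dvd_iff_pow_eq_one.mp
    rw [hN]
    exact Nat.mul_dvd_mul_right (Nat.modEq_zero_iff_dvd.mp he2) n'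
  have hcop : Nat.Coprime (orderOf (β₀ ^ e)) p := by
    have h1 : orderOf (β₀ ^ e) ∣ n' := orderOf_dvd_of_pow_eq_one hβe
    have h2 : Nat.Coprime n' p := ((Nat.Prime.coprime_iff_not_dvd Fact.out).mpr hn').symm
    exact Nat.Coprime.coprime_dvd_left h1 h2
  have hβmem : β₀ ^ e ∈ F.autGroup (T ⊔ FusionSystem.centralizerIn S T) := pow_mem hβ₀ e
  have hres : (⟨β₀ ^ e, hβmem⟩ : F.autGroup (T ⊔ FusionSystem.centralizerIn S T)) ∈
      pResidual p (F.autGroup (T ⊔ FusionSystem.centralizerIn S T)) := by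
    apply Subgroup.subset_closure
    show Nat.Coprime (orderOf (⟨β₀ ^ e, hβmem⟩ :
      F.autGroup (T ⊔ FusionSystem.centralizerIn S T))) p
    rw [Subgroup.orderOf_mk]
    exact hcop
  have hext' : ∀ x : T, (((β₀ ^ e) (Subgroup.inclusion le_sup_left x) :
      ↥(T ⊔ FusionSystem.centralizerIn S T)) : Ω) = ((α x : T) : Ω) := by
    intro x
    have h1 := pow_extend le_sup_left α β₀ hβ₀α e x
    rw [hαe] at h1
    exact h1
  refine ⟨β₀ ^ e, hβmem, hext', fun c hc => ⟨hhyp (Subgroup.subset_closure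
    ⟨_, ⟨β₀ ^ e, hβmem⟩, c, hUS, hres, rfl⟩), ?_⟩⟩
  apply Subgroup.mul_mem _ (Subgroup.inv_mem _ hc.2)
  rw [Subgroup.mem_centralizer_iff]
  intro t ht
  have h1 := hext' (α⁻¹ ⟨t, ht⟩)
  rw [MulAut.apply_inv_self] at h1
  have h2 : Subgroup.inclusion le_sup_left (α⁻¹ ⟨t, ht⟩) * c =
      c * Subgroup.inclusion le_sup_left (α⁻¹ ⟨t, ht⟩) :=
    Subtype.ext (Subgroup.mem_centralizer_iff.mp hc.2 _ (α⁻¹ ⟨t, ht⟩).2)
  have h3 := congrArg (fun y => (((β₀ ^ e) y : ↥(T ⊔ FusionSystem.centralizerIn S T)) : Ω)) h2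
  simp only [map_mul, Subgroup.coe_mul] at h3
  rw [h1] at h3
  exact h3

/-- Every automorphism in a saturated subsystem of `p`-power index on `T` has a good
extension. -/
theorem goodExt_of_pPowerIndex [Finite S] (p : ℕ) [Fact p.Prime] (hS : IsPGroup p S)
    (F : FusionSystem S) (hF : F.IsSaturated p) {T : Subgroup Ω} (hT : F.StronglyClosed T)
    (hhyp : F.hyperfocalSubgroup p ≤ T) (E : FusionSystem T) (hEs : E.IsSaturated p)
    (hE : E.IsSubsystemOf F) {α : MulAut T} (hα : α ∈ E.autGroup T) : GoodExt F T α := by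
  have hTS := hT.1
  have hfT : Finite T := finite_of_le_finite hTS
  have hTp : IsPGroup p T := hS.to_le hTS
  have props := fullyNormalized_props p hTp E hEs (isFullyNormalized_top E)
  obtain ⟨b, hb, g, hg, hbg⟩ := exists_pResidual_mul_induced p E props.2 hα
  have hgN : g ∈ Subgroup.normalizer (T : Set Ω) := Subgroup.le_normalizer hg
  have hαeq : α = (b : MulAut T) * conjAut T g hgN := by
    ext x
    obtain ⟨y, hy, hαx⟩ := hbg x
    rw [hαx, MulAut.mul_apply]
    congr 3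
    exact Subtype.ext hy
  rw [hαeq]
  refine goodExt_mul F T ?_ (goodExt_conj F T hTS hg (fun x => rfl))
  have key : ∀ b ∈ pResidual p (E.autGroup T), GoodExt F T (b : MulAut T) := by
    intro b hb
    unfold pResidual at hb
    induction hb using Subgroup.closure_induction with
    | mem x hx =>
      refine goodExt_of_coprime p hS F hF hT hhyp (autGroup_le_of_isSubsystemOf hE hTS le_rfl x.2) ?_
      rw [Subgroup.orderOf_coe]
      exact hx
    | one => exact goodExt_one F T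
    | mul x y _ _ hx hy => exact goodExt_mul F T hx hy
    | inv x _ hx => exact goodExt_inv F T hTS hx
  exact key b hb

end Cfsg.Agent.Helper8
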