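import Cfsg.Agent.Helper8.FusionInv4
import Cfsg.Agent.Helper8.FusionCentric
import Cfsg.Agent.Helper8.FusionHyperfocal

set_option autoImplicit false

namespace Cfsg.Agent.Helper8

open Cfsg

variable {Ω : Type*} [Group Ω] {S : Subgroup Ω}

/-- A fully centralized subgroup containing its centralizer in `S` is centric. -/
theorem centric_of_fullyCentralized [Finite S] (p : ℕ) [Fact p.Prime] (hS : IsPGroup p S)
    (F : FusionSystem S) (hF : F.IsSaturated p) {Q : Subgroup Ω} (hQ : F.IsFullyCentralized Q)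
    (hle : FusionSystem.centralizerIn S Q ≤ Q) : F.IsCentric Q := by
  have hrec := receptive_of_fullyCentralized p hS F hF hQ
  refine ⟨hQ.1, fun Q' hQ' => ?_⟩
  obtain ⟨φ, hφ, hr⟩ := isConj_symm F hQ'
  obtain ⟨ψ, hψ, hext⟩ := hrec.2 Q' φ hφ hr
  have hQ'N : Q' ≤ FusionSystem.extender S Q' φ :=
    le_extender S Q' φ (hom_le F hφ) (hom_mem F hφ)
  intro c hc
  have hcN : c ∈ FusionSystem.extender S Q' φ := centralizerIn_le_extender S Q' φ hc
  have h1 : ψ ⟨c, hcN⟩ ∈ FusionSystem.centralizerIn S Q := by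
    refine Subgroup.mem_inf.mpr ⟨hom_mem F hψ _, ?_⟩
    rw [Subgroup.mem_centralizer_iff]
    intro q hq
    have hq' : q ∈ φ.range := by
      rw [hr]
      exact hq
    obtain ⟨x, rfl⟩ := hq'
    rw [← hext x x.2 (hQ'N x.2), ← map_mul, ← map_mul]
    congr 1
    exact Subtype.ext (Subgroup.mem_centralizer_iff.mp (Subgroup.mem_inf.mp hc).2 x x.2)
  have h2 : ψ ⟨c, hcN⟩ ∈ φ.range := by
    rw [hr]
    exact hle h1
  obtain ⟨x, hx⟩ := h2
  rw [← hext x x.2 (hQ'N x.2)] at hx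
  have h3 := F.injective_of_mem hψ hx
  have hcx : (x : Ω) = c := congrArg Subtype.val h3
  rw [← hcx]
  exact x.2

theorem map_mem_pPrimeClosure {A B : Type*} [Group A] [Group B] (p : ℕ) (f : A →* B)
    (hf : Function.Injective f) {a : A}
    (ha : a ∈ Subgroup.closure {g : A | ∃ k : ℕ, orderOf g = p ^ k}) :
    f a ∈ Subgroup.closure {g : B | ∃ k : ℕ, orderOf g = p ^ k} := by
  induction ha using Subgroup.closure_induction with
  | mem x hx =>
    apply Subgroup.subset_closure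
    obtain ⟨k, hk⟩ := hx
    refine ⟨k, ?_⟩
    rw [orderOf_injective f hf x]
    exact hk
  | one =>
    rw [map_one]
    exact one_mem _
  | mul x y _ _ hx hy =>
    rw [map_mul]
    exact mul_mem hx hy
  | inv x _ hx =>
    rw [map_inv]
    exact inv_mem hx

/-- `O^{p'}(Aut_F(Q))` as a subgroup of `Aut(Q)`. -/
abbrev pPrimeRes (F : FusionSystem S) (p : ℕ) (Q : Subgroup Ω) : Subgroup (MulAut Q) :=
  (Subgroup.closure {α : ↥(F.autGroup Q) | ∃ k : ℕ, orderOf α = p ^ k}).map (F.autGroup Q).subtype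

/-- If `Aut_E(P) ≥ O^{p'}(Aut_F(P))` for all `F`-centric `P`, every map of `F` is an element of
`Aut_F(S)` composed with a map of the `Aut_F(S)`-invariant part of `E`. -/
theorem frattini_of_primeToP [Finite S] (p : ℕ) [Fact p.Prime] (hS : IsPGroup p S)
    (F : FusionSystem S) (hF : F.IsSaturated p) (E : FusionSystem S)
    (h : ∀ P : Subgroup Ω, F.IsCentric P → pPrimeRes F p P ≤ E.autGroup P) :
    ∀ P : Subgroup Ω, P ≤ S →
      F.Hom P ⊆ (frattiniSystem F (invSystem F E) (conjInv_invSystem F E)).Hom P := by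
  have hSsc : F.StronglyClosed S := ⟨le_rfl, fun R hR φ hφ x => hom_mem F hφ x⟩
  apply relAlperin p hS F hF hSsc
  intro Q hQS hQn IH β hβ
  by_cases hQeq : Q = S
  · subst hQeq
    exact autGroup_top_le_frattiniSystem F _ _ hβ
  · have hQlt : Q < S := lt_of_le_of_ne hQS hQeq
    have props := fullyNormalized_props p hS F hF hQn
    have hrec := receptive_of_fullyCentralized p hS F hF props.1
    have : Finite Q := finite_of_le_finite hQS
    have : Finite (MulAut Q) := MulEquiv.finite_left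
    by_cases hcen : FusionSystem.centralizerIn S Q ≤ Q
    · have hQc : F.IsCentric Q := centric_of_fullyCentralized p hS F hF props.1 hcen
      have hKA : pPrimeRes F p Q ≤ F.autGroup Q := by
        rintro _ ⟨k, -, rfl⟩
        exact k.2
      have hKn : ∀ a ∈ F.autGroup Q, ∀ k ∈ pPrimeRes F p Q, a * k * a⁻¹ ∈ pPrimeRes F p Q := by
        rintro a ha _ ⟨k, hk, rfl⟩
        refine ⟨⟨a, ha⟩ * k * ⟨a, ha⟩⁻¹, ?_, rfl⟩
        exact map_mem_pPrimeClosure p (MulAut.conj (⟨a, ha⟩ : F.autGroup Q)).toMonoidHom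
          (MulAut.conj _).injective hk
      have hKE : pPrimeRes F p Q ≤ (invSystem F E).autGroup Q := by
        rintro _ ⟨k, hk, rfl⟩
        refine aut_mem_invSystem F E hQS (h Q hQc ⟨k, hk, rfl⟩) (fun α hα => ?_)
        have he := isIso_imgEquiv F le_rfl hα hQS
        have h1 := map_mem_pPrimeClosure p (autGroupMap F _ he) (autGroupMap_injective F _ he) hk
        exact h (img α Q) (centric_of_isConj F hQc (isConj_of_isIso F he))
          ⟨autGroupMap F _ he k, h1, rfl⟩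
      obtain ⟨κ, hκ, ν, hν, rfl, hνX⟩ := frattini_decomp (A := F.autGroup Q)
        (R := autInducedBy S Q) (K := pPrimeRes F p Q) props.2.2 (isPGroup_autInducedBy hS Q)
        hKA hKn hβ
      refine mul_mem (autGroup_le_frattiniSystem F _ _ hQS (hKE hκ)) ?_
      have hQN : Q ≤ FusionSystem.normalizerIn S Q := le_normalizerIn hQS
      have hN : FusionSystem.normalizerIn S Q ≤
          FusionSystem.extender S Q (Q.subtype.comp ν.toMonoidHom) := by
        rintro g ⟨hgS, hgN⟩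
        refine mem_extender_of_conj_mem S ν hgS hgN ?_
        have h1 : conjAut Q g hgN ∈ autInducedBy S Q := conjAut_mem_autInducedBy Q hgS hgN
        have h2 : conjAut Q g hgN ∈ pPrimeRes F p Q := by
          have hA : conjAut Q g hgN ∈ F.autGroup Q := autInducedBy_le_autGroup F hQS h1
          refine ⟨⟨conjAut Q g hgN, hA⟩, Subgroup.subset_closure ?_, rfl⟩
          obtain ⟨k, hk⟩ := (IsPGroup.iff_orderOf.mp (isPGroup_autInducedBy hS Q))
            ⟨conjAut Q g hgN, h1⟩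
          refine ⟨k, ?_⟩
          rw [Subgroup.orderOf_mk] at hk ⊢
          exact hk
        exact (hνX _ ⟨h1, h2⟩).1
      obtain ⟨ψ, hψ, hext⟩ := exists_extension_of_receptive F hrec hν hQN hN
      have hψD := IH _ (normalizerIn_le_left S Q) (lt_normalizerIn hS hQlt) hψ
      rw [mem_autGroup_iff _ hQS]
      exact restrict_mem' _ hψD hQN (χ := Q.subtype.comp ν.toMonoidHom) (fun x => (hext x).symm)
    · have hQN : Q ≤ Q ⊔ FusionSystem.centralizerIn S Q := le_sup_left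
      have hlt : Q < Q ⊔ FusionSystem.centralizerIn S Q :=
        lt_of_le_of_ne hQN (fun heq => hcen (le_sup_right.trans (le_of_eq heq.symm)))
      have hN : Q ⊔ FusionSystem.centralizerIn S Q ≤
          FusionSystem.extender S Q (Q.subtype.comp β.toMonoidHom) :=
        sup_le (le_extender S Q _ hQS (fun x => hQS (β x).2)) (centralizerIn_le_extender S Q _)
      obtain ⟨ψ, hψ, hext⟩ := exists_extension_of_receptive F hrec hβ hQN hN
      have hψD := IH _ (sup_le hQS (centralizerIn_le_left S Q)) hlt hψ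
      rw [mem_autGroup_iff _ hQS]
      exact restrict_mem' _ hψD hQN (χ := Q.subtype.comp β.toMonoidHom) (fun x => (hext x).symm)

/-- Given the Frattini property for `E ≤ F` over `S`, every `p`-element of `Aut_F(P)` lies in
`Aut_E(P)`. -/
theorem pElement_mem_of_frattini [Finite S] (p : ℕ) [Fact p.Prime] (hS : IsPGroup p S)
    (F : FusionSystem S) (hF : F.IsSaturated p) (E : FusionSystem S)
    (hfr : ∀ (P : Subgroup Ω) (φ : P →* Ω), φ ∈ F.Hom P → ∃ α ∈ F.autGroup S, ∃ φ₀ ∈ E.Hom P,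
      ∀ (x : P) (hx : φ₀ x ∈ S), φ x = ((α ⟨φ₀ x, hx⟩ : S) : Ω))
    {P : Subgroup Ω} (hPS : P ≤ S) {γ : MulAut P} (hγ : γ ∈ F.autGroup P)
    (hγp : ∃ k : ℕ, orderOf γ = p ^ k) : γ ∈ E.autGroup P := by
  obtain ⟨Q, hPQ, hQn⟩ := exists_fullyNormalized F hPS
  have hQS := hQn.1
  have props := fullyNormalized_props p hS F hF hQn
  obtain ⟨e, he⟩ := (isConj_iff_exists_isIso F).mp hPQ
  have : Finite Q := finite_of_le_finite hQS
  have : Finite (MulAut Q) := MulEquiv.finite_left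
  have hγ' : MulAut.congr e γ ∈ F.autGroup Q := congr_mem_autGroup F he hγ
  have hTle : Subgroup.zpowers (MulAut.congr e γ) ≤ F.autGroup Q := by
    rw [Subgroup.zpowers_le]
    exact hγ'
  have hTp : IsPGroup p (Subgroup.zpowers (MulAut.congr e γ)) := by
    obtain ⟨k, hk⟩ := hγp
    apply IsPGroup.of_card (n := k)
    rw [Nat.card_zpowers, MulEquiv.orderOf_eq (MulAut.congr e) γ, hk]
  obtain ⟨χ, hχ, hχT⟩ := exists_conj_le_autInducedBy F p props.2 hTle hTp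
  have h1 : χ * MulAut.congr e γ * χ⁻¹ ∈ autInducedBy S Q :=
    hχT (conj_mem_cj (Subgroup.mem_zpowers _))
  obtain ⟨s, hs, hsc⟩ := (mem_autInducedBy_iff S Q _).mp h1
  have he' : IsIso F (e.trans χ) := isIso_trans F he ((mem_autGroup_iff F hQS χ).mp hχ)
  have key1 : ∀ x : P, (((e.trans χ) (γ x) : Q) : Ω) = s * (((e.trans χ) x : Q) : Ω) * s⁻¹ := by
    intro x
    have h2 := hsc ((e.trans χ) x)
    rw [← h2]
    show ((χ (e (γ x)) : Q) : Ω) = ((χ (e (γ (e.symm (χ⁻¹ (χ (e x)))))) : Q) : Ω)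
    rw [MulAut.inv_apply_self, MulEquiv.symm_apply_apply]
  obtain ⟨α, hα, φ₀, hφ₀, hdec⟩ := hfr P _ he'
  have hφ₀S : ∀ x : P, φ₀ x ∈ S := hom_mem E hφ₀
  have key2 : ∀ x : P, φ₀ (γ x) = ((α⁻¹ ⟨s, hs⟩ : S) : Ω) * φ₀ x * ((α⁻¹ ⟨s, hs⟩ : S) : Ω)⁻¹ := by
    intro x
    have a1 : ((α ⟨φ₀ (γ x), hφ₀S _⟩ : S) : Ω) = (((e.trans χ) (γ x) : Q) : Ω) :=
      (hdec (γ x) _).symm
    have a2 : ((α ⟨φ₀ x, hφ₀S _⟩ : S) : Ω) = (((e.trans χ) x : Q) : Ω) := (hdec x _).symm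
    have a3 : α ⟨φ₀ (γ x), hφ₀S _⟩ = α (α⁻¹ ⟨s, hs⟩ * ⟨φ₀ x, hφ₀S _⟩ * (α⁻¹ ⟨s, hs⟩)⁻¹) := by
      apply Subtype.ext
      rw [map_mul, map_mul, map_inv, MulAut.apply_inv_self]
      show _ = s * ((α ⟨φ₀ x, hφ₀S _⟩ : S) : Ω) * s⁻¹
      rw [a1, a2, key1]
    exact congrArg Subtype.val (α.injective a3)
  obtain ⟨ι, hι, hιinv, hιr⟩ := inv_mem' E hφ₀ rfl
  have hc := E.conj_mem (range_le E hφ₀) (α⁻¹ ⟨s, hs⟩ : S).2
  have step1 : φ₀.comp γ.toMonoidHom ∈ E.Hom P :=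
    comp_mem' E hφ₀ hc (fun x => ⟨x, rfl⟩) (fun x => key2 x)
  rw [mem_autGroup_iff E hPS]
  exact comp_mem' E step1 hι (fun x => ⟨γ x, rfl⟩) (χ := P.subtype.comp γ.toMonoidHom)
    (fun x => (hιinv (γ x) _).symm)

/-- Given the Frattini property for `E ≤ F` over `S`, the two systems have the same centric
subgroups. -/
theorem centric_iff_of_frattini (F E : FusionSystem S) (hEF : E.IsSubsystemOf F)
    (hfr : ∀ (P : Subgroup Ω) (φ : P →* Ω), φ ∈ F.Hom P → ∃ α ∈ F.autGroup S, ∃ φ₀ ∈ E.Hom P,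
      ∀ (x : P) (hx : φ₀ x ∈ S), φ x = ((α ⟨φ₀ x, hx⟩ : S) : Ω))
    (P : Subgroup Ω) : E.IsCentric P ↔ F.IsCentric P := by
  constructor
  · intro hP
    refine ⟨hP.1, ?_⟩
    rintro Q ⟨φ, hφ, rfl⟩
    obtain ⟨α, hα, φ₀, hφ₀, hdec⟩ := hfr P φ hφ
    have hφ₀S : ∀ x : P, φ₀ x ∈ S := hom_mem E hφ₀
    have hP₀ := hP.2 φ₀.range ⟨φ₀, hφ₀, rfl⟩
    intro c hc
    obtain ⟨hcS, hcC⟩ := Subgroup.mem_inf.mp hc
    have h1 : ((α⁻¹ ⟨c, hcS⟩ : S) : Ω) ∈ FusionSystem.centralizerIn S φ₀.range := by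
      refine Subgroup.mem_inf.mpr ⟨(α⁻¹ ⟨c, hcS⟩ : S).2, ?_⟩
      rw [Subgroup.mem_centralizer_iff]
      rintro _ ⟨x, rfl⟩
      have h2 : α (⟨φ₀ x, hφ₀S x⟩ * α⁻¹ ⟨c, hcS⟩) = α (α⁻¹ ⟨c, hcS⟩ * ⟨φ₀ x, hφ₀S x⟩) := by
        apply Subtype.ext
        rw [map_mul, map_mul, MulAut.apply_inv_self]
        show ((α ⟨φ₀ x, hφ₀S x⟩ : S) : Ω) * c = c * ((α ⟨φ₀ x, hφ₀S x⟩ : S) : Ω)
        rw [← hdec x (hφ₀S x)]
        exact Subgroup.mem_centralizer_iff.mp hcC (φ x) ⟨x, rfl⟩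
      exact congrArg Subtype.val (α.injective h2)
    obtain ⟨x₀, hx₀⟩ := hP₀ h1
    refine ⟨x₀, ?_⟩
    rw [hdec x₀ (hφ₀S x₀)]
    have h3 : (⟨φ₀ x₀, hφ₀S x₀⟩ : S) = α⁻¹ ⟨c, hcS⟩ := Subtype.ext hx₀
    rw [h3, MulAut.apply_inv_self]
  · intro hP
    refine ⟨hP.1, ?_⟩
    rintro Q ⟨φ, hφ, hr⟩
    exact hP.2 Q ⟨φ, hEF P hφ, hr⟩

end Cfsg.Agent.Helper8
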