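import Mathlib.GroupTheory.Sylow
import Mathlib.GroupTheory.GroupAction.Quotient
import Mathlib.Algebra.BigOperators.Group.Finset.Basic
import Mathlib.RingTheory.Coprime.Lemmas

set_option autoImplicit false

namespace Cfsg.Agent.Helper8

open scoped BigOperators

/-- A crossed homomorphism from a finite group into an abelian normal `p`-subgroup which is
trivial on a Sylow `p`-subgroup is principal. -/
theorem cocycle_principal {G : Type*} [Group G] [Finite G] {p : ℕ} [Fact p.Prime] (T : Sylow p G)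
    (Z : Subgroup G) [hZn : Z.Normal] (hZc : ∀ a ∈ Z, ∀ b ∈ Z, a * b = b * a) (hZp : IsPGroup p Z)
    (f : G → G) (hfZ : ∀ g, f g ∈ Z) (hf : ∀ g h, f (g * h) = f g * (g * f h * g⁻¹))
    (hfT : ∀ s ∈ (T : Subgroup G), f s = 1) :
    ∃ b ∈ Z, ∀ g, f g = b * (g * b * g⁻¹)⁻¹ := by
  classical
  let _ : CommGroup ↥Z :=
    { (inferInstance : Group ↥Z) with mul_comm := fun a b => Subtype.ext (hZc a a.2 b b.2) }
  have : Fintype (G ⧸ (T : Subgroup G)) := Fintype.ofFinite _
  -- the induced function on cosets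
  have hconst : ∀ a b : G, (QuotientGroup.leftRel (T : Subgroup G)) a b →
      (⟨f a, hfZ a⟩ : ↥Z) = ⟨f b, hfZ b⟩ := by
    intro a b hab
    rw [QuotientGroup.leftRel_apply] at hab
    apply Subtype.ext
    have h1 : b = a * (a⁻¹ * b) := by group
    have h2 : f b = f a := by
      rw [h1, hf, hfT _ hab]
      group
    exact h2.symm
  let Fbar : G ⧸ (T : Subgroup G) → ↥Z := fun q => Quotient.liftOn' q (fun a => ⟨f a, hfZ a⟩) hconst
  have hFbar : ∀ (g : G) (q : G ⧸ (T : Subgroup G)),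
      Fbar (g • q) = (⟨f g, hfZ g⟩ : ↥Z) * MulAut.conjNormal g (Fbar q) := by
    intro g q
    induction q using QuotientGroup.induction_on with
    | H t =>
      apply Subtype.ext
      show f (g * t) = f g * (g * f t * g⁻¹)
      exact hf g t
  have hprod : ∀ g : G, (∏ q : G ⧸ (T : Subgroup G), Fbar q)
      = (⟨f g, hfZ g⟩ : ↥Z) ^ Fintype.card (G ⧸ (T : Subgroup G))
        * MulAut.conjNormal g (∏ q : G ⧸ (T : Subgroup G), Fbar q) := by
    intro g
    have h1 := Equiv.prod_comp (MulAction.toPerm g : Equiv.Perm (G ⧸ (T : Subgroup G))) Fbar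
    have h2 : ∀ q : G ⧸ (T : Subgroup G), Fbar ((MulAction.toPerm g : Equiv.Perm _) q)
        = (⟨f g, hfZ g⟩ : ↥Z) * MulAut.conjNormal g (Fbar q) := fun q => hFbar g q
    have h3 : (∏ q : G ⧸ (T : Subgroup G), Fbar ((MulAction.toPerm g : Equiv.Perm _) q))
        = (⟨f g, hfZ g⟩ : ↥Z) ^ Fintype.card (G ⧸ (T : Subgroup G))
        * MulAut.conjNormal g (∏ q : G ⧸ (T : Subgroup G), Fbar q) := by
      simp only [h2]
      rw [Finset.prod_mul_distrib, Finset.prod_const, Finset.card_univ, map_prod]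
    exact h1.symm.trans h3
  -- coprimality
  have hn : Nat.Coprime (Fintype.card (G ⧸ (T : Subgroup G))) (Nat.card ↥Z) := by
    obtain ⟨k, hk⟩ := IsPGroup.iff_card.mp hZp
    rw [hk]
    apply Nat.Coprime.pow_right
    have h1 := T.not_dvd_index
    rw [Subgroup.index_eq_card, Nat.card_eq_fintype_card] at h1
    exact (Nat.Coprime.symm ((Nat.Prime.coprime_iff_not_dvd (Fact.out : p.Prime)).mpr h1))
  obtain ⟨u, v, huv⟩ := Nat.isCoprime_iff_coprime.mpr hn
  have hroot : ∀ x : ↥Z, x = (x ^ Fintype.card (G ⧸ (T : Subgroup G))) ^ u := by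
    intro x
    have h1 : x ^ (u * (Fintype.card (G ⧸ (T : Subgroup G)) : ℤ) + v * (Nat.card ↥Z : ℤ)) = x := by
      rw [huv, zpow_one]
    rw [zpow_add, mul_comm u, mul_comm v, zpow_mul, zpow_mul, zpow_natCast, zpow_natCast,
      pow_card_eq_one', one_zpow, mul_one] at h1
    exact h1.symm
  refine ⟨((∏ q : G ⧸ (T : Subgroup G), Fbar q) ^ u : ↥Z), Subtype.property _, fun g => ?_⟩
  have h3 : (⟨f g, hfZ g⟩ : ↥Z) ^ Fintype.card (G ⧸ (T : Subgroup G))
      = (∏ q : G ⧸ (T : Subgroup G), Fbar q)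
        * (MulAut.conjNormal g (∏ q : G ⧸ (T : Subgroup G), Fbar q))⁻¹ := by
    rw [eq_mul_inv_iff_mul_eq]
    exact (hprod g).symm
  have h4 : (⟨f g, hfZ g⟩ : ↥Z) = (∏ q : G ⧸ (T : Subgroup G), Fbar q) ^ u
      * (MulAut.conjNormal g ((∏ q : G ⧸ (T : Subgroup G), Fbar q) ^ u))⁻¹ := by
    rw [hroot ⟨f g, hfZ g⟩, h3, mul_zpow, inv_zpow, map_zpow]
  have h5 := congrArg Subtype.val h4
  exact h5

end Cfsg.Agent.Helper8
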