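import Cfsg.Agent.Helper8.FusionModel
import Cfsg.Agent.Helper8.GroupCocycle

set_option autoImplicit false

namespace Cfsg.Agent.Helper8

open Cfsg

/-- An automorphism of a finite group `G` with `C_G(O_p(G)) ≤ O_p(G)` that fixes a Sylow
`p`-subgroup elementwise is conjugation by an element of `O_p(G)`. -/
theorem aut_inner_of_fix_sylow {G : Type*} [Group G] [Finite G] {p : ℕ} [Fact p.Prime]
    (T : Sylow p G)
    (hcent : Subgroup.centralizer ((pCore p G : Subgroup G) : Set G) ≤ pCore p G)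
    (ψ : G ≃* G) (hψ : ∀ x ∈ (T : Subgroup G), ψ x = x) :
    ∃ b ∈ pCore p G, ∀ g : G, ψ g = b * g * b⁻¹ := by
  haveI hQn := pCore_normal p G
  have hQT : pCore p G ≤ (T : Subgroup G) := (pCore_isPGroup p G).le_sylow_of_normal T
  have hfix : ∀ q ∈ pCore p G, ψ q = q := fun q hq => hψ q (hQT hq)
  haveI hCn : (Subgroup.centralizer ((pCore p G : Subgroup G) : Set G)).Normal :=
    Subgroup.normal_centralizer
  haveI hZn : (pCore p G ⊓ Subgroup.centralizer ((pCore p G : Subgroup G) : Set G)).Normal :=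
    Subgroup.normal_inf_normal _ _
  have hZc : ∀ a ∈ (pCore p G ⊓ Subgroup.centralizer ((pCore p G : Subgroup G) : Set G)),
      ∀ b ∈ (pCore p G ⊓ Subgroup.centralizer ((pCore p G : Subgroup G) : Set G)),
      a * b = b * a := by
    intro a ha b hb
    exact (Subgroup.mem_centralizer_iff.mp hb.2 a ha.1)
  have hZp : IsPGroup p ↥(pCore p G ⊓ Subgroup.centralizer ((pCore p G : Subgroup G) : Set G)) :=
    (pCore_isPGroup p G).to_le inf_le_left
  have hfc : ∀ g : G, ψ g * g⁻¹ ∈ Subgroup.centralizer ((pCore p G : Subgroup G) : Set G) := by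
    intro g
    rw [Subgroup.mem_centralizer_iff]
    intro q hq
    have h1 : g⁻¹ * q * g ∈ pCore p G := by
      have := hQn.conj_mem q hq g⁻¹
      rwa [inv_inv] at this
    have h2 := hfix _ h1
    rw [map_mul, map_mul, map_inv, hfix q hq] at h2
    -- h2 : (ψ g)⁻¹ * q * ψ g = g⁻¹ * q * g
    have h3 : q * ψ g = ψ g * (g⁻¹ * q * g) := by
      rw [← h2]; group
    calc q * (ψ g * g⁻¹) = (q * ψ g) * g⁻¹ := by group
      _ = ψ g * (g⁻¹ * q * g) * g⁻¹ := by rw [h3]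
      _ = ψ g * g⁻¹ * q := by group
  have hfZ : ∀ g : G, ψ g * g⁻¹ ∈
      (pCore p G ⊓ Subgroup.centralizer ((pCore p G : Subgroup G) : Set G)) :=
    fun g => ⟨hcent (hfc g), hfc g⟩
  obtain ⟨b, hb, hbg⟩ := cocycle_principal T
    (pCore p G ⊓ Subgroup.centralizer ((pCore p G : Subgroup G) : Set G)) hZc hZp
    (fun g => ψ g * g⁻¹) hfZ
    (by
      intro g h
      show ψ (g * h) * (g * h)⁻¹ = ψ g * g⁻¹ * (g * (ψ h * h⁻¹) * g⁻¹)
      rw [map_mul]; group)
    (by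
      intro s hs
      show ψ s * s⁻¹ = 1
      rw [hψ s hs, mul_inv_cancel])
  refine ⟨b, hb.1, fun g => ?_⟩
  have h1 : ψ g * g⁻¹ = b * (g * b * g⁻¹)⁻¹ := hbg g
  calc ψ g = ψ g * g⁻¹ * g := by group
    _ = b * (g * b * g⁻¹)⁻¹ * g := by rw [h1]
    _ = b * g * b⁻¹ := by group

/-- Model rigidity. -/
theorem model_rigidity {Ω : Type*} [Group Ω] {S : Subgroup Ω} (p : ℕ) [Fact p.Prime]
    (F : FusionSystem S) {G : Type*} [Group G] (ι : S →* G) (hG : F.IsModel p G ι)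
    (ψ : G ≃* G) (hψ : ∀ x : S, ψ (ι x) = ι x) :
    ∃ z : S, z ∈ Subgroup.center S ∧ ∀ g : G, ψ g = ι z * g * (ι z)⁻¹ := by
  obtain ⟨hfin, hι, ⟨T, hT⟩, hcent⟩ := hG
  haveI := hfin
  obtain ⟨b, hb, hbg⟩ := aut_inner_of_fix_sylow T hcent ψ (by
    intro x hx
    rw [hT] at hx
    obtain ⟨s, rfl⟩ := hx
    exact hψ s)
  obtain ⟨z, rfl⟩ := pCore_le_range p ι T hT hb
  refine ⟨z, ?_, hbg⟩
  rw [Subgroup.mem_center_iff]
  intro s
  apply hι.1
  have h1 := hbg (ι s)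
  rw [hψ s] at h1
  rw [map_mul, map_mul]
  calc ι s * ι z = ι z * ι s * (ι z)⁻¹ * ι z := by rw [← h1]
    _ = ι z * ι s := by group

end Cfsg.Agent.Helper8
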