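import Cfsg.Agent.Helper8.FusionInv6
import Cfsg.Agent.Helper8.FusionAlperin2
import Cfsg.Agent.S5076

/-!
# A simplicity criterion for the fusion system of a group

Contains: centric subgroups are fully centralized; an automorphism of `S` in `F` whose restriction
to a centric subgroup is a map of the saturated subsystem `E` (over the same `S`) lies in `E`; and
the simplicity criterion for `F_S(G)`.
-/

set_option autoImplicit false

namespace Cfsg.Agent.Helper8

open Cfsg

variable {Ω : Type*} [Group Ω] {S : Subgroup Ω}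

/-- A centric subgroup is fully centralized. -/
theorem fullyCentralized_of_centric [Finite S] (F : FusionSystem S) {R : Subgroup Ω}
    (hR : F.IsCentric R) : F.IsFullyCentralized R := by
  refine ⟨hR.1, ?_⟩
  rintro Q ⟨θ, hθ, rfl⟩
  have hQc := hR.2 θ.range ⟨θ, hθ, rfl⟩
  have hinj := F.injective_of_mem hθ
  have : Finite (FusionSystem.centralizerIn S R) := finite_of_le_finite (centralizerIn_le_left S R)
  have key : ∀ c : FusionSystem.centralizerIn S θ.range, ∃ x : R, θ x = c := fun c => hQc c.2
  choose f hf using key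
  have hfmem : ∀ c : FusionSystem.centralizerIn S θ.range,
      ((f c : R) : Ω) ∈ FusionSystem.centralizerIn S R := by
    intro c
    refine Subgroup.mem_inf.mpr ⟨hR.1 (f c).2, ?_⟩
    rw [Subgroup.mem_centralizer_iff]
    intro y hy
    have h1 := Subgroup.mem_centralizer_iff.mp (Subgroup.mem_inf.mp c.2).2 (θ ⟨y, hy⟩) ⟨_, rfl⟩
    rw [← hf c, ← map_mul, ← map_mul] at h1
    exact congrArg Subtype.val (hinj h1)
  apply Nat.card_le_card_of_injective (fun c => (⟨f c, hfmem c⟩ : FusionSystem.centralizerIn S R))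
  intro c d hcd
  have h0 : ((f c : R) : Ω) = ((f d : R) : Ω) :=
    congrArg (fun w : ↥(FusionSystem.centralizerIn S R) => (w : Ω)) hcd
  have h1 : f c = f d := Subtype.ext h0
  apply Subtype.ext
  rw [← hf c, ← hf d, h1]

/-- `E ≤ F` saturated over the same `S`: an `F`-automorphism of `S` whose restriction to an
`F`-centric subgroup `R` is a map of `E` lies in `Aut_E(S)`. -/
theorem aut_mem_of_restrict_centric [Finite S] (p : ℕ) [Fact p.Prime] (hS : IsPGroup p S)
    (F : FusionSystem S) (hF : F.IsSaturated p) (E : FusionSystem S) (hE : E.IsSaturated p)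
    (hEF : E.IsSubsystemOf F) (γ : MulAut S) (hγ : γ ∈ F.autGroup S) :
    ∀ n : ℕ, ∀ (R : Subgroup Ω) (hRS : R ≤ S), Nat.card S - Nat.card R = n → F.IsCentric R →
      (S.subtype.comp γ.toMonoidHom).comp (Subgroup.inclusion hRS) ∈ E.Hom R →
      γ ∈ E.autGroup S := by
  intro n
  induction n using Nat.strong_induction_on with
  | _ n ih =>
    intro R hRS hn hRc hres
    by_cases hReq : R = S
    · subst hReq
      rw [mem_autGroup_iff E le_rfl]
      have h1 : (R.subtype.comp γ.toMonoidHom).comp (Subgroup.inclusion hRS)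
          = R.subtype.comp γ.toMonoidHom := by
        ext x
        rfl
      rw [h1] at hres
      exact hres
    · have hRlt : R < S := lt_of_le_of_ne hRS hReq
      have hφF := hEF R hres
      have hR'c : F.IsCentric ((S.subtype.comp γ.toMonoidHom).comp (Subgroup.inclusion hRS)).range :=
        centric_of_isConj F hRc ⟨_, hφF, rfl⟩
      have hR'Ec : E.IsCentric ((S.subtype.comp γ.toMonoidHom).comp (Subgroup.inclusion hRS)).range := by
        refine ⟨hR'c.1, fun Q hQ => hR'c.2 Q ?_⟩
        obtain ⟨θ, hθ, hr⟩ := hQ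
        exact ⟨θ, hEF _ hθ, hr⟩
      have hrec := receptive_of_fullyCentralized p hS E hE (fullyCentralized_of_centric E hR'Ec)
      have hRN : R ≤ FusionSystem.normalizerIn S R := le_normalizerIn hRS
      have hNS := normalizerIn_le_left S R
      obtain ⟨ψ, hψ, hext⟩ := hrec.2 R _ hres rfl
      have hNext : FusionSystem.normalizerIn S R ≤ FusionSystem.extender S R
          ((S.subtype.comp γ.toMonoidHom).comp (Subgroup.inclusion hRS)) := by
        rintro g ⟨hgS, hgN⟩
        refine mem_extender_of S R _ hgS hgN (h := ((γ ⟨g, hgS⟩ : S) : Ω)) (γ ⟨g, hgS⟩).2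
          (fun x => ?_)
        show ((γ ⟨((conjAut R g hgN x : R) : Ω), hRS (conjAut R g hgN x).2⟩ : S) : Ω)
          = ((γ ⟨g, hgS⟩ : S) : Ω) * ((γ ⟨x, hRS x.2⟩ : S) : Ω) * ((γ ⟨g, hgS⟩ : S) : Ω)⁻¹
        have h1 : (⟨((conjAut R g hgN x : R) : Ω), hRS (conjAut R g hgN x).2⟩ : S)
            = ⟨g, hgS⟩ * ⟨x, hRS x.2⟩ * ⟨g, hgS⟩⁻¹ := Subtype.ext rfl
        rw [h1, map_mul, map_mul, map_inv]
        rfl
      have hψN := restrict_mem E hψ hNext
      have hγF : S.subtype.comp γ.toMonoidHom ∈ F.Hom S := (mem_autGroup_iff F le_rfl γ).mp hγ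
      have hγN := restrict_mem F hγF hNS
      have hagree : ∀ x : FusionSystem.normalizerIn S R, (x : Ω) ∈ R →
          (ψ.comp (Subgroup.inclusion hNext)) x
            = ((S.subtype.comp γ.toMonoidHom).comp (Subgroup.inclusion hNS)) x := by
        intro x hx
        exact hext x hx _
      obtain ⟨z, hzR, hzC, hz⟩ := maps_agreeing_on_centric p hS F hF _ R hRN hRc _ _
        (hEF _ hψN) hγN hagree
      have hc := E.conj_mem hNS (hNS z.2)
      have hγNE : (S.subtype.comp γ.toMonoidHom).comp (Subgroup.inclusion hNS)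
          ∈ E.Hom (FusionSystem.normalizerIn S R) :=
        comp_mem' E hc hψN (fun y => (z * y * z⁻¹).2)
          (fun y => (hz y).trans (congrArg _ (Subtype.ext rfl)))
      have hNc : F.IsCentric (FusionSystem.normalizerIn S R) := centric_of_le F hRc hRN hNS
      have : Finite (FusionSystem.normalizerIn S R) := finite_of_le_finite hNS
      have hlt := card_lt_card_of_lt (lt_normalizerIn hS hRlt)
      have hle : Nat.card (FusionSystem.normalizerIn S R) ≤ Nat.card S := Subgroup.card_le_of_le hNS
      exact ih (Nat.card S - Nat.card (FusionSystem.normalizerIn S R)) (by omega) _ hNS rfl hNc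
        hγNE

/-- A normal subsystem over the whole of `S` that contains `Aut_F(S)` is everything. -/
theorem eq_of_frattini_of_aut_le (F E : FusionSystem S) (hEF : E.IsSubsystemOf F)
    (hfr : ∀ (P : Subgroup Ω) (φ : P →* Ω), φ ∈ F.Hom P → ∃ α ∈ F.autGroup S, ∃ φ₀ ∈ E.Hom P,
      ∀ (x : P) (hx : φ₀ x ∈ S), φ x = ((α ⟨φ₀ x, hx⟩ : S) : Ω))
    (hAut : F.autGroup S ≤ E.autGroup S) (P : Subgroup Ω) : E.Hom P = F.Hom P := by
  apply Set.Subset.antisymm (hEF P)
  intro φ hφ
  obtain ⟨α, hα, φ₀, hφ₀, hdec⟩ := hfr P φ hφ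
  have hαE := (mem_autGroup_iff E le_rfl α).mp (hAut hα)
  exact comp_mem' E hφ₀ hαE (hom_mem E hφ₀) (fun x => hdec x _)

/-- Simplicity criterion for the fusion system of a finite group. -/
theorem groupFusion_simple_of_criterion {G : Type*} [Group G] [Finite G] (p : ℕ) [Fact p.Prime]
    (S : Sylow p G) (hS1 : (S : Subgroup G) ≠ ⊥)
    (ha : ∀ T : Subgroup G, (groupFusionSystem (S : Subgroup G)).StronglyClosed T →
      T = ⊥ ∨ T = (S : Subgroup G))
    (hb : autInducedBy ⊤ (S : Subgroup G) =
      ⨆ (R : Subgroup G) (_ : (groupFusionSystem (S : Subgroup G)).IsFullyNormalized R ∧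
        (groupFusionSystem (S : Subgroup G)).IsRadical p R ∧
        (groupFusionSystem (S : Subgroup G)).IsCentric R),
        autInducedBy (Subgroup.closure {g : G | g ∈ Subgroup.normalizer (R : Set G) ∧
          ∃ k : ℕ, orderOf g = p ^ k}) (S : Subgroup G)) :
    (groupFusionSystem (S : Subgroup G)).IsSimple p := by
  have hSp : IsPGroup p (S : Subgroup G) := S.isPGroup'
  have hF := Cfsg.Agent.S5076.result p S
  refine ⟨hF, hS1, ?_⟩
  intro T E hE
  obtain ⟨⟨hEsat, -, hEF, hTsc, -, hfr⟩, -⟩ := hE
  rcases ha T hTsc with hT | hT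
  · exact Or.inl hT
  · right
    subst hT
    refine ⟨rfl, ?_⟩
    have hfr' : ∀ (P : Subgroup G) (φ : P →* G), φ ∈ (groupFusionSystem (S : Subgroup G)).Hom P →
        ∃ α ∈ (groupFusionSystem (S : Subgroup G)).autGroup S, ∃ φ₀ ∈ E.Hom P,
        ∀ (x : P) (hx : φ₀ x ∈ (S : Subgroup G)),
          φ x = ((α ⟨φ₀ x, hx⟩ : (S : Subgroup G)) : G) :=
      fun P φ hφ => hfr P (hom_le _ hφ) φ hφ
    have hAut : (groupFusionSystem (S : Subgroup G)).autGroup S ≤ E.autGroup S := by
      rw [Cfsg.Agent.S5076.autGroup_groupFusion_eq _ _ le_rfl, hb]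
      refine iSup_le fun R => iSup_le fun hR => ?_
      obtain ⟨hRn, hRr, hRc⟩ := hR
      have hRS := hRc.1
      have hK : ∀ g ∈ Subgroup.closure {g : G | g ∈ Subgroup.normalizer (R : Set G) ∧
          ∃ k : ℕ, orderOf g = p ^ k},
          ∃ hg : g ∈ Subgroup.normalizer (R : Set G), conjAut R g hg ∈ E.autGroup R := by
        intro g hg
        induction hg using Subgroup.closure_induction with
        | mem x hx =>
          obtain ⟨hxN, k, hk⟩ := hx
          refine ⟨hxN, pElement_mem_of_frattini p hSp _ hF E hfr' hRS ?_ ?_⟩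
          · rw [Cfsg.Agent.S5076.autGroup_groupFusion_eq _ _ hRS]
            exact conjAut_mem_autInducedBy R (Subgroup.mem_top x) hxN
          · have hdvd : orderOf (conjAut R x hxN) ∣ p ^ k := by
              rw [← hk]
              have h1 := orderOf_map_dvd R.normalizerMonoidHom
                (⟨x, hxN⟩ : Subgroup.normalizer (R : Set G))
              rwa [Subgroup.orderOf_mk] at h1
            obtain ⟨j, -, hj⟩ := (Nat.dvd_prime_pow Fact.out).mp hdvd
            exact ⟨j, hj⟩
        | one =>
          refine ⟨Subgroup.one_mem _, ?_⟩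
          have h1 : conjAut R 1 (Subgroup.one_mem _) = 1 := map_one R.normalizerMonoidHom
          rw [h1]
          exact one_mem _
        | mul x y _ _ hx hy =>
          obtain ⟨hxN, hx'⟩ := hx
          obtain ⟨hyN, hy'⟩ := hy
          refine ⟨Subgroup.mul_mem _ hxN hyN, ?_⟩
          have h1 : conjAut R (x * y) (Subgroup.mul_mem _ hxN hyN)
              = conjAut R x hxN * conjAut R y hyN :=
            map_mul R.normalizerMonoidHom ⟨x, hxN⟩ ⟨y, hyN⟩
          rw [h1]
          exact mul_mem hx' hy'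
        | inv x _ hx =>
          obtain ⟨hxN, hx'⟩ := hx
          refine ⟨Subgroup.inv_mem _ hxN, ?_⟩
          have h1 : conjAut R x⁻¹ (Subgroup.inv_mem _ hxN) = (conjAut R x hxN)⁻¹ :=
            map_inv R.normalizerMonoidHom ⟨x, hxN⟩
          rw [h1]
          exact inv_mem hx'
      unfold autInducedBy
      rw [Subgroup.closure_le]
      rintro α ⟨g, hgK, hα⟩
      obtain ⟨hgN, hgE⟩ := hK g hgK
      have hαF : α ∈ (groupFusionSystem (S : Subgroup G)).autGroup S := by
        rw [Cfsg.Agent.S5076.autGroup_groupFusion_eq _ _ le_rfl]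
        exact (mem_autInducedBy_iff ⊤ (S : Subgroup G) α).mpr ⟨g, Subgroup.mem_top g, hα⟩
      refine aut_mem_of_restrict_centric p hSp _ hF E hEsat hEF α hαF _ R hRS rfl hRc ?_
      have h1 : R.subtype.comp (conjAut R g hgN).toMonoidHom ∈ E.Hom R :=
        (mem_autGroup_iff E hRS _).mp hgE
      have h2 : (((S : Subgroup G).subtype.comp α.toMonoidHom).comp (Subgroup.inclusion hRS))
          = R.subtype.comp (conjAut R g hgN).toMonoidHom := by
        ext x
        exact hα ⟨x, hRS x.2⟩
      rw [h2]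
      exact h1
    exact eq_of_frattini_of_aut_le _ E hEF hfr' hAut

end Cfsg.Agent.Helper8
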