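import Cfsg.Agent.Helper8.FusionSolvable

set_option autoImplicit false

namespace Cfsg.Agent.Helper8

open Cfsg

open scoped commutatorElement

/-- Concatenation of two chains. -/
theorem chain_concat {X : Type*} (Pr : X → Prop) (St : X → X → Prop) :
    ∀ (n : ℕ) (A : Fin (n + 1) → X) (k : ℕ) (B : Fin (k + 1) → X), A (Fin.last n) = B 0 →
      (∀ i, Pr (A i)) → (∀ i, Pr (B i)) → (∀ i : Fin n, St (A i.castSucc) (A i.succ)) →
      (∀ i : Fin k, St (B i.castSucc) (B i.succ)) →
      ∃ (N : ℕ) (C : Fin (N + 1) → X), C 0 = A 0 ∧ C (Fin.last N) = B (Fin.last k) ∧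
        (∀ i, Pr (C i)) ∧ ∀ i : Fin N, St (C i.castSucc) (C i.succ) := by
  intro n
  induction n with
  | zero =>
    intro A k B hAB hA hB _ hBs
    exact ⟨k, B, hAB.symm, rfl, hB, hBs⟩
  | succ n ih =>
    intro A k B hAB hA hB hAs hBs
    obtain ⟨N, C, hC0, hCl, hCp, hCs⟩ := ih (fun i => A i.succ) k B
      (by rw [Fin.succ_last]; exact hAB) (fun i => hA _) hB
      (fun i => by
        have h1 := hAs i.succ
        rw [← Fin.succ_castSucc] at h1
        exact h1) hBs
    refine ⟨N + 1, Fin.cons (A 0) C, rfl, ?_, ?_, ?_⟩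
    · rw [← Fin.succ_last, Fin.cons_succ]
      exact hCl
    · intro i
      refine Fin.cases ?_ (fun j => ?_) i
      · exact hA 0
      · rw [Fin.cons_succ]
        exact hCp j
    · intro i
      refine Fin.cases ?_ (fun j => ?_) i
      · rw [Fin.castSucc_zero, Fin.cons_zero, Fin.cons_succ, hC0]
        exact hAs 0
      · rw [← Fin.succ_castSucc, Fin.cons_succ, Fin.cons_succ]
        exact hCs j

variable {Ω : Type*} [Group Ω] {S : Subgroup Ω}

/-- The largest `Aut_F(T)`-invariant subgroup of `U ∩ T`. -/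
def invCore (F : FusionSystem S) (T U : Subgroup Ω) : Subgroup Ω :=
  (⨅ α : F.autGroup T, (U.subgroupOf T).comap (α : MulAut T).toMonoidHom).map T.subtype

theorem mem_invCore (F : FusionSystem S) (T U : Subgroup Ω) (x : Ω) :
    x ∈ invCore F T U ↔ ∃ hx : x ∈ T, ∀ α ∈ F.autGroup T, ((α ⟨x, hx⟩ : T) : Ω) ∈ U := by
  constructor
  · rintro ⟨t, ht, rfl⟩
    refine ⟨t.2, fun α hα => ?_⟩
    have h1 := (Subgroup.mem_iInf.mp ht) ⟨α, hα⟩
    exact h1
  · rintro ⟨hx, h⟩
    exact ⟨⟨x, hx⟩, Subgroup.mem_iInf.mpr (fun α => h α α.2), rfl⟩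

theorem invCore_le_left (F : FusionSystem S) (T U : Subgroup Ω) : invCore F T U ≤ T := by
  intro x hx
  exact ((mem_invCore F T U x).mp hx).1

theorem invCore_le_right (F : FusionSystem S) (T U : Subgroup Ω) : invCore F T U ≤ U := by
  intro x hx
  obtain ⟨hxT, h⟩ := (mem_invCore F T U x).mp hx
  exact h 1 (one_mem _)

theorem invCore_self (F : FusionSystem S) (T : Subgroup Ω) : invCore F T T = T := by
  ext x
  rw [mem_invCore]
  constructor
  · rintro ⟨hx, -⟩
    exact hx
  · intro hx
    exact ⟨hx, fun α _ => (α _).2⟩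

theorem invCore_bot (F : FusionSystem S) (T : Subgroup Ω) : invCore F T ⊥ = ⊥ :=
  le_bot_iff.mp (invCore_le_right F T ⊥)

theorem invCore_commutator_le (F : FusionSystem S) (T : Subgroup Ω) {A B : Subgroup Ω}
    (h : ⁅A, A⁆ ≤ B) : ⁅invCore F T A, invCore F T A⁆ ≤ invCore F T B := by
  rw [Subgroup.commutator_le]
  intro a ha b hb
  obtain ⟨haT, ha'⟩ := (mem_invCore F T A a).mp ha
  obtain ⟨hbT, hb'⟩ := (mem_invCore F T A b).mp hb
  rw [mem_invCore]
  have hT : ⁅a, b⁆ ∈ T :=
    Subgroup.commutator_le_self T (Subgroup.commutator_mem_commutator haT hbT)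
  refine ⟨hT, fun α hα => ?_⟩
  have h1 : (⟨⁅a, b⁆, hT⟩ : T) = ⁅(⟨a, haT⟩ : T), (⟨b, hbT⟩ : T)⁆ := Subtype.ext rfl
  rw [h1, map_commutatorElement]
  exact h (Subgroup.commutator_mem_commutator (ha' α hα) (hb' α hα))

theorem invCore_stronglyClosed {T : Subgroup Ω} (F : FusionSystem S) (E : FusionSystem T)
    (hinv : E.IsInvariantIn F) {U : Subgroup Ω} (hU : E.StronglyClosed U) :
    F.StronglyClosed (invCore F T U) := by
  obtain ⟨hsub, hT, hconj, hfrat⟩ := hinv
  refine ⟨(invCore_le_left F T U).trans hT.1, fun R hR φ hφ x => ?_⟩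
  have hRT : R ≤ T := hR.trans (invCore_le_left F T U)
  obtain ⟨β, hβ, φ₀, hφ₀, hφeq⟩ := hfrat R hRT φ hφ
  have hφ₀T : ∀ y : R, φ₀ y ∈ T := fun y => hom_mem E hφ₀ y
  have hx1 := hφeq x (hφ₀T x)
  have hφxT : φ x ∈ T := by
    rw [hx1]
    exact (β _).2
  rw [mem_invCore]
  refine ⟨hφxT, fun α hα => ?_⟩
  have h2 : α ⟨φ x, hφxT⟩ = (α * β) ⟨φ₀ x, hφ₀T x⟩ := by
    rw [MulAut.mul_apply]
    congr 1
    exact Subtype.ext hx1
  rw [h2]
  obtain ⟨χ, hχ, hχeq⟩ := hconj R hRT φ₀ hφ₀ (α * β) (mul_mem hα hβ)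
  have hγR : (R.subgroupOf T).map (T.subtype.comp (α * β).toMonoidHom) ≤ U := by
    rintro _ ⟨y, hy, rfl⟩
    obtain ⟨hyT, hy'⟩ := (mem_invCore F T U _).mp (hR hy)
    exact hy' (α * β) (mul_mem hα hβ)
  have hγx : (((α * β) ⟨x, hRT x.2⟩ : T) : Ω) ∈
      (R.subgroupOf T).map (T.subtype.comp (α * β).toMonoidHom) := ⟨⟨x, hRT x.2⟩, x.2, rfl⟩
  have h3 := hχeq x (hφ₀T x) hγx
  have h4 := hU.2 _ hγR χ hχ ⟨_, hγx⟩
  rw [h3] at h4
  exact h4

/-- S5159: a saturated system is solvable iff a normal (even invariant saturated) subsystem and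
the factor system modulo its underlying subgroup are solvable. -/
theorem solvable_iff_normal_factor [Finite S] (p : ℕ) [Fact p.Prime] (hS : IsPGroup p S)
    (F : FusionSystem S) (hF : F.IsSaturated p) {T : Subgroup Ω} (E : FusionSystem T)
    (hEsat : E.IsSaturated p) (hinv : E.IsInvariantIn F)
    {Ω' : Type*} [Group Ω'] {S' : Subgroup Ω'} (θ : S →* Ω') (D : FusionSystem S')
    (hD : F.IsFactorSystem T θ D) :
    F.IsSolvableSystem ↔ (E.IsSolvableSystem ∧ D.IsSolvableSystem) := by
  obtain ⟨hsub, hT, hconj, hfrat⟩ := id hinv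
  have hTS := hT.1
  have : Finite T := finite_of_le_finite hTS
  have hTp : IsPGroup p T := hS.to_le hTS
  have hsurj := factor_isSurjectiveMorphism p hS F hF T hT θ D hD
  have hDsat := saturated_image p hS F hF D θ hsurj
  have hker := hD.2.1
  have hrange := hD.2.2.1
  have hfin' : Finite S' := by
    rw [← hrange]
    exact Finite.of_surjective θ.rangeRestrict θ.rangeRestrict_surjective
  have hS'p : IsPGroup p S' := by
    rw [← hrange]
    exact hS.of_surjective θ.rangeRestrict θ.rangeRestrict_surjective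
  constructor
  · intro hFs
    obtain ⟨n, U, h0, hn, -, hsc, hab⟩ := (solvable_iff_chain p hS F hF).mp hFs
    constructor
    · apply solvable_of_chain p hTp E hEsat n (fun i => U i ⊓ T)
      · show U 0 ⊓ T = ⊥
        rw [h0]
        exact bot_inf_eq _
      · show U (Fin.last n) ⊓ T = T
        rw [hn]
        exact inf_eq_right.mpr hTS
      · intro i
        exact ⟨inf_le_right, fun R hR φ hφ x =>
          (stronglyClosed_inf F (hsc i) hT).2 R hR φ (hsub R hφ) x⟩
      · intro i
        exact le_inf ((Subgroup.commutator_mono inf_le_left inf_le_left).trans (hab i))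
          ((Subgroup.commutator_mono inf_le_right inf_le_right).trans
            (Subgroup.commutator_le_self T))
    · apply solvable_of_chain p hS'p D hDsat n (fun i => FusionSystem.imageAlong θ (U i))
      · show FusionSystem.imageAlong θ (U 0) = ⊥
        rw [h0]
        apply le_antisymm _ bot_le
        intro y hy
        obtain ⟨s, hs, rfl⟩ := (mem_imageAlong θ ⊥ y).mp hy
        have h1 : s = 1 := Subtype.ext (Subgroup.mem_bot.mp hs)
        rw [h1, map_one]
        exact Subgroup.one_mem _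
      · show FusionSystem.imageAlong θ (U (Fin.last n)) = S'
        rw [hn]
        ext y
        rw [mem_imageAlong, ← hrange]
        constructor
        · rintro ⟨s, -, rfl⟩
          exact ⟨s, rfl⟩
        · rintro ⟨s, rfl⟩
          exact ⟨s, s.2, rfl⟩
      · intro i
        exact stronglyClosed_image p hS F hF D θ hsurj (hsc i)
      · intro i
        show ⁅FusionSystem.imageAlong θ (U i.succ), FusionSystem.imageAlong θ (U i.succ)⁆ ≤
          FusionSystem.imageAlong θ (U i.castSucc)
        rw [Subgroup.commutator_le]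
        intro a ha b hb
        obtain ⟨s, hs, rfl⟩ := (mem_imageAlong θ _ a).mp ha
        obtain ⟨t, ht, rfl⟩ := (mem_imageAlong θ _ b).mp hb
        rw [mem_imageAlong]
        exact ⟨⁅s, t⁆, hab i (Subgroup.commutator_mem_commutator hs ht),
          map_commutatorElement θ s t⟩
  · rintro ⟨hEs, hDs⟩
    obtain ⟨m, U, hU0, hUm, -, hUsc, hUab⟩ := (solvable_iff_chain p hTp E hEsat).mp hEs
    obtain ⟨k, V, hV0, hVk, -, hVsc, hVab⟩ := (solvable_iff_chain p hS'p D hDsat).mp hDs
    obtain ⟨N, C, hC0, hCl, hCp, hCs⟩ := chain_concat (fun R => F.StronglyClosed R)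
      (fun A B => ⁅B, B⁆ ≤ A) m (fun i => invCore F T (U i)) k
      (fun j => FusionSystem.preimageAlong θ (V j))
      (by
        show invCore F T (U (Fin.last m)) = FusionSystem.preimageAlong θ (V 0)
        rw [hUm, hV0, invCore_self]
        ext x
        rw [mem_preimageAlong]
        constructor
        · intro hx
          exact ⟨hTS hx, Subgroup.mem_bot.mpr ((hker _).mpr hx)⟩
        · rintro ⟨hx, h⟩
          exact (hker ⟨x, hx⟩).mp (Subgroup.mem_bot.mp h))
      (fun i => invCore_stronglyClosed F E hinv (hUsc i))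
      (fun j => stronglyClosed_preimage F D θ hsurj.1 (hVsc j))
      (fun i => invCore_commutator_le F T (hUab i))
      (fun j => by
        show ⁅FusionSystem.preimageAlong θ (V j.succ), FusionSystem.preimageAlong θ (V j.succ)⁆ ≤
          FusionSystem.preimageAlong θ (V j.castSucc)
        rw [Subgroup.commutator_le]
        intro a ha b hb
        obtain ⟨haS, ha'⟩ := (mem_preimageAlong θ _ a).mp ha
        obtain ⟨hbS, hb'⟩ := (mem_preimageAlong θ _ b).mp hb
        rw [mem_preimageAlong]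
        have hcS : ⁅a, b⁆ ∈ S :=
          Subgroup.commutator_le_self S (Subgroup.commutator_mem_commutator haS hbS)
        refine ⟨hcS, ?_⟩
        have h1 : (⟨⁅a, b⁆, hcS⟩ : S) = ⁅(⟨a, haS⟩ : S), (⟨b, hbS⟩ : S)⁆ := Subtype.ext rfl
        rw [h1, map_commutatorElement]
        exact hVab j (Subgroup.commutator_mem_commutator ha' hb'))
    apply solvable_of_chain p hS F hF N C _ _ hCp hCs
    · rw [hC0]
      show invCore F T (U 0) = ⊥
      rw [hU0, invCore_bot]
    · rw [hCl]
      show FusionSystem.preimageAlong θ (V (Fin.last k)) = S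
      rw [hVk]
      ext x
      rw [mem_preimageAlong]
      constructor
      · rintro ⟨hx, -⟩
        exact hx
      · intro hx
        refine ⟨hx, ?_⟩
        rw [← hrange]
        exact ⟨_, rfl⟩

end Cfsg.Agent.Helper8
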