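import Mathlib

set_option autoImplicit false

namespace Cfsg.Agent.Helper8.Gleason

variable {α : Type*} [Finite α]

theorem orbit_card_mod {p : ℕ} [Fact p.Prime] (H P : Subgroup (Equiv.Perm α)) (hPH : P ≤ H)
    (hPp : IsPGroup p P) (t : Set α) (hHt : ∀ g ∈ H, ∀ z ∈ t, g z = z) (γ : α)
    (hfix : ∀ y, (∀ g ∈ P, g y = y) ↔ (y = γ ∨ y ∈ t)) (δ : α) (hδ : δ ∉ t) :
    (γ ∈ MulAction.orbit ↥H δ → Nat.card (MulAction.orbit ↥H δ) ≡ 1 [MOD p]) ∧
      (γ ∉ MulAction.orbit ↥H δ → Nat.card (MulAction.orbit ↥H δ) ≡ 0 [MOD p]) := by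
  have hK : IsPGroup p (P.subgroupOf H) := hPp.comap_subtype
  have hmod := hK.card_modEq_card_fixedPoints ↥(MulAction.orbit ↥H δ)
  have hnot : ∀ y ∈ MulAction.orbit ↥H δ, y ∉ t := by
    rintro _ ⟨g, rfl⟩ hy
    apply hδ
    have h1 : (g⁻¹ : ↥H) • (g • δ) = g • δ := hHt _ (g⁻¹).2 _ hy
    rw [inv_smul_smul] at h1
    rw [h1]
    exact hy
  have hchar : ∀ y : ↥(MulAction.orbit ↥H δ),
      y ∈ MulAction.fixedPoints ↥(P.subgroupOf H) ↥(MulAction.orbit ↥H δ) ↔ (y : α) = γ := by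
    intro y
    constructor
    · intro hy
      have h1 : ∀ g ∈ P, g (y : α) = y := by
        intro g hg
        have := hy ⟨⟨g, hPH hg⟩, hg⟩
        exact congrArg Subtype.val this
      rcases (hfix _).mp h1 with h2 | h2
      · exact h2
      · exact absurd h2 (hnot _ y.2)
    · intro hy k
      apply Subtype.ext
      have h1 := (hfix (y : α)).mpr (Or.inl hy) (k : ↥H) k.2
      exact h1
  refine ⟨fun hγ => ?_, fun hγ => ?_⟩
  · have h1 : MulAction.fixedPoints ↥(P.subgroupOf H) ↥(MulAction.orbit ↥H δ) = {⟨γ, hγ⟩} := by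
      ext y
      rw [hchar, Set.mem_singleton_iff, Subtype.ext_iff]
    rw [h1] at hmod
    simpa using hmod
  · have h1 : MulAction.fixedPoints ↥(P.subgroupOf H) ↥(MulAction.orbit ↥H δ) = ∅ := by
      ext y
      rw [hchar]
      simp only [Set.mem_empty_iff_false, iff_false]
      intro h
      exact hγ (h ▸ y.2)
    rw [h1] at hmod
    simpa using hmod

/-- Gleason's lemma, relative to a fixed set `t` -/
theorem gleason {p : ℕ} [Fact p.Prime] (H : Subgroup (Equiv.Perm α)) (t : Set α)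
    (hHt : ∀ g ∈ H, ∀ z ∈ t, g z = z)
    (hP : ∀ γ, γ ∉ t → ∃ P : Subgroup (Equiv.Perm α), P ≤ H ∧ IsPGroup p P ∧
      ∀ y, (∀ g ∈ P, g y = y) ↔ (y = γ ∨ y ∈ t))
    (γ δ : α) (hγ : γ ∉ t) (hδ : δ ∉ t) : ∃ g ∈ H, g γ = δ := by
  by_contra hcon
  have hδγ : δ ∉ MulAction.orbit ↥H γ := by
    rintro ⟨g, hg⟩
    exact hcon ⟨g, g.2, hg⟩
  have hγδ : γ ∉ MulAction.orbit ↥H δ := by
    intro h
    exact hδγ ((MulAction.orbitRel ↥H α).symm h)
  obtain ⟨P, hPH, hPp, hfix⟩ := hP γ hγ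
  obtain ⟨P', hPH', hPp', hfix'⟩ := hP δ hδ
  have h0 := (orbit_card_mod H P hPH hPp t hHt γ hfix δ hδ).2 hγδ
  have h1 := (orbit_card_mod H P' hPH' hPp' t hHt δ hfix' δ hδ).1 (MulAction.mem_orbit_self δ)
  have h2 : (0 : ℕ) ≡ 1 [MOD p] := h0.symm.trans h1
  have h3 : p ∣ 1 := (Nat.modEq_zero_iff_dvd.mp h2.symm)
  exact (Fact.out : p.Prime).one_lt.ne' (Nat.dvd_one.mp h3)

end Cfsg.Agent.Helper8.Gleason
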