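import Cfsg.Agent.Helper8.FusionChain
import Cfsg.Agent.Helper8.FusionQuasi
import Cfsg.Agent.S5076
import Cfsg.Prelude.Def_TwoFusion

set_option autoImplicit false

namespace Cfsg.Agent.Helper8

open Cfsg
open scoped commutatorElement

/-- S5107: class at most two with strongly closed centre: `N_G(S)` controls fusion and `S` is
normal in the fusion system. -/
theorem class_two_center_closed {G : Type*} [Group G] [Finite G] (p : ℕ) [Fact p.Prime]
    (S : Sylow p G)
    (hcl : ⁅(S : Subgroup G), (S : Subgroup G)⁆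
      ≤ (S : Subgroup G) ⊓ Subgroup.centralizer ((S : Subgroup G) : Set G))
    (hZ : IsStronglyClosed ((S : Subgroup G) ⊓ Subgroup.centralizer ((S : Subgroup G) : Set G))
      (S : Subgroup G)) :
    (∀ (P : Subgroup G) (φ : P →* G), φ ∈ (groupFusionSystem (S : Subgroup G)).Hom P →
      ∃ g ∈ Subgroup.normalizer ((S : Subgroup G) : Set G), ∀ x : P, φ x = g * (x : G) * g⁻¹) ∧
    (groupFusionSystem (S : Subgroup G)).core = S := by
  have hF := Cfsg.Agent.S5076.result p S
  have hSp : IsPGroup p (S : Subgroup G) := S.isPGroup'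
  have hZsc : (groupFusionSystem (S : Subgroup G)).StronglyClosed
      ((S : Subgroup G) ⊓ Subgroup.centralizer ((S : Subgroup G) : Set G)) := by
    refine ⟨hZ.1, fun R hR φ hφ x => ?_⟩
    obtain ⟨-, hφS, g, hg⟩ := hφ
    have h1 := hφS x
    rw [hg x] at h1 ⊢
    exact hZ.2 _ (hR x.2) g h1
  have hSsc := stronglyClosed_top' (groupFusionSystem (S : Subgroup G))
  have hn : (groupFusionSystem (S : Subgroup G)).IsNormal (S : Subgroup G) := by
    apply normal_of_chain p hSp _ hF (S : Subgroup G) 2
      ![⊥, (S : Subgroup G) ⊓ Subgroup.centralizer ((S : Subgroup G) : Set G), (S : Subgroup G)]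
      rfl rfl
    intro i
    fin_cases i
    · refine ⟨hZsc, ?_⟩
      show ⁅(S : Subgroup G), (S : Subgroup G) ⊓ Subgroup.centralizer ((S : Subgroup G) : Set G)⁆
        ≤ ⊥
      rw [Subgroup.commutator_le]
      intro a ha b hb
      have hcomm : a * b = b * a := (Subgroup.mem_centralizer_iff.mp hb.2 a ha)
      rw [Subgroup.mem_bot, commutatorElement_def, hcomm]
      group
    · exact ⟨hSsc, hcl⟩
  constructor
  · intro P φ hφ
    have hPS := hom_le _ hφ
    obtain ⟨α, hα, hαφ⟩ := autGroup_controls_of_normal _ hn P hPS φ hφ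
    have hαF : (S : Subgroup G).subtype.comp α.toMonoidHom
        ∈ (groupFusionSystem (S : Subgroup G)).Hom (S : Subgroup G) :=
      (mem_autGroup_iff _ le_rfl α).mp hα
    obtain ⟨-, -, g, hg⟩ := hαF
    refine ⟨g, mem_normalizer_of_conj_eq (α := α) hg, fun x => ?_⟩
    rw [← hαφ x]
    exact hg _
  · apply le_antisymm
    · exact sSup_le (fun Q hQ => hQ.1)
    · exact le_sSup hn

end Cfsg.Agent.Helper8
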