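import Mathlib
import Cfsg.Agent.Helper8.FusionFocal
import Cfsg.Agent.Helper8.FusionModel
import Cfsg.Agent.Helper8.PResidual
import Cfsg.Agent.Helper8.FusionHyperfocal
import Cfsg.Agent.Lead.PGroupFrattini
import Cfsg.Agent.Helper5.StrEmb

set_option autoImplicit false

namespace Cfsg.Agent.Helper8

open Cfsg

open scoped commutatorElement

variable {G : Type*} [Group G]

theorem pow_conj_apply {P : Subgroup G} (α : MulAut P) (g : G)
    (h : ∀ x : P, ((α x : P) : G) = g * x * g⁻¹) (n : ℕ) :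
    ∀ x : P, (((α ^ n) x : P) : G) = g ^ n * x * (g ^ n)⁻¹ := by
  induction n with
  | zero => intro x; simp
  | succ n ih =>
    intro x
    rw [pow_succ, MulAut.mul_apply, ih, h, pow_succ]
    group

/-- Elements of `O^p(Aut_G(P))` are induced by elements of `O^p(G)`. -/
theorem exists_conj_of_mem_pResidual_autGroup [Finite G] (p : ℕ) [Fact p.Prime] {S P : Subgroup G}
    (hP : P ≤ S) (α : (groupFusionSystem S).autGroup P)
    (hα : α ∈ pResidual p ((groupFusionSystem S).autGroup P)) :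
    ∃ g ∈ pResidual p G, ∀ x : P, (((α : MulAut P) x : P) : G) = g * x * g⁻¹ := by
  have : Finite (MulAut P) := MulEquiv.finite_left
  unfold pResidual at hα
  induction hα using Subgroup.closure_induction with
  | mem α hα =>
    have hiso : P.subtype.comp (α : MulAut P).toMonoidHom ∈ (groupFusionSystem S).Hom P :=
      (mem_autGroup_iff _ hP _).mp α.2
    obtain ⟨-, -, g, hg⟩ := hiso
    have hg' : ∀ x : P, (((α : MulAut P) x : P) : G) = g * x * g⁻¹ := fun x => hg x
    obtain ⟨k, hk⟩ := exists_pow_mem_pResidual p g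
    have hcop : Nat.Coprime (orderOf α) p := hα
    by_cases h1 : orderOf α = 1
    · refine ⟨1, one_mem _, fun x => ?_⟩
      rw [orderOf_eq_one_iff] at h1
      rw [h1]
      simp
    · have hpos : 0 < orderOf α := orderOf_pos α
      have hlt : 1 < orderOf α := by omega
      obtain ⟨j, -, hj⟩ := Nat.exists_mul_mod_eq_one_of_coprime
        (Nat.Coprime.symm (Nat.Coprime.pow_right k hcop)) hlt
      refine ⟨(g ^ (p ^ k)) ^ j, pow_mem hk j, fun x => ?_⟩
      have h2 : α ^ (p ^ k * j) = α := by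
        rw [← pow_mod_orderOf, hj, pow_one]
      have h3 := pow_conj_apply (α : MulAut P) g hg' (p ^ k * j) x
      rw [← pow_mul, ← h3]
      have h4 : (α : MulAut P) ^ (p ^ k * j) = (α : MulAut P) := by
        have := congrArg Subtype.val h2
        exact this
      rw [h4]
  | one => exact ⟨1, one_mem _, fun x => by simp⟩
  | mul a b _ _ ha hb =>
    obtain ⟨g, hg, h1⟩ := ha
    obtain ⟨g', hg', h2⟩ := hb
    refine ⟨g * g', mul_mem hg hg', fun x => ?_⟩
    show ((((a : MulAut P) * (b : MulAut P)) x : P) : G) = _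
    rw [MulAut.mul_apply, h1, h2]
    group
  | inv a _ ha =>
    obtain ⟨g, hg, h1⟩ := ha
    refine ⟨g⁻¹, inv_mem hg, fun x => ?_⟩
    have h2 := h1 ((a : MulAut P)⁻¹ x)
    rw [MulAut.apply_inv_self] at h2
    show ((((a : MulAut P)⁻¹) x : P) : G) = _
    rw [h2]
    group

theorem group_hyperfocal_le [Finite G] (p : ℕ) [Fact p.Prime] (S : Subgroup G) :
    (groupFusionSystem S).hyperfocalSubgroup p ≤ S ⊓ pResidual p G := by
  apply le_inf (hyperfocal_le _ p)
  unfold FusionSystem.hyperfocalSubgroup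
  rw [Subgroup.closure_le]
  rintro y ⟨P, α, x, hPS, hα, rfl⟩
  obtain ⟨g, hg, h⟩ := exists_conj_of_mem_pResidual_autGroup p hPS α hα
  show (x : G)⁻¹ * (((α : MulAut P) x : P) : G) ∈ pResidual p G
  rw [h x]
  have hn := pResidual_normal p G
  have h1 := hn.conj_mem g hg (x : G)⁻¹
  have h2 : (x : G)⁻¹ * (g * x * g⁻¹) = ((x : G)⁻¹ * g * ((x : G)⁻¹)⁻¹) * g⁻¹ := by group
  rw [h2]
  exact mul_mem h1 (inv_mem hg)

/-- A `p`-element of `O^p(G)` lies in the derived subgroup of `O^p(G)`. -/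
theorem mem_commutator_pResidual [Finite G] (p : ℕ) [Fact p.Prime]
    (x : ↥(pResidual p G)) (hx : ∃ k : ℕ, x ^ (p ^ k) = 1) :
    x ∈ commutator ↥(pResidual p G) := by
  have key : ∀ g ∈ Subgroup.closure {g : G | Nat.Coprime (orderOf g) p},
      ∃ hg : g ∈ pResidual p G,
        Nat.Coprime (orderOf (Abelianization.of (⟨g, hg⟩ : ↥(pResidual p G)))) p := by
    intro g hg
    induction hg using Subgroup.closure_induction with
    | mem g hg =>
      refine ⟨Subgroup.subset_closure hg, ?_⟩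
      apply Nat.Coprime.coprime_dvd_left (orderOf_map_dvd _ _)
      have h0 : orderOf (⟨g, Subgroup.subset_closure hg⟩ : ↥(pResidual p G)) = orderOf g :=
        Subgroup.orderOf_mk g _
      rw [h0]
      exact hg
    | one =>
      refine ⟨one_mem _, ?_⟩
      have h1 : (⟨1, one_mem _⟩ : ↥(pResidual p G)) = 1 := rfl
      rw [h1, map_one, orderOf_one]
      exact Nat.coprime_one_left p
    | mul a b _ _ ha hb =>
      obtain ⟨ha', ha2⟩ := ha
      obtain ⟨hb', hb2⟩ := hb
      refine ⟨mul_mem ha' hb', ?_⟩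
      have h1 : (⟨a * b, mul_mem ha' hb'⟩ : ↥(pResidual p G)) = ⟨a, ha'⟩ * ⟨b, hb'⟩ := rfl
      rw [h1, map_mul]
      exact Nat.Coprime.coprime_dvd_left
        ((Commute.all _ _).orderOf_mul_dvd_lcm.trans (Nat.lcm_dvd_mul _ _))
        (Nat.Coprime.mul_left ha2 hb2)
    | inv a _ ha =>
      obtain ⟨ha', ha2⟩ := ha
      refine ⟨inv_mem ha', ?_⟩
      have h1 : (⟨a⁻¹, inv_mem ha'⟩ : ↥(pResidual p G)) = ⟨a, ha'⟩⁻¹ := rfl
      rw [h1, map_inv, orderOf_inv]
      exact ha2
  obtain ⟨k, hk⟩ := hx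
  obtain ⟨hg, h1'⟩ := key x x.2
  have h1 : Nat.Coprime (orderOf (Abelianization.of x)) p := h1'
  have h2 : orderOf (Abelianization.of x) ∣ p ^ k := by
    apply orderOf_dvd_of_pow_eq_one
    rw [← map_pow, hk, map_one]
  have h3 : orderOf (Abelianization.of x) = 1 := Nat.Coprime.eq_one_of_dvd (Nat.Coprime.pow_right k h1) h2
  rw [orderOf_eq_one_iff] at h3
  rw [← Abelianization.ker_of]
  exact h3

/-- The fusion system of a subgroup `K` on a Sylow subgroup of `K` is saturated. -/
theorem fusionSystemOfSubgroup_saturated [Finite G] (p : ℕ) [Fact p.Prime] (K T : Subgroup G)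
    (hTK : T ≤ K) (R : Sylow p K) (hR : (R : Subgroup K).map K.subtype = T) :
    (fusionSystemOfSubgroup K T hTK).IsSaturated p := by
  apply saturated_of_realized p _ (Subgroup.inclusion hTK) ?_ R ?_
  · refine ⟨Subgroup.inclusion_injective hTK, fun P hP φ hφ => ?_⟩
    constructor
    · rintro ⟨-, -, g, hg, h⟩
      exact ⟨⟨g, hg⟩, fun x => Subtype.ext (h x)⟩
    · rintro ⟨g, h⟩
      exact ⟨hP, hφ, g, g.2, fun x => congrArg Subtype.val (h x)⟩
  · ext x
    constructor
    · intro hx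
      have h1 : (x : G) ∈ T := by
        rw [← hR]
        exact ⟨x, hx, rfl⟩
      exact ⟨⟨x, h1⟩, Subtype.ext rfl⟩
    · rintro ⟨t, rfl⟩
      have h1 : (t : G) ∈ (R : Subgroup K).map K.subtype := by
        rw [hR]
        exact t.2
      obtain ⟨y, hy, hyt⟩ := h1
      have h2 : y = Subgroup.inclusion hTK t := Subtype.ext hyt
      rw [← h2]
      exact hy

/-- A finite `p`-group generated by a subgroup and its derived subgroup is that subgroup. -/
theorem le_of_le_sup_commutator {p : ℕ} [Fact p.Prime] {T H : Subgroup G} [Finite T]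
    (hT : IsPGroup p T) (hH : H ≤ T) (h : T ≤ H ⊔ ⁅T, T⁆) : T ≤ H := by
  have h3 : ⁅T, T⁆ ≤ T := Subgroup.commutator_le_self T
  have h1 : H.subgroupOf T ⊔ frattini ↥T = ⊤ := by
    rw [eq_top_iff]
    intro t _
    have h2 : (t : G) ∈ H ⊔ ⁅T, T⁆ := h t.2
    have h4 : t ∈ (H ⊔ ⁅T, T⁆).subgroupOf T := h2
    rw [Subgroup.subgroupOf_sup hH h3] at h4
    have h7 : (⁅T, T⁆).subgroupOf T ≤ frattini ↥T := by
      intro z hz
      apply Cfsg.Agent.Lead.commutator_le_frattini_of_isPGroup p hT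
      rw [← Subgroup.map_subtype_commutator] at hz
      obtain ⟨w, hw, hwz⟩ := hz
      have h5 : w = z := Subtype.ext hwz
      rw [← h5]
      exact hw
    exact (sup_le_sup_left h7 _) h4
  have h5 := frattini_nongenerating h1
  intro t ht
  have h6 : (⟨t, ht⟩ : T) ∈ H.subgroupOf T := by
    rw [h5]
    trivial
  exact h6

/-- The hyperfocal subgroup of a subsystem is contained in that of the system. -/
theorem hyperfocal_mono {Ω : Type*} [Group Ω] {S T : Subgroup Ω} (E : FusionSystem T)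
    (F : FusionSystem S) (hTS : T ≤ S) (h : E.IsSubsystemOf F) (p : ℕ) :
    E.hyperfocalSubgroup p ≤ F.hyperfocalSubgroup p := by
  unfold FusionSystem.hyperfocalSubgroup
  rw [Subgroup.closure_le]
  rintro y ⟨P, α, x, hPT, hα, rfl⟩
  have hle : E.autGroup P ≤ F.autGroup P := Subgroup.closure_mono (fun β hβ => h P hβ)
  apply Subgroup.subset_closure
  exact ⟨P, Subgroup.inclusion hle α, x, hPT.trans hTS,
    map_mem_pResidual p (Subgroup.inclusion hle) (Subgroup.inclusion_injective hle) hα, rfl⟩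

/-- `S ∩ O^p(G)` is the focal subgroup of the fusion system of `O^p(G)` on it. -/
theorem le_focal_pResidual [Finite G] (p : ℕ) [Fact p.Prime] (S : Sylow p G) :
    (S : Subgroup G) ⊓ pResidual p G ≤ (fusionSystemOfSubgroup (pResidual p G)
      ((S : Subgroup G) ⊓ pResidual p G) inf_le_right).focalSubgroup := by
  have := pResidual_normal p G
  obtain ⟨R, hR⟩ := Cfsg.Agent.Helper5.exists_sylow_map_eq_inf S (pResidual p G)
  have hRc : (R : Subgroup ↥(pResidual p G)) ≤ commutator ↥(pResidual p G) := by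
    intro x hx
    apply mem_commutator_pResidual p x
    obtain ⟨k, hk⟩ := R.isPGroup' ⟨x, hx⟩
    exact ⟨k, congrArg Subtype.val hk⟩
  have hfoc := Subgroup.commutator_inf_eq_focalSubgroup R
  have hRf : (R : Subgroup ↥(pResidual p G)) ≤
      (R : Subgroup ↥(pResidual p G)).focalSubgroup := by
    rw [← hfoc]
    exact le_inf hRc le_rfl
  have hmem : ∀ y : ↥(pResidual p G), y ∈ (R : Subgroup ↥(pResidual p G)) ↔
      (y : G) ∈ (S : Subgroup G) ⊓ pResidual p G := by
    intro y
    rw [← hR]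
    constructor
    · intro hy
      exact ⟨y, hy, rfl⟩
    · rintro ⟨w, hw, hwy⟩
      have h5 : w = y := Subtype.ext hwy
      rw [← h5]
      exact hw
  have hle : (R : Subgroup ↥(pResidual p G)).focalSubgroup ≤
      ((fusionSystemOfSubgroup (pResidual p G)
      ((S : Subgroup G) ⊓ pResidual p G) inf_le_right).focalSubgroup).comap
        (pResidual p G).subtype := by
    unfold Subgroup.focalSubgroup
    rw [Subgroup.closure_le]
    rintro g ⟨hgR, x, hxR, u, rfl⟩
    refine Subgroup.mem_comap.mpr ?_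
    rw [Subgroup.subtype_apply]
    have hxT := (hmem x).mp hxR
    have hgT := (hmem (⁅x, u⁆ : ↥(pResidual p G))).mp hgR
    have hval : ((⁅x, u⁆ : ↥(pResidual p G)) : G) = (x : G) * u * (x : G)⁻¹ * (u : G)⁻¹ := by
      rw [commutatorElement_def]
      rfl
    rw [hval] at hgT ⊢
    have hconj : (u : G) * (x : G)⁻¹ * (u : G)⁻¹ ∈ (S : Subgroup G) ⊓ pResidual p G := by
      have h1 : (u : G) * (x : G)⁻¹ * (u : G)⁻¹ =
          (x : G)⁻¹ * ((x : G) * u * (x : G)⁻¹ * (u : G)⁻¹) := by group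
      rw [h1]
      exact mul_mem (inv_mem hxT) hgT
    have hPT : Subgroup.zpowers (x : G)⁻¹ ≤ (S : Subgroup G) ⊓ pResidual p G :=
      Subgroup.zpowers_le.mpr (inv_mem hxT)
    have hPc : Subgroup.zpowers (x : G)⁻¹ ≤
        ((S : Subgroup G) ⊓ pResidual p G).comap (MulAut.conj (u : G)).toMonoidHom :=
      Subgroup.zpowers_le.mpr hconj
    apply Subgroup.subset_closure
    refine ⟨Subgroup.zpowers (x : G)⁻¹, conjHom _ (u : G),
      ⟨(x : G)⁻¹, Subgroup.mem_zpowers _⟩, ⟨hPT, fun z => hPc z.2, (u : G), u.2, fun z => rfl⟩, ?_⟩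
    show (x : G) * u * (x : G)⁻¹ * (u : G)⁻¹ = ((x : G)⁻¹)⁻¹ * ((u : G) * (x : G)⁻¹ * (u : G)⁻¹)
    group
  intro t ht
  have h1 : (⟨t, ht.2⟩ : ↥(pResidual p G)) ∈ (R : Subgroup ↥(pResidual p G)) :=
    (hmem _).mpr ht
  exact hle (hRf h1)

/-- **Hyperfocal subgroup theorem** for groups. -/
theorem group_hyperfocal_eq [Finite G] (p : ℕ) [Fact p.Prime] (S : Sylow p G) :
    (groupFusionSystem (S : Subgroup G)).hyperfocalSubgroup p =
      (S : Subgroup G) ⊓ pResidual p G := by
  apply le_antisymm (group_hyperfocal_le p _)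
  have := pResidual_normal p G
  obtain ⟨R, hR⟩ := Cfsg.Agent.Helper5.exists_sylow_map_eq_inf S (pResidual p G)
  have hTp : IsPGroup p ↥((S : Subgroup G) ⊓ pResidual p G) := S.isPGroup'.to_le inf_le_left
  have hsat := fusionSystemOfSubgroup_saturated p (pResidual p G)
    ((S : Subgroup G) ⊓ pResidual p G) inf_le_right R hR
  have h1 := le_focal_pResidual p S
  have h2 := focal_le p hTp _ hsat
  have h3 := le_of_le_sup_commutator hTp (hyperfocal_le _ p) (h1.trans h2)
  refine h3.trans (hyperfocal_mono _ _ inf_le_left ?_ p)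
  rintro P φ ⟨hP, hφT, g, -, h⟩
  exact ⟨hP.trans inf_le_left, fun x => (hφT x).1, g, h⟩

end Cfsg.Agent.Helper8
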