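import Mathlib
import Cfsg.Agent.Helper8.GroupGES
import Cfsg.Prelude.Def_Transfer

set_option autoImplicit false
set_option maxHeartbeats 1000000

namespace Cfsg.Agent.Helper8.Hamilton

open scoped Pointwise

variable {G : Type*} [Group G] [Finite G]

theorem conj_mem_zpowers (hn : ∀ H : Subgroup G, H.Normal) (g u : G) :
    g * u * g⁻¹ ∈ Subgroup.zpowers u :=
  (hn (Subgroup.zpowers u)).conj_mem u (Subgroup.mem_zpowers u) g

theorem exists_nat_pow (u v : G) (h : v ∈ Subgroup.zpowers u) : ∃ r : ℕ, u ^ r = v := by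
  have := (mem_powers_iff_mem_zpowers).mpr h
  exact (Submonoid.mem_powers_iff _ _).mp this

theorem core (hn : ∀ H : Subgroup G, H.Normal) (x y : G) (hxy : x * y ≠ y * x)
    (hmin : ∀ x' y' : G, x' * y' ≠ y' * x' → orderOf x + orderOf y ≤ orderOf x' + orderOf y')
    (hle : orderOf y ≤ orderOf x) :
    x ^ 4 = 1 ∧ x ^ 2 ≠ 1 ∧ y ^ 2 = x ^ 2 ∧ y * x * y⁻¹ = x⁻¹ := by
  classical
  set c : G := x * y * x⁻¹ * y⁻¹ with hc
  have hc1 : c ≠ 1 := by
    intro h; apply hxy
    have : x * y = c * (y * x) := by rw [hc]; group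
    rw [this, h, one_mul]
  have hcx : c ∈ Subgroup.zpowers x := by
    have h1 : y * x⁻¹ * y⁻¹ ∈ Subgroup.zpowers x := by
      have := conj_mem_zpowers hn y x⁻¹
      rwa [Subgroup.zpowers_inv] at this
    have : c = x * (y * x⁻¹ * y⁻¹) := by rw [hc]; group
    rw [this]; exact Subgroup.mul_mem _ (Subgroup.mem_zpowers x) h1
  have hcy : c ∈ Subgroup.zpowers y := by
    have h1 : x * y * x⁻¹ ∈ Subgroup.zpowers y := conj_mem_zpowers hn x y
    exact Subgroup.mul_mem _ h1 (Subgroup.inv_mem _ (Subgroup.mem_zpowers y))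
  have hccx : Commute c x := by
    obtain ⟨k, hk⟩ := Subgroup.mem_zpowers_iff.mp hcx
    rw [← hk]; exact (Commute.refl x).zpow_left k
  have hccy : Commute c y := by
    obtain ⟨k, hk⟩ := Subgroup.mem_zpowers_iff.mp hcy
    rw [← hk]; exact (Commute.refl y).zpow_left k
  have hyx : y * x = c⁻¹ * x * y := by rw [hc]; group
  have hxy' : x * y = c * y * x := by rw [hc]; group
  have hyxE : ∀ E : ℕ, y * x ^ E = (c⁻¹) ^ E * x ^ E * y := by
    intro E
    induction E with
    | zero => simp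
    | succ E ih =>
      have e1 : x ^ E * c⁻¹ = c⁻¹ * x ^ E := ((hccx.inv_left).pow_right E).eq.symm
      calc y * x ^ (E + 1) = (y * x ^ E) * x := by rw [pow_succ, mul_assoc]
        _ = (c⁻¹) ^ E * x ^ E * (y * x) := by rw [ih]; simp only [mul_assoc]
        _ = (c⁻¹) ^ E * x ^ E * (c⁻¹ * x * y) := by rw [hyx]
        _ = (c⁻¹) ^ E * (x ^ E * c⁻¹) * x * y := by simp only [mul_assoc]
        _ = (c⁻¹) ^ E * (c⁻¹ * x ^ E) * x * y := by rw [e1]
        _ = (c⁻¹) ^ (E + 1) * x ^ (E + 1) * y := by rw [pow_succ, pow_succ]; simp only [mul_assoc]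
  have hxyE : ∀ E : ℕ, x * y ^ E = c ^ E * y ^ E * x := by
    intro E
    induction E with
    | zero => simp
    | succ E ih =>
      have e1 : y ^ E * c = c * y ^ E := (hccy.pow_right E).eq.symm
      calc x * y ^ (E + 1) = (x * y ^ E) * y := by rw [pow_succ, mul_assoc]
        _ = c ^ E * y ^ E * (x * y) := by rw [ih]; simp only [mul_assoc]
        _ = c ^ E * y ^ E * (c * y * x) := by rw [hxy']
        _ = c ^ E * (y ^ E * c) * y * x := by simp only [mul_assoc]
        _ = c ^ E * (c * y ^ E) * y * x := by rw [e1]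
        _ = c ^ (E + 1) * y ^ (E + 1) * x := by rw [pow_succ, pow_succ]; simp only [mul_assoc]
  have hF3x : ∀ n : ℕ, x ^ n * y = y * x ^ n → c ^ n = 1 := by
    intro n h
    have h2 := hyxE n
    rw [← h] at h2
    have h3 : (c⁻¹) ^ n = 1 := by
      have : (c⁻¹) ^ n * (x ^ n * y) = 1 * (x ^ n * y) := by rw [one_mul, ← mul_assoc]; exact h2.symm
      exact mul_right_cancel this
    rwa [inv_pow, inv_eq_one] at h3
  have hF3y : ∀ n : ℕ, y ^ n * x = x * y ^ n → c ^ n = 1 := by
    intro n h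
    have h2 := hxyE n
    rw [← h] at h2
    have : c ^ n * (y ^ n * x) = 1 * (y ^ n * x) := by rw [one_mul, ← mul_assoc]; exact h2.symm
    exact mul_right_cancel this
  have hx1 : x ≠ 1 := by rintro rfl; exact hxy (by simp)
  have hy1 : y ≠ 1 := by rintro rfl; exact hxy (by simp)
  have hox1 : orderOf x ≠ 1 := fun h => hx1 (orderOf_eq_one_iff.mp h)
  have hoy1 : orderOf y ≠ 1 := fun h => hy1 (orderOf_eq_one_iff.mp h)
  have hpx : ∀ q : ℕ, q.Prime → q ∣ orderOf x → c ^ q = 1 := by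
    intro q hq hdvd
    apply hF3x
    by_contra hne
    have h1 := hmin (x ^ q) y hne
    have h2 : orderOf (x ^ q) = orderOf x / q := orderOf_pow_of_dvd hq.ne_zero hdvd
    have h3 : orderOf x / q < orderOf x := Nat.div_lt_self (orderOf_pos x) hq.one_lt
    omega
  have hpy : ∀ q : ℕ, q.Prime → q ∣ orderOf y → c ^ q = 1 := by
    intro q hq hdvd
    apply hF3y
    by_contra hne
    have h1 := hmin x (y ^ q) (fun h => hne h.symm)
    have h2 : orderOf (y ^ q) = orderOf y / q := orderOf_pow_of_dvd hq.ne_zero hdvd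
    have h3 : orderOf y / q < orderOf y := Nat.div_lt_self (orderOf_pos y) hq.one_lt
    omega
  obtain ⟨p, hp, hpdx⟩ := Nat.exists_prime_and_dvd hox1
  haveI := Fact.mk hp
  have hoc : orderOf c = p := orderOf_eq_prime (hpx p hp hpdx) hc1
  have hcp : c ^ p = 1 := hpx p hp hpdx
  have hux : ∀ {q : ℕ}, q.Prime → q ∣ orderOf x → q = p := by
    intro q hq hdvd
    have h1 : orderOf c ∣ q := orderOf_dvd_of_pow_eq_one (hpx q hq hdvd)
    rw [hoc] at h1
    exact ((Nat.prime_dvd_prime_iff_eq hp hq).mp h1).symm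
  have huy : ∀ {q : ℕ}, q.Prime → q ∣ orderOf y → q = p := by
    intro q hq hdvd
    have h1 : orderOf c ∣ q := orderOf_dvd_of_pow_eq_one (hpy q hq hdvd)
    rw [hoc] at h1
    exact ((Nat.prime_dvd_prime_iff_eq hp hq).mp h1).symm
  obtain ⟨a, hoxa⟩ : ∃ a, orderOf x = p ^ a :=
    ⟨_, Nat.eq_prime_pow_of_unique_prime_dvd (orderOf_pos x).ne' hux⟩
  obtain ⟨b, hoyb⟩ : ∃ b, orderOf y = p ^ b :=
    ⟨_, Nat.eq_prime_pow_of_unique_prime_dvd (orderOf_pos y).ne' huy⟩
  have ha1 : 1 ≤ a := by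
    by_contra h
    have : a = 0 := by omega
    rw [this, pow_zero] at hoxa; exact hox1 hoxa
  have hb1 : 1 ≤ b := by
    by_contra h
    have : b = 0 := by omega
    rw [this, pow_zero] at hoyb; exact hoy1 hoyb
  have hba : b ≤ a := by
    rw [hoxa, hoyb] at hle
    exact (Nat.pow_le_pow_iff_right hp.one_lt).mp hle
  -- Y
  have hYp : (y ^ p ^ (b - 1)) ^ p = 1 := by
    rw [← pow_mul, ← pow_succ, show b - 1 + 1 = b by omega, ← hoyb]; exact pow_orderOf_eq_one y
  have hYc : y ^ p ^ (b - 1) ∈ Subgroup.zpowers c := by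
    obtain ⟨r, hr⟩ := exists_nat_pow y c hcy
    have h1 : y ^ (r * p) = 1 := by rw [pow_mul, hr]; exact hcp
    have h2 : p ^ b ∣ r * p := by rw [← hoyb]; exact orderOf_dvd_of_pow_eq_one h1
    have h3 : p ^ (b - 1) ∣ r := by
      have : p ^ (b - 1) * p ∣ r * p := by rw [← pow_succ, show b - 1 + 1 = b by omega]; exact h2
      exact Nat.dvd_of_mul_dvd_mul_right hp.pos this
    obtain ⟨r', hr'⟩ := h3
    have hcY : c = (y ^ p ^ (b - 1)) ^ r' := by rw [← pow_mul, ← hr', hr]
    have hnd : ¬ p ∣ r' := by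
      rintro ⟨m, hm⟩
      apply hc1
      rw [hcY, hm, pow_mul, hYp, one_pow]
    have hcop : Nat.Coprime r' p := (Nat.Prime.coprime_iff_not_dvd hp).mpr hnd |>.symm
    obtain ⟨m, -, hm⟩ := Nat.exists_mul_mod_eq_one_of_coprime hcop hp.one_lt
    have : y ^ p ^ (b - 1) = c ^ m := by
      rw [hcY, ← pow_mul, pow_eq_pow_mod (r' * m) hYp, hm, pow_one]
    rw [this]; exact Subgroup.pow_mem _ (Subgroup.mem_zpowers c) m
  have hYx : (y ^ p ^ (b - 1))⁻¹ ∈ Subgroup.zpowers x := by
    apply Subgroup.inv_mem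
    have : Subgroup.zpowers c ≤ Subgroup.zpowers x := Subgroup.zpowers_le.mpr hcx
    exact this hYc
  obtain ⟨t, ht⟩ := exists_nat_pow x _ hYx
  have ht1 : x ^ (t * p) = 1 := by
    rw [pow_mul, ht, inv_pow, hYp, inv_one]
  have ht2 : p ^ (a - 1) ∣ t := by
    have h2 : p ^ a ∣ t * p := by rw [← hoxa]; exact orderOf_dvd_of_pow_eq_one ht1
    have : p ^ (a - 1) * p ∣ t * p := by rw [← pow_succ, show a - 1 + 1 = a by omega]; exact h2
    exact Nat.dvd_of_mul_dvd_mul_right hp.pos this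
  obtain ⟨t', ht'⟩ := ht2
  set E : ℕ := p ^ (a - b) * t' with hE
  set n : ℕ := p ^ (b - 1) with hn'
  have hwn : (x ^ E) ^ n = (y ^ n)⁻¹ := by
    rw [← pow_mul, hE, hn', ← ht, ht']
    congr 1
    have : p ^ (a - b) * p ^ (b - 1) = p ^ (a - 1) := by
      rw [← pow_add]; congr 1; omega
    calc p ^ (a - b) * t' * p ^ (b - 1) = (p ^ (a - b) * p ^ (b - 1)) * t' := by ring
      _ = p ^ (a - 1) * t' := by rw [this]
  -- class two formula
  have hform := Cfsg.Agent.Helper8.mul_pow_class2 (a := x ^ E) (b := y) (c := (c⁻¹) ^ E)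
    (hyxE E) (((hccx.inv_left).pow_pow E E).eq) ((hccy.inv_left.pow_left E).eq) n
  rw [hwn] at hform
  have hy1n : (x ^ E * y) ^ n = (c⁻¹) ^ (E * n.choose 2) := by
    rw [hform, mul_assoc, inv_mul_cancel, mul_one, ← pow_mul]
  have hnc : x * (x ^ E * y) ≠ (x ^ E * y) * x := by
    intro h
    apply hxy
    have e1 : x * x ^ E = x ^ E * x := ((Commute.refl x).pow_right E).eq
    have : x ^ E * (x * y) = x ^ E * (y * x) := by
      calc x ^ E * (x * y) = (x * x ^ E) * y := by rw [e1]; simp only [mul_assoc]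
        _ = x * (x ^ E * y) := by simp only [mul_assoc]
        _ = (x ^ E * y) * x := h
        _ = x ^ E * (y * x) := by simp only [mul_assoc]
    exact mul_left_cancel this
  have hkey : ¬ p ∣ E * n.choose 2 := by
    rintro ⟨m, hm⟩
    have h1 : (x ^ E * y) ^ n = 1 := by
      rw [hy1n, hm, pow_mul, inv_pow, hcp, inv_one, one_pow]
    have h2 : orderOf (x ^ E * y) ∣ n := orderOf_dvd_of_pow_eq_one h1
    have h3 : orderOf (x ^ E * y) ≤ n := Nat.le_of_dvd (by rw [hn']; exact pow_pos hp.pos _) h2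
    have h4 : n < orderOf y := by
      rw [hoyb, hn']; exact Nat.pow_lt_pow_right hp.one_lt (by omega)
    have h5 := hmin x (x ^ E * y) hnc
    omega
  -- consequences
  have hab : a = b := by
    by_contra hne
    apply hkey
    have : p ∣ p ^ (a - b) := dvd_pow_self p (by omega)
    rw [hE]; exact Dvd.dvd.mul_right (Dvd.dvd.mul_right this _) _
  have hb2 : 2 ≤ b := by
    by_contra h
    have hb' : b = 1 := by omega
    apply hkey
    have : n = 1 := by rw [hn', hb']; simp
    rw [this]; simp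
  have hnp : n = p * p ^ (b - 2) := by
    rw [hn', ← pow_succ', show b - 2 + 1 = b - 1 by omega]
  have h2C : 2 * n.choose 2 = n * (n - 1) := by
    rw [Nat.choose_two_right]
    exact Nat.two_mul_div_two_of_even (Nat.even_mul_pred_self n)
  have hp2 : p = 2 := by
    by_contra hne
    apply hkey
    have h1 : p ∣ 2 * n.choose 2 := by
      rw [h2C, hnp]; exact Dvd.dvd.mul_right (Dvd.intro _ rfl) _
    have hcop : Nat.Coprime p 2 := (Nat.coprime_primes hp Nat.prime_two).mpr hne
    have : p ∣ n.choose 2 := hcop.dvd_of_dvd_mul_left h1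
    exact Dvd.dvd.mul_left this _
  have hb3 : b = 2 := by
    by_contra hne
    have hb3' : 3 ≤ b := by omega
    apply hkey
    rw [hp2]
    have hn4 : n = 4 * 2 ^ (b - 3) := by
      rw [hn', hp2, show b - 1 = 2 + (b - 3) by omega, pow_add]; norm_num
    have : 2 * n.choose 2 = 2 * (2 * 2 ^ (b - 3) * (n - 1)) := by
      rw [h2C]; nth_rewrite 1 [hn4]; ring
    have h2 : n.choose 2 = 2 * 2 ^ (b - 3) * (n - 1) := Nat.eq_of_mul_eq_mul_left (by norm_num) this
    rw [h2]
    exact Dvd.dvd.mul_left ⟨2 ^ (b - 3) * (n - 1), by ring⟩ _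
  have hox4 : orderOf x = 4 := by rw [hoxa, hab, hb3, hp2]; norm_num
  have hoy4 : orderOf y = 4 := by rw [hoyb, hb3, hp2]; norm_num
  have hoc2 : orderOf c = 2 := by rw [hoc, hp2]
  have hc2 : c ^ 2 = 1 := by rw [← hoc2]; exact pow_orderOf_eq_one c
  have hx4 : x ^ 4 = 1 := by rw [← hox4]; exact pow_orderOf_eq_one x
  have hy4 : y ^ 4 = 1 := by rw [← hoy4]; exact pow_orderOf_eq_one y
  have hx2 : x ^ 2 ≠ 1 := by
    intro h
    have := orderOf_dvd_of_pow_eq_one h
    rw [hox4] at this; omega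
  have hy2 : y ^ 2 ≠ 1 := by
    intro h
    have := orderOf_dvd_of_pow_eq_one h
    rw [hoy4] at this; omega
  have hsq : ∀ u : G, u ^ 4 = 1 → u ^ 2 ≠ 1 → c ∈ Subgroup.zpowers u → c = u ^ 2 := by
    intro u hu4 hu2 hcu
    obtain ⟨r, hr⟩ := exists_nat_pow u c hcu
    have hr' : u ^ (r % 4) = c := by rw [← pow_eq_pow_mod r hu4]; exact hr
    have hlt : r % 4 < 4 := Nat.mod_lt _ (by norm_num)
    interval_cases h : r % 4
    · exact absurd (by simpa using hr'.symm) hc1
    · exfalso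
      rw [pow_one] at hr'
      apply hu2; rw [hr']; exact hc2
    · exact hr'.symm
    · exfalso
      apply hu2
      have : c ^ 2 = u ^ 2 := by
        rw [← hr', ← pow_mul]
        calc u ^ (3 * 2) = u ^ 4 * u ^ 2 := by rw [← pow_add]
          _ = u ^ 2 := by rw [hu4, one_mul]
      rw [← this]; exact hc2
  have hcx2 : c = x ^ 2 := hsq x hx4 hx2 hcx
  have hcy2 : c = y ^ 2 := hsq y hy4 hy2 hcy
  refine ⟨hx4, hx2, by rw [← hcy2, hcx2], ?_⟩
  have : y * x * y⁻¹ = c⁻¹ * x := by rw [hyx]; group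
  rw [this, hcx2]
  have : x⁻¹ = x ^ 2 * x⁻¹ ^ 2 * x⁻¹ := by group
  calc (x ^ 2)⁻¹ * x = x⁻¹ := by group


theorem exists_quat (hn : ∀ H : Subgroup G, H.Normal) (hna : ∃ x y : G, x * y ≠ y * x) :
    ∃ x y : G, x ^ 4 = 1 ∧ x ^ 2 ≠ 1 ∧ y ^ 2 = x ^ 2 ∧ y * x * y⁻¹ = x⁻¹ := by
  classical
  have hex : ∃ n, ∃ x y : G, x * y ≠ y * x ∧ orderOf x + orderOf y = n := by
    obtain ⟨x, y, h⟩ := hna; exact ⟨_, x, y, h, rfl⟩
  obtain ⟨x, y, hxy, hsum⟩ := Nat.find_spec hex
  have hmin : ∀ x' y' : G, x' * y' ≠ y' * x' → orderOf x + orderOf y ≤ orderOf x' + orderOf y' := by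
    intro x' y' h
    rw [hsum]
    exact Nat.find_min' hex ⟨x', y', h, rfl⟩
  by_cases hle : orderOf y ≤ orderOf x
  · exact ⟨x, y, core hn x y hxy hmin hle⟩
  · refine ⟨y, x, core hn y x (fun h => hxy h.symm) ?_ (by omega)⟩
    intro x' y' h
    have := hmin x' y' h
    omega

theorem conj_cases (hn : ∀ H : Subgroup G, H.Normal) (u : G) (hu4 : u ^ 4 = 1) (hu2 : u ^ 2 ≠ 1)
    (g : G) : g * u * g⁻¹ = u ∨ g * u * g⁻¹ = u⁻¹ := by
  obtain ⟨r, hr⟩ := exists_nat_pow u _ (conj_mem_zpowers hn g u)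
  have hr' : u ^ (r % 4) = g * u * g⁻¹ := by rw [← pow_eq_pow_mod r hu4]; exact hr
  have hlt : r % 4 < 4 := Nat.mod_lt _ (by norm_num)
  interval_cases h : r % 4
  · exfalso
    apply hu2
    have : u = g⁻¹ * (g * u * g⁻¹) * g := by group
    rw [this, ← hr']; simp
  · left; rw [← hr', pow_one]
  · exfalso
    apply hu2
    have h1 : (g * u * g⁻¹) ^ 2 = 1 := by
      rw [← hr', ← pow_mul]; exact hu4
    rw [conj_pow] at h1
    have : u ^ 2 = g⁻¹ * (g * u ^ 2 * g⁻¹) * g := by group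
    rw [this, h1]; simp
  · right
    rw [← hr']
    have : u ^ 3 * u = 1 := by rw [← pow_succ]; exact hu4
    exact eq_inv_of_mul_eq_one_left this

theorem main (hna : ¬ IsMulCommutative G) (hn : ∀ H : Subgroup G, H.Normal) :
    ∃ Q E A : Subgroup G, Nonempty (Q ≃* QuaternionGroup 2) ∧ Cfsg.IsElementaryAbelian 2 E ∧
      IsMulCommutative A ∧ Odd (Nat.card A) ∧ E ⊓ A = ⊥ ∧ Q ⊓ (E ⊔ A) = ⊥ ∧ Q ⊔ (E ⊔ A) = ⊤ := by
  classical
  have hna' : ∃ x y : G, x * y ≠ y * x := by
    by_contra h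
    push_neg at h
    exact hna ⟨⟨h⟩⟩
  obtain ⟨x, y, hx4, hx2, hy2, hyx⟩ := exists_quat hn hna'
  have hy4 : y ^ 4 = 1 := by
    have : y ^ 4 = (y ^ 2) ^ 2 := by rw [← pow_mul]
    rw [this, hy2, ← pow_mul]; exact hx4
  have hy2' : y ^ 2 ≠ 1 := by rw [hy2]; exact hx2
  have hx3 : x ^ 3 = x⁻¹ := eq_inv_of_mul_eq_one_left (by rw [← pow_succ]; exact hx4)
  have hxy0 : x * y = y * x⁻¹ := by
    have : x = y * x⁻¹ * y⁻¹ := by
      calc x = (x⁻¹)⁻¹ := (inv_inv x).symm
        _ = (y * x * y⁻¹)⁻¹ := by rw [hyx]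
        _ = y * x⁻¹ * y⁻¹ := by group
    calc x * y = (y * x⁻¹ * y⁻¹) * y := by rw [← this]
      _ = y * x⁻¹ := by group
  have hxyx : x * y * x⁻¹ = y⁻¹ := by
    rw [hxy0]
    have : y * x⁻¹ * x⁻¹ = y * (x ^ 2)⁻¹ := by group
    rw [this, ← hy2]; group
  have hxky : ∀ k : ℕ, x ^ k * y = y * (x ^ k)⁻¹ := by
    intro k
    induction k with
    | zero => simp
    | succ k ih =>
      calc x ^ (k + 1) * y = x ^ k * (x * y) := by rw [pow_succ, mul_assoc]
        _ = x ^ k * (y * x⁻¹) := by rw [hxy0]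
        _ = (x ^ k * y) * x⁻¹ := by rw [mul_assoc]
        _ = y * (x ^ k)⁻¹ * x⁻¹ := by rw [ih]
        _ = y * (x ^ (k + 1))⁻¹ := by rw [pow_succ', mul_inv_rev, mul_assoc]
  have h22 : x ^ (2 * 2) = 1 := hx4
  have hL1 : ∀ i j : ZMod (2 * 2), x ^ ((i + j).val) = x ^ i.val * x ^ j.val := by
    intro i j
    rw [ZMod.val_add, ← pow_eq_pow_mod _ h22, pow_add]
  have hL2 : ∀ i j : ZMod (2 * 2), x ^ ((j - i).val) = (x ^ i.val)⁻¹ * x ^ j.val := by
    intro i j
    have h := hL1 (j - i) i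
    rw [sub_add_cancel] at h
    rw [h]
    have : x ^ (j - i).val * x ^ i.val = x ^ i.val * x ^ (j - i).val :=
      (Commute.pow_pow (Commute.refl x) _ _).eq
    rw [this]; group
  let f : QuaternionGroup 2 → G := fun q =>
    match q with
    | QuaternionGroup.a i => x ^ i.val
    | QuaternionGroup.xa i => y * x ^ i.val
  have h2v : (((2 : ℕ) : ZMod (2 * 2))).val = 2 := rfl
  have hfmul : ∀ q r, f (q * r) = f q * f r := by
    intro q r
    rcases q with i | i <;> rcases r with j | j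
    · show x ^ ((i + j).val) = x ^ i.val * x ^ j.val
      exact hL1 i j
    · show y * x ^ ((j - i).val) = x ^ i.val * (y * x ^ j.val)
      rw [hL2, ← mul_assoc (x ^ i.val), hxky]; group
    · show y * x ^ ((i + j).val) = y * x ^ i.val * x ^ j.val
      rw [hL1, mul_assoc]
    · show x ^ ((((2 : ℕ) : ZMod (2 * 2)) + j - i).val) = y * x ^ i.val * (y * x ^ j.val)
      rw [add_sub_assoc, hL1, hL2, h2v]
      have : y * x ^ i.val * (y * x ^ j.val) = y * (x ^ i.val * y) * x ^ j.val := by group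
      rw [this, hxky, ← hy2, pow_two]; simp only [mul_assoc]
  let φ : QuaternionGroup 2 →* G := MonoidHom.mk' f hfmul
  have hφinj : Function.Injective φ := by
    rw [injective_iff_map_eq_one]
    intro q hq
    rcases q with i | i
    · have hq' : x ^ i.val = 1 := hq
      have hlt : i.val < 4 := by have := ZMod.val_lt i; omega
      have hi0 : i.val = 0 := by
        interval_cases h : i.val
        · rfl
        · exfalso; apply hx2; rw [pow_one] at hq'; rw [hq']; simp
        · exact absurd hq' hx2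
        · exfalso; apply hx2
          have : x = 1 := by
            have h3 : x ^ 4 = x ^ 3 * x := pow_succ x 3
            rw [hq', one_mul] at h3; rw [← h3]; exact hx4
          rw [this]; simp
      have : i = 0 := (ZMod.val_eq_zero i).mp hi0
      rw [this]; rfl
    · exfalso
      have hq' : y * x ^ i.val = 1 := hq
      have hyx' : y = (x ^ i.val)⁻¹ := eq_inv_of_mul_eq_one_left hq'
      apply hx2
      have hcomm : y * x = x * y := by
        rw [hyx']
        exact ((Commute.refl x).pow_left i.val).inv_left.eq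
      have : x⁻¹ = x := by
        rw [← hyx, hcomm]; group
      calc x ^ 2 = x * x := pow_two x
        _ = x⁻¹ * x := by rw [this]
        _ = 1 := inv_mul_cancel x
  set Q : Subgroup G := φ.range with hQ
  have hxQ : x ∈ Q := ⟨QuaternionGroup.a 1, by
    show x ^ (1 : ZMod (2 * 2)).val = x
    have : (1 : ZMod (2 * 2)).val = 1 := rfl
    rw [this, pow_one]⟩
  have hyQ : y ∈ Q := ⟨QuaternionGroup.xa 0, by
    show y * x ^ (0 : ZMod (2 * 2)).val = y
    rw [ZMod.val_zero, pow_zero, mul_one]⟩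
  set C : Subgroup G := Subgroup.centralizer ({x, y} : Set G) with hCdef
  have hCmem : ∀ g : G, g ∈ C ↔ (g * x = x * g ∧ g * y = y * g) := by
    intro g
    rw [hCdef, Subgroup.mem_centralizer_iff]
    constructor
    · intro h
      exact ⟨(h x (by simp)).symm, (h y (by simp)).symm⟩
    · rintro ⟨h1, h2⟩ u hu
      rcases hu with rfl | rfl
      · exact h1.symm
      · exact h2.symm
  have hstep2 : ∀ g : G, ∃ q ∈ Q, g * q ∈ C := by
    intro g
    rcases conj_cases hn x hx4 hx2 g with h1 | h1 <;> rcases conj_cases hn y hy4 hy2' g with h2 | h2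
    · refine ⟨1, Q.one_mem, ?_⟩
      rw [mul_one, hCmem]
      constructor
      · calc g * x = (g * x * g⁻¹) * g := by group
          _ = x * g := by rw [h1]
      · calc g * y = (g * y * g⁻¹) * g := by group
          _ = y * g := by rw [h2]
    · refine ⟨x, hxQ, ?_⟩
      rw [hCmem]
      constructor
      · calc g * x * x = (g * x * g⁻¹) * g * x := by group
          _ = x * (g * x) := by rw [h1]; group
      · calc g * x * y = g * (x * y * x⁻¹) * x := by group
          _ = g * y⁻¹ * x := by rw [hxyx]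
          _ = (g * y * g⁻¹)⁻¹ * g * x := by group
          _ = y * (g * x) := by rw [h2]; group
    · refine ⟨y, hyQ, ?_⟩
      rw [hCmem]
      constructor
      · calc g * y * x = g * (y * x * y⁻¹) * y := by group
          _ = g * x⁻¹ * y := by rw [hyx]
          _ = (g * x * g⁻¹)⁻¹ * g * y := by group
          _ = x * (g * y) := by rw [h1]; group
      · calc g * y * y = (g * y * g⁻¹) * g * y := by group
          _ = y * (g * y) := by rw [h2]; group
    · refine ⟨x * y, Q.mul_mem hxQ hyQ, ?_⟩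
      rw [hCmem]
      constructor
      · have e1 : g * x = x⁻¹ * g := by
          calc g * x = (g * x * g⁻¹) * g := by group
            _ = x⁻¹ * g := by rw [h1]
        have e2 : y * x = x⁻¹ * y := by
          calc y * x = (y * x * y⁻¹) * y := by group
            _ = x⁻¹ * y := by rw [hyx]
        calc g * (x * y) * x = g * x * (y * x) := by group
          _ = g * x * (x⁻¹ * y) := by rw [e2]
          _ = g * y := by group
          _ = x * (x⁻¹ * g) * y := by group
          _ = x * (g * x) * y := by rw [e1]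
          _ = x * (g * (x * y)) := by group
      · have e3 : y * g = g * y⁻¹ := by
          have : g * y⁻¹ * g⁻¹ = y := by
            calc g * y⁻¹ * g⁻¹ = (g * y * g⁻¹)⁻¹ := by group
              _ = y := by rw [h2, inv_inv]
          calc y * g = (g * y⁻¹ * g⁻¹) * g := by rw [this]
            _ = g * y⁻¹ := by group
        have e4 : y⁻¹ * x * y = x⁻¹ := by
          calc y⁻¹ * x * y = y⁻¹ * (x * y) := by group
            _ = y⁻¹ * (y * x⁻¹) := by rw [hxy0]
            _ = x⁻¹ := by group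
        calc g * (x * y) * y = g * x * y ^ 2 := by rw [pow_two]; simp only [mul_assoc]
          _ = g * x * x ^ 2 := by rw [hy2]
          _ = g * x ^ 3 := by group
          _ = g * x⁻¹ := by rw [hx3]
          _ = g * (y⁻¹ * x * y) := by rw [e4]
          _ = (g * y⁻¹) * x * y := by group
          _ = (y * g) * x * y := by rw [e3]
          _ = y * (g * (x * y)) := by group
  have hstep3 : ∀ w ∈ C, w ^ 4 = 1 → w ^ 2 = 1 := by
    intro w hw hw4
    by_contra hw2
    rw [hCmem] at hw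
    obtain ⟨hwx, hwy⟩ := hw
    have hcw : Commute w x := hwx
    have hmem := conj_mem_zpowers hn y (w * x)
    have hconj : y * (w * x) * y⁻¹ = w * x⁻¹ := by
      calc y * (w * x) * y⁻¹ = (y * w) * x * y⁻¹ := by group
        _ = (w * y) * x * y⁻¹ := by rw [hwy]
        _ = w * (y * x * y⁻¹) := by group
        _ = w * x⁻¹ := by rw [hyx]
    rw [hconj] at hmem
    obtain ⟨r, hr⟩ := exists_nat_pow (w * x) _ hmem
    have hwx4 : (w * x) ^ 4 = 1 := by rw [hcw.mul_pow, hw4, hx4, one_mul]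
    have hr' : (w * x) ^ (r % 4) = w * x⁻¹ := by rw [← pow_eq_pow_mod r hwx4]; exact hr
    have hlt : r % 4 < 4 := Nat.mod_lt _ (by norm_num)
    have hwnex : w ≠ x := by
      intro hwx'
      rw [hwx'] at hwy
      apply hx2
      have : x⁻¹ = x := by
        rw [← hyx, ← hwy]; group
      calc x ^ 2 = x * x := pow_two x
        _ = x⁻¹ * x := by rw [this]
        _ = 1 := inv_mul_cancel x
    interval_cases h : r % 4
    · apply hwnex
      rw [pow_zero] at hr'
      calc w = (w * x⁻¹) * x := by group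
        _ = x := by rw [← hr', one_mul]
    · rw [pow_one] at hr'
      apply hx2
      have : x = x⁻¹ := mul_left_cancel hr'
      calc x ^ 2 = x * x := pow_two x
        _ = x⁻¹ * x := by rw [← this]
        _ = 1 := inv_mul_cancel x
    · rw [hcw.mul_pow] at hr'
      apply hwnex
      have h3 : w * x ^ 2 = x⁻¹ := by
        have : w * (w * x ^ 2) = w * x⁻¹ := by rw [← hr', pow_two w, mul_assoc]
        exact mul_left_cancel this
      calc w = (w * x ^ 2) * (x ^ 2)⁻¹ := by group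
        _ = x⁻¹ * (x ^ 2)⁻¹ := by rw [h3]
        _ = (x ^ 3)⁻¹ := by group
        _ = x := by rw [hx3, inv_inv]
    · rw [hcw.mul_pow] at hr'
      apply hw2
      rw [hx3] at hr'
      have h3 : w ^ 3 = w := mul_right_cancel hr'
      have : w * w ^ 2 = w * 1 := by rw [mul_one, ← pow_succ']; exact h3
      exact mul_left_cancel this
  have hCcomm : ∀ u ∈ C, ∀ v ∈ C, u * v = v * u := by
    by_contra hcon
    push_neg at hcon
    obtain ⟨u, hu, v, hv, huv⟩ := hcon
    have hnC : ∀ H : Subgroup C, H.Normal := by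
      intro H
      have := (hn (H.map C.subtype)).comap C.subtype
      rwa [Subgroup.comap_map_eq_self_of_injective (Subgroup.subtype_injective C)] at this
    have hnaC : ∃ a b : C, a * b ≠ b * a :=
      ⟨⟨u, hu⟩, ⟨v, hv⟩, fun h => huv (congrArg Subtype.val h)⟩
    obtain ⟨a, b, ha4, ha2, -, -⟩ := exists_quat hnC hnaC
    apply ha2
    apply Subtype.ext
    have h4 : (a : G) ^ 4 = 1 := by have := congrArg Subtype.val ha4; simpa using this
    have := hstep3 a a.2 h4
    simpa using this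
  obtain ⟨k, m, hm, hNm⟩ := Nat.exists_eq_two_pow_mul_odd (Nat.card_pos (α := G)).ne'
  have hvm : ∀ v : G, v ^ 2 = 1 → v ^ m = v := by
    intro v hv
    obtain ⟨s, hs⟩ := hm
    rw [hs, pow_succ, pow_mul, hv, one_pow, one_mul]
  have htriv : ∀ w : G, w ^ 2 = 1 → w ^ m = 1 → w = 1 := by
    intro w h2 hm'
    rw [← hvm w h2]; exact hm'
  have hwm2 : ∀ w ∈ C, (w ^ m) ^ 2 = 1 := by
    intro w hw
    have h1 : (w ^ m) ^ (2 ^ k) = 1 := by
      rw [← pow_mul, mul_comm, ← hNm]; exact pow_card_eq_one'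
    obtain ⟨j, hjk, hj⟩ := (Nat.dvd_prime_pow Nat.prime_two).mp (orderOf_dvd_of_pow_eq_one h1)
    by_cases hj2 : j ≤ 1
    · have h2 : (w ^ m) ^ (2 ^ j) = 1 := by rw [← hj]; exact pow_orderOf_eq_one _
      interval_cases j
      · rw [pow_zero, pow_one] at h2; rw [h2]; simp
      · simpa using h2
    · exfalso
      have hj2' : 2 ≤ j := by omega
      have e4 : 2 ^ (j - 2) * 4 = 2 ^ j := by
        rw [show (4 : ℕ) = 2 ^ 2 by norm_num, ← pow_add]; congr 1; omega
      have e2 : 2 ^ (j - 2) * 2 = 2 ^ (j - 1) := by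
        rw [← pow_succ]; congr 1; omega
      have hu4 : ((w ^ m) ^ (2 ^ (j - 2))) ^ 4 = 1 := by
        rw [← pow_mul, e4, ← hj]; exact pow_orderOf_eq_one _
      have hu2 : ((w ^ m) ^ (2 ^ (j - 2))) ^ 2 ≠ 1 := by
        rw [← pow_mul, e2]
        intro h
        have hd := orderOf_dvd_of_pow_eq_one h
        rw [hj] at hd
        have := (Nat.pow_dvd_pow_iff_le_right (show 1 < 2 by norm_num)).mp hd
        omega
      exact hu2 (hstep3 _ (C.pow_mem (C.pow_mem hw m) _) hu4)
  let E0 : Subgroup G :=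
    { carrier := {w | w ∈ C ∧ w ^ 2 = 1}
      one_mem' := ⟨C.one_mem, one_pow _⟩
      mul_mem' := by
        rintro u v ⟨hu, hu'⟩ ⟨hv, hv'⟩
        refine ⟨C.mul_mem hu hv, ?_⟩
        have hc : Commute u v := hCcomm u hu v hv
        rw [hc.mul_pow, hu', hv', one_mul]
      inv_mem' := by
        rintro u ⟨hu, hu'⟩
        exact ⟨C.inv_mem hu, by rw [inv_pow, hu', inv_one]⟩ }
  let A : Subgroup G :=
    { carrier := {w | w ∈ C ∧ w ^ m = 1}
      one_mem' := ⟨C.one_mem, one_pow _⟩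
      mul_mem' := by
        rintro u v ⟨hu, hu'⟩ ⟨hv, hv'⟩
        refine ⟨C.mul_mem hu hv, ?_⟩
        have hc : Commute u v := hCcomm u hu v hv
        rw [hc.mul_pow, hu', hv', one_mul]
      inv_mem' := by
        rintro u ⟨hu, hu'⟩
        exact ⟨C.inv_mem hu, by rw [inv_pow, hu', inv_one]⟩ }
  have hzE0 : x ^ 2 ∈ E0 := by
    refine ⟨(hCmem _).mpr ⟨?_, ?_⟩, by rw [← pow_mul]; exact hx4⟩
    · exact ((Commute.refl x).pow_left 2).eq
    · rw [← hy2]; exact ((Commute.refl y).pow_left 2).eq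
  haveI : Nonempty {E : Subgroup G // E ≤ E0 ∧ x ^ 2 ∉ E} :=
    ⟨⟨⊥, bot_le, fun h => hx2 (Subgroup.mem_bot.mp h)⟩⟩
  obtain ⟨⟨E, hEle, hzE⟩, hEmax⟩ :=
    Finite.exists_max (fun E : {E : Subgroup G // E ≤ E0 ∧ x ^ 2 ∉ E} => Nat.card E.1)
  have hEC : E ≤ C := fun w hw => (hEle hw).1
  have hAC : A ≤ C := fun w hw => hw.1
  have hEdich : ∀ w ∈ E0, w ∈ E ∨ w * x ^ 2 ∈ E := by
    intro w hw
    by_contra hcon
    push_neg at hcon
    obtain ⟨hwE, hwzE⟩ := hcon
    have hlt : E < E ⊔ Subgroup.zpowers w := by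
      refine lt_of_le_of_ne le_sup_left ?_
      intro heq
      apply hwE
      rw [heq]
      exact (le_sup_right : Subgroup.zpowers w ≤ _) (Subgroup.mem_zpowers w)
    have hle' : E ⊔ Subgroup.zpowers w ≤ E0 := sup_le hEle (Subgroup.zpowers_le.mpr hw)
    have hzin : x ^ 2 ∈ E ⊔ Subgroup.zpowers w := by
      by_contra hznot
      have h1 := hEmax ⟨E ⊔ Subgroup.zpowers w, hle', hznot⟩
      exact hlt.ne (Subgroup.eq_of_le_of_card_ge le_sup_left h1)
    haveI := hn (Subgroup.zpowers w)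
    have hmul : ((E ⊔ Subgroup.zpowers w : Subgroup G) : Set G)
        = (E : Set G) * (Subgroup.zpowers w : Set G) := Subgroup.mul_normal E (Subgroup.zpowers w)
    have hzin' : x ^ 2 ∈ (E : Set G) * (Subgroup.zpowers w : Set G) := by rw [← hmul]; exact hzin
    obtain ⟨e, he, w', hw', hew⟩ := Set.mem_mul.mp hzin'
    obtain ⟨r, hr⟩ := exists_nat_pow w w' hw'
    have hr' : w ^ (r % 2) = w' := by rw [← pow_eq_pow_mod r hw.2]; exact hr
    rcases Nat.mod_two_eq_zero_or_one r with h0 | h1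
    · rw [h0, pow_zero] at hr'
      apply hzE
      rw [← hew, ← hr', mul_one]; exact he
    · rw [h1, pow_one] at hr'
      apply hwzE
      have hcomm : w * e = e * w := hCcomm w hw.1 e (hEle he).1
      have : w * x ^ 2 = e := by
        rw [← hew, ← hr']
        calc w * (e * w) = (w * e) * w := by group
          _ = (e * w) * w := by rw [hcomm]
          _ = e * w ^ 2 := by rw [pow_two, mul_assoc]
          _ = e := by rw [hw.2, mul_one]
      rw [this]; exact he
  refine ⟨Q, E, A, ⟨(MonoidHom.ofInjective hφinj).symm⟩, ⟨?_, fun a ha => (hEle ha).2⟩,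
    ?_, ?_, ?_, ?_, ?_⟩
  · exact ⟨⟨fun a b => Subtype.ext (hCcomm a (hEC a.2) b (hEC b.2))⟩⟩
  · exact ⟨⟨fun a b => Subtype.ext (hCcomm a (hAC a.2) b (hAC b.2))⟩⟩
  · by_contra hodd
    rw [Nat.not_odd_iff_even] at hodd
    haveI : Fact (Nat.Prime 2) := ⟨Nat.prime_two⟩
    obtain ⟨a, ha⟩ := exists_prime_orderOf_dvd_card' 2 hodd.two_dvd
    have h2 : (a : G) ^ 2 = 1 := by
      have h : a ^ 2 = 1 := by rw [← ha]; exact pow_orderOf_eq_one a
      have := congrArg Subtype.val h; simpa using this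
    have h1 : (a : G) = 1 := htriv _ h2 a.2.2
    have : a = 1 := Subtype.ext h1
    rw [this, orderOf_one] at ha
    norm_num at ha
  · rw [eq_bot_iff]
    rintro w ⟨hwE, hwA⟩
    exact Subgroup.mem_bot.mpr (htriv w (hEle hwE).2 hwA.2)
  · rw [eq_bot_iff]
    rintro q ⟨hqQ, hqEA⟩
    rw [Subgroup.mem_bot]
    have hqC : q ∈ C := (sup_le hEC hAC) hqEA
    obtain ⟨t, rfl⟩ := hqQ
    have hq1 : φ t = 1 ∨ φ t = x ^ 2 := by
      rcases t with i | i
      · have hk : (x ^ i.val) * y = y * (x ^ i.val) := ((hCmem _).mp hqC).2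
        rw [hxky] at hk
        have hk2 : (x ^ i.val)⁻¹ = x ^ i.val := mul_left_cancel hk
        have hsq : (x ^ i.val) ^ 2 = 1 := by
          rw [pow_two]; nth_rewrite 1 [← hk2]; exact inv_mul_cancel _
        have hlt : i.val < 4 := by have := ZMod.val_lt i; omega
        show x ^ i.val = 1 ∨ x ^ i.val = x ^ 2
        interval_cases h : i.val
        · left; simp
        · exfalso; apply hx2; simpa using hsq
        · right; rfl
        · exfalso; apply hx2
          rw [← pow_mul] at hsq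
          have : x ^ (3 * 2) = x ^ 4 * x ^ 2 := by rw [← pow_add]
          rw [this, hx4, one_mul] at hsq; exact hsq
      · exfalso
        have hk : (y * x ^ i.val) * x = x * (y * x ^ i.val) := ((hCmem _).mp hqC).1
        apply hx2
        have : y * (x ^ i.val * x) = y * (x⁻¹ * x ^ i.val) := by
          calc y * (x ^ i.val * x) = (y * x ^ i.val) * x := by group
            _ = x * (y * x ^ i.val) := hk
            _ = (x * y) * x ^ i.val := by group
            _ = (y * x⁻¹) * x ^ i.val := by rw [hxy0]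
            _ = y * (x⁻¹ * x ^ i.val) := by group
        have h3 : x ^ i.val * x = x⁻¹ * x ^ i.val := mul_left_cancel this
        have h4 : x ^ i.val * x = x * x ^ i.val := ((Commute.refl x).pow_left _).eq
        rw [h4] at h3
        have h5 : x = x⁻¹ := mul_right_cancel h3
        calc x ^ 2 = x * x := pow_two x
          _ = x⁻¹ * x := by rw [← h5]
          _ = 1 := inv_mul_cancel x
    rcases hq1 with h | h
    · exact h
    · exfalso
      rw [h] at hqEA
      haveI := hn A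
      have hmul : ((E ⊔ A : Subgroup G) : Set G) = (E : Set G) * (A : Set G) :=
        Subgroup.mul_normal E A
      have hz' : x ^ 2 ∈ (E : Set G) * (A : Set G) := by rw [← hmul]; exact hqEA
      obtain ⟨e, he, a', ha', hea⟩ := Set.mem_mul.mp hz'
      have hcomm : Commute e a' := hCcomm e (hEC he) a' (hAC ha')
      have ha2 : a' ^ 2 = 1 := by
        have h1 : (e * a') ^ 2 = 1 := by rw [hea, ← pow_mul]; exact hx4
        rw [hcomm.mul_pow, (hEle he).2, one_mul] at h1
        exact h1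
      have ha1 : a' = 1 := htriv a' ha2 ha'.2
      apply hzE
      rw [← hea, ha1, mul_one]; exact he
  · rw [eq_top_iff]
    intro g _
    obtain ⟨q, hq, hgq⟩ := hstep2 g
    have hwm := hwm2 (g * q) hgq
    have he0 : (g * q) ^ m ∈ E0 := ⟨C.pow_mem hgq m, hwm⟩
    have ha0 : (g * q) * ((g * q) ^ m)⁻¹ ∈ A := by
      refine ⟨C.mul_mem hgq (C.inv_mem (C.pow_mem hgq m)), ?_⟩
      have hc : Commute (g * q) ((g * q) ^ m)⁻¹ := ((Commute.refl (g * q)).pow_right m).inv_right
      rw [hc.mul_pow, inv_pow, hvm _ hwm]; exact mul_inv_cancel _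
    have hdec : g = (g * q) ^ m * ((g * q) * ((g * q) ^ m)⁻¹) * q⁻¹ := by
      have e1 : (g * q) ^ m * (g * q) = (g * q) * (g * q) ^ m := ((Commute.refl (g * q)).pow_left m).eq
      calc g = ((g * q) * (g * q) ^ m) * ((g * q) ^ m)⁻¹ * q⁻¹ := by rw [mul_inv_cancel_right, mul_inv_cancel_right]
        _ = ((g * q) ^ m * (g * q)) * ((g * q) ^ m)⁻¹ * q⁻¹ := by rw [e1]
        _ = (g * q) ^ m * ((g * q) * ((g * q) ^ m)⁻¹) * q⁻¹ := by simp only [mul_assoc]
    have hTE : E ≤ Q ⊔ (E ⊔ A) := le_sup_of_le_right le_sup_left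
    have hTA : A ≤ Q ⊔ (E ⊔ A) := le_sup_of_le_right le_sup_right
    have hTQ : Q ≤ Q ⊔ (E ⊔ A) := le_sup_left
    have hE0T : (g * q) ^ m ∈ Q ⊔ (E ⊔ A) := by
      rcases hEdich _ he0 with h | h
      · exact hTE h
      · have : (g * q) ^ m = ((g * q) ^ m * x ^ 2) * x ^ 2 := by
          rw [mul_assoc, ← pow_add]; rw [hx4, mul_one]
        rw [this]
        exact Subgroup.mul_mem _ (hTE h) (hTQ (Q.pow_mem hxQ 2))
    rw [hdec]
    exact Subgroup.mul_mem _ (Subgroup.mul_mem _ hE0T (hTA ha0)) (hTQ (Q.inv_mem hq))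

end Cfsg.Agent.Helper8.Hamilton
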