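import Mathlib

set_option autoImplicit false

namespace Cfsg.Agent.Helper8.Homocyclic

variable {G : Type*} [Group G]

/-- an odd-order element normalizing an abelian 2-group `P` and centralizing its involutions
centralizes `P` -/
theorem centralizes_of_odd (P : Subgroup G) (hab : ∀ x ∈ P, ∀ y ∈ P, x * y = y * x)
    (h2 : ∀ x ∈ P, ∃ n : ℕ, x ^ (2 ^ n) = 1) (g : G) (hg : ∀ x ∈ P, g * x * g⁻¹ ∈ P)
    (hodd : Odd (orderOf g)) (hΩ : ∀ x ∈ P, x ^ 2 = 1 → g * x * g⁻¹ = x) :
    ∀ x ∈ P, g * x * g⁻¹ = x := by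
  have key : ∀ n : ℕ, ∀ x ∈ P, x ^ (2 ^ n) = 1 → g * x * g⁻¹ = x := by
    intro n
    induction n with
    | zero =>
      intro x hx h
      rw [pow_zero, pow_one] at h
      rw [h]
      group
    | succ n ih =>
      intro x hx h
      have hx2 : g * x ^ 2 * g⁻¹ = x ^ 2 :=
        ih (x ^ 2) (pow_mem hx 2) (by rw [← pow_mul, ← pow_succ']; exact h)
      have htP : g * x * g⁻¹ * x⁻¹ ∈ P := mul_mem (hg x hx) (inv_mem hx)
      have ht2 : (g * x * g⁻¹ * x⁻¹) ^ 2 = 1 := by
        have hc : Commute (g * x * g⁻¹) x⁻¹ := hab _ (hg x hx) _ (inv_mem hx)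
        rw [hc.mul_pow, conj_pow, hx2, inv_pow, mul_inv_cancel]
      have htg := hΩ _ htP ht2
      have hgx : g * x * g⁻¹ = (g * x * g⁻¹ * x⁻¹) * x := by group
      have hpow : ∀ k : ℕ, g ^ k * x * (g ^ k)⁻¹ = (g * x * g⁻¹ * x⁻¹) ^ k * x := by
        intro k
        induction k with
        | zero => simp
        | succ k ihk =>
          calc g ^ (k + 1) * x * (g ^ (k + 1))⁻¹ = g * (g ^ k * x * (g ^ k)⁻¹) * g⁻¹ := by
                rw [pow_succ']
                group
            _ = g * ((g * x * g⁻¹ * x⁻¹) ^ k * x) * g⁻¹ := by rw [ihk]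
            _ = (g * (g * x * g⁻¹ * x⁻¹) * g⁻¹) ^ k * (g * x * g⁻¹) := by
                rw [conj_pow]
                group
            _ = (g * x * g⁻¹ * x⁻¹) ^ k * ((g * x * g⁻¹ * x⁻¹) * x) := by rw [htg, ← hgx]
            _ = (g * x * g⁻¹ * x⁻¹) ^ (k + 1) * x := by simp only [pow_succ, mul_assoc]
      have h3 := hpow (orderOf g)
      rw [pow_orderOf_eq_one, one_mul, inv_one, mul_one] at h3
      have h4 : (g * x * g⁻¹ * x⁻¹) ^ orderOf g = 1 := mul_eq_right.mp h3.symm
      obtain ⟨j, hj⟩ := hodd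
      rw [hj, pow_succ, pow_mul, ht2, one_pow, one_mul] at h4
      rw [hgx, h4, one_mul]
  intro x hx
  obtain ⟨n, hn⟩ := h2 x hx
  exact key n x hx hn

/-- `p`-elements of the normalizer of a Sylow `p`-subgroup lie in it -/
theorem mem_sylow_of_pow {p : ℕ} [Fact p.Prime] (P : Sylow p G) (u : G)
    (hu : u ∈ Subgroup.normalizer ((P : Subgroup G) : Set G)) (k : ℕ) (huk : u ^ (p ^ k) = 1) :
    u ∈ (P : Subgroup G) := by
  have h1 : IsPGroup p (Subgroup.zpowers u) := by
    rintro ⟨y, hy⟩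
    obtain ⟨i, rfl⟩ := Subgroup.mem_zpowers_iff.mp hy
    refine ⟨k, Subtype.ext ?_⟩
    change (u ^ i) ^ (p ^ k) = 1
    rw [← zpow_natCast, ← zpow_mul, mul_comm, zpow_mul, zpow_natCast, huk, one_zpow]
  have h2 : Subgroup.zpowers u ≤ Subgroup.normalizer ((P : Subgroup G) : Set G) :=
    (Subgroup.zpowers_le).mpr hu
  have h3 : IsPGroup p (Subgroup.zpowers u ⊔ (P : Subgroup G) : Subgroup G) :=
    IsPGroup.to_sup_of_normal_right' h1 P.isPGroup' h2
  have h4 := P.is_maximal' h3 le_sup_right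
  have h5 : u ∈ Subgroup.zpowers u ⊔ (P : Subgroup G) :=
    Subgroup.mem_sup_left (Subgroup.mem_zpowers u)
  rw [h4] at h5
  exact h5

/-- if the `2`-part and the odd part of `n` lie in a subgroup then so does `n` -/
theorem mem_of_parts [Finite G] (C : Subgroup G) (n : G) (a b : ℕ) (hab : Nat.Coprime (2 ^ a) b)
    (h1 : n ^ (2 ^ a) ∈ C) (h2 : n ^ b ∈ C) : n ∈ C := by
  have h3 : ((2 ^ a : ℕ) : ℤ) * Nat.gcdA (2 ^ a) b + (b : ℤ) * Nat.gcdB (2 ^ a) b = 1 := by
    have := Nat.gcd_eq_gcd_ab (2 ^ a) b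
    rw [hab] at this
    exact_mod_cast this.symm
  have h4 : n = (n ^ (2 ^ a)) ^ (Nat.gcdA (2 ^ a) b) * (n ^ b) ^ (Nat.gcdB (2 ^ a) b) := by
    rw [← zpow_natCast n (2 ^ a), ← zpow_natCast n b, ← zpow_mul, ← zpow_mul, ← zpow_add, h3,
      zpow_one]
  rw [h4]
  exact mul_mem (zpow_mem h1 _) (zpow_mem h2 _)


theorem conj_pow_fix {n s : G} (h : n * s * n⁻¹ = s) (k : ℕ) : n ^ k * s * (n ^ k)⁻¹ = s := by
  induction k with
  | zero => simp
  | succ k ih =>
    calc n ^ (k + 1) * s * (n ^ (k + 1))⁻¹ = n * (n ^ k * s * (n ^ k)⁻¹) * n⁻¹ := by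
          rw [pow_succ']
          group
      _ = s := by rw [ih, h]

theorem five_distinct {α : Type*} [DecidableEq α] (S : Set α) (hfin : S.Finite)
    (hS : S.ncard ≤ 4) {a b c d e : α} (ha : a ∈ S) (hb : b ∈ S) (hc : c ∈ S) (hd : d ∈ S)
    (he : e ∈ S) (hab : a ≠ b) (hac : a ≠ c) (had : a ≠ d) (hae : a ≠ e) (hbc : b ≠ c)
    (hbd : b ≠ d) (hbe : b ≠ e) (hcd : c ≠ d) (hce : c ≠ e) (hde : d ≠ e) : False := by
  have h1 : ({a, b, c, d, e} : Finset α).card = 5 := by
    rw [Finset.card_insert_of_notMem (by simp [hab, hac, had, hae]),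
      Finset.card_insert_of_notMem (by simp [hbc, hbd, hbe]),
      Finset.card_insert_of_notMem (by simp [hcd, hce]),
      Finset.card_insert_of_notMem (by simp [hde]), Finset.card_singleton]
  have h2 : ((({a, b, c, d, e} : Finset α)) : Set α) ⊆ S := by
    intro x hx
    simp only [Finset.coe_insert, Finset.coe_singleton, Set.mem_insert_iff,
      Set.mem_singleton_iff] at hx
    rcases hx with rfl | rfl | rfl | rfl | rfl <;> assumption
  have h3 := Set.ncard_le_ncard h2 hfin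
  rw [Set.ncard_coe_finset, h1] at h3
  omega

structure Cfg (P : Sylow 2 G) (t₁ t₂ : G) : Prop where
  ab : ∀ x ∈ (P : Subgroup G), ∀ y ∈ (P : Subgroup G), x * y = y * x
  omega : ∀ x ∈ (P : Subgroup G), x ^ 2 = 1 → x = 1 ∨ x = t₁ ∨ x = t₂ ∨ x = t₁ * t₂

namespace Cfg

variable {P : Sylow 2 G} {t₁ t₂ : G}

/-- `Ω₁(P)` -/
def Om (h : Cfg P t₁ t₂) : Subgroup G where
  carrier := {x | x ∈ (P : Subgroup G) ∧ x ^ 2 = 1}
  one_mem' := ⟨one_mem _, one_pow _⟩
  mul_mem' := by
    rintro x y ⟨hx, hx1⟩ ⟨hy, hy1⟩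
    refine ⟨mul_mem hx hy, ?_⟩
    have hc : Commute x y := h.ab x hx y hy
    rw [hc.mul_pow, hx1, hy1, one_mul]
  inv_mem' := by
    rintro x ⟨hx, hx1⟩
    exact ⟨inv_mem hx, by rw [inv_pow, hx1, inv_one]⟩

theorem mem_Om (h : Cfg P t₁ t₂) {x : G} : x ∈ h.Om ↔ x ∈ (P : Subgroup G) ∧ x ^ 2 = 1 :=
  Iff.rfl

theorem two_pow (_h : Cfg P t₁ t₂) : ∀ x ∈ (P : Subgroup G), ∃ n : ℕ, x ^ (2 ^ n) = 1 := by
  intro x hx
  obtain ⟨k, hk⟩ := P.isPGroup' ⟨x, hx⟩
  exact ⟨k, congrArg Subtype.val hk⟩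

theorem le_centralizer (h : Cfg P t₁ t₂) :
    (P : Subgroup G) ≤ Subgroup.centralizer ((P : Subgroup G) : Set G) := by
  intro x hx
  rw [Subgroup.mem_centralizer_iff]
  intro y hy
  exact h.ab y hy x hx

theorem card_Om_le (h : Cfg P t₁ t₂) : (h.Om : Set G).ncard ≤ 4 := by
  classical
  have hsub : (h.Om : Set G) ⊆ ((({1, t₁, t₂, t₁ * t₂} : Finset G)) : Set G) := by
    intro x hx
    rcases h.omega x hx.1 hx.2 with h1 | h1 | h1 | h1 <;> simp [h1]
  calc (h.Om : Set G).ncard ≤ ((({1, t₁, t₂, t₁ * t₂} : Finset G)) : Set G).ncard :=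
        Set.ncard_le_ncard hsub (Finset.finite_toSet _)
    _ = ({1, t₁, t₂, t₁ * t₂} : Finset G).card := Set.ncard_coe_finset _
    _ ≤ 4 := Finset.card_le_four

theorem conj_mem_Om (h : Cfg P t₁ t₂) {n : G}
    (hn : n ∈ Subgroup.normalizer ((P : Subgroup G) : Set G)) {x : G} (hx : x ∈ h.Om) :
    n * x * n⁻¹ ∈ h.Om := by
  refine ⟨(Subgroup.mem_normalizer_iff.mp hn x).mp hx.1, ?_⟩
  rw [conj_pow, hx.2]
  group

theorem odd_mem_centralizer (h : Cfg P t₁ t₂) {n : G}
    (hn : n ∈ Subgroup.normalizer ((P : Subgroup G) : Set G)) (hodd : Odd (orderOf n))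
    (hΩ : ∀ s ∈ h.Om, n * s * n⁻¹ = s) :
    n ∈ Subgroup.centralizer ((P : Subgroup G) : Set G) := by
  have := centralizes_of_odd (P : Subgroup G) h.ab h.two_pow n
    (fun x hx => (Subgroup.mem_normalizer_iff.mp hn x).mp hx) hodd
    (fun x hx hx2 => hΩ x ⟨hx, hx2⟩)
  rw [Subgroup.mem_centralizer_iff]
  intro y hy
  have h1 := this y hy
  calc y * n = n * y * n⁻¹ * n := by rw [h1]
    _ = n * y := by group

theorem star [Finite G] (h : Cfg P t₁ t₂) {n : G}
    (hn : n ∈ Subgroup.normalizer ((P : Subgroup G) : Set G)) (hodd : Odd (orderOf n)) {t : G}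
    (ht : t ∈ h.Om) (ht1 : t ≠ 1) (hnt : n * t * n⁻¹ = t) : ∀ s ∈ h.Om, n * s * n⁻¹ = s := by
  classical
  intro s hs
  by_contra hne
  have hs' : n * s * n⁻¹ ∈ h.Om := h.conj_mem_Om hn hs
  have hcancel : ∀ x y : G, n * x * n⁻¹ = n * y * n⁻¹ → x = y := by
    intro x y hxy
    have := congrArg (fun z => n⁻¹ * z * n) hxy
    simpa [mul_assoc] using this
  have hs1 : s ≠ 1 := by
    rintro rfl
    apply hne
    group
  have hst : s ≠ t := by
    rintro rfl
    exact hne hnt
  have hs'1 : n * s * n⁻¹ ≠ 1 := by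
    intro h1
    apply hs1
    apply hcancel
    rw [h1]
    group
  have hs't : n * s * n⁻¹ ≠ t := by
    intro h1
    apply hst
    apply hcancel
    rw [h1, hnt]
  have hts : t * s ∈ h.Om := mul_mem ht hs
  have ht2 : t * t = 1 := by
    have := ht.2
    rwa [pow_two] at this
  have hs2 : s * s = 1 := by
    have := hs.2
    rwa [pow_two] at this
  have hts1 : t * s ≠ 1 := by
    intro h1
    apply hst
    have h2 : t * s = t * t := by rw [h1, ht2]
    exact mul_left_cancel h2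
  have htst : t * s ≠ t := by
    intro h1
    exact hs1 (mul_eq_left.mp h1)
  have htss : t * s ≠ s := by
    intro h1
    exact ht1 (mul_eq_right.mp h1)
  have hs'ts : n * s * n⁻¹ = t * s := by
    by_contra hne2
    exact five_distinct (h.Om : Set G) (Set.toFinite _) h.card_Om_le (one_mem _) ht hs hts hs'
      (Ne.symm ht1) (Ne.symm hs1) (Ne.symm hts1) (Ne.symm hs'1) (Ne.symm hst) (Ne.symm htst)
      (Ne.symm hs't) (Ne.symm htss) (Ne.symm hne) (Ne.symm hne2)
  have hn2 : n ^ 2 * s * (n ^ 2)⁻¹ = s := by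
    calc n ^ 2 * s * (n ^ 2)⁻¹ = n * (n * s * n⁻¹) * n⁻¹ := by
          rw [pow_two]
          group
      _ = n * (t * s) * n⁻¹ := by rw [hs'ts]
      _ = (n * t * n⁻¹) * (n * s * n⁻¹) := by group
      _ = t * (t * s) := by rw [hnt, hs'ts]
      _ = s := by rw [← mul_assoc, ht2, one_mul]
  obtain ⟨j, hj⟩ := hodd
  have h3 := conj_pow_fix hn2 (j + 1)
  have h4 : (n ^ 2) ^ (j + 1) = n := by
    rw [← pow_mul]
    have : 2 * (j + 1) = orderOf n + 1 := by omega
    rw [this, pow_succ, pow_orderOf_eq_one, one_mul]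
  rw [h4] at h3
  exact hne h3

/-- decomposition into 2-part and odd part -/
theorem parts [Finite G] (h : Cfg P t₁ t₂) {n : G}
    (hn : n ∈ Subgroup.normalizer ((P : Subgroup G) : Set G)) :
    ∃ a : ℕ, Odd (orderOf (n ^ (2 ^ a))) ∧
      (n ^ (2 ^ a) ∈ Subgroup.centralizer ((P : Subgroup G) : Set G) →
        n ∈ Subgroup.centralizer ((P : Subgroup G) : Set G)) := by
  obtain ⟨a, b, hb, hab⟩ := Nat.exists_eq_two_pow_mul_odd (orderOf_pos n).ne'
  refine ⟨a, ?_, ?_⟩
  · have h1 : (n ^ (2 ^ a)) ^ b = 1 := by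
      rw [← pow_mul, ← hab, pow_orderOf_eq_one]
    exact Odd.of_dvd_nat hb (orderOf_dvd_of_pow_eq_one h1)
  · intro h1
    have h2 : n ^ b ∈ (P : Subgroup G) := by
      apply mem_sylow_of_pow P _ (pow_mem hn b) a
      rw [← pow_mul, mul_comm, ← hab, pow_orderOf_eq_one]
    have hcop : Nat.Coprime (2 ^ a) b :=
      Nat.Coprime.pow_left a (Nat.coprime_two_left.mpr hb)
    exact mem_of_parts _ n a b hcop h1 (h.le_centralizer h2)

/-- the conjugation action of `N(P)` on `Ω₁(P)` -/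
def mulAct (h : Cfg P t₁ t₂) :
    MulAction ↥(Subgroup.normalizer ((P : Subgroup G) : Set G)) ↥h.Om where
  smul n x := ⟨(n : G) * x * (n : G)⁻¹, h.conj_mem_Om n.2 x.2⟩
  one_smul x := Subtype.ext (by
    change ((1 : ↥(Subgroup.normalizer ((P : Subgroup G) : Set G))) : G) * x *
      ((1 : ↥(Subgroup.normalizer ((P : Subgroup G) : Set G))) : G)⁻¹ = x
    simp)
  mul_smul a b x := Subtype.ext (by
    change ((a * b : ↥(Subgroup.normalizer ((P : Subgroup G) : Set G))) : G) * x *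
      ((a * b : ↥(Subgroup.normalizer ((P : Subgroup G) : Set G))) : G)⁻¹
        = (a : G) * ((b : G) * x * (b : G)⁻¹) * (a : G)⁻¹
    simp [mul_assoc])

theorem relIndex_eq [Finite G] (h : Cfg P t₁ t₂) :
    (Subgroup.centralizer ((P : Subgroup G) : Set G)).relIndex
        (Subgroup.normalizer ((P : Subgroup G) : Set G)) = 1 ∨
      (Subgroup.centralizer ((P : Subgroup G) : Set G)).relIndex
        (Subgroup.normalizer ((P : Subgroup G) : Set G)) = 3 := by
  classical
  letI := h.mulAct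
  have hker : (MulAction.toPermHom ↥(Subgroup.normalizer ((P : Subgroup G) : Set G)) ↥h.Om).ker
      = (Subgroup.centralizer ((P : Subgroup G) : Set G)).subgroupOf
          (Subgroup.normalizer ((P : Subgroup G) : Set G)) := by
    ext n
    rw [MonoidHom.mem_ker, Subgroup.mem_subgroupOf]
    constructor
    · intro hn
      have hfix : ∀ s ∈ h.Om, (n : G) * s * (n : G)⁻¹ = s := by
        intro s hs
        have := congrArg (fun σ : Equiv.Perm ↥h.Om => ((σ ⟨s, hs⟩ : ↥h.Om) : G)) hn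
        exact this
      obtain ⟨a, hodd, himp⟩ := h.parts n.2
      apply himp
      apply h.odd_mem_centralizer (pow_mem n.2 _) hodd
      intro s hs
      exact conj_pow_fix (hfix s hs) (2 ^ a)
    · intro hn
      ext ⟨s, hs⟩
      change (n : G) * s * (n : G)⁻¹ = s
      rw [← Subgroup.mem_centralizer_iff.mp hn s hs.1]
      group
  have h1 : (Subgroup.centralizer ((P : Subgroup G) : Set G)).relIndex
      (Subgroup.normalizer ((P : Subgroup G) : Set G)) ∣ 24 := by
    change ((Subgroup.centralizer ((P : Subgroup G) : Set G)).subgroupOf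
      (Subgroup.normalizer ((P : Subgroup G) : Set G))).index ∣ 24
    rw [← hker, Subgroup.index_ker]
    have h5 := Subgroup.card_subgroup_dvd_card
      (MulAction.toPermHom ↥(Subgroup.normalizer ((P : Subgroup G) : Set G)) ↥h.Om).range
    rw [Nat.card_perm] at h5
    have h4 := h.card_Om_le
    rw [← Nat.card_coe_set_eq] at h4
    have hpos : 0 < Nat.card (h.Om : Set G) := Nat.card_pos
    refine h5.trans ?_
    change (Nat.card (h.Om : Set G)).factorial ∣ 24
    interval_cases (Nat.card (h.Om : Set G)) <;> decide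
  have h2 : ¬ 2 ∣ (Subgroup.centralizer ((P : Subgroup G) : Set G)).relIndex
      (Subgroup.normalizer ((P : Subgroup G) : Set G)) := by
    intro hd
    have h4 := Subgroup.relIndex_dvd_of_le_left
      (Subgroup.normalizer ((P : Subgroup G) : Set G)) h.le_centralizer
    have h5 : (P : Subgroup G).relIndex (Subgroup.normalizer ((P : Subgroup G) : Set G))
        ∣ (P : Subgroup G).index := Subgroup.relIndex_dvd_index_of_le Subgroup.le_normalizer
    exact P.not_dvd_index (hd.trans (h4.trans h5))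
  have h3 : (Subgroup.centralizer ((P : Subgroup G) : Set G)).relIndex
      (Subgroup.normalizer ((P : Subgroup G) : Set G)) ∣ 3 := by
    have hc : Nat.Coprime ((Subgroup.centralizer ((P : Subgroup G) : Set G)).relIndex
        (Subgroup.normalizer ((P : Subgroup G) : Set G))) 8 := by
      have : Nat.Coprime ((Subgroup.centralizer ((P : Subgroup G) : Set G)).relIndex
          (Subgroup.normalizer ((P : Subgroup G) : Set G))) 2 :=
        (Nat.coprime_comm.mp ((Nat.Prime.coprime_iff_not_dvd Nat.prime_two).mpr h2))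
      exact Nat.Coprime.pow_right 3 this
    exact hc.dvd_of_dvd_mul_left (by simpa using h1)
  rcases (Nat.dvd_prime Nat.prime_three).mp h3 with h' | h'
  · left
    exact h'
  · right
    exact h'

theorem cent_inf [Finite G] (h : Cfg P t₁ t₂) {z : G} (hz : z ∈ (P : Subgroup G)) (hz1 : z ≠ 1) :
    Subgroup.centralizer ({z} : Set G) ⊓ Subgroup.normalizer ((P : Subgroup G) : Set G)
      = Subgroup.centralizer ((P : Subgroup G) : Set G) := by
  apply le_antisymm
  · intro n hn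
    obtain ⟨hnz, hnN⟩ := Subgroup.mem_inf.mp hn
    have hcomm : n * z * n⁻¹ = z := by
      have := Subgroup.mem_centralizer_iff.mp hnz z rfl
      rw [← this]
      group
    -- the involution in `⟨z⟩`
    obtain ⟨k, hk⟩ := h.two_pow z hz
    have hex : ∃ k : ℕ, z ^ (2 ^ k) = 1 := ⟨k, hk⟩
    classical
    have hk0 : Nat.find hex ≠ 0 := by
      intro h0
      have := Nat.find_spec hex
      rw [h0, pow_zero, pow_one] at this
      exact hz1 this
    obtain ⟨j, hj⟩ := Nat.exists_eq_succ_of_ne_zero hk0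
    have ht1 : z ^ (2 ^ j) ≠ 1 := by
      have := Nat.find_min hex (m := j) (by omega)
      exact this
    have ht2 : (z ^ (2 ^ j)) ^ 2 = 1 := by
      have := Nat.find_spec hex
      rw [hj, pow_succ, pow_mul] at this
      exact this
    have ht : z ^ (2 ^ j) ∈ h.Om := ⟨pow_mem hz _, ht2⟩
    obtain ⟨a, hodd, himp⟩ := h.parts hnN
    apply himp
    apply h.odd_mem_centralizer (pow_mem hnN _) hodd
    apply h.star (pow_mem hnN _) hodd ht ht1
    apply conj_pow_fix
    rw [← conj_pow, hcomm]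
  · exact le_inf (Subgroup.centralizer_le (Set.singleton_subset_iff.mpr hz))
      (Subgroup.centralizer_le_normalizer _)

end Cfg


theorem zmod_double (m : ℕ) (hm : 1 ≤ m) (a : ZMod (2 ^ m)) (ha : a + a = 0) :
    a = 0 ∨ a = ((2 ^ (m - 1) : ℕ) : ZMod (2 ^ m)) := by
  haveI : NeZero (2 ^ m) := ⟨by positivity⟩
  have hv : a.val < 2 ^ m := ZMod.val_lt a
  have h1 : ((a.val + a.val : ℕ) : ZMod (2 ^ m)) = 0 := by
    rw [Nat.cast_add, ZMod.natCast_zmod_val]
    exact ha
  rw [ZMod.natCast_eq_zero_iff] at h1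
  obtain ⟨c, hc⟩ := h1
  have hpow : 2 ^ m = 2 * 2 ^ (m - 1) := by
    rw [← pow_succ']
    congr 1
    omega
  have hc2 : c = 0 ∨ c = 1 := by
    rcases c with _ | _ | c
    · left
      rfl
    · right
      rfl
    · exfalso
      nlinarith
  rcases hc2 with rfl | rfl
  · left
    have : a.val = 0 := by omega
    exact (ZMod.val_eq_zero a).mp this
  · right
    have : a.val = 2 ^ (m - 1) := by omega
    rw [← this, ZMod.natCast_zmod_val]

end Cfsg.Agent.Helper8.Homocyclic
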