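import Mathlib

set_option autoImplicit false

namespace Cfsg.Agent.Helper8.KGV

section Core

variable {A : Type*} [AddCommGroup A] [Finite A]

theorem core (γ η : AddMonoid.End A) (hc : Commute γ η) (m n : ℕ) (hm : γ ^ m = 1)
    (hn : η ^ n = 1) (hcop : (m * n).Coprime (Nat.card A)) :
    Nat.card {p : A × A // p.1 - η p.1 = p.2 - γ p.2}
      = Nat.card A * Nat.card {u : A // γ u = u ∧ η u = u} := by
  classical
  set Nγ : AddMonoid.End A := ∑ i ∈ Finset.range m, γ ^ i with hNγ
  set Nη : AddMonoid.End A := ∑ i ∈ Finset.range n, η ^ i with hNη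
  set Qγ : AddMonoid.End A := ∑ i ∈ Finset.range m, ∑ j ∈ Finset.range i, γ ^ j with hQγ
  set Qη : AddMonoid.End A := ∑ i ∈ Finset.range n, ∑ j ∈ Finset.range i, η ^ j with hQη
  have h1 : (1 - γ) * Nγ = 0 := by rw [hNγ, mul_neg_geom_sum, hm, sub_self]
  have h1' : (1 - η) * Nη = 0 := by rw [hNη, mul_neg_geom_sum, hn, sub_self]
  have h2 : (1 - γ) * Qγ = (m : AddMonoid.End A) - Nγ := by
    rw [hQγ, Finset.mul_sum]
    simp only [mul_neg_geom_sum]
    rw [Finset.sum_sub_distrib]; simp
    rfl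
  have h2' : (1 - η) * Qη = (n : AddMonoid.End A) - Nη := by
    rw [hQη, Finset.mul_sum]
    simp only [mul_neg_geom_sum]
    rw [Finset.sum_sub_distrib]; simp
    rfl
  have hcN : Commute Nγ η := by
    rw [hNγ]; exact Commute.sum_left _ _ _ (fun i _ => hc.pow_left i)
  have hcNN : Commute Nγ Nη := by
    rw [hNη]; exact Commute.sum_right _ _ _ (fun i _ => hcN.pow_right i)
  have hkey : ((m * n : ℕ) : AddMonoid.End A)
      = (1 - γ) * (Qγ * (n : AddMonoid.End A)) + (1 - η) * (Qη * Nγ) + Nγ * Nη := by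
    rw [← mul_assoc, ← mul_assoc, h2, h2', sub_mul, sub_mul, Nat.cast_comm n Nγ, hcNN.eq,
      Nat.cast_mul]
    abel
  have happ : ∀ (f g : AddMonoid.End A) (x : A), (f * g) x = f (g x) := fun _ _ _ => rfl
  have hsub : ∀ (f g : AddMonoid.End A) (x : A), (f - g) x = f x - g x := fun _ _ _ => rfl
  have hγN : ∀ x, γ (Nγ x) = Nγ x := by
    intro x
    have := congrArg (fun f : AddMonoid.End A => f x) h1
    simp only [happ, hsub] at this
    have h0 : (1 : AddMonoid.End A) (Nγ x) - γ (Nγ x) = 0 := this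
    exact (sub_eq_zero.mp h0).symm
  have hηN : ∀ x, η (Nη x) = Nη x := by
    intro x
    have := congrArg (fun f : AddMonoid.End A => f x) h1'
    simp only [happ, hsub] at this
    have h0 : (1 : AddMonoid.End A) (Nη x) - η (Nη x) = 0 := this
    exact (sub_eq_zero.mp h0).symm
  have hηNγ : ∀ x, η (Nγ x) = Nγ (η x) := by
    intro x
    have := congrArg (fun f : AddMonoid.End A => f x) hcN.eq
    simp only [happ] at this
    exact this.symm
  have hNN : ∀ x, Nγ (Nη x) = Nη (Nγ x) := by
    intro x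
    have := congrArg (fun f : AddMonoid.End A => f x) hcNN.eq
    simpa only [happ] using this
  have hsum_app : ∀ (f : ℕ → AddMonoid.End A) (s : Finset ℕ) (x : A),
      (∑ i ∈ s, f i) x = ∑ i ∈ s, f i x := by
    intro f s x
    induction s using Finset.induction_on with
    | empty => rfl
    | insert a s ha ih => rw [Finset.sum_insert ha, Finset.sum_insert ha, ← ih]; rfl
  have hNγfix : ∀ x, γ x = x → Nγ x = m • x := by
    intro x hx
    have hp : ∀ i : ℕ, (γ ^ i) x = x := by
      intro i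
      induction i with
      | zero => rfl
      | succ k ih => rw [pow_succ, happ, hx, ih]
    rw [hNγ, hsum_app]
    simp [hp]
  have hNηfix : ∀ x, η x = x → Nη x = n • x := by
    intro x hx
    have hp : ∀ i : ℕ, (η ^ i) x = x := by
      intro i
      induction i with
      | zero => rfl
      | succ k ih => rw [pow_succ, happ, hx, ih]
    rw [hNη, hsum_app]
    simp [hp]
  have hNγkill : ∀ x, Nγ (x - γ x) = 0 := by
    intro x
    rw [map_sub]
    have := congrArg (fun f : AddMonoid.End A => f x) (Commute.sum_right (Finset.range m)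
      (fun i => γ ^ i) γ (fun i _ => (Commute.refl γ).pow_right i)).eq
    simp only [happ] at this
    rw [← hNγ] at this
    rw [← this, hγN, sub_self]
  have hNηkill : ∀ x, Nη (x - η x) = 0 := by
    intro x
    rw [map_sub]
    have := congrArg (fun f : AddMonoid.End A => f x) (Commute.sum_right (Finset.range n)
      (fun i => η ^ i) η (fun i _ => (Commute.refl η).pow_right i)).eq
    simp only [happ] at this
    rw [← hNη] at this
    rw [← this, hηN, sub_self]
  have hinj : ∀ x : A, (m * n) • x = 0 → x = 0 := by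
    intro x hx
    have d1 : addOrderOf x ∣ m * n := addOrderOf_dvd_of_nsmul_eq_zero hx
    have d2 : addOrderOf x ∣ Nat.card A := addOrderOf_dvd_natCard x
    have : addOrderOf x = 1 := Nat.eq_one_of_dvd_coprimes hcop d1 d2
    exact AddMonoid.addOrderOf_eq_one_iff.mp this
  -- the homomorphism
  set ψ : A × A →+ A :=
    AddMonoidHom.mk' (fun p : A × A => (p.1 - η p.1) - (p.2 - γ p.2)) (by
      intro p q
      simp only [Prod.fst_add, Prod.snd_add, map_add]
      abel) with hψ
  have hψ_apply : ∀ p : A × A, ψ p = (p.1 - η p.1) - (p.2 - γ p.2) := fun p => rfl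
  set C : AddSubgroup A :=
    { carrier := {u | γ u = u ∧ η u = u}
      add_mem' := by
        rintro a b ⟨ha1, ha2⟩ ⟨hb1, hb2⟩
        exact ⟨by rw [map_add, ha1, hb1], by rw [map_add, ha2, hb2]⟩
      zero_mem' := ⟨map_zero _, map_zero _⟩
      neg_mem' := by
        rintro a ⟨ha1, ha2⟩
        exact ⟨by rw [map_neg, ha1], by rw [map_neg, ha2]⟩ } with hC
  have hC_mem : ∀ u : A, u ∈ C ↔ γ u = u ∧ η u = u := fun u => Iff.rfl
  have hdisj : ∀ r : A, r ∈ ψ.range → r ∈ C → r = 0 := by
    intro r hr hrC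
    obtain ⟨p, rfl⟩ := hr
    obtain ⟨hg, hh⟩ := (hC_mem _).mp hrC
    apply hinj
    have e1 : Nγ (Nη (ψ p)) = (m * n) • ψ p := by
      rw [hNηfix _ hh, map_nsmul, hNγfix _ hg, smul_smul, mul_comm]
    rw [← e1, hψ_apply, map_sub, map_sub, hNηkill, map_zero, zero_sub, hNN, hNγkill, map_zero,
      neg_zero]
  have hsurj : ∀ v : A, ∃ r ∈ ψ.range, ∃ c ∈ C, v = r + c := by
    intro v
    have hfin : Function.Injective (fun x : A => (m * n) • x) := by
      intro x y hxy
      have : (m * n) • (x - y) = 0 := by rw [smul_sub]; exact sub_eq_zero.mpr hxy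
      exact sub_eq_zero.mp (hinj _ this)
    obtain ⟨v', hv'⟩ := (Finite.injective_iff_surjective.mp hfin) v
    have := congrArg (fun f : AddMonoid.End A => f v') hkey
    simp only [AddMonoid.End.natCast_apply] at this
    have e : (m * n) • v' = ((1 - γ) * (Qγ * (n : AddMonoid.End A))) v'
        + ((1 - η) * (Qη * Nγ)) v' + (Nγ * Nη) v' := this
    simp only [happ, hsub] at e
    refine ⟨ψ (Qη (Nγ v'), - Qγ ((n : AddMonoid.End A) v')), ⟨_, rfl⟩, Nγ (Nη v'), ?_, ?_⟩
    · rw [hC_mem]
      exact ⟨hγN _, by rw [hηNγ, hηN]⟩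
    · rw [← hv']
      show (m * n) • v' = _
      rw [e, hψ_apply]
      simp only [map_neg]
      have o1 : ∀ x : A, (1 : AddMonoid.End A) x = x := fun _ => rfl
      simp only [o1]
      abel
  -- counting
  have c1 : Nat.card {p : A × A // p.1 - η p.1 = p.2 - γ p.2} = Nat.card ψ.ker := by
    refine Nat.card_congr (Equiv.subtypeEquivRight (fun p => ?_))
    rw [AddMonoidHom.mem_ker, hψ_apply, sub_eq_zero]
  have c2 : Nat.card {u : A // γ u = u ∧ η u = u} = Nat.card C :=
    Nat.card_congr (Equiv.subtypeEquivRight (fun u => (hC_mem u).symm))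
  have c3 : Nat.card ψ.ker * Nat.card ψ.range = Nat.card A * Nat.card A := by
    rw [← AddSubgroup.index_ker, AddSubgroup.card_mul_index, Nat.card_prod]
  have c4 : Nat.card ψ.range * Nat.card C = Nat.card A := by
    rw [← Nat.card_prod]
    refine Nat.card_congr (Equiv.ofBijective (fun rc : ψ.range × C => (rc.1 : A) + (rc.2 : A))
      ⟨?_, ?_⟩)
    · rintro ⟨r1, c1⟩ ⟨r2, c2⟩ h
      have h' : (r1 : A) + c1 = r2 + c2 := h
      have hd : (r1 : A) - r2 = (c2 : A) - c1 := by
        rw [sub_eq_sub_iff_add_eq_add]; rw [h']; abel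
      have hz := hdisj ((r1 : A) - r2) (ψ.range.sub_mem r1.2 r2.2)
        (by rw [hd]; exact C.sub_mem c2.2 c1.2)
      have hr : r1 = r2 := Subtype.ext (sub_eq_zero.mp hz)
      have hc' : c1 = c2 := by
        apply Subtype.ext
        have : (c2 : A) - c1 = 0 := by rw [← hd]; exact hz
        exact (sub_eq_zero.mp this).symm
      rw [hr, hc']
    · intro v
      obtain ⟨r, hr, c, hc', hv⟩ := hsurj v
      exact ⟨(⟨r, hr⟩, ⟨c, hc'⟩), hv.symm⟩
  have hApos : 0 < Nat.card A := Nat.card_pos
  rw [c1, c2]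
  have : Nat.card ψ.ker * Nat.card A = Nat.card A * Nat.card C * Nat.card A := by
    calc Nat.card ψ.ker * Nat.card A = Nat.card ψ.ker * (Nat.card ψ.range * Nat.card C) := by
          rw [c4]
      _ = (Nat.card ψ.ker * Nat.card ψ.range) * Nat.card C := by ring
      _ = Nat.card A * Nat.card C * Nat.card A := by rw [c3]; ring
  exact Nat.eq_of_mul_eq_mul_right hApos this

end Core

section Grp

variable {X : Type*} [Group X]

theorem conjClasses_card_congr {A B : Type*} [Group A] [Group B] [Finite A] (e : A ≃* B) :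
    Nat.card (ConjClasses A) = Nat.card (ConjClasses B) := by
  haveI : Finite B := Finite.of_equiv A e.toEquiv
  have h1 := card_comm_eq_card_conjClasses_mul_card A
  have h2 := card_comm_eq_card_conjClasses_mul_card B
  have h3 : Nat.card { p : A × A // Commute p.1 p.2 }
      = Nat.card { p : B × B // Commute p.1 p.2 } :=
    Nat.card_congr (Equiv.subtypeEquiv (Equiv.prodCongr e.toEquiv e.toEquiv) (fun p => by
      constructor
      · intro h; exact h.map e
      · intro h
        have h' : Commute (e p.1) (e p.2) := h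
        have := h'.map e.symm
        simpa using this))
  have h4 : Nat.card A = Nat.card B := Nat.card_congr e.toEquiv
  rw [h1, h2, ← h4] at h3
  exact Nat.eq_of_mul_eq_mul_right Nat.card_pos h3

/-- conjugation by `t ∈ G` between the centralizers in `G` of `x` and of `t x t⁻¹` -/
def centEquiv (G : Subgroup X) (t : X) (ht : t ∈ G) (x : X) :
    ↥(G ⊓ Subgroup.centralizer ({x} : Set X)) ≃*
      ↥(G ⊓ Subgroup.centralizer ({t * x * t⁻¹} : Set X)) where
  toFun a := ⟨t * a * t⁻¹, by
    obtain ⟨a, ha⟩ := a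
    rw [Subgroup.mem_inf] at ha ⊢
    refine ⟨G.mul_mem (G.mul_mem ht ha.1) (G.inv_mem ht), ?_⟩
    rw [Subgroup.mem_centralizer_iff]
    intro y hy
    rw [Set.mem_singleton_iff] at hy
    rw [hy]
    have h := Subgroup.mem_centralizer_iff.mp ha.2 x rfl
    calc t * x * t⁻¹ * (t * a * t⁻¹) = t * (x * a) * t⁻¹ := by group
      _ = t * (a * x) * t⁻¹ := by rw [h]
      _ = t * a * t⁻¹ * (t * x * t⁻¹) := by group⟩
  invFun b := ⟨t⁻¹ * b * t, by
    obtain ⟨b, hb⟩ := b
    rw [Subgroup.mem_inf] at hb ⊢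
    refine ⟨G.mul_mem (G.mul_mem (G.inv_mem ht) hb.1) ht, ?_⟩
    rw [Subgroup.mem_centralizer_iff]
    intro y hy
    rw [Set.mem_singleton_iff] at hy
    rw [hy]
    have h := Subgroup.mem_centralizer_iff.mp hb.2 (t * x * t⁻¹) rfl
    calc x * (t⁻¹ * b * t) = t⁻¹ * (t * x * t⁻¹ * b) * t := by group
      _ = t⁻¹ * (b * (t * x * t⁻¹)) * t := by rw [h]
      _ = t⁻¹ * b * t * x := by group⟩
  left_inv a := by
    apply Subtype.ext
    show t⁻¹ * (t * (a : X) * t⁻¹) * t = a
    group
  right_inv b := by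
    apply Subtype.ext
    show t * (t⁻¹ * (b : X) * t) * t⁻¹ = b
    group
  map_mul' a b := by
    apply Subtype.ext
    show t * ((a : X) * (b : X)) * t⁻¹ = t * (a : X) * t⁻¹ * (t * (b : X) * t⁻¹)
    group

/-- conjugation by `t` on the normal subgroup `V`, as an additive endomorphism -/
def conjEnd (V : Subgroup X) [V.Normal] (t : X) : AddMonoid.End (Additive ↥V) :=
  AddMonoidHom.mk' (fun a => Additive.ofMul (MulAut.conjNormal t (Additive.toMul a))) (by
    intro a b; rw [toMul_add, map_mul, ofMul_mul])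

theorem conjEnd_apply (V : Subgroup X) [V.Normal] (t : X) (a : Additive ↥V) :
    conjEnd V t a = Additive.ofMul (MulAut.conjNormal t (Additive.toMul a)) := rfl

theorem conjEnd_mul (V : Subgroup X) [V.Normal] (s t : X) :
    conjEnd V (s * t) = conjEnd V s * conjEnd V t := by
  apply AddMonoidHom.ext
  intro a
  show Additive.ofMul (MulAut.conjNormal (s * t) (Additive.toMul a))
    = Additive.ofMul (MulAut.conjNormal s (MulAut.conjNormal t (Additive.toMul a)))
  rw [map_mul]; rfl

theorem conjEnd_one (V : Subgroup X) [V.Normal] : conjEnd V (1 : X) = 1 := by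
  apply AddMonoidHom.ext
  intro a
  show Additive.ofMul (MulAut.conjNormal (1 : X) (Additive.toMul a)) = a
  rw [map_one]; rfl

theorem conjEnd_pow (V : Subgroup X) [V.Normal] (t : X) (k : ℕ) :
    conjEnd V t ^ k = conjEnd V (t ^ k) := by
  induction k with
  | zero => rw [pow_zero, pow_zero, conjEnd_one]
  | succ k ih => rw [pow_succ, pow_succ, conjEnd_mul, ih]

theorem comm_iff (V G : Subgroup X) [V.Normal] (hdisj : V ⊓ G = ⊥) (v w g h : X) (hv : v ∈ V)
    (hw : w ∈ V) (hg : g ∈ G) (hh : h ∈ G) :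
    Commute (v * g) (w * h) ↔ Commute g h ∧ v * (g * w * g⁻¹) = w * (h * v * h⁻¹) := by
  constructor
  · intro hc
    have hc' : v * g * (w * h) = w * h * (v * g) := hc
    have e : v * (g * w * g⁻¹) * (g * h) = w * (h * v * h⁻¹) * (h * g) := by
      calc v * (g * w * g⁻¹) * (g * h) = v * g * (w * h) := by group
        _ = w * h * (v * g) := hc'
        _ = w * (h * v * h⁻¹) * (h * g) := by group
    have ha : v * (g * w * g⁻¹) ∈ V :=
      V.mul_mem hv (Subgroup.Normal.conj_mem inferInstance w hw g)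
    have hb : w * (h * v * h⁻¹) ∈ V :=
      V.mul_mem hw (Subgroup.Normal.conj_mem inferInstance v hv h)
    have hmem : (w * (h * v * h⁻¹))⁻¹ * (v * (g * w * g⁻¹)) ∈ V ⊓ G := by
      rw [Subgroup.mem_inf]
      refine ⟨V.mul_mem (V.inv_mem hb) ha, ?_⟩
      have : (w * (h * v * h⁻¹))⁻¹ * (v * (g * w * g⁻¹)) = (h * g) * (g * h)⁻¹ := by
        calc (w * (h * v * h⁻¹))⁻¹ * (v * (g * w * g⁻¹))
            = (w * (h * v * h⁻¹))⁻¹ * (v * (g * w * g⁻¹) * (g * h)) * (g * h)⁻¹ := by group
          _ = (w * (h * v * h⁻¹))⁻¹ * (w * (h * v * h⁻¹) * (h * g)) * (g * h)⁻¹ := by rw [e]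
          _ = (h * g) * (g * h)⁻¹ := by group
      rw [this]
      exact G.mul_mem (G.mul_mem hh hg) (G.inv_mem (G.mul_mem hg hh))
    rw [hdisj, Subgroup.mem_bot, inv_mul_eq_one] at hmem
    refine ⟨?_, hmem.symm⟩
    rw [← hmem] at e
    exact mul_left_cancel e
  · rintro ⟨hc, e⟩
    show v * g * (w * h) = w * h * (v * g)
    calc v * g * (w * h) = v * (g * w * g⁻¹) * (g * h) := by group
      _ = w * (h * v * h⁻¹) * (h * g) := by rw [e, hc.eq]
      _ = w * h * (v * g) := by group

theorem pair_count [Finite X] (V G : Subgroup X) [V.Normal]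
    (hab : ∀ a ∈ V, ∀ b ∈ V, a * b = b * a) (hdisj : V ⊓ G = ⊥)
    (hcop : (Nat.card V).Coprime (Nat.card G)) (g h : G) (hc : Commute (g : X) (h : X)) :
    Nat.card {p : V × V // Commute ((p.1 : X) * g) ((p.2 : X) * h)}
      = Nat.card V * Nat.card {u : V // Commute (g : X) (u : X) ∧ Commute (h : X) (u : X)} := by
  letI : CommGroup ↥V := { (inferInstance : Group ↥V) with
    mul_comm := fun a b => Subtype.ext (hab a a.2 b b.2) }
  have hm : conjEnd V (g : X) ^ orderOf g = 1 := by
    rw [conjEnd_pow, ← Subgroup.coe_pow, pow_orderOf_eq_one, Subgroup.coe_one, conjEnd_one]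
  have hn : conjEnd V (h : X) ^ orderOf h = 1 := by
    rw [conjEnd_pow, ← Subgroup.coe_pow, pow_orderOf_eq_one, Subgroup.coe_one, conjEnd_one]
  have hcomm : Commute (conjEnd V (g : X)) (conjEnd V (h : X)) := by
    show conjEnd V (g : X) * conjEnd V (h : X) = conjEnd V (h : X) * conjEnd V (g : X)
    rw [← conjEnd_mul, ← conjEnd_mul, hc.eq]
  have hcop' : (orderOf g * orderOf h).Coprime (Nat.card (Additive ↥V)) := by
    have h1 : (orderOf g).Coprime (Nat.card V) :=
      Nat.Coprime.coprime_dvd_left (orderOf_dvd_natCard g) hcop.symm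
    have h2 : (orderOf h).Coprime (Nat.card V) :=
      Nat.Coprime.coprime_dvd_left (orderOf_dvd_natCard h) hcop.symm
    exact Nat.Coprime.mul_left h1 h2
  have key := core (A := Additive ↥V) (conjEnd V (g : X)) (conjEnd V (h : X)) hcomm
    (orderOf g) (orderOf h) hm hn hcop'
  have e1 : Nat.card {p : V × V // Commute ((p.1 : X) * g) ((p.2 : X) * h)}
      = Nat.card {p : Additive ↥V × Additive ↥V //
          p.1 - conjEnd V (h : X) p.1 = p.2 - conjEnd V (g : X) p.2} := by
    refine Nat.card_congr (Equiv.subtypeEquiv (Equiv.prodCongr Additive.ofMul Additive.ofMul)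
      (fun p => ?_))
    rw [comm_iff V G hdisj _ _ _ _ p.1.2 p.2.2 g.2 h.2]
    show _ ↔ Additive.ofMul (p.1 / MulAut.conjNormal (h : X) p.1)
      = Additive.ofMul (p.2 / MulAut.conjNormal (g : X) p.2)
    rw [Additive.ofMul.injective.eq_iff, div_eq_div_iff_mul_eq_mul, Subtype.ext_iff]
    simp only [hc, true_and]
    rfl
  have e2 : Nat.card {u : V // Commute (g : X) (u : X) ∧ Commute (h : X) (u : X)}
      = Nat.card {u : Additive ↥V // conjEnd V (g : X) u = u ∧ conjEnd V (h : X) u = u} := by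
    refine Nat.card_congr (Equiv.subtypeEquiv Additive.ofMul (fun u => ?_))
    have aux : ∀ t : X, Commute t (u : X) ↔ conjEnd V t (Additive.ofMul u) = Additive.ofMul u := by
      intro t
      show _ ↔ Additive.ofMul (MulAut.conjNormal t u) = Additive.ofMul u
      rw [Additive.ofMul.injective.eq_iff, Subtype.ext_iff, MulAut.conjNormal_apply,
        mul_inv_eq_iff_eq_mul]
      exact Iff.rfl
    rw [aux, aux]
  rw [e1, e2, key]
  rfl

end Grp

section Main

variable {X : Type*} [Group X]

/-- class number of the centralizer of `x` in `G` -/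
noncomputable def kap (G : Subgroup X) (x : X) : ℕ :=
  Nat.card (ConjClasses ↥(G ⊓ Subgroup.centralizer ({x} : Set X)))

/-- order of the centralizer of `x` in `G` -/
noncomputable def zet (G : Subgroup X) (x : X) : ℕ :=
  Nat.card ↥(G ⊓ Subgroup.centralizer ({x} : Set X))

theorem kap_conj [Finite X] (G : Subgroup X) (t : X) (ht : t ∈ G) (x : X) :
    kap G (t * x * t⁻¹) = kap G x :=
  (conjClasses_card_congr (centEquiv G t ht x)).symm

theorem phi_eq [Finite X] (V G : Subgroup X) (u : V) :
    Nat.card {gh : G × G // Commute (gh.1 : X) (gh.2 : X) ∧ Commute (gh.1 : X) (u : X)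
        ∧ Commute (gh.2 : X) (u : X)}
      = kap G (u : X) * zet G (u : X) := by
  unfold kap zet
  rw [← card_comm_eq_card_conjClasses_mul_card]
  refine Nat.card_congr ?_
  exact
    { toFun := fun q => ⟨(⟨(q.1.1 : X), Subgroup.mem_inf.mpr ⟨q.1.1.2,
          Subgroup.mem_centralizer_iff.mpr (fun y hy => by
            rw [Set.mem_singleton_iff] at hy; rw [hy]; exact q.2.2.1.eq.symm)⟩⟩,
        ⟨(q.1.2 : X), Subgroup.mem_inf.mpr ⟨q.1.2.2,
          Subgroup.mem_centralizer_iff.mpr (fun y hy => by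
            rw [Set.mem_singleton_iff] at hy; rw [hy]; exact q.2.2.2.eq.symm)⟩⟩),
        Subtype.ext q.2.1.eq⟩
      invFun := fun q => ⟨(⟨(q.1.1 : X), (Subgroup.mem_inf.mp q.1.1.2).1⟩,
          ⟨(q.1.2 : X), (Subgroup.mem_inf.mp q.1.2.2).1⟩),
        ⟨congrArg Subtype.val q.2.eq,
          (Subgroup.mem_centralizer_iff.mp (Subgroup.mem_inf.mp q.1.1.2).2 (u : X) rfl).symm,
          (Subgroup.mem_centralizer_iff.mp (Subgroup.mem_inf.mp q.1.2.2).2 (u : X) rfl).symm⟩⟩
      left_inv := fun q => rfl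
      right_inv := fun q => rfl }

theorem zet_eq [Finite X] (V G : Subgroup X) (S : Finset X)
    (hrep : ∀ v ∈ V, ∃! s, s ∈ S ∧ ∃ g ∈ G, g * v * g⁻¹ = s) (u : V) :
    Nat.card {t : G // (t : X) * u * (t : X)⁻¹ ∈ S} = zet G (u : X) := by
  obtain ⟨s0, ⟨hs0, t0, ht0, ht0s⟩, huniq⟩ := hrep u u.2
  symm
  unfold zet
  refine Nat.card_congr ?_
  exact
    { toFun := fun c => ⟨⟨t0 * c, G.mul_mem ht0 (Subgroup.mem_inf.mp c.2).1⟩, by
          show t0 * c * u * (t0 * c)⁻¹ ∈ S
          have hcu : (c : X) * u = u * c :=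
            (Subgroup.mem_centralizer_iff.mp (Subgroup.mem_inf.mp c.2).2 (u : X) rfl).symm
          have : t0 * c * u * (t0 * c)⁻¹ = t0 * u * t0⁻¹ := by
            rw [mul_assoc t0, hcu]; group
          rw [this, ht0s]; exact hs0⟩
      invFun := fun t => ⟨t0⁻¹ * t, by
          rw [Subgroup.mem_inf]
          refine ⟨G.mul_mem (G.inv_mem ht0) t.1.2, ?_⟩
          rw [Subgroup.mem_centralizer_iff]
          intro y hy
          rw [Set.mem_singleton_iff] at hy
          rw [hy]
          have hts : (t.1 : X) * u * (t.1 : X)⁻¹ = s0 := huniq _ ⟨t.2, t.1, t.1.2, rfl⟩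
          have h2 : (t.1 : X) * u * (t.1 : X)⁻¹ = t0 * u * t0⁻¹ := by rw [hts, ht0s]
          calc (u : X) * (t0⁻¹ * t) = t0⁻¹ * (t0 * u * t0⁻¹) * t := by group
            _ = t0⁻¹ * ((t.1 : X) * u * (t.1 : X)⁻¹) * t := by rw [h2]
            _ = t0⁻¹ * t * u := by group⟩
      left_inv := fun c => by
        apply Subtype.ext
        show t0⁻¹ * (t0 * (c : X)) = c
        group
      right_inv := fun t => by
        apply Subtype.ext
        apply Subtype.ext
        show t0 * (t0⁻¹ * (t.1 : X)) = t.1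
        group }

theorem main4956 [Finite X] (V : Subgroup X) [V.Normal]
    (hab : ∀ a ∈ V, ∀ b ∈ V, a * b = b * a) (G : Subgroup X)
    (hGV : Subgroup.IsComplement' V G) (hcop : (Nat.card V).Coprime (Nat.card G))
    (S : Finset X) (hSV : ∀ s ∈ S, s ∈ V)
    (hrep : ∀ v ∈ V, ∃! s, s ∈ S ∧ ∃ g ∈ G, g * v * g⁻¹ = s) :
    Nat.card (ConjClasses X)
      = ∑ s ∈ S, Nat.card (ConjClasses ↥(G ⊓ Subgroup.centralizer ({s} : Set X))) := by
  classical
  haveI := Fintype.ofFinite X
  haveI : Fintype V := Fintype.ofFinite V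
  haveI : Fintype G := Fintype.ofFinite G
  have hdisj : V ⊓ G = ⊥ := disjoint_iff.mp hGV.disjoint
  have hbij : Function.Bijective (fun x : V × G => (x.1 : X) * (x.2 : X)) := hGV
  set e0 : V × G ≃ X := Equiv.ofBijective _ hbij with he0
  -- Step 2
  have hT1 : Nat.card {p : X × X // Commute p.1 p.2}
      = ∑ gh : G × G, Nat.card {p : V × V // Commute ((p.1 : X) * gh.1) ((p.2 : X) * gh.2)} := by
    rw [← Nat.card_sigma]
    refine Nat.card_congr ?_
    exact (Equiv.subtypeEquiv
        (p := fun q : (V × G) × (V × G) => Commute ((q.1.1 : X) * q.1.2) ((q.2.1 : X) * q.2.2))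
        (q := fun p : X × X => Commute p.1 p.2) (Equiv.prodCongr e0 e0)
        (fun q => Iff.rfl)).symm.trans
      { toFun := fun q => ⟨(q.1.1.2, q.1.2.2), ⟨(q.1.1.1, q.1.2.1), q.2⟩⟩
        invFun := fun s => ⟨((s.2.1.1, s.1.1), (s.2.1.2, s.1.2)), s.2.2⟩
        left_inv := fun q => rfl
        right_inv := fun s => rfl }
  have hF : ∀ gh : G × G,
      Nat.card {p : V × V // Commute ((p.1 : X) * gh.1) ((p.2 : X) * gh.2)}
        = if Commute (gh.1 : X) (gh.2 : X) then
            Nat.card V * Nat.card {u : V // Commute (gh.1 : X) (u : X) ∧ Commute (gh.2 : X) (u : X)}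
          else 0 := by
    intro gh
    split_ifs with hc
    · exact pair_count V G hab hdisj hcop gh.1 gh.2 hc
    · rw [Nat.card_eq_zero]
      left
      constructor
      rintro ⟨p, hp⟩
      exact hc ((comm_iff V G hdisj _ _ _ _ p.1.2 p.2.2 gh.1.2 gh.2.2).mp hp).1
  -- Step 3
  have hswap : ∑ gh : G × G, (if Commute (gh.1 : X) (gh.2 : X) then
        Nat.card {u : V // Commute (gh.1 : X) (u : X) ∧ Commute (gh.2 : X) (u : X)} else 0)
      = ∑ u : V, Nat.card {gh : G × G // Commute (gh.1 : X) (gh.2 : X)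
          ∧ Commute (gh.1 : X) (u : X) ∧ Commute (gh.2 : X) (u : X)} := by
    simp only [Nat.card_eq_fintype_card, Fintype.card_subtype, Finset.card_filter]
    rw [Finset.sum_comm]
    refine Finset.sum_congr rfl (fun gh _ => ?_)
    by_cases hC : Commute (gh.1 : X) (gh.2 : X)
    · simp [hC]
    · simp [hC]
  -- Step 5
  have hsum5 : ∑ u : V, kap G (u : X) * zet G (u : X) = Nat.card G * ∑ s ∈ S, kap G s := by
    have hA : ∑ u : V, kap G (u : X) * zet G (u : X)
        = ∑ u : V, ∑ t : G, if (t : X) * u * (t : X)⁻¹ ∈ S then kap G (u : X) else 0 := by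
      refine Finset.sum_congr rfl (fun u _ => ?_)
      rw [← zet_eq V G S hrep u, Nat.card_eq_fintype_card, Fintype.card_subtype,
        Finset.card_filter, Finset.mul_sum]
      refine Finset.sum_congr rfl (fun t _ => ?_)
      split_ifs <;> simp
    have hB : ∀ t : G, ∑ u : V, (if (t : X) * u * (t : X)⁻¹ ∈ S then kap G (u : X) else 0)
        = ∑ s ∈ S, kap G s := by
      intro t
      have e1 : ∑ u : V, (if (t : X) * u * (t : X)⁻¹ ∈ S then kap G (u : X) else 0)
          = ∑ v : V, (if (v : X) ∈ S then kap G (v : X) else 0) := by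
        refine Fintype.sum_equiv (MulAut.conjNormal (t : X) : MulAut V).toEquiv _ _ (fun u => ?_)
        show _ = if ((MulAut.conjNormal (t : X) u : V) : X) ∈ S
          then kap G ((MulAut.conjNormal (t : X) u : V) : X) else 0
        rw [MulAut.conjNormal_apply, kap_conj G t t.2]
      rw [e1, ← Finset.sum_subtype (Finset.univ.filter (· ∈ V)) (by intro x; simp)
        (fun x => if x ∈ S then kap G x else 0), Finset.sum_ite_mem]
      congr 1
      ext x
      simp only [Finset.mem_inter, Finset.mem_filter, Finset.mem_univ, true_and]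
      exact ⟨fun h => h.2, fun h => ⟨hSV x h, h⟩⟩
    rw [hA, Finset.sum_comm]
    simp only [hB, Finset.sum_const, Finset.card_univ, smul_eq_mul, Nat.card_eq_fintype_card]
  have hX : Nat.card X = Nat.card V * Nat.card G := by
    rw [← Nat.card_prod]; exact (Nat.card_congr e0).symm
  have h1 := card_comm_eq_card_conjClasses_mul_card X
  rw [hT1] at h1
  have h2 : ∑ gh : G × G, Nat.card {p : V × V // Commute ((p.1 : X) * gh.1) ((p.2 : X) * gh.2)}
      = Nat.card V * (Nat.card G * ∑ s ∈ S, kap G s) := by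
    rw [← hsum5, ← Finset.sum_congr rfl (fun u _ => phi_eq V G u), ← hswap, Finset.mul_sum]
    refine Finset.sum_congr rfl (fun gh _ => ?_)
    rw [hF gh]
    split_ifs <;> simp
  rw [h2, hX] at h1
  have hpos : 0 < Nat.card V * Nat.card G := Nat.mul_pos Nat.card_pos Nat.card_pos
  have h3 : Nat.card (ConjClasses X) * (Nat.card V * Nat.card G)
      = (∑ s ∈ S, kap G s) * (Nat.card V * Nat.card G) := by
    rw [← h1]; ring
  exact Nat.eq_of_mul_eq_mul_right hpos h3

end Main

end Cfsg.Agent.Helper8.KGV
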