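import Mathlib

set_option autoImplicit false

namespace Cfsg.Agent.Helper8.KSplit

open Classical

variable {X : Type*} [Group X]

theorem key (V : Subgroup X) [V.Normal] (φ : X ⧸ V →* MulAut ↥V)
    (hφ : ∀ (x : X) (v : ↥V), ((φ (QuotientGroup.mk x) v : ↥V) : X) = x * v * x⁻¹)
    (x y x0 y0 : X) (hxy : Commute x y) (h0 : Commute x0 y0)
    (hx : (QuotientGroup.mk x0 : X ⧸ V) = QuotientGroup.mk x)
    (hy : (QuotientGroup.mk y0 : X ⧸ V) = QuotientGroup.mk y)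
    (hvx : x * x0⁻¹ ∈ V) (hwy : y * y0⁻¹ ∈ V) :
    Commute (⟨⟨x * x0⁻¹, hvx⟩, QuotientGroup.mk x⟩ : SemidirectProduct ↥V (X ⧸ V) φ)
      ⟨⟨y * y0⁻¹, hwy⟩, QuotientGroup.mk y⟩ := by
  apply SemidirectProduct.ext
  · rw [SemidirectProduct.mul_left, SemidirectProduct.mul_left]
    apply Subtype.ext
    simp only [Subgroup.coe_mul]
    have e1 : ((φ (QuotientGroup.mk x) ⟨y * y0⁻¹, hwy⟩ : ↥V) : X) = x0 * (y * y0⁻¹) * x0⁻¹ := by
      rw [← hx, hφ]
    have e2 : ((φ (QuotientGroup.mk y) ⟨x * x0⁻¹, hvx⟩ : ↥V) : X) = y0 * (x * x0⁻¹) * y0⁻¹ := by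
      rw [← hy, hφ]
    rw [e1, e2]
    calc x * x0⁻¹ * (x0 * (y * y0⁻¹) * x0⁻¹) = x * y * (x0 * y0)⁻¹ := by group
      _ = y * x * (y0 * x0)⁻¹ := by rw [hxy.eq, h0.eq]
      _ = y * y0⁻¹ * (y0 * (x * x0⁻¹) * y0⁻¹) := by group
  · rw [SemidirectProduct.mul_right, SemidirectProduct.mul_right]
    show (QuotientGroup.mk x : X ⧸ V) * QuotientGroup.mk y = QuotientGroup.mk y * QuotientGroup.mk x
    rw [← QuotientGroup.mk_mul, ← QuotientGroup.mk_mul, hxy.eq]

theorem main4965 [Finite X] (V : Subgroup X) [V.Normal] (φ : X ⧸ V →* MulAut ↥V)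
    (hφ : ∀ (x : X) (v : ↥V), ((φ (QuotientGroup.mk x) v : ↥V) : X) = x * v * x⁻¹) :
    Nat.card (ConjClasses X) ≤ Nat.card (ConjClasses (SemidirectProduct ↥V (X ⧸ V) φ)) := by
  have hcardY : Nat.card (SemidirectProduct ↥V (X ⧸ V) φ) = Nat.card X := by
    rw [SemidirectProduct.card, mul_comm, ← Subgroup.card_eq_card_quotient_mul_card_subgroup]
  haveI : Finite (SemidirectProduct ↥V (X ⧸ V) φ) := by
    apply Nat.finite_of_card_ne_zero
    rw [hcardY]; exact Nat.card_pos.ne'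
  -- choice of commuting lifts
  let P : (X ⧸ V) × (X ⧸ V) → X × X → Prop := fun gh ab =>
    Commute ab.1 ab.2 ∧ (QuotientGroup.mk ab.1 : X ⧸ V) = gh.1
      ∧ (QuotientGroup.mk ab.2 : X ⧸ V) = gh.2
  let c : (X ⧸ V) × (X ⧸ V) → X × X := fun gh =>
    if h : ∃ ab, P gh ab then Classical.choose h else (1, 1)
  have hc : ∀ (x y : X), Commute x y →
      P (QuotientGroup.mk x, QuotientGroup.mk y) (c (QuotientGroup.mk x, QuotientGroup.mk y)) := by
    intro x y hxy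
    have h : ∃ ab, P (QuotientGroup.mk x, QuotientGroup.mk y) ab := ⟨(x, y), hxy, rfl, rfl⟩
    simp only [c, dif_pos h]
    exact Classical.choose_spec h
  have hmemV : ∀ x x0 : X, (QuotientGroup.mk x0 : X ⧸ V) = QuotientGroup.mk x →
      x * x0⁻¹ ∈ V := by
    intro x x0 h
    have h1 := QuotientGroup.eq.mp h
    have h2 := Subgroup.Normal.conj_mem (inferInstance : V.Normal) _ h1 x0
    have e : x0 * (x0⁻¹ * x) * x0⁻¹ = x * x0⁻¹ := by group
    rw [e] at h2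
    exact h2
  let Φ : {p : X × X // Commute p.1 p.2} →
      {p : SemidirectProduct ↥V (X ⧸ V) φ × SemidirectProduct ↥V (X ⧸ V) φ // Commute p.1 p.2} :=
    fun p =>
      ⟨(⟨⟨p.1.1 * (c (QuotientGroup.mk p.1.1, QuotientGroup.mk p.1.2)).1⁻¹,
            hmemV _ _ (hc p.1.1 p.1.2 p.2).2.1⟩, QuotientGroup.mk p.1.1⟩,
        ⟨⟨p.1.2 * (c (QuotientGroup.mk p.1.1, QuotientGroup.mk p.1.2)).2⁻¹,
            hmemV _ _ (hc p.1.1 p.1.2 p.2).2.2⟩, QuotientGroup.mk p.1.2⟩),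
        key V φ hφ p.1.1 p.1.2 _ _ p.2 (hc p.1.1 p.1.2 p.2).1 (hc p.1.1 p.1.2 p.2).2.1
          (hc p.1.1 p.1.2 p.2).2.2 _ _⟩
  have hinj : Function.Injective Φ := by
    rintro ⟨⟨x, y⟩, hxy⟩ ⟨⟨x', y'⟩, hxy'⟩ h
    have h' := congrArg Subtype.val h
    have h1 := congrArg Prod.fst h'
    have h2 := congrArg Prod.snd h'
    have r1 : (QuotientGroup.mk x : X ⧸ V) = QuotientGroup.mk x' :=
      congrArg SemidirectProduct.right h1
    have r2 : (QuotientGroup.mk y : X ⧸ V) = QuotientGroup.mk y' :=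
      congrArg SemidirectProduct.right h2
    have l1 := congrArg (fun a : SemidirectProduct ↥V (X ⧸ V) φ => (a.left : X)) h1
    have l2 := congrArg (fun a : SemidirectProduct ↥V (X ⧸ V) φ => (a.left : X)) h2
    simp only [Φ] at l1 l2
    rw [r1, r2] at l1 l2
    have ex : x = x' := mul_right_cancel l1
    have ey : y = y' := mul_right_cancel l2
    subst ex; subst ey
    rfl
  have hle := Nat.card_le_card_of_injective Φ hinj
  rw [card_comm_eq_card_conjClasses_mul_card, card_comm_eq_card_conjClasses_mul_card, hcardY]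
    at hle
  exact Nat.le_of_mul_le_mul_right hle Nat.card_pos

end Cfsg.Agent.Helper8.KSplit
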