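import Cfsg.Agent.Helper8.Meta6
import Cfsg.Prelude.Def_PLocal
import Cfsg.Prelude.Def_Transfer

/-!
# Metacyclic `p`-groups for odd `p`: elements of order `p`
-/

set_option autoImplicit false

namespace Cfsg.Agent.Helper8.Meta

open Cfsg Cfsg.Agent.Helper8 Cfsg.Agent.Helper8.RegP
open scoped commutatorElement

theorem card_le_of_cyclic_exp {K : Type*} [Group K] (hK : IsCyclic K) {p : ℕ} (hp : 0 < p)
    (h : ∀ x : K, x ^ p = 1) : Nat.card K ≤ p := by
  obtain ⟨g, hg⟩ := hK.exists_generator
  rw [← orderOf_eq_card_of_forall_mem_zpowers hg]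
  exact Nat.le_of_dvd hp (orderOf_dvd_of_pow_eq_one (h g))

variable {G : Type*} [Group G] [Finite G] {p : ℕ} [Fact p.Prime]

/-- A non-cyclic `p`-group has Frattini quotient of order at least `p²`. -/
theorem frattini_index_ge (hG : IsPGroup p G) (hnc : ¬ IsCyclic G) :
    p ^ 2 ≤ (frattini G).index := by
  have hp := (Fact.out : p.Prime)
  have h1 : (frattini G).index ∣ Nat.card G := Subgroup.index_dvd_card _
  obtain ⟨r, hr⟩ := hG.exists_card_eq
  rw [hr] at h1
  obtain ⟨j, -, hj⟩ := (Nat.dvd_prime_pow hp).mp h1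
  rw [hj]
  by_contra hlt
  have hj1 : j ≤ 1 := by
    by_contra h2
    push Not at h2
    exact hlt (Nat.pow_le_pow_right hp.pos h2)
  apply hnc
  rcases Nat.lt_or_ge j 1 with h0 | h1'
  · have h2 : (frattini G).index = 1 := by
      rw [hj, show j = 0 by omega, pow_zero]
    have h3 : frattini G = ⊤ := Subgroup.index_eq_one.mp h2
    have h4' : (⊥ : Subgroup G) ⊔ frattini G = ⊤ := by
      rw [h3]
      simp
    have h4 : (⊥ : Subgroup G) = ⊤ := frattini_nongenerating h4'
    refine ⟨⟨1, fun y => ?_⟩⟩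
    have h5 : y ∈ (⊥ : Subgroup G) := by
      rw [h4]
      exact Subgroup.mem_top y
    show y ∈ Subgroup.zpowers (1 : G)
    rw [Subgroup.mem_bot.mp h5]
    exact Subgroup.one_mem _
  · have hj' : (frattini G).index = p := by rw [hj, show j = 1 by omega, pow_one]
    obtain ⟨x, hx⟩ : ∃ x, x ∉ frattini G := by
      by_contra hcon
      push Not at hcon
      have h2 : frattini G = ⊤ := eq_top_iff.mpr (fun x _ => hcon x)
      rw [h2, Subgroup.index_top] at hj'
      exact hp.one_lt.ne hj'
    have h5 : Subgroup.zpowers x ⊔ frattini G = ⊤ := by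
      have h6 : (Subgroup.zpowers x ⊔ frattini G).index ∣ p := by
        rw [← hj']
        exact Subgroup.index_dvd_of_le le_sup_right
      rcases (Nat.dvd_prime hp).mp h6 with h7 | h7
      · exact Subgroup.index_eq_one.mp h7
      · exfalso
        have h8 := Subgroup.card_mul_index (Subgroup.zpowers x ⊔ frattini G)
        have h9 := Subgroup.card_mul_index (frattini G)
        rw [h7] at h8
        rw [hj', ← h8] at h9
        have h10 := Nat.eq_of_mul_eq_mul_right hp.pos h9
        have h11 : frattini G = Subgroup.zpowers x ⊔ frattini G :=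
          Subgroup.eq_of_le_of_card_ge le_sup_right h10.symm.le
        apply hx
        rw [h11]
        exact Subgroup.mem_sup_left (Subgroup.mem_zpowers x)
    have h8 := frattini_nongenerating h5
    exact ⟨⟨x, fun y => (h8 ▸ Subgroup.mem_top y : y ∈ Subgroup.zpowers x)⟩⟩

variable {N : Subgroup G} {a b : G} {n : ℕ}

theorem Setup.mem_omegaOne_iff (S : Setup p G N a b n) (x : G) :
    x ∈ omegaOne p (⊤ : Subgroup G) ↔ x ^ p = 1 := by
  unfold omegaOne
  constructor
  · intro hx
    induction hx using Subgroup.closure_induction with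
    | mem y hy => exact hy.2
    | one => exact one_pow _
    | mul x y _ _ ihx ihy =>
      have h1 := reg_pow_mul_eq_one S.hG (S.reg 1) (a := x) (b := y) (by rwa [pow_one])
        (by rwa [pow_one])
      rwa [pow_one] at h1
    | inv x _ ihx => rw [inv_pow, ihx, inv_one]
  · intro hx
    exact Subgroup.subset_closure ⟨Subgroup.mem_top x, hx⟩

theorem Setup.card_omegaOne_mul (S : Setup p G N a b n) :
    Nat.card (omegaOne p (⊤ : Subgroup G)) * Nat.card {g : G // ∃ y, g = y ^ p} =
      Nat.card G := by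
  classical
  have key : ∀ x y : G, x ^ p = y ^ p ↔ (x * y⁻¹) ^ p = 1 := by
    intro x y
    have h1 := reg_pow_eq_iff S.hG (S.reg 1) x y
    simpa using h1
  have hr : ∀ c : {g : G // ∃ y, g = y ^ p}, (c : G) = (Classical.choose c.2) ^ p :=
    fun c => Classical.choose_spec c.2
  have hbij : Function.Bijective
      (fun q : omegaOne p (⊤ : Subgroup G) × {g : G // ∃ y, g = y ^ p} =>
        (q.1 : G) * Classical.choose q.2.2) := by
    constructor
    · rintro ⟨w1, c1⟩ ⟨w2, c2⟩ h
      have h' : (w1 : G) * Classical.choose c1.2 = (w2 : G) * Classical.choose c2.2 := h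
      have e1 : ((w1 : G) * Classical.choose c1.2) ^ p = (Classical.choose c1.2) ^ p := by
        rw [key, mul_inv_cancel_right]
        exact (S.mem_omegaOne_iff _).mp w1.2
      have e2 : ((w2 : G) * Classical.choose c2.2) ^ p = (Classical.choose c2.2) ^ p := by
        rw [key, mul_inv_cancel_right]
        exact (S.mem_omegaOne_iff _).mp w2.2
      have hc : c1 = c2 := Subtype.ext (by rw [hr c1, hr c2, ← e1, ← e2, h'])
      subst hc
      exact Prod.ext (Subtype.ext (mul_right_cancel h')) rfl
    · intro g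
      refine ⟨(⟨g * (Classical.choose (⟨g ^ p, g, rfl⟩ : {g : G // ∃ y, g = y ^ p}).2)⁻¹, ?_⟩,
        ⟨g ^ p, g, rfl⟩), ?_⟩
      · rw [S.mem_omegaOne_iff, ← key]
        exact hr ⟨g ^ p, g, rfl⟩
      · simp
  rw [← Nat.card_prod]
  exact Nat.card_congr (Equiv.ofBijective _ hbij)

theorem Setup.quot_cyclic (S : Setup p G N a b n) : haveI := S.hNn; IsCyclic (G ⧸ N) := by
  haveI := S.hNn
  refine ⟨⟨(b : G ⧸ N), fun y => ?_⟩⟩
  obtain ⟨g, rfl⟩ := QuotientGroup.mk_surjective y
  obtain ⟨i, j, rfl⟩ := S.gens.hb g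
  refine ⟨j, ?_⟩
  show ((b : G ⧸ N)) ^ (j : ℤ) = ((a ^ i * b ^ j : G) : G ⧸ N)
  rw [QuotientGroup.mk_mul, (QuotientGroup.eq_one_iff _).mpr (N.pow_mem S.gens.ha i), one_mul,
    QuotientGroup.mk_pow, zpow_natCast]

theorem Setup.card_omegaOne_le (S : Setup p G N a b n) :
    Nat.card (omegaOne p (⊤ : Subgroup G)) ≤ p ^ 2 := by
  have hp := (Fact.out : p.Prime)
  haveI := S.hNn
  have h1 := Subgroup.card_mul_index
    ((QuotientGroup.mk' N).comp (omegaOne p (⊤ : Subgroup G)).subtype).ker
  rw [Subgroup.index_ker] at h1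
  have hker : Nat.card ((QuotientGroup.mk' N).comp (omegaOne p (⊤ : Subgroup G)).subtype).ker
      ≤ p := by
    have hmem : ∀ x : ((QuotientGroup.mk' N).comp (omegaOne p (⊤ : Subgroup G)).subtype).ker,
        ((x : omegaOne p (⊤ : Subgroup G)) : G) ∈ N :=
      fun x => (QuotientGroup.eq_one_iff _).mp (MonoidHom.mem_ker.mp x.2)
    haveI := S.hNc
    have hcyc : IsCyclic ((QuotientGroup.mk' N).comp (omegaOne p (⊤ : Subgroup G)).subtype).ker :=
      isCyclic_of_injective
        ({ toFun := fun x => ⟨((x : omegaOne p (⊤ : Subgroup G)) : G), hmem x⟩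
           map_one' := rfl
           map_mul' := fun _ _ => rfl } :
          ((QuotientGroup.mk' N).comp (omegaOne p (⊤ : Subgroup G)).subtype).ker →* N)
        (fun x y h => by
          have h' := congrArg Subtype.val h
          exact Subtype.ext (Subtype.ext h'))
    apply card_le_of_cyclic_exp hcyc hp.pos
    intro x
    apply Subtype.ext
    apply Subtype.ext
    show (((x : omegaOne p (⊤ : Subgroup G)) : G)) ^ p = 1
    exact (S.mem_omegaOne_iff _).mp x.1.2
  have hrange : Nat.card ((QuotientGroup.mk' N).comp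
      (omegaOne p (⊤ : Subgroup G)).subtype).range ≤ p := by
    haveI := S.quot_cyclic
    have hcyc : IsCyclic ((QuotientGroup.mk' N).comp
      (omegaOne p (⊤ : Subgroup G)).subtype).range := Subgroup.isCyclic _
    apply card_le_of_cyclic_exp hcyc hp.pos
    rintro ⟨y, w, rfl⟩
    apply Subtype.ext
    show (((QuotientGroup.mk' N).comp (omegaOne p (⊤ : Subgroup G)).subtype) w) ^ p = 1
    rw [← map_pow]
    have h2 : w ^ p = 1 := Subtype.ext ((S.mem_omegaOne_iff _).mp w.2)
    rw [h2, map_one]
  rw [← h1, sq]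
  exact Nat.mul_le_mul hker hrange

/-- S0638. -/
theorem Setup.omegaOne_elem (S : Setup p G N a b n) (hnc : ¬ IsCyclic G) :
    IsElementaryAbelian p (omegaOne p (⊤ : Subgroup G)) ∧
      Nat.card ↥(omegaOne p (⊤ : Subgroup G)) = p ^ 2 := by
  have h1 := S.card_omegaOne_mul
  have h2 : Nat.card {g : G // ∃ y, g = y ^ p} ≤ Nat.card (frattini G) := by
    apply Nat.card_le_card_of_injective (fun c : {g : G // ∃ y, g = y ^ p} =>
      (⟨c.1, by
        obtain ⟨y, hy⟩ := c.2
        rw [hy]
        exact Cfsg.Agent.Lead.pow_mem_frattini_of_isPGroup p S.hG y⟩ : frattini G))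
    intro c1 c2 h
    have h' := congrArg Subtype.val h
    exact Subtype.ext h'
  have h3 := frattini_index_ge S.hG hnc
  have h4 := Subgroup.card_mul_index (frattini G)
  have h5 : (frattini G).index ≤ Nat.card (omegaOne p (⊤ : Subgroup G)) := by
    have h6 : Nat.card (frattini G) * (frattini G).index ≤
        Nat.card (frattini G) * Nat.card (omegaOne p (⊤ : Subgroup G)) := by
      rw [h4, ← h1, mul_comm]
      exact Nat.mul_le_mul_right _ h2
    exact Nat.le_of_mul_le_mul_left h6 Nat.card_pos
  have hcard : Nat.card (omegaOne p (⊤ : Subgroup G)) = p ^ 2 :=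
    le_antisymm S.card_omegaOne_le (le_trans h3 h5)
  exact ⟨⟨IsPGroup.isMulCommutative_of_card_eq_prime_sq hcard,
    fun x hx => (S.mem_omegaOne_iff x).mp hx⟩, hcard⟩

end Cfsg.Agent.Helper8.Meta
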