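import Mathlib

set_option autoImplicit false

namespace Cfsg.Agent.Helper8.MultTrans

variable {G α : Type*} [Group G] [MulAction G α] [Fintype α] [DecidableEq α]

/-- mismatch count -/
def mis {k : ℕ} (x y : Fin k ↪ α) : ℕ := (Finset.univ.filter (fun i => x i ≠ y i)).card

/-- if one coordinate at a time can be moved to any unused point, the action is `k`-transitive
(for `k` less than the degree) -/
theorem conn {k : ℕ} (hk : k < Fintype.card α)
    (hstep : ∀ (x : Fin k ↪ α) (i : Fin k) (β : α), β ∉ Set.range x →
      ∃ g : G, g • x i = β ∧ ∀ i' : Fin k, i' ≠ i → g • x i' = x i') :
    MulAction.IsMultiplyPretransitive G α k := by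
  rw [MulAction.isMultiplyPretransitive_iff]
  have key : ∀ d : ℕ, ∀ x y : Fin k ↪ α, mis x y = d → ∃ g : G, g • x = y := by
    intro d
    induction d using Nat.strong_induction_on with
    | _ d ih =>
      intro x y hd
      by_cases hxy : x = y
      · exact ⟨1, by rw [one_smul, hxy]⟩
      · have hex : ∃ i, x i ≠ y i := by
          by_contra hcon
          push Not at hcon
          exact hxy (DFunLike.ext _ _ hcon)
        obtain ⟨i, hi⟩ := hex
        suffices hred : ∃ g : G, mis (g • x) y < mis x y by
          obtain ⟨g, hg⟩ := hred
          obtain ⟨g', hg'⟩ := ih _ (hd ▸ hg) (g • x) y rfl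
          exact ⟨g' * g, by rw [mul_smul, hg']⟩
        by_cases hyi : y i ∈ Set.range x
        · obtain ⟨j, hj⟩ := hyi
          have hji : j ≠ i := by
            rintro rfl
            exact hi hj
          obtain ⟨c, hc⟩ : ∃ c, c ∉ Set.range x := by
            by_contra hcon
            push Not at hcon
            have hsurj : Function.Surjective x := hcon
            have := Fintype.card_le_of_surjective x hsurj
            simp at this
            omega
          obtain ⟨g₁, hg₁j, hg₁⟩ := hstep x j c hc
          have hx'j : (g₁ • x) j = c := hg₁j
          have hx' : ∀ i', i' ≠ j → (g₁ • x) i' = x i' := hg₁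
          have hyi' : y i ∉ Set.range (g₁ • x) := by
            rintro ⟨l, hl⟩
            by_cases hlj : l = j
            · subst hlj
              rw [hx'j] at hl
              exact hc ⟨l, hj.trans hl.symm⟩
            · rw [hx' l hlj] at hl
              exact hlj (x.injective (hl.trans hj.symm))
          obtain ⟨g₂, hg₂i, hg₂⟩ := hstep (g₁ • x) i (y i) hyi'
          refine ⟨g₂ * g₁, ?_⟩
          rw [mul_smul]
          apply Finset.card_lt_card
          rw [Finset.ssubset_iff_of_subset]
          · refine ⟨i, by simp [hi], ?_⟩
            simp only [Finset.mem_filter, Finset.mem_univ, true_and, not_not]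
            exact hg₂i
          · intro l hl
            simp only [Finset.mem_filter, Finset.mem_univ, true_and] at hl ⊢
            by_cases hli : l = i
            · subst hli
              exact absurd hg₂i hl
            · have hl2 : (g₂ • g₁ • x) l = (g₁ • x) l := hg₂ l hli
              rw [hl2] at hl
              by_cases hlj : l = j
              · subst hlj
                rw [hj]
                intro h
                exact hli (y.injective h).symm
              · rwa [hx' l hlj] at hl
        · obtain ⟨g, hgi, hg⟩ := hstep x i (y i) hyi
          refine ⟨g, ?_⟩
          apply Finset.card_lt_card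
          rw [Finset.ssubset_iff_of_subset]
          · refine ⟨i, by simp [hi], ?_⟩
            simp only [Finset.mem_filter, Finset.mem_univ, true_and, not_not]
            exact hgi
          · intro l hl
            simp only [Finset.mem_filter, Finset.mem_univ, true_and] at hl ⊢
            by_cases hli : l = i
            · subst hli
              exact absurd hgi hl
            · have hl2 : (g • x) l = x l := hg l hli
              rwa [hl2] at hl
  intro x y
  exact key _ x y rfl

end Cfsg.Agent.Helper8.MultTrans
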