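import Mathlib

set_option autoImplicit false

namespace Cfsg.Agent.Helper8

open scoped commutatorElement

variable {P : Type*} [Group P]

/-- Commutators of elements of a closure lie in a normal subgroup as soon as those of the generators do. -/
theorem commutator_closure_le_of_generators (T : Set P) (K : Subgroup P) [K.Normal]
    (h : ∀ x ∈ T, ∀ y ∈ T, ⁅x, y⁆ ∈ K) :
    ⁅Subgroup.closure T, Subgroup.closure T⁆ ≤ K := by
  rw [Subgroup.commutator_le]
  have key : ∀ g₁ ∈ Subgroup.closure T, ∀ g₂ ∈ Subgroup.closure T,
      Commute (QuotientGroup.mk' K g₁) (QuotientGroup.mk' K g₂) := by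
    intro g₁ hg₁
    induction hg₁ using Subgroup.closure_induction with
    | mem x hx =>
      intro g₂ hg₂
      induction hg₂ using Subgroup.closure_induction with
      | mem y hy =>
        have h1 := h x hx y hy
        have h2 : QuotientGroup.mk' K ⁅x, y⁆ = 1 := (QuotientGroup.eq_one_iff _).2 h1
        rw [map_commutatorElement, commutatorElement_eq_one_iff_mul_comm] at h2
        exact h2
      | one => rw [map_one]; exact Commute.one_right _
      | mul a b _ _ ha hb => rw [map_mul]; exact Commute.mul_right ha hb
      | inv a _ ha => rw [map_inv]; exact Commute.inv_right ha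
    | one => intro g₂ _; rw [map_one]; exact Commute.one_left _
    | mul a b _ _ ha hb => intro g₂ hg₂; rw [map_mul]; exact Commute.mul_left (ha g₂ hg₂) (hb g₂ hg₂)
    | inv a _ ha => intro g₂ hg₂; rw [map_inv]; exact Commute.inv_left (ha g₂ hg₂)
  intro g₁ hg₁ g₂ hg₂
  have h1 := key g₁ hg₁ g₂ hg₂
  rw [← QuotientGroup.eq_one_iff, ← QuotientGroup.mk'_apply, map_commutatorElement,
    commutatorElement_eq_one_iff_mul_comm]
  exact h1

theorem lcs_top_two : (⊤ : Subgroup P).lowerCentralSeries 2 = ⁅commutator P, (⊤ : Subgroup P)⁆ := by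
  rw [Subgroup.lowerCentralSeries_succ, Subgroup.top_lowerCentralSeries_one]

/-- For an abelian subgroup `E`, the derived subgroup of `E ⊔ P'` lies in the third term of the lower
central series. -/
theorem commutator_sup_commutator_le (E : Subgroup P) (hE : IsMulCommutative ↥E) :
    ⁅E ⊔ commutator P, E ⊔ commutator P⁆ ≤ (⊤ : Subgroup P).lowerCentralSeries 2 := by
  rw [Subgroup.sup_eq_closure]
  apply commutator_closure_le_of_generators
  have hsymm : ∀ x : P, ∀ y ∈ commutator P, ⁅x, y⁆ ∈ (⊤ : Subgroup P).lowerCentralSeries 2 := by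
    intro x y hy
    rw [lcs_top_two]
    have h3 : ⁅y, x⁆ ∈ ⁅commutator P, (⊤ : Subgroup P)⁆ :=
      Subgroup.commutator_mem_commutator hy (Subgroup.mem_top x)
    have h4 : ⁅x, y⁆ = ⁅y, x⁆⁻¹ := (commutatorElement_inv y x).symm
    rw [h4]
    exact Subgroup.inv_mem _ h3
  intro x hx y hy
  rcases hx with hx | hx
  · rcases hy with hy | hy
    · have h1 : x * y = y * x := by
        have := hE.is_comm.comm ⟨x, hx⟩ ⟨y, hy⟩
        exact congrArg Subtype.val this
      rw [(commutatorElement_eq_one_iff_mul_comm).2 h1]
      exact Subgroup.one_mem _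
    · exact hsymm x y hy
  · rw [lcs_top_two]
    exact Subgroup.commutator_mem_commutator hx (Subgroup.mem_top y)

theorem normalClosure_le_sup_commutator (E : Subgroup P) :
    Subgroup.normalClosure (E : Set P) ≤ E ⊔ commutator P := by
  have hn : (E ⊔ commutator P).Normal := by
    constructor
    intro n hn g
    have h1 : g * n * g⁻¹ = ⁅g, n⁆ * n := by
      rw [commutatorElement_def]; group
    rw [h1]
    refine Subgroup.mul_mem _ (Subgroup.mem_sup_right ?_) hn
    rw [commutator_def]
    exact Subgroup.commutator_mem_commutator (Subgroup.mem_top g) (Subgroup.mem_top n)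
  exact Subgroup.normalClosure_le_normal (show (E : Set P) ⊆ ((E ⊔ commutator P : Subgroup P) : Set P)
    from fun x hx => Subgroup.mem_sup_left hx)

/-- The lower central series of the normal closure of an abelian subgroup runs one step ahead. -/
theorem lcs_normalClosure_le (E : Subgroup P) (hE : IsMulCommutative ↥E) (n : ℕ) :
    (Subgroup.normalClosure (E : Set P)).lowerCentralSeries (n + 1) ≤
      (⊤ : Subgroup P).lowerCentralSeries (n + 2) := by
  induction n with
  | zero =>
    rw [Subgroup.lowerCentralSeries_succ, Subgroup.lowerCentralSeries_zero]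
    exact (Subgroup.commutator_mono (normalClosure_le_sup_commutator E)
      (normalClosure_le_sup_commutator E)).trans (commutator_sup_commutator_le E hE)
  | succ n ih =>
    rw [Subgroup.lowerCentralSeries_succ, Subgroup.lowerCentralSeries_succ _ (n + 2)]
    exact Subgroup.commutator_mono ih le_top

/-- In a non-abelian nilpotent group the normal closure of an abelian subgroup has smaller class. -/
theorem nilpotencyClass_normalClosure_lt [Group.IsNilpotent P] (hna : ¬ IsMulCommutative P)
    (E : Subgroup P) (hE : IsMulCommutative ↥E) :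
    Group.nilpotencyClass ↥(Subgroup.normalClosure (E : Set P)) < Group.nilpotencyClass P := by
  have hc : 2 ≤ Group.nilpotencyClass P := by
    by_contra hlt
    have h1 : Group.nilpotencyClass P ≤ 1 := by omega
    rw [← Subgroup.lowerCentralSeries_eq_bot_iff_nilpotencyClass_le,
      Subgroup.top_lowerCentralSeries_one] at h1
    apply hna
    refine ⟨⟨fun a b => ?_⟩⟩
    have h2 : ⁅a, b⁆ ∈ commutator P := by
      rw [commutator_def]
      exact Subgroup.commutator_mem_commutator (Subgroup.mem_top a) (Subgroup.mem_top b)
    rw [h1, Subgroup.mem_bot, commutatorElement_eq_one_iff_mul_comm] at h2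
    exact h2
  obtain ⟨c, hc2⟩ : ∃ c, Group.nilpotencyClass P = c + 2 := ⟨Group.nilpotencyClass P - 2, by omega⟩
  have h1 := lcs_normalClosure_le E hE c
  have h2 : (⊤ : Subgroup P).lowerCentralSeries (c + 2) = ⊥ := by
    rw [Subgroup.lowerCentralSeries_eq_bot_iff_nilpotencyClass_le, hc2]
  rw [h2, le_bot_iff, ← Subgroup.top_subtype_lowerCentralSeries,
    Subgroup.map_eq_bot_iff_of_injective _ (Subgroup.subtype_injective _),
    Subgroup.lowerCentralSeries_eq_bot_iff_nilpotencyClass_le] at h1
  omega

end Cfsg.Agent.Helper8
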