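import Cfsg.Prelude.Def_RootSubgroups
import Cfsg.Agent.Helper8.Basic

set_option autoImplicit false

namespace Cfsg.Agent.Helper8

open Cfsg
open scoped commutatorElement

variable {G : Type*} [Group G] {D : Set G}

theorem rootInv_mul_self (hD : IsRootInvolutionSet D) {d : G} (hd : d ∈ D) : d * d = 1 := by
  have h := pow_orderOf_eq_one d
  rw [hD.orderOf_eq d hd, pow_two] at h
  exact h

theorem rootInv_inv (hD : IsRootInvolutionSet D) {d : G} (hd : d ∈ D) : d⁻¹ = d :=
  inv_eq_of_mul_eq_one_left (rootInv_mul_self hD hd)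

theorem oddTransp_comm_or_odd (hD : IsOddTranspositionSet D) {a b : G} (ha : a ∈ D) (hb : b ∈ D) :
    a * b = b * a ∨ Odd (orderOf (a * b)) := by
  rcases hD.1.pair a ha b hb with h | h | h
  · exact Or.inl h
  · exact Or.inr h
  · exact absurd h.1 (hD.2 a ha b hb)

theorem oddTransp_comm_of_two_elt (hD : IsOddTranspositionSet D) {a b : G} (ha : a ∈ D) (hb : b ∈ D)
    (k : ℕ) (h : (a * b) ^ (2 ^ k) = 1) : a * b = b * a := by
  rcases oddTransp_comm_or_odd hD ha hb with h1 | h1
  · exact h1
  · have h2 : orderOf (a * b) ∣ 2 ^ k := orderOf_dvd_of_pow_eq_one h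
    have h3 : Nat.Coprime (orderOf (a * b)) (2 ^ k) :=
      Nat.Coprime.pow_right k (Nat.coprime_two_right.2 h1)
    have h4 : orderOf (a * b) = 1 := Nat.Coprime.eq_one_of_dvd h3 h2
    rw [orderOf_eq_one_iff] at h4
    have h5 : b = a⁻¹ := eq_inv_of_mul_eq_one_right h4
    rw [h4, h5, inv_mul_cancel]

theorem pow_odd_of_mul_self {u : G} (hu : u * u = 1) {m : ℕ} (hm : Odd m) : u ^ m = u := by
  obtain ⟨j, rfl⟩ := hm
  rw [pow_succ, pow_mul, pow_two, hu, one_pow, one_mul]

/-- In a set of odd transpositions, a member commuting with `a` centralizes `[O₂(G), a]`. -/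
theorem oddTransp_comm_commutator [Finite G] (hD : IsOddTranspositionSet D) {a : G} (ha : a ∈ D)
    {e : G} (he : e ∈ commutingMembers D a) {q : G}
    (hq : q ∈ ⁅pCore 2 G, Subgroup.zpowers a⁆) : e * q = q * e := by
  have hVn : (pCore 2 G).Normal := pCore_normal 2 G
  have hV2 : IsPGroup 2 (pCore 2 G) := pCore_isPGroup 2 G
  have haa := rootInv_mul_self hD.1 ha
  have hainv := rootInv_inv hD.1 ha
  obtain ⟨heD, hea⟩ := he
  have hle : ⁅pCore 2 G, Subgroup.zpowers a⁆ ≤ Subgroup.centralizer {e} := by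
    rw [Subgroup.commutator_le]
    intro x hx y hy
    rw [Subgroup.mem_centralizer_singleton_iff]
    obtain ⟨n, rfl⟩ := Subgroup.mem_zpowers_iff.1 hy
    have hcase : a ^ n = 1 ∨ a ^ n = a := by
      have h1 : a ^ n = a ^ (n % (orderOf a : ℤ)) := (zpow_mod_orderOf a n).symm
      rw [hD.1.orderOf_eq a ha] at h1
      rcases Int.emod_two_eq_zero_or_one n with h2 | h2
      · left
        rw [h1]
        norm_num [h2]
      · right
        rw [h1]
        norm_num [h2]
    rcases hcase with h1 | h1
    · rw [h1, commutatorElement_def]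
      simp
    · rw [h1, commutatorElement_def, hainv]
      -- the conjugate x a x⁻¹ commutes with e
      have ha' : x * a * x⁻¹ ∈ D := hD.1.conj_mem a ha x
      have hea2 : (e * a) ^ 2 = 1 := by
        rw [pow_two]
        calc e * a * (e * a) = e * (a * e) * a := by group
          _ = e * (e * a) * a := by rw [hea]
          _ = (e * e) * (a * a) := by group
          _ = 1 := by rw [haa, rootInv_mul_self hD.1 heD, one_mul]
      have hmem : (e * (x * a * x⁻¹)) ^ 2 ∈ pCore 2 G := by
        have hπx : QuotientGroup.mk' (pCore 2 G) x = 1 := (QuotientGroup.eq_one_iff _).2 hx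
        have h2 : QuotientGroup.mk' (pCore 2 G) (e * (x * a * x⁻¹)) =
            QuotientGroup.mk' (pCore 2 G) (e * a) := by
          simp only [map_mul, map_inv, hπx, one_mul, mul_one, inv_one]
        have h3 : QuotientGroup.mk' (pCore 2 G) ((e * (x * a * x⁻¹)) ^ 2) = 1 := by
          rw [map_pow, h2, ← map_pow, hea2, map_one]
        exact (QuotientGroup.eq_one_iff _).1 h3
      obtain ⟨k, hk⟩ := hV2 ⟨_, hmem⟩
      have hk' : ((e * (x * a * x⁻¹)) ^ 2) ^ (2 ^ k) = 1 := by
        have := congrArg Subtype.val hk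
        simpa using this
      have hk2 : (e * (x * a * x⁻¹)) ^ (2 ^ (k + 1)) = 1 := by
        rw [pow_succ', pow_mul]
        exact hk'
      have hcomm : e * (x * a * x⁻¹) = x * a * x⁻¹ * e :=
        oddTransp_comm_of_two_elt hD heD ha' (k + 1) hk2
      calc x * a * x⁻¹ * a * e = x * a * x⁻¹ * (a * e) := by group
        _ = x * a * x⁻¹ * (e * a) := by rw [hea]
        _ = (x * a * x⁻¹ * e) * a := by group
        _ = e * (x * a * x⁻¹) * a := by rw [hcomm]
        _ = e * (x * a * x⁻¹ * a) := by group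
  have := hle hq
  rw [Subgroup.mem_centralizer_singleton_iff] at this
  exact this.symm

/-- In a set of odd transpositions, an element of `O₂(G)` centralizing a product `a b` of odd order
centralizes `a` and `b`. -/
theorem oddTransp_centralizer_mul [Finite G] (hD : IsOddTranspositionSet D) {a : G} (ha : a ∈ D)
    {b : G} (hb : b ∈ oddPartners D a) :
    pCore 2 G ⊓ Subgroup.centralizer {a * b} =
      pCore 2 G ⊓ Subgroup.centralizer {a} ⊓ Subgroup.centralizer {b} := by
  have hVn : (pCore 2 G).Normal := pCore_normal 2 G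
  have hV2 : IsPGroup 2 (pCore 2 G) := pCore_isPGroup 2 G
  have haa := rootInv_mul_self hD.1 ha
  have hainv := rootInv_inv hD.1 ha
  obtain ⟨hbD, hba, hodd⟩ := hb
  have hbb := rootInv_mul_self hD.1 hbD
  have hbinv := rootInv_inv hD.1 hbD
  apply le_antisymm
  · intro x hx
    rw [Subgroup.mem_inf, Subgroup.mem_centralizer_singleton_iff] at hx
    obtain ⟨hxV, hxt⟩ := hx
    have ha' : x⁻¹ * a * x ∈ D := by
      have := hD.1.conj_mem a ha x⁻¹
      rwa [inv_inv] at this
    have hmem : a * (x⁻¹ * a * x) ∈ pCore 2 G := by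
      have h1 : a * x⁻¹ * a⁻¹ ∈ pCore 2 G := hVn.conj_mem x⁻¹ (Subgroup.inv_mem _ hxV) a
      have h2 : a * (x⁻¹ * a * x) = a * x⁻¹ * a⁻¹ * x := by rw [hainv]; group
      rw [h2]
      exact Subgroup.mul_mem _ h1 hxV
    obtain ⟨k, hk⟩ := hV2 ⟨_, hmem⟩
    have hk' : (a * (x⁻¹ * a * x)) ^ (2 ^ k) = 1 := by
      have := congrArg Subtype.val hk
      simpa using this
    have hcomm1 : a * (x⁻¹ * a * x) = x⁻¹ * a * x * a := oddTransp_comm_of_two_elt hD ha ha' k hk'
    -- u = a * a'
    have hu2 : a * (x⁻¹ * a * x) * (a * (x⁻¹ * a * x)) = 1 := by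
      have h3 := rootInv_mul_self hD.1 ha'
      calc a * (x⁻¹ * a * x) * (a * (x⁻¹ * a * x))
          = a * (x⁻¹ * a * x) * (x⁻¹ * a * x * a) := by rw [← hcomm1]
        _ = a * ((x⁻¹ * a * x) * (x⁻¹ * a * x)) * a := by group
        _ = 1 := by rw [h3, mul_one, haa]
    have hua : Commute (a * (x⁻¹ * a * x)) a := by
      show a * (x⁻¹ * a * x) * a = a * (a * (x⁻¹ * a * x))
      rw [mul_assoc, ← hcomm1]
    have hxt' : Commute x⁻¹ (b * a) := by
      have h1 : Commute x (a * b) := hxt
      have h2 : Commute x⁻¹ (a * b)⁻¹ := h1.inv_left.inv_right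
      rwa [mul_inv_rev, hainv, hbinv] at h2
    have hut : Commute (a * (x⁻¹ * a * x)) (a * b) := by
      show a * (x⁻¹ * a * x) * (a * b) = a * b * (a * (x⁻¹ * a * x))
      have e1 : a * (x⁻¹ * a * x) * (a * b) = a * x⁻¹ * b * x := by
        calc a * (x⁻¹ * a * x) * (a * b) = a * x⁻¹ * a * (x * (a * b)) := by group
          _ = a * x⁻¹ * a * (a * b * x) := by rw [hxt]
          _ = a * x⁻¹ * (a * a) * b * x := by group
          _ = a * x⁻¹ * b * x := by rw [haa, mul_one]
      have e2 : a * b * (a * (x⁻¹ * a * x)) = a * x⁻¹ * b * x := by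
        calc a * b * (a * (x⁻¹ * a * x)) = a * (b * a * x⁻¹) * a * x := by group
          _ = a * (x⁻¹ * (b * a)) * a * x := by rw [hxt'.eq]
          _ = a * x⁻¹ * b * (a * a) * x := by group
          _ = a * x⁻¹ * b * x := by rw [haa, mul_one]
      rw [e1, e2]
    have hub : Commute (a * (x⁻¹ * a * x)) b := by
      have h1 : Commute (a * (x⁻¹ * a * x)) (a⁻¹ * (a * b)) := hua.inv_right.mul_right hut
      rwa [inv_mul_cancel_left] at h1
    have ht1 : a * b ≠ 1 := by
      intro h
      have h1 : b = a⁻¹ := eq_inv_of_mul_eq_one_right h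
      rw [hainv] at h1
      exact hba h1
    -- the key: u = 1
    have hu1 : a * (x⁻¹ * a * x) = 1 := by
      have hprod : x⁻¹ * a * x * b = a * (x⁻¹ * a * x) * (a * b) := by
        calc x⁻¹ * a * x * b = (a * a) * (x⁻¹ * a * x) * b := by rw [haa, one_mul]
          _ = a * (a * (x⁻¹ * a * x)) * b := by group
          _ = a * (x⁻¹ * a * x) * a * b := by rw [← hua.eq]
          _ = a * (x⁻¹ * a * x) * (a * b) := by group
      rcases oddTransp_comm_or_odd hD ha' hbD with h | h
      · exfalso
        -- then a and b commute, so (a b)² = 1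
        have h1 : a * (x⁻¹ * a * x) * (a * b) = a * (x⁻¹ * a * x) * (b * a) := by
          calc a * (x⁻¹ * a * x) * (a * b) = x⁻¹ * a * x * b := hprod.symm
            _ = b * (x⁻¹ * a * x) := h
            _ = b * ((a * a) * (x⁻¹ * a * x)) := by rw [haa, one_mul]
            _ = b * a * (a * (x⁻¹ * a * x)) := by group
            _ = b * (a * (x⁻¹ * a * x)) * a := by rw [mul_assoc b a, ← hua.eq]; group
            _ = a * (x⁻¹ * a * x) * b * a := by rw [← hub.eq]
            _ = a * (x⁻¹ * a * x) * (b * a) := by group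
        have h2 : a * b = b * a := mul_left_cancel h1
        have h3 : (a * b) ^ 2 = 1 := by
          rw [pow_two]
          calc a * b * (a * b) = a * (b * a) * b := by group
            _ = a * (a * b) * b := by rw [h2]
            _ = (a * a) * (b * b) := by group
            _ = 1 := by rw [haa, hbb, one_mul]
        have h4 : orderOf (a * b) ∣ 2 := orderOf_dvd_of_pow_eq_one h3
        have h5 : orderOf (a * b) = 1 :=
          Nat.Coprime.eq_one_of_dvd (Nat.coprime_two_right.2 hodd) h4
        exact ht1 (orderOf_eq_one_iff.1 h5)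
      · rw [hprod] at h
        have h1 := pow_orderOf_eq_one (a * (x⁻¹ * a * x) * (a * b))
        rw [hut.mul_pow, pow_odd_of_mul_self hu2 h] at h1
        -- u = (t^n)⁻¹
        have h2 : a * (x⁻¹ * a * x) =
            ((a * b) ^ orderOf (a * (x⁻¹ * a * x) * (a * b)))⁻¹ := eq_inv_of_mul_eq_one_left h1
        have h3 : (a * (x⁻¹ * a * x)) ^ orderOf (a * b) = 1 := by
          rw [h2, inv_pow, ← pow_mul, mul_comm, pow_mul, pow_orderOf_eq_one, one_pow, inv_one]
        rw [pow_odd_of_mul_self hu2 hodd] at h3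
        exact h3
    have hxa : x * a = a * x := by
      have h1 : x⁻¹ * a * x = a⁻¹ := eq_inv_of_mul_eq_one_right hu1
      rw [hainv] at h1
      calc x * a = x * (x⁻¹ * a * x) := by rw [h1]
        _ = a * x := by group
    have hxb : x * b = b * x := by
      have h1 : Commute x (a⁻¹ * (a * b)) :=
        (Commute.inv_right (show Commute x a from hxa)).mul_right hxt
      rwa [inv_mul_cancel_left] at h1
    rw [Subgroup.mem_inf, Subgroup.mem_inf, Subgroup.mem_centralizer_singleton_iff,
      Subgroup.mem_centralizer_singleton_iff]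
    exact ⟨⟨hxV, hxa⟩, hxb⟩
  · intro x hx
    rw [Subgroup.mem_inf, Subgroup.mem_inf, Subgroup.mem_centralizer_singleton_iff,
      Subgroup.mem_centralizer_singleton_iff] at hx
    obtain ⟨⟨hxV, hxa⟩, hxb⟩ := hx
    rw [Subgroup.mem_inf, Subgroup.mem_centralizer_singleton_iff]
    exact ⟨hxV, (Commute.mul_right (show Commute x a from hxa) (show Commute x b from hxb)).eq⟩

end Cfsg.Agent.Helper8
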