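import Cfsg.Agent.Helper8.OrthoType

namespace Cfsg.Agent.Helper8.OrthoDisc

open Matrix
open scoped TensorProduct

variable {F : Type*} [Field F]

/-- Gram determinants of two bases differ by a nonzero square -/
theorem gram_det_change {V : Type*} [AddCommGroup V] [Module F V] {κ : Type*} [Fintype κ]
    [DecidableEq κ] (B : LinearMap.BilinForm F V) (b c : Module.Basis κ F V) :
    (LinearMap.BilinForm.toMatrix c B).det =
      (LinearMap.BilinForm.toMatrix b B).det * (b.toMatrix c).det ^ 2 ∧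
      (b.toMatrix c).det ≠ 0 := by
  constructor
  · rw [← LinearMap.BilinForm.toMatrix_mul_basis_toMatrix b c B, det_mul, det_mul, det_transpose]
    ring
  · have h := Module.Basis.toMatrix_mul_toMatrix_flip b c
    intro h0
    have h1 := congrArg det h
    rw [det_mul, h0, zero_mul, det_one] at h1
    exact zero_ne_one h1

/-- a totally isotropic subspace of half dimension forces the discriminant -/
theorem square_of_ti {V : Type*} [AddCommGroup V] [Module F V] {m : ℕ}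
    (B : LinearMap.BilinForm F V) (hS : ∀ x y, B x y = B y x)
    (e : Module.Basis (Fin m ⊕ Fin m) F V) (X : Submodule F V)
    (hX : Module.finrank F X = m) (hti : ∀ x ∈ X, ∀ y ∈ X, B x y = 0) :
    ∃ t : F, (-1) ^ m * (LinearMap.BilinForm.toMatrix e B).det = t ^ 2 := by
  classical
  haveI : FiniteDimensional F V := Module.Finite.of_basis e
  obtain ⟨U, hU⟩ := Submodule.exists_isCompl X
  have hUd : Module.finrank F U = m := by
    have h1 := Submodule.finrank_add_eq_of_isCompl hU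
    have h2 := Module.finrank_eq_card_basis e
    simp only [Fintype.card_sum, Fintype.card_fin] at h2
    omega
  let bX := Module.finBasisOfFinrankEq F X hX
  let bU := Module.finBasisOfFinrankEq F U hUd
  let b : Module.Basis (Fin m ⊕ Fin m) F V :=
    (bX.prod bU).map (Submodule.prodEquivOfIsCompl X U hU)
  have hbl : ∀ i, b (Sum.inl i) ∈ X := by
    intro i
    have : b (Sum.inl i) = (bX i : V) := by simp [b]
    rw [this]; exact (bX i).2
  have h11 : (LinearMap.BilinForm.toMatrix b B).toBlocks₁₁ = 0 := by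
    ext i j
    simp only [Matrix.toBlocks₁₁, Matrix.of_apply, Matrix.zero_apply,
      LinearMap.BilinForm.toMatrix_apply]
    exact hti _ (hbl i) _ (hbl j)
  have h21 : (LinearMap.BilinForm.toMatrix b B).toBlocks₂₁ =
      ((LinearMap.BilinForm.toMatrix b B).toBlocks₁₂)ᵀ := by
    ext i j
    simp only [Matrix.toBlocks₂₁, Matrix.toBlocks₁₂, Matrix.transpose_apply, Matrix.of_apply,
      LinearMap.BilinForm.toMatrix_apply]
    exact hS _ _
  have hdet : (LinearMap.BilinForm.toMatrix b B).det = (-1) ^ m *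
      (((LinearMap.BilinForm.toMatrix b B).toBlocks₁₂).det *
        ((LinearMap.BilinForm.toMatrix b B).toBlocks₁₂).det) := by
    conv_lhs => rw [← Matrix.fromBlocks_toBlocks (LinearMap.BilinForm.toMatrix b B), h11, h21]
    rw [OrthoType.det_antidiag, Matrix.det_transpose]
  obtain ⟨hch, hT⟩ := gram_det_change B e b
  refine ⟨((LinearMap.BilinForm.toMatrix b B).toBlocks₁₂).det / (e.toMatrix b).det, ?_⟩
  have hsq : ((-1 : F) ^ m) * ((-1) ^ m) = 1 := by rw [← mul_pow]; simp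
  rw [div_pow, eq_div_iff (pow_ne_zero 2 hT)]
  have h3 : (-1 : F) ^ m * (LinearMap.BilinForm.toMatrix b B).det =
      ((LinearMap.BilinForm.toMatrix b B).toBlocks₁₂).det ^ 2 := by
    rw [hdet, ← mul_assoc, hsq, one_mul, sq]
  rw [← h3, hch]; ring

/-- the form in coordinates of an orthogonal basis -/
theorem orth_formula {V : Type*} [AddCommGroup V] [Module F V] {κ : Type*} [Fintype κ]
    [DecidableEq κ] (B : LinearMap.BilinForm F V) (c : Module.Basis κ F V)
    (horth : ∀ x y, x ≠ y → B (c x) (c y) = 0) (f g : κ → F) :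
    B (c.equivFun.symm f) (c.equivFun.symm g) = ∑ k, B (c k) (c k) * f k * g k := by
  rw [Module.Basis.equivFun_symm_apply, Module.Basis.equivFun_symm_apply]
  have h1 : ∀ k, B (c k) (∑ j, g j • c j) = g k * B (c k) (c k) := by
    intro k
    rw [map_sum, Finset.sum_eq_single k]
    · rw [map_smul, smul_eq_mul]
    · intro j _ hj; rw [map_smul, horth k j (Ne.symm hj), smul_zero]
    · intro h; exact absurd (Finset.mem_univ k) h
  rw [LinearMap.BilinForm.sum_left]
  refine Finset.sum_congr rfl (fun k _ => ?_)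
  rw [LinearMap.BilinForm.smul_left, h1]; ring

theorem gram_det_orth {V : Type*} [AddCommGroup V] [Module F V] {κ : Type*} [Fintype κ]
    [DecidableEq κ] (B : LinearMap.BilinForm F V) (c : Module.Basis κ F V)
    (horth : ∀ x y, x ≠ y → B (c x) (c y) = 0) :
    (LinearMap.BilinForm.toMatrix c B).det = ∏ k, B (c k) (c k) := by
  have h : LinearMap.BilinForm.toMatrix c B = Matrix.diagonal (fun k => B (c k) (c k)) := by
    ext i j
    rw [LinearMap.BilinForm.toMatrix_apply]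
    by_cases hij : i = j
    · subst hij; rw [Matrix.diagonal_apply_eq]
    · rw [Matrix.diagonal_apply_ne _ hij, horth i j hij]
  rw [h, Matrix.det_diagonal]

/-- weighted construction of a totally isotropic coordinate subspace -/
theorem exists_ts_weighted {ι κ : Type*} [Fintype ι] [DecidableEq ι] [Fintype κ]
    (e : ι ⊕ ι ≃ κ) (a : κ → F) (d : ι → F) (ha1 : ∀ i, a (e (Sum.inl i)) = 1)
    (ha2 : ∀ i, a (e (Sum.inr i)) = d i)
    (M : Matrix ι ι F) (hM : Mᵀ * Matrix.diagonal d * M = -1) :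
    ∃ W : Submodule F (κ → F), Module.finrank F W = Fintype.card ι ∧
      ∀ f ∈ W, ∀ g ∈ W, ∑ k, a k * f k * g k = 0 := by
  let L : (ι → F) →ₗ[F] (κ → F) :=
    { toFun := fun x k => Sum.elim x (M *ᵥ x) (e.symm k)
      map_add' := fun x y => by
        funext k
        rcases h : e.symm k with j | j <;> simp [h, Matrix.mulVec_add]
      map_smul' := fun c x => by
        funext k
        rcases h : e.symm k with j | j <;> simp [h, Matrix.mulVec_smul] }
  have hL : ∀ x k, L x k = Sum.elim x (M *ᵥ x) (e.symm k) := fun x k => rfl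
  have hinj : Function.Injective L := by
    intro x y hxy
    funext j
    have := congrFun hxy (e (Sum.inl j))
    simpa [hL] using this
  refine ⟨LinearMap.range L, ?_, ?_⟩
  · rw [LinearMap.finrank_range_of_inj hinj, Module.finrank_fintype_fun_eq_card]
  · rintro f ⟨x, rfl⟩ g ⟨y, rfl⟩
    have h1 : ∑ k, a k * L x k * L y k = ∑ s : ι ⊕ ι, a (e s) * L x (e s) * L y (e s) :=
      (Equiv.sum_comp e (fun k => a k * L x k * L y k)).symm
    rw [h1, Fintype.sum_sum_type]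
    simp only [hL, Equiv.symm_apply_apply, Sum.elim_inl, Sum.elim_inr, ha1, ha2, one_mul]
    have h2 : ∑ i, d i * (M *ᵥ x) i * (M *ᵥ y) i =
        (Matrix.diagonal d *ᵥ (M *ᵥ y)) ⬝ᵥ (M *ᵥ x) := by
      simp only [dotProduct, Matrix.mulVec_diagonal]
      refine Finset.sum_congr rfl (fun i _ => by ring)
    have h3 : ∑ i, x i * y i = x ⬝ᵥ y := rfl
    rw [h2, h3, Matrix.dotProduct_mulVec, ← Matrix.mulVec_transpose, Matrix.mulVec_mulVec,
      Matrix.mulVec_mulVec, hM, Matrix.neg_mulVec, Matrix.one_mulVec, neg_dotProduct,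
      dotProduct_comm y x, add_neg_cancel]

theorem mat_sq {ι : Type*} [Fintype ι] [DecidableEq ι] (c : F) (hc : -1 = c * c) :
    (c • (1 : Matrix ι ι F))ᵀ * Matrix.diagonal (fun _ => (1 : F)) *
      (c • (1 : Matrix ι ι F)) = -1 := by
  rw [Matrix.diagonal_one, transpose_smul, transpose_one, Matrix.mul_one, Matrix.smul_mul,
    Matrix.mul_smul, Matrix.mul_one, smul_smul, ← hc, neg_one_smul]

/-- the block matrix `[[a, -b], [b, a]]` -/
def blockM (j : ℕ) (a b : F) : Matrix (Fin j ⊕ Fin j) (Fin j ⊕ Fin j) F :=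
  fromBlocks (a • (1 : Matrix (Fin j) (Fin j) F)) (-(b • (1 : Matrix (Fin j) (Fin j) F)))
    (b • (1 : Matrix (Fin j) (Fin j) F)) (a • (1 : Matrix (Fin j) (Fin j) F))

theorem mat_even (j : ℕ) (a b : F) (hab : a * a + b * b = -1) :
    (blockM j a b)ᵀ * Matrix.diagonal (fun _ => (1 : F)) * blockM j a b = -1 := by
  have h1 : (-1 : Matrix (Fin j ⊕ Fin j) (Fin j ⊕ Fin j) F) = fromBlocks (-1) 0 0 (-1) := by
    rw [← fromBlocks_one, fromBlocks_neg]; simp
  rw [Matrix.diagonal_one, Matrix.mul_one, h1]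
  simp only [blockM, fromBlocks_transpose, fromBlocks_multiply, transpose_smul, transpose_one,
    transpose_neg, Matrix.smul_mul, Matrix.mul_smul, Matrix.mul_one, Matrix.neg_mul,
    Matrix.mul_neg, smul_smul, neg_neg, smul_neg]
  congr 1
  · rw [← add_smul, hab, neg_one_smul]
  · rw [mul_comm a b]; abel
  · rw [mul_comm a b]; abel
  · rw [← add_smul, add_comm, hab, neg_one_smul]

theorem mat_ext {ι' : Type*} [Fintype ι'] [DecidableEq ι'] (M' : Matrix ι' ι' F)
    (hM' : M'ᵀ * Matrix.diagonal (fun _ => (1 : F)) * M' = -1) (α s : F) (hs : s * s = -α)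
    (hα : α ≠ 0) :
    (fromBlocks M' 0 0 (s⁻¹ • (1 : Matrix Unit Unit F)))ᵀ *
      Matrix.diagonal (Sum.elim (fun _ => (1 : F)) (fun _ => α)) *
      fromBlocks M' 0 0 (s⁻¹ • (1 : Matrix Unit Unit F)) = -1 := by
  have hs0 : s ≠ 0 := by
    rintro rfl
    apply hα
    have : (0 : F) = -α := by simpa using hs
    exact neg_eq_zero.mp this.symm
  have h1 : (-1 : Matrix (ι' ⊕ Unit) (ι' ⊕ Unit) F) = fromBlocks (-1) 0 0 (-1) := by
    rw [← fromBlocks_one, fromBlocks_neg]; simp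
  rw [← Matrix.fromBlocks_diagonal, h1, fromBlocks_transpose, fromBlocks_multiply,
    fromBlocks_multiply]
  simp only [transpose_zero, Matrix.zero_mul, Matrix.mul_zero, add_zero, zero_add]
  congr 1
  · rw [← Matrix.smul_one_eq_diagonal]
    simp only [transpose_smul, transpose_one, Matrix.mul_smul, Matrix.mul_one, smul_smul]
    convert neg_one_smul F (1 : Matrix Unit Unit F) using 2
    field_simp
    linear_combination hs

/-- a form with normal form `⟨1, …, 1, δ⟩` and discriminant `(-1)^N` has a totally isotropic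
subspace of half dimension -/
theorem exists_ti [Finite F] (h2 : (2 : F) ≠ 0) {V : Type*} [AddCommGroup V] [Module F V]
    (B : LinearMap.BilinForm F V) {n N : ℕ} (hnN : n + 1 = 2 * N)
    (b : Module.Basis (Fin (n + 1)) F V) (horth : ∀ i j, i ≠ j → B (b i) (b j) = 0)
    (h1 : ∀ i, i ≠ Fin.last n → B (b i) (b i) = 1) (δ : F)
    (hlast : B (b (Fin.last n)) (b (Fin.last n)) = δ) (hδ : δ = 1 ∨ ¬ IsSquare δ)
    (hsq : IsSquare ((-1) ^ N * δ)) :
    ∃ X : Submodule F V, Module.finrank F X = N ∧ ∀ x ∈ X, ∀ y ∈ X, B x y = 0 := by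
  classical
  have key : ∀ (ι : Type) [Fintype ι] [DecidableEq ι] (e : ι ⊕ ι ≃ Fin (n + 1)) (d : ι → F)
      (_ : ∀ i, B (b (e (Sum.inl i))) (b (e (Sum.inl i))) = 1)
      (_ : ∀ i, B (b (e (Sum.inr i))) (b (e (Sum.inr i))) = d i)
      (M : Matrix ι ι F) (_ : Mᵀ * Matrix.diagonal d * M = -1) (_ : Fintype.card ι = N),
      ∃ X : Submodule F V, Module.finrank F X = N ∧ ∀ x ∈ X, ∀ y ∈ X, B x y = 0 := by
    intro ι _ _ e d ha1 ha2 M hM hcard
    obtain ⟨W₀, hW1, hW2⟩ := exists_ts_weighted e (fun k => B (b k) (b k)) d ha1 ha2 M hM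
    refine ⟨W₀.map (b.equivFun.symm : (Fin (n + 1) → F) →ₗ[F] V), ?_, ?_⟩
    · rw [LinearEquiv.finrank_map_eq, hW1, hcard]
    · rintro x ⟨f, hf, rfl⟩ y ⟨g, hg, rfl⟩
      have h3 := orth_formula B b horth f g
      rw [LinearEquiv.coe_coe, h3]
      exact hW2 f hf g hg
  obtain ⟨a₀, b₀, hab₀⟩ := Cfsg.Agent.Helper8.SymmForm.exists_sq_sum h2
    (a := (-1 : F)) (b := (-1 : F)) (by simp) (by simp)
  have hab : a₀ * a₀ + b₀ * b₀ = -1 := by linear_combination (-1 : F) * hab₀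
  rcases hδ with hδ1 | hδns
  · have hall : ∀ k, B (b k) (b k) = 1 := by
      intro k
      by_cases hk : k = Fin.last n
      · rw [hk, hlast, hδ1]
      · exact h1 k hk
    rw [hδ1, mul_one] at hsq
    by_cases hneg : IsSquare (-1 : F)
    · obtain ⟨c, hc⟩ := hneg
      have hcard : Fintype.card (Fin N ⊕ Fin N) = n + 1 := by
        simp only [Fintype.card_sum, Fintype.card_fin]; omega
      exact key (Fin N) (Fintype.equivFinOfCardEq hcard) (fun _ => 1) (fun i => hall _)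
        (fun i => hall _) (c • 1) (mat_sq c hc) (by simp)
    · have hev : Even N := by
        by_contra hodd
        rw [Nat.not_even_iff_odd] at hodd
        rw [hodd.neg_one_pow] at hsq
        exact hneg hsq
      obtain ⟨j, hj⟩ := hev
      have hcard : Fintype.card ((Fin j ⊕ Fin j) ⊕ (Fin j ⊕ Fin j)) = n + 1 := by
        simp only [Fintype.card_sum, Fintype.card_fin]; omega
      exact key (Fin j ⊕ Fin j) (Fintype.equivFinOfCardEq hcard) (fun _ => 1) (fun i => hall _)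
        (fun i => hall _) (blockM j a₀ b₀) (mat_even j a₀ b₀ hab) (by simp [hj])
  · have hδ0 : δ ≠ 0 := by
      rintro rfl
      exact hδns ⟨0, by simp⟩
    have hodd : Odd N := by
      by_contra hev
      rw [Nat.not_odd_iff_even] at hev
      rw [hev.neg_one_pow, one_mul] at hsq
      exact hδns hsq
    rw [hodd.neg_one_pow] at hsq
    obtain ⟨s, hs⟩ := hsq
    have hs' : s * s = -δ := by rw [← hs]; ring
    obtain ⟨j, hj⟩ := hodd
    have hcard : Fintype.card (((Fin j ⊕ Fin j) ⊕ Unit) ⊕ ((Fin j ⊕ Fin j) ⊕ Unit)) = n + 1 := by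
      simp only [Fintype.card_sum, Fintype.card_fin, Fintype.card_unit]; omega
    let e₀ := Fintype.equivFinOfCardEq hcard
    let e := e₀.trans (Equiv.swap (e₀ (Sum.inr (Sum.inr ()))) (Fin.last n))
    have he : e (Sum.inr (Sum.inr ())) = Fin.last n := by
      simp [e]
    have hne : ∀ s, s ≠ Sum.inr (Sum.inr ()) → e s ≠ Fin.last n := by
      intro s hs h
      exact hs (e.injective (h.trans he.symm))
    refine key ((Fin j ⊕ Fin j) ⊕ Unit) e (Sum.elim (fun _ => 1) (fun _ => δ)) ?_ ?_ _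
      (mat_ext (blockM j a₀ b₀) (mat_even j a₀ b₀ hab) δ s hs' hδ0) (by simp [hj]; omega)
    · intro i; exact h1 _ (hne _ (by simp))
    · rintro (i | u)
      · simp only [Sum.elim_inl]; exact h1 _ (hne _ (by simp))
      · simp only [Sum.elim_inr]
        rw [he, hlast]

theorem prod_norms {n : ℕ} (a : Fin (n + 1) → F) (h1 : ∀ i, i ≠ Fin.last n → a i = 1) :
    ∏ i, a i = a (Fin.last n) := by
  rw [Fin.prod_univ_castSucc]
  have h : ∀ i : Fin n, a (Fin.castSucc i) = 1 := fun i => h1 _ (Fin.castSucc_lt_last i).ne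
  simp [h]

theorem tensor_orth {U W : Type*} [AddCommGroup U] [Module F U] [AddCommGroup W] [Module F W]
    {ι₁ ι₂ : Type*} (B₁ : LinearMap.BilinForm F U) (B₂ : LinearMap.BilinForm F W)
    (b₁ : Module.Basis ι₁ F U) (b₂ : Module.Basis ι₂ F W) (p q : ι₁ × ι₂) :
    (B₁.tmul B₂) ((b₁.tensorProduct b₂) p) ((b₁.tensorProduct b₂) q) =
      B₁ (b₁ p.1) (b₁ q.1) * B₂ (b₂ p.2) (b₂ q.2) := by
  rw [Module.Basis.tensorProduct_apply, Module.Basis.tensorProduct_apply]
  show B₂ (b₂ p.2) (b₂ q.2) • B₁ (b₁ p.1) (b₁ q.1) = _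
  rw [smul_eq_mul, mul_comm]

theorem tensor_gram {U W : Type*} [AddCommGroup U] [Module F U] [AddCommGroup W] [Module F W]
    {ι₁ ι₂ κ : Type*} [Fintype ι₁] [Fintype ι₂] [DecidableEq ι₁] [DecidableEq ι₂] [Fintype κ]
    [DecidableEq κ] (B₁ : LinearMap.BilinForm F U) (B₂ : LinearMap.BilinForm F W)
    (b₁ : Module.Basis ι₁ F U) (b₂ : Module.Basis ι₂ F W)
    (h₁ : ∀ i j, i ≠ j → B₁ (b₁ i) (b₁ j) = 0) (h₂ : ∀ i j, i ≠ j → B₂ (b₂ i) (b₂ j) = 0)
    (σ : ι₁ × ι₂ ≃ κ) :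
    (∀ x y, x ≠ y → (B₁.tmul B₂) (((b₁.tensorProduct b₂).reindex σ) x)
      (((b₁.tensorProduct b₂).reindex σ) y) = 0) ∧
    (LinearMap.BilinForm.toMatrix ((b₁.tensorProduct b₂).reindex σ) (B₁.tmul B₂)).det =
      (∏ i, B₁ (b₁ i) (b₁ i)) ^ Fintype.card ι₂ * (∏ j, B₂ (b₂ j) (b₂ j)) ^ Fintype.card ι₁ := by
  have horth : ∀ x y, x ≠ y → (B₁.tmul B₂) (((b₁.tensorProduct b₂).reindex σ) x)
      (((b₁.tensorProduct b₂).reindex σ) y) = 0 := by
    intro x y hxy
    rw [Module.Basis.reindex_apply, Module.Basis.reindex_apply, tensor_orth]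
    have hne : σ.symm x ≠ σ.symm y := fun h => hxy (σ.symm.injective h)
    by_cases h1 : (σ.symm x).1 = (σ.symm y).1
    · have h2' : (σ.symm x).2 ≠ (σ.symm y).2 := fun h => hne (Prod.ext h1 h)
      rw [h₂ _ _ h2', mul_zero]
    · rw [h₁ _ _ h1, zero_mul]
  refine ⟨horth, ?_⟩
  rw [gram_det_orth _ _ horth]
  have h3 : ∀ k, (B₁.tmul B₂) (((b₁.tensorProduct b₂).reindex σ) k)
      (((b₁.tensorProduct b₂).reindex σ) k) =
      B₁ (b₁ (σ.symm k).1) (b₁ (σ.symm k).1) * B₂ (b₂ (σ.symm k).2) (b₂ (σ.symm k).2) := by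
    intro k; rw [Module.Basis.reindex_apply, tensor_orth]
  rw [Finset.prod_congr rfl (fun k _ => h3 k)]
  rw [Equiv.prod_comp σ.symm (fun p => B₁ (b₁ p.1) (b₁ p.1) * B₂ (b₂ p.2) (b₂ p.2))]
  rw [Fintype.prod_prod_type]
  simp only [Finset.prod_mul_distrib, Finset.prod_const, Finset.card_univ, Finset.prod_pow]

theorem main0834 {F U W : Type*} [Field F] [Fintype F] [AddCommGroup U] [Module F U]
    [FiniteDimensional F U] [AddCommGroup W] [Module F W] [FiniteDimensional F W]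
    (h2 : (2 : F) ≠ 0) (B₁ : LinearMap.BilinForm F U) (B₂ : LinearMap.BilinForm F W)
    (h₁ : B₁.Nondegenerate) (h₂ : B₂.Nondegenerate) (hS₁ : B₁.IsSymm) (hS₂ : B₂.IsSymm)
    (k l : ℕ) (hk : 1 ≤ k) (hl : 1 ≤ l) (hU : Module.finrank F U = 2 * k)
    (hW : Module.finrank F W = 2 * l) :
    ∃ X : Submodule F (TensorProduct F U W), Module.finrank F X = 2 * k * l ∧
      ∀ x ∈ X, ∀ y ∈ X, (B₁.tmul B₂) x y = 0 := by
  classical
  obtain ⟨α, hα⟩ := FiniteField.exists_nonsquare (SymmForm.ringChar_ne_two h2)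
  have hα0 : α ≠ 0 := SymmForm.nonsq_ne_zero hα
  obtain ⟨b₁, ho₁, hn₁, hl₁⟩ := SymmForm.main h2 B₁ hS₁ h₁ (n := 2 * k - 1)
    (by rw [hU]; omega) α hα
  obtain ⟨b₂, ho₂, hn₂, hl₂⟩ := SymmForm.main h2 B₂ hS₂ h₂ (n := 2 * l - 1)
    (by rw [hW]; omega) α hα
  have hP₁ := prod_norms (fun i => B₁ (b₁ i) (b₁ i)) hn₁
  have hP₂ := prod_norms (fun i => B₂ (b₂ i) (b₂ i)) hn₂
  have hδ₁0 : B₁ (b₁ (Fin.last _)) (b₁ (Fin.last _)) ≠ 0 := by
    rcases hl₁ with h | h
    · rw [h]; exact one_ne_zero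
    · rw [h]; exact hα0
  have hδ₂0 : B₂ (b₂ (Fin.last _)) (b₂ (Fin.last _)) ≠ 0 := by
    rcases hl₂ with h | h
    · rw [h]; exact one_ne_zero
    · rw [h]; exact hα0
  have hBS : LinearMap.BilinForm.IsSymm (B₁.tmul B₂) := LinearMap.BilinForm.isSymm_iff.mpr
    ((LinearMap.BilinForm.isSymm_iff.mp hS₁).tmul (LinearMap.BilinForm.isSymm_iff.mp hS₂))
  have hpos : 1 ≤ 4 * k * l := by
    have : 1 ≤ k * l := Nat.mul_pos hk hl
    nlinarith
  have hfr : Module.finrank F (TensorProduct F U W) = (4 * k * l - 1) + 1 := by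
    rw [Module.finrank_tensorProduct, hU, hW, Nat.sub_add_cancel hpos]; ring
  have hcardσ : Fintype.card (Fin (2 * k - 1 + 1) × Fin (2 * l - 1 + 1)) = 4 * k * l - 1 + 1 := by
    simp only [Fintype.card_prod, Fintype.card_fin]
    rw [Nat.sub_add_cancel hpos, Nat.sub_add_cancel (by omega : 1 ≤ 2 * k),
      Nat.sub_add_cancel (by omega : 1 ≤ 2 * l)]
    ring
  obtain ⟨hTo, hTd⟩ := tensor_gram B₁ B₂ b₁ b₂ ho₁ ho₂ (Fintype.equivFinOfCardEq hcardσ)
  rw [hP₁, hP₂] at hTd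
  simp only [Fintype.card_fin] at hTd
  have hBN : (B₁.tmul B₂).Nondegenerate :=
    (LinearMap.BilinForm.nondegenerate_iff_det_ne_zero
      ((b₁.tensorProduct b₂).reindex (Fintype.equivFinOfCardEq hcardσ))).mpr (by
        rw [hTd]
        exact mul_ne_zero (pow_ne_zero _ hδ₁0) (pow_ne_zero _ hδ₂0))
  obtain ⟨b', ho', hn', hl'⟩ := SymmForm.main h2 (B₁.tmul B₂) hBS hBN hfr α hα
  obtain ⟨hch, hT⟩ := gram_det_change (B₁.tmul B₂)
    ((b₁.tensorProduct b₂).reindex (Fintype.equivFinOfCardEq hcardσ)) b'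
  rw [gram_det_orth (B₁.tmul B₂) b' ho',
    prod_norms (fun i => (B₁.tmul B₂) (b' i) (b' i)) hn', hTd] at hch
  have hδ' : (B₁.tmul B₂) (b' (Fin.last _)) (b' (Fin.last _)) = 1 := by
    rcases hl' with h | h
    · exact h
    · exfalso
      apply hα
      rw [h] at hch
      have e1 : ∀ x : F, x ^ (2 * l - 1 + 1) = (x ^ l) ^ 2 := fun x => by
        rw [show 2 * l - 1 + 1 = l * 2 by omega, pow_mul]
      have e2 : ∀ x : F, x ^ (2 * k - 1 + 1) = (x ^ k) ^ 2 := fun x => by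
        rw [show 2 * k - 1 + 1 = k * 2 by omega, pow_mul]
      rw [e1, e2] at hch
      refine ⟨B₁ (b₁ (Fin.last _)) (b₁ (Fin.last _)) ^ l *
        B₂ (b₂ (Fin.last _)) (b₂ (Fin.last _)) ^ k *
        (((b₁.tensorProduct b₂).reindex (Fintype.equivFinOfCardEq hcardσ)).toMatrix b').det, ?_⟩
      rw [hch]; ring
  have hN : (4 * k * l - 1) + 1 = 2 * (2 * k * l) := by
    rw [Nat.sub_add_cancel hpos]; ring
  exact exists_ti h2 (B₁.tmul B₂) hN b' ho' hn' 1 hδ' (Or.inl rfl) (by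
    rw [mul_one]
    have hev : Even (2 * k * l) := ⟨k * l, by ring⟩
    rw [hev.neg_one_pow]
    exact ⟨1, by simp⟩)

theorem main0835 {F U W : Type*} [Field F] [Fintype F] [AddCommGroup U] [Module F U]
    [FiniteDimensional F U] [AddCommGroup W] [Module F W] [FiniteDimensional F W]
    (h2 : (2 : F) ≠ 0) (B₁ : LinearMap.BilinForm F U) (B₂ : LinearMap.BilinForm F W)
    (h₁ : B₁.Nondegenerate) (h₂ : B₂.Nondegenerate) (hS₁ : B₁.IsSymm) (hS₂ : B₂.IsSymm)
    (k l : ℕ) (hk : 1 ≤ k) (hU : Module.finrank F U = 2 * k)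
    (hW : Module.finrank F W = 2 * l + 1)
    (hm₁ : ¬ (∃ X : Submodule F U, Module.finrank F X = k ∧ ∀ x ∈ X, ∀ y ∈ X, B₁ x y = 0)) :
    ¬ (∃ X : Submodule F (TensorProduct F U W), Module.finrank F X = k * (2 * l + 1) ∧
      ∀ x ∈ X, ∀ y ∈ X, (B₁.tmul B₂) x y = 0) := by
  classical
  rintro ⟨X, hX, hti⟩
  apply hm₁
  obtain ⟨α, hα⟩ := FiniteField.exists_nonsquare (SymmForm.ringChar_ne_two h2)
  have hα0 : α ≠ 0 := SymmForm.nonsq_ne_zero hα
  obtain ⟨b₁, ho₁, hn₁, hl₁⟩ := SymmForm.main h2 B₁ hS₁ h₁ (n := 2 * k - 1)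
    (by rw [hU]; omega) α hα
  obtain ⟨b₂, ho₂, hn₂, hl₂⟩ := SymmForm.main h2 B₂ hS₂ h₂ (n := 2 * l) hW α hα
  have hP₁ := prod_norms (fun i => B₁ (b₁ i) (b₁ i)) hn₁
  have hP₂ := prod_norms (fun i => B₂ (b₂ i) (b₂ i)) hn₂
  have hδ₁0 : B₁ (b₁ (Fin.last _)) (b₁ (Fin.last _)) ≠ 0 := by
    rcases hl₁ with h | h
    · rw [h]; exact one_ne_zero
    · rw [h]; exact hα0
  have hδ₂0 : B₂ (b₂ (Fin.last _)) (b₂ (Fin.last _)) ≠ 0 := by
    rcases hl₂ with h | h
    · rw [h]; exact one_ne_zero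
    · rw [h]; exact hα0
  have hBS : LinearMap.BilinForm.IsSymm (B₁.tmul B₂) := LinearMap.BilinForm.isSymm_iff.mpr
    ((LinearMap.BilinForm.isSymm_iff.mp hS₁).tmul (LinearMap.BilinForm.isSymm_iff.mp hS₂))
  have hcardσ : Fintype.card (Fin (2 * k - 1 + 1) × Fin (2 * l + 1)) =
      Fintype.card (Fin (k * (2 * l + 1)) ⊕ Fin (k * (2 * l + 1))) := by
    simp only [Fintype.card_prod, Fintype.card_fin, Fintype.card_sum]
    rw [Nat.sub_add_cancel (by omega : 1 ≤ 2 * k)]
    ring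
  obtain ⟨hTo, hTd⟩ := tensor_gram B₁ B₂ b₁ b₂ ho₁ ho₂ (Fintype.equivOfCardEq hcardσ)
  rw [hP₁, hP₂] at hTd
  simp only [Fintype.card_fin] at hTd
  obtain ⟨t, ht⟩ := square_of_ti (B₁.tmul B₂)
    (fun x y => hBS.eq x y)
    ((b₁.tensorProduct b₂).reindex (Fintype.equivOfCardEq hcardσ)) X hX hti
  rw [hTd] at ht
  have eN : 2 * k - 1 + 1 = 2 * k := by omega
  have e2 : ∀ x : F, x ^ (2 * k - 1 + 1) = (x ^ k) ^ 2 := fun x => by
    rw [show 2 * k - 1 + 1 = k * 2 by omega, pow_mul]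
  rw [e2] at ht
  have hden : ((-1 : F) ^ (k * l) * B₁ (b₁ (Fin.last _)) (b₁ (Fin.last _)) ^ l *
      B₂ (b₂ (Fin.last _)) (b₂ (Fin.last _)) ^ k) ≠ 0 :=
    mul_ne_zero (mul_ne_zero (pow_ne_zero _ (by norm_num)) (pow_ne_zero _ hδ₁0))
      (pow_ne_zero _ hδ₂0)
  have hsq : IsSquare ((-1) ^ k * B₁ (b₁ (Fin.last _)) (b₁ (Fin.last _))) := by
    refine ⟨t / ((-1 : F) ^ (k * l) * B₁ (b₁ (Fin.last _)) (b₁ (Fin.last _)) ^ l *
      B₂ (b₂ (Fin.last _)) (b₂ (Fin.last _)) ^ k), ?_⟩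
    rw [div_mul_div_comm, ← sq, ← ht, eq_div_iff (mul_ne_zero hden hden)]
    ring
  exact exists_ti h2 B₁ eN b₁ ho₁ hn₁ _ rfl
    (hl₁.imp id (fun h => by rw [h]; exact hα)) hsq

end Cfsg.Agent.Helper8.OrthoDisc
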