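import Cfsg.Agent.Helper8.SymmForm

namespace Cfsg.Agent.Helper8.OrthoType

open Matrix

variable {F : Type*} [Field F]

/-- construction of a totally singular subspace from `M` with `Mᵀ M = -1` -/
theorem exists_ts {ι : Type*} [Fintype ι] [DecidableEq ι] {n : ℕ} (e : ι ⊕ ι ≃ Fin n)
    (M : Matrix ι ι F) (hM : Mᵀ * M = -1) :
    ∃ W : Submodule F (Fin n → F), Module.finrank F W = Fintype.card ι ∧
      ∀ w ∈ W, ∑ i, w i ^ 2 = 0 := by
  let L : (ι → F) →ₗ[F] (Fin n → F) :=
    { toFun := fun x k => Sum.elim x (M *ᵥ x) (e.symm k)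
      map_add' := fun x y => by
        funext k
        rcases h : e.symm k with j | j <;> simp [h, Matrix.mulVec_add]
      map_smul' := fun c x => by
        funext k
        rcases h : e.symm k with j | j <;> simp [h, Matrix.mulVec_smul] }
  have hL : ∀ x k, L x k = Sum.elim x (M *ᵥ x) (e.symm k) := fun x k => rfl
  have hinj : Function.Injective L := by
    intro x y hxy
    funext j
    have := congrFun hxy (e (Sum.inl j))
    simpa [hL] using this
  refine ⟨LinearMap.range L, ?_, ?_⟩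
  · rw [LinearMap.finrank_range_of_inj hinj, Module.finrank_fintype_fun_eq_card]
  · rintro w ⟨x, rfl⟩
    have h1 : ∑ k, L x k ^ 2 = ∑ s : ι ⊕ ι, L x (e s) ^ 2 :=
      (Equiv.sum_comp e (fun k => L x k ^ 2)).symm
    rw [h1, Fintype.sum_sum_type]
    simp only [hL, Equiv.symm_apply_apply, Sum.elim_inl, Sum.elim_inr]
    have h2 : ∑ i, (M *ᵥ x) i ^ 2 = (M *ᵥ x) ⬝ᵥ (M *ᵥ x) := by simp [dotProduct, sq]
    have h3 : ∑ i, x i ^ 2 = x ⬝ᵥ x := by simp [dotProduct, sq]
    have h4 : (M *ᵥ x) ⬝ᵥ (M *ᵥ x) = -(x ⬝ᵥ x) := by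
      rw [Matrix.dotProduct_mulVec, ← Matrix.mulVec_transpose, Matrix.mulVec_mulVec, hM,
        Matrix.neg_mulVec, Matrix.one_mulVec, neg_dotProduct]
    rw [h2, h3, h4, add_neg_cancel]

theorem det_antidiag {m : ℕ} (C C' D : Matrix (Fin m) (Fin m) F) :
    (fromBlocks 0 C C' D).det = (-1) ^ m * (C.det * C'.det) := by
  have h1 : fromBlocks (0 : Matrix (Fin m) (Fin m) F) C C' D =
      fromBlocks C 0 D C' * (fromBlocks 1 1 0 1 * fromBlocks (-1) 0 1 1 *
        fromBlocks 1 (-1) 0 1) := by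
    simp [fromBlocks_multiply]
  rw [h1, det_mul, det_mul, det_mul, det_fromBlocks_zero₁₂, det_fromBlocks_zero₂₁,
    det_fromBlocks_zero₁₂, det_fromBlocks_zero₂₁]
  simp [det_neg]
  ring

theorem isSquare_neg_one_of_ts (h2 : (2 : F) ≠ 0) {m : ℕ} (hm : Odd m)
    (W : Submodule F (Fin (2 * m) → F)) (hW : Module.finrank F W = m)
    (hts : ∀ w ∈ W, ∑ i, w i ^ 2 = 0) : IsSquare (-1 : F) := by
  classical
  have hdot : ∀ x ∈ W, ∀ y ∈ W, x ⬝ᵥ y = 0 := by
    intro x hx y hy
    have h1 := hts (x + y) (W.add_mem hx hy)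
    have h3 : ∑ i, (x + y) i ^ 2 = ∑ i, x i ^ 2 + ∑ i, y i ^ 2 + 2 * (x ⬝ᵥ y) := by
      simp only [Pi.add_apply, dotProduct, Finset.mul_sum, ← Finset.sum_add_distrib]
      refine Finset.sum_congr rfl (fun i _ => by ring)
    rw [h3, hts x hx, hts y hy, zero_add, zero_add] at h1
    exact (mul_eq_zero.mp h1).resolve_left h2
  obtain ⟨U, hU⟩ := Submodule.exists_isCompl W
  have hUd : Module.finrank F U = m := by
    have := Submodule.finrank_add_eq_of_isCompl hU
    rw [hW, Module.finrank_fin_fun] at this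
    omega
  let bW := Module.finBasisOfFinrankEq F W hW
  let bU := Module.finBasisOfFinrankEq F U hUd
  let b : Module.Basis (Fin m ⊕ Fin m) F (Fin (2 * m) → F) :=
    (bW.prod bU).map (Submodule.prodEquivOfIsCompl W U hU)
  have hbl : ∀ i, b (Sum.inl i) ∈ W := by
    intro i
    have : b (Sum.inl i) = (bW i : Fin (2 * m) → F) := by simp [b]
    rw [this]; exact (bW i).2
  let e : Fin m ⊕ Fin m ≃ Fin (2 * m) := finSumFinEquiv.trans (finCongr (two_mul m).symm)
  let P : Matrix (Fin m ⊕ Fin m) (Fin m ⊕ Fin m) F := Matrix.of (fun i k => b i (e k))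
  have hPdet : P.det ≠ 0 := by
    have hli : LinearIndependent F (fun i => (LinearEquiv.funCongrLeft F F e) (b i)) :=
      b.linearIndependent.map' _ (LinearEquiv.ker _)
    have hu : IsUnit P := Matrix.linearIndependent_rows_iff_isUnit.mp hli
    exact ((Matrix.isUnit_iff_isUnit_det P).mp hu).ne_zero
  have hG : ∀ i j, (P * Pᵀ) i j = b i ⬝ᵥ b j := by
    intro i j
    rw [Matrix.mul_apply]
    simp only [P, Matrix.transpose_apply, Matrix.of_apply]
    exact Equiv.sum_comp e (fun k => b i k * b j k)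
  have h11 : (P * Pᵀ).toBlocks₁₁ = 0 := by
    ext i j
    simp only [Matrix.toBlocks₁₁, Matrix.of_apply, Matrix.zero_apply]
    rw [hG]; exact hdot _ (hbl i) _ (hbl j)
  have h21 : (P * Pᵀ).toBlocks₂₁ = ((P * Pᵀ).toBlocks₁₂)ᵀ := by
    ext i j
    simp only [Matrix.toBlocks₂₁, Matrix.toBlocks₁₂, Matrix.transpose_apply, Matrix.of_apply]
    rw [hG, hG, dotProduct_comm]
  have hdet : (P * Pᵀ).det =
      (-1) ^ m * (((P * Pᵀ).toBlocks₁₂).det * ((P * Pᵀ).toBlocks₁₂).det) := by
    conv_lhs => rw [← Matrix.fromBlocks_toBlocks (P * Pᵀ), h11, h21]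
    rw [det_antidiag, Matrix.det_transpose]
  rw [Matrix.det_mul, Matrix.det_transpose, hm.neg_one_pow] at hdet
  have hc : ((P * Pᵀ).toBlocks₁₂).det ≠ 0 := by
    intro hc0
    rw [hc0] at hdet
    simp at hdet
    exact hPdet hdet
  refine ⟨P.det / ((P * Pᵀ).toBlocks₁₂).det, ?_⟩
  field_simp
  linear_combination (-1 : F) * hdet

theorem main0759 {F : Type*} [Field F] [Fintype F] (h2 : (2 : F) ≠ 0) (m : ℕ) (hm : 1 ≤ m) :
    (∃ W : Submodule F (Fin (2 * m) → F), Module.finrank F W = m ∧ ∀ w ∈ W, ∑ i, w i ^ 2 = 0) ↔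
      ¬ (Fintype.card F % 4 = 3 ∧ Odd m) := by
  constructor
  · rintro ⟨W, hW, hts⟩ ⟨h3, hodd⟩
    have := isSquare_neg_one_of_ts h2 hodd W hW hts
    rw [FiniteField.isSquare_neg_one_iff] at this
    exact this h3
  · intro hcon
    by_cases h3 : Fintype.card F % 4 = 3
    · have heven : Even m := Nat.not_odd_iff_even.mp (fun ho => hcon ⟨h3, ho⟩)
      obtain ⟨k, hk⟩ := heven
      obtain ⟨a, b, hab⟩ := Cfsg.Agent.Helper8.SymmForm.exists_sq_sum h2
        (a := (-1 : F)) (b := (-1 : F)) (by simp) (by simp)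
      have hab' : a * a + b * b = -1 := by linear_combination (-1 : F) * hab
      let M : Matrix (Fin k ⊕ Fin k) (Fin k ⊕ Fin k) F :=
        fromBlocks (a • 1) (-(b • 1)) (b • 1) (a • 1)
      have hM : Mᵀ * M = -1 := by
        have h1 : (-1 : Matrix (Fin k ⊕ Fin k) (Fin k ⊕ Fin k) F) = fromBlocks (-1) 0 0 (-1) := by
          rw [← fromBlocks_one, fromBlocks_neg]; simp
        rw [h1]
        simp only [M, fromBlocks_transpose, fromBlocks_multiply, transpose_smul, transpose_one,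
          transpose_neg, Matrix.smul_mul, Matrix.mul_smul, Matrix.mul_one, Matrix.neg_mul,
          Matrix.mul_neg, smul_smul, neg_neg, smul_neg]
        congr 1
        · rw [← add_smul, hab', neg_one_smul]
        · rw [mul_comm a b]; abel
        · rw [mul_comm a b]; abel
        · rw [← add_smul, add_comm, hab', neg_one_smul]
      have hcard : Fintype.card ((Fin k ⊕ Fin k) ⊕ (Fin k ⊕ Fin k)) = 2 * m := by
        simp [hk]; ring
      obtain ⟨W, hW1, hW2⟩ := exists_ts (Fintype.equivFinOfCardEq hcard) M hM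
      refine ⟨W, ?_, hW2⟩
      rw [hW1]; simp [hk]
    · have hsq : IsSquare (-1 : F) := FiniteField.isSquare_neg_one_iff.mpr h3
      obtain ⟨c, hc⟩ := hsq
      have hM : ((c • (1 : Matrix (Fin m) (Fin m) F))ᵀ * (c • 1)) = -1 := by
        rw [transpose_smul, transpose_one, Matrix.smul_mul, Matrix.mul_smul, Matrix.mul_one,
          smul_smul, ← hc, neg_one_smul]
      have hcard : Fintype.card (Fin m ⊕ Fin m) = 2 * m := by
        simp; ring
      obtain ⟨W, hW1, hW2⟩ := exists_ts (Fintype.equivFinOfCardEq hcard) _ hM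
      exact ⟨W, by rw [hW1]; simp, hW2⟩

end Cfsg.Agent.Helper8.OrthoType
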