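import Mathlib
import Cfsg.Prelude.Def_Perm

set_option autoImplicit false

namespace Cfsg.Agent.Helper8.PermModAlt

open Equiv

variable {α : Type*} [Fintype α] [DecidableEq α] {K : Type*} [Field K]

/-- the 3-cycle `a → b → c → a` as an element of the alternating group -/
def cyc (a b c : α) (hab : a ≠ b) (hbc : b ≠ c) : alternatingGroup α :=
  ⟨swap a b * swap b c, by
    rw [Equiv.Perm.mem_alternatingGroup, Equiv.Perm.sign_mul, Equiv.Perm.sign_swap hab,
      Equiv.Perm.sign_swap hbc]; rfl⟩

theorem rho_cyc (a b c : α) (hab : a ≠ b) (hbc : b ≠ c) (f : α → K) (x : α) :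
    (Cfsg.permRep K (alternatingGroup α) α (cyc a b c hab hbc) f) x
      = f (swap b c (swap a b x)) := by
  show f ((cyc a b c hab hbc)⁻¹ • x) = _
  congr 1

theorem exists_not_mem (hα : 5 ≤ Fintype.card α) (s : Finset α) (hs : s.card ≤ 4) :
    ∃ x, x ∉ s := by
  by_contra h
  push_neg at h
  have : s = Finset.univ := Finset.eq_univ_of_forall h
  rw [this, Finset.card_univ] at hs
  omega

theorem diff_mem (hα : 5 ≤ Fintype.card α)
    (W : Subrepresentation (Cfsg.permRep K (alternatingGroup α) α))
    (w : α → K) (hw : w ∈ W.toSubmodule) (i j : α) (hij : w i ≠ w j) :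
    ∃ c d : α, c ≠ d ∧ (Pi.single c (1:K) - Pi.single d (1:K) : α → K) ∈ W.toSubmodule := by
  have hne : i ≠ j := fun h => hij (by rw [h])
  obtain ⟨a, ha⟩ := exists_not_mem hα {i, j}
    (le_trans (Finset.card_insert_le _ _) (by simp))
  have hai : a ≠ i := fun h => ha (by simp [h])
  have haj : a ≠ j := fun h => ha (by simp [h])
  obtain ⟨d, hd⟩ := exists_not_mem hα {a, i, j}
    (le_trans (Finset.card_le_three) (by norm_num))
  have hda : d ≠ a := fun h => hd (by simp [h])
  have hdi : d ≠ i := fun h => hd (by simp [h])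
  have hdj : d ≠ j := fun h => hd (by simp [h])
  obtain ⟨e, he⟩ := exists_not_mem hα {a, i, j, d}
    (le_trans (Finset.card_le_four) (by norm_num))
  have hea : e ≠ a := fun h => he (by simp [h])
  have hei : e ≠ i := fun h => he (by simp [h])
  have hej : e ≠ j := fun h => he (by simp [h])
  have hed : e ≠ d := fun h => he (by simp [h])
  set u : α → K := w - Cfsg.permRep K (alternatingGroup α) α (cyc a i j hai hne) w with hu
  have huW : u ∈ W.toSubmodule :=
    W.toSubmodule.sub_mem hw (W.apply_mem_toSubmodule _ hw)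
  have hu_apply : ∀ x, u x = w x - w (swap i j (swap a i x)) := fun x => by
    rw [hu, Pi.sub_apply, rho_cyc]
  have huj : u j = w j - w i := by
    rw [hu_apply, swap_apply_of_ne_of_ne haj.symm hne.symm, swap_apply_right]
  have hu0 : ∀ x, x ≠ a → x ≠ i → x ≠ j → u x = 0 := by
    intro x h1 h2 h3
    rw [hu_apply, swap_apply_of_ne_of_ne h1 h2, swap_apply_of_ne_of_ne h2 h3, sub_self]
  have hjd : j ≠ d := Ne.symm hdj
  have hde : d ≠ e := Ne.symm hed
  set v : α → K := u - Cfsg.permRep K (alternatingGroup α) α (cyc j d e hjd hde) u with hv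
  have hvW : v ∈ W.toSubmodule :=
    W.toSubmodule.sub_mem huW (W.apply_mem_toSubmodule _ huW)
  have hv_apply : ∀ x, v x = u x - u (swap d e (swap j d x)) := fun x => by
    rw [hv, Pi.sub_apply, rho_cyc]
  have hujne : u j ≠ 0 := by
    rw [huj]; exact sub_ne_zero.mpr (Ne.symm hij)
  have hv_eq : v = (u j) • (Pi.single j (1:K) - Pi.single d (1:K) : α → K) := by
    funext x
    rw [hv_apply]
    simp only [Pi.smul_apply, Pi.sub_apply, Pi.single_apply, smul_eq_mul]
    by_cases hxj : x = j
    · rw [hxj, swap_apply_left, swap_apply_left, hu0 e hea hei hej]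
      simp [hjd]
    by_cases hxd : x = d
    · rw [hxd, swap_apply_right, swap_apply_of_ne_of_ne hjd (Ne.symm hej), hu0 d hda hdi hdj]
      simp [hdj]
    by_cases hxe : x = e
    · rw [hxe, swap_apply_of_ne_of_ne hej hed, swap_apply_right, hu0 d hda hdi hdj,
        hu0 e hea hei hej]
      simp [hej, hed]
    · rw [swap_apply_of_ne_of_ne hxj hxd, swap_apply_of_ne_of_ne hxd hxe]
      simp [hxj, hxd]
  refine ⟨j, d, hjd, ?_⟩
  have : (Pi.single j (1:K) - Pi.single d (1:K) : α → K) = (u j)⁻¹ • v := by
    rw [hv_eq, smul_smul, inv_mul_cancel₀ hujne, one_smul]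
  rw [this]
  exact W.toSubmodule.smul_mem _ hvW

theorem all_diff (hα : 5 ≤ Fintype.card α)
    (W : Subrepresentation (Cfsg.permRep K (alternatingGroup α) α)) (c d : α) (hcd : c ≠ d)
    (h : (Pi.single c (1:K) - Pi.single d (1:K) : α → K) ∈ W.toSubmodule) :
    ∀ x y : α, (Pi.single x (1:K) - Pi.single y (1:K) : α → K) ∈ W.toSubmodule := by
  have key : ∀ y, (Pi.single c (1:K) - Pi.single y (1:K) : α → K) ∈ W.toSubmodule := by
    intro y
    by_cases hyc : y = c
    · rw [hyc, sub_self]; exact W.toSubmodule.zero_mem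
    by_cases hyd : y = d
    · rw [hyd]; exact h
    obtain ⟨z, hz⟩ := exists_not_mem hα {c, d, y}
      (le_trans (Finset.card_le_three) (by norm_num))
    have hzc : z ≠ c := fun h => hz (by simp [h])
    have hzd : z ≠ d := fun h => hz (by simp [h])
    have hzy : z ≠ y := fun h => hz (by simp [h])
    have hdy : d ≠ y := Ne.symm hyd
    have hyz : y ≠ z := Ne.symm hzy
    have hm := W.apply_mem_toSubmodule (cyc d y z hdy hyz) h
    convert hm using 1
    funext x
    rw [rho_cyc]
    simp only [Pi.sub_apply, Pi.single_apply]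
    by_cases hxc : x = c
    · rw [hxc, swap_apply_of_ne_of_ne hcd (Ne.symm hyc),
        swap_apply_of_ne_of_ne (Ne.symm hyc) (Ne.symm hzc)]
      simp [hcd, Ne.symm hyc]
    by_cases hxy : x = y
    · rw [hxy, swap_apply_right, swap_apply_of_ne_of_ne hdy hzd.symm]
      simp [hyc, Ne.symm hcd]
    by_cases hxd : x = d
    · rw [hxd, swap_apply_left, swap_apply_left]
      simp [Ne.symm hcd, hdy, hzc, hzd]
    by_cases hxz : x = z
    · rw [hxz, swap_apply_of_ne_of_ne hzd hzy, swap_apply_right]
      simp [hzc, hzy, hyc, hyd]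
    · rw [swap_apply_of_ne_of_ne hxd hxy, swap_apply_of_ne_of_ne hxy hxz]
      simp [hxc, hxy, hxd]
  intro x y
  have := W.toSubmodule.sub_mem (key y) (key x)
  convert this using 1
  abel

theorem sumZero_le (W : Subrepresentation (Cfsg.permRep K (alternatingGroup α) α)) (c : α)
    (h : ∀ x y : α, (Pi.single x (1:K) - Pi.single y (1:K) : α → K) ∈ W.toSubmodule)
    (f : α → K) (hf : ∑ x, f x = 0) : f ∈ W.toSubmodule := by
  have e : f = ∑ x, f x • (Pi.single x (1:K) - Pi.single c (1:K) : α → K) := by
    funext y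
    rw [Finset.sum_apply]
    simp only [Pi.smul_apply, Pi.sub_apply, Pi.single_apply, smul_eq_mul, mul_sub,
      Finset.sum_sub_distrib, mul_ite, mul_one, mul_zero]
    rw [Finset.sum_ite_eq]
    by_cases hyc : y = c
    · simp [hyc, hf]
    · simp [hyc]
  rw [e]
  exact W.toSubmodule.sum_mem (fun x _ => W.toSubmodule.smul_mem _ (h x c))

theorem main0714 (hα : 5 ≤ Fintype.card α)
    (W : Subrepresentation (Cfsg.permRep K (alternatingGroup α) α)) :
    W.toSubmodule = ⊥ ∨ W = Cfsg.permConstants K (alternatingGroup α) α ∨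
      W = Cfsg.permSumZero K (alternatingGroup α) α ∨ W.toSubmodule = ⊤ := by
  classical
  have hne : Nonempty α := by
    rw [← Fintype.card_pos_iff]; omega
  obtain ⟨x0⟩ := hne
  by_cases hconst : ∀ w ∈ W.toSubmodule, ∀ i j, w i = w j
  · by_cases hbot : W.toSubmodule = ⊥
    · exact Or.inl hbot
    · right; left
      apply Subrepresentation.toSubmodule_injective
      show W.toSubmodule = Submodule.span K {fun _ => 1}
      obtain ⟨w, hw, hw0⟩ := (Submodule.ne_bot_iff _).mp hbot
      have hwc : w = (w x0) • (fun _ => (1:K)) := by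
        funext y; simp [hconst w hw y x0]
      have hc : w x0 ≠ 0 := by
        intro h; apply hw0; rw [hwc, h, zero_smul]
      apply le_antisymm
      · intro w' hw'
        rw [Submodule.mem_span_singleton]
        exact ⟨w' x0, by funext y; simp [hconst w' hw' y x0]⟩
      · rw [Submodule.span_singleton_le_iff_mem]
        have : (fun _ => (1:K)) = (w x0)⁻¹ • w := by
          funext y
          simp [Pi.smul_apply, hconst w hw y x0, inv_mul_cancel₀ hc]
        rw [this]; exact W.toSubmodule.smul_mem _ hw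
  · push_neg at hconst
    obtain ⟨w, hw, i, j, hij⟩ := hconst
    obtain ⟨c, d, hcd, hm⟩ := diff_mem hα W w hw i j hij
    have hall := all_diff hα W c d hcd hm
    have hS : ∀ f : α → K, ∑ x, f x = 0 → f ∈ W.toSubmodule := sumZero_le W x0 hall
    by_cases hex : ∃ f ∈ W.toSubmodule, ∑ x, f x ≠ 0
    · right; right; right
      obtain ⟨f, hf, hf0⟩ := hex
      rw [eq_top_iff]
      intro h _
      have : h = (h - ((∑ x, h x) / (∑ x, f x)) • f) + ((∑ x, h x) / (∑ x, f x)) • f := by
        rw [sub_add_cancel]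
      rw [this]
      refine W.toSubmodule.add_mem (hS _ ?_) (W.toSubmodule.smul_mem _ hf)
      simp [Finset.sum_sub_distrib, ← Finset.mul_sum, div_mul_cancel₀ _ hf0]
    · right; right; left
      push_neg at hex
      apply Subrepresentation.toSubmodule_injective
      apply le_antisymm
      · intro f hf; exact hex f hf
      · intro f hf; exact hS f hf

end Cfsg.Agent.Helper8.PermModAlt
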