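import Cfsg.Prelude.Def_RootSubgroups

set_option autoImplicit false

namespace Cfsg.Agent.Helper8

open Cfsg

section

variable {k : Type*} [Field k] {M : Type*} [AddCommGroup M] [Module k M]

theorem qc_unit_val (τ : LinearMap.GeneralLinearGroup k M) :
    (τ : M →ₗ[k] M) = 1 + ((τ : M →ₗ[k] M) - 1) := by abel

/-- A unit with value `1 + c • N` for a square-zero `N`. -/
theorem qc_exists_unit (N : M →ₗ[k] M) (hN : N * N = 0) (c : k) :
    ∃ υ : LinearMap.GeneralLinearGroup k M, (υ : M →ₗ[k] M) = 1 + c • N ∧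
      ((υ⁻¹ : LinearMap.GeneralLinearGroup k M) : M →ₗ[k] M) = 1 - c • N := by
  have h0 : (c • N) * (c • N) = 0 := by
    rw [smul_mul_assoc, mul_smul_comm, hN, smul_zero, smul_zero]
  have key1 : ∀ X : M →ₗ[k] M, (1 + X) * (1 - X) = 1 - X * X := fun X => by noncomm_ring
  have key2 : ∀ X : M →ₗ[k] M, (1 - X) * (1 + X) = 1 - X * X := fun X => by noncomm_ring
  have h1 : (1 + c • N) * (1 - c • N) = 1 := by
    rw [key1, h0, sub_zero]
  have h2 : (1 - c • N) * (1 + c • N) = 1 := by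
    rw [key2, h0, sub_zero]
  exact ⟨⟨1 + c • N, 1 - c • N, h1, h2⟩, rfl, rfl⟩

theorem qc_pow_one_add (N : M →ₗ[k] M) (hN : N * N = 0) (n : ℕ) :
    (1 + N) ^ n = 1 + (n : k) • N := by
  induction n with
  | zero => simp
  | succ n ih =>
    rw [pow_succ, ih]
    have key : ∀ X : M →ₗ[k] M, (1 + X) * (1 + N) = 1 + N + X + X * N := fun X => by noncomm_ring
    have h1 : (1 + (n : k) • N) * (1 + N) = 1 + N + (n : k) • N + (n : k) • (N * N) := by
      rw [key, smul_mul_assoc]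
    rw [h1, hN, smul_zero, add_zero, Nat.cast_succ, add_smul, one_smul]
    abel

variable [FiniteDimensional k M] {G : Subgroup (LinearMap.GeneralLinearGroup k M)}
  {σ : LinearMap.GeneralLinearGroup k M}

theorem qc_range_le_ker (hσ : σ ∈ minimalQuadraticElements G) :
    LinearMap.range ((σ : M →ₗ[k] M) - 1) ≤ LinearMap.ker ((σ : M →ₗ[k] M) - 1) := by
  rw [LinearMap.range_le_ker_iff]
  exact hσ.1.2.1.1

/-- Membership criterion for the class `E_σ`. -/
theorem qc_mem_class (hσ : σ ∈ minimalQuadraticElements G)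
    {τ : LinearMap.GeneralLinearGroup k M} (hτG : τ ∈ G) (hne : (τ : M →ₗ[k] M) - 1 ≠ 0)
    (hr : LinearMap.range ((τ : M →ₗ[k] M) - 1) ≤ LinearMap.range ((σ : M →ₗ[k] M) - 1))
    (hk : LinearMap.ker ((σ : M →ₗ[k] M) - 1) ≤ LinearMap.ker ((τ : M →ₗ[k] M) - 1))
    (hsc : scalarFamily τ ⊆ (G : Set (LinearMap.GeneralLinearGroup k M))) :
    τ ∈ sameActionClass G σ := by
  have h2 : ((τ : M →ₗ[k] M) - 1) * ((τ : M →ₗ[k] M) - 1) = 0 := by
    have h3 : LinearMap.range ((τ : M →ₗ[k] M) - 1) ≤ LinearMap.ker ((τ : M →ₗ[k] M) - 1) :=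
      hr.trans ((qc_range_le_ker hσ).trans hk)
    rw [LinearMap.range_le_ker_iff] at h3
    exact h3
  have hτq : τ ∈ quadraticElements G := ⟨hτG, ⟨h2, hne⟩, hsc⟩
  have hrank : Module.finrank k (LinearMap.range ((σ : M →ₗ[k] M) - 1)) ≤
      Module.finrank k (LinearMap.range ((τ : M →ₗ[k] M) - 1)) := hσ.2 τ hτq
  have hreq : LinearMap.range ((τ : M →ₗ[k] M) - 1) = LinearMap.range ((σ : M →ₗ[k] M) - 1) :=
    Submodule.eq_of_le_of_finrank_le hr hrank
  have hkeq : LinearMap.ker ((σ : M →ₗ[k] M) - 1) = LinearMap.ker ((τ : M →ₗ[k] M) - 1) := by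
    apply Submodule.eq_of_le_of_finrank_le hk
    have e1 := LinearMap.finrank_range_add_finrank_ker ((τ : M →ₗ[k] M) - 1)
    have e2 := LinearMap.finrank_range_add_finrank_ker ((σ : M →ₗ[k] M) - 1)
    rw [hreq] at e1
    omega
  refine ⟨⟨hτq, ?_⟩, hkeq.symm, hreq⟩
  intro τ' hτ'
  have h4 := hσ.2 τ' hτ'
  unfold commutatorRank at h4 ⊢
  rw [hreq]
  exact h4

theorem qc_nil_mul (hσ : σ ∈ minimalQuadraticElements G)
    {τ₁ τ₂ : LinearMap.GeneralLinearGroup k M} (h₁ : τ₁ ∈ sameActionClass G σ)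
    (h₂ : τ₂ ∈ sameActionClass G σ) :
    ((τ₁ : M →ₗ[k] M) - 1) * ((τ₂ : M →ₗ[k] M) - 1) = 0 := by
  have h3 : LinearMap.range ((τ₂ : M →ₗ[k] M) - 1) ≤ LinearMap.ker ((τ₁ : M →ₗ[k] M) - 1) := by
    rw [h₂.2.2, h₁.2.1]
    exact qc_range_le_ker hσ
  rw [LinearMap.range_le_ker_iff] at h3
  exact h3

theorem qc_inv_val (hσ : σ ∈ minimalQuadraticElements G)
    {τ : LinearMap.GeneralLinearGroup k M} (h : τ ∈ sameActionClass G σ) :
    ((τ⁻¹ : LinearMap.GeneralLinearGroup k M) : M →ₗ[k] M) = 1 - ((τ : M →ₗ[k] M) - 1) := by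
  apply Units.inv_eq_of_mul_eq_one_right
  have h1 := qc_nil_mul hσ h h
  have h2 : (τ : M →ₗ[k] M) * (1 - ((τ : M →ₗ[k] M) - 1)) =
      1 - ((τ : M →ₗ[k] M) - 1) * ((τ : M →ₗ[k] M) - 1) := by noncomm_ring
  rw [h2, h1, sub_zero]

theorem qc_inv_mem (hσ : σ ∈ minimalQuadraticElements G)
    {τ : LinearMap.GeneralLinearGroup k M} (h : τ ∈ sameActionClass G σ) :
    τ⁻¹ ∈ sameActionClass G σ := by
  have hv := qc_inv_val hσ h
  have hN : ((τ⁻¹ : LinearMap.GeneralLinearGroup k M) : M →ₗ[k] M) - 1 = -((τ : M →ₗ[k] M) - 1) := by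
    rw [hv]; abel
  apply qc_mem_class hσ
  · exact G.inv_mem h.1.1.1
  · rw [hN, neg_ne_zero]
    exact h.1.1.2.1.2
  · rw [hN, LinearMap.range_neg, h.2.2]
  · rw [hN, LinearMap.ker_neg, h.2.1]
  · rintro υ ⟨c, hc⟩
    apply h.1.1.2.2
    refine ⟨-c, ?_⟩
    rw [hc, hN, neg_smul, smul_neg]

theorem qc_mul_val (hσ : σ ∈ minimalQuadraticElements G)
    {τ₁ τ₂ : LinearMap.GeneralLinearGroup k M} (h₁ : τ₁ ∈ sameActionClass G σ)
    (h₂ : τ₂ ∈ sameActionClass G σ) :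
    ((τ₁ * τ₂ : LinearMap.GeneralLinearGroup k M) : M →ₗ[k] M) =
      1 + (((τ₁ : M →ₗ[k] M) - 1) + ((τ₂ : M →ₗ[k] M) - 1)) := by
  have h1 := qc_nil_mul hσ h₁ h₂
  rw [Units.val_mul]
  have h2 : (τ₁ : M →ₗ[k] M) * (τ₂ : M →ₗ[k] M) =
      1 + (((τ₁ : M →ₗ[k] M) - 1) + ((τ₂ : M →ₗ[k] M) - 1)) +
        ((τ₁ : M →ₗ[k] M) - 1) * ((τ₂ : M →ₗ[k] M) - 1) := by noncomm_ring
  rw [h2, h1, add_zero]

theorem qc_mul_mem (hσ : σ ∈ minimalQuadraticElements G)
    {τ₁ τ₂ : LinearMap.GeneralLinearGroup k M} (h₁ : τ₁ ∈ sameActionClass G σ)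
    (h₂ : τ₂ ∈ sameActionClass G σ) :
    τ₁ * τ₂ = 1 ∨ τ₁ * τ₂ ∈ sameActionClass G σ := by
  have hv := qc_mul_val hσ h₁ h₂
  have hN : ((τ₁ * τ₂ : LinearMap.GeneralLinearGroup k M) : M →ₗ[k] M) - 1 =
      ((τ₁ : M →ₗ[k] M) - 1) + ((τ₂ : M →ₗ[k] M) - 1) := by
    rw [hv]; abel
  by_cases h0 : ((τ₁ : M →ₗ[k] M) - 1) + ((τ₂ : M →ₗ[k] M) - 1) = 0
  · left
    apply Units.ext
    rw [hv, h0, add_zero, Units.val_one]
  · right
    apply qc_mem_class hσ
    · exact G.mul_mem h₁.1.1.1 h₂.1.1.1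
    · rw [hN]; exact h0
    · rw [hN]
      rintro _ ⟨m, rfl⟩
      rw [LinearMap.add_apply]
      apply Submodule.add_mem
      · rw [← h₁.2.2]; exact LinearMap.mem_range_self _ m
      · rw [← h₂.2.2]; exact LinearMap.mem_range_self _ m
    · rw [hN]
      intro m hm
      have e1 : m ∈ LinearMap.ker ((τ₁ : M →ₗ[k] M) - 1) := by rw [h₁.2.1]; exact hm
      have e2 : m ∈ LinearMap.ker ((τ₂ : M →ₗ[k] M) - 1) := by rw [h₂.2.1]; exact hm
      rw [LinearMap.mem_ker] at e1 e2 ⊢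
      rw [LinearMap.add_apply, e1, e2, add_zero]
    · rintro υ ⟨c, hc⟩
      rw [hN] at hc
      have h11 := qc_nil_mul hσ h₁ h₁
      have h12 := qc_nil_mul hσ h₁ h₂
      obtain ⟨υ₁, hυ₁, hυ₁'⟩ := qc_exists_unit ((τ₁ : M →ₗ[k] M) - 1) h11 c
      have hυ₁G : υ₁ ∈ G := h₁.1.1.2.2 ⟨c, hυ₁⟩
      have hυ₂G : υ₁⁻¹ * υ ∈ G := by
        apply h₂.1.1.2.2
        refine ⟨c, ?_⟩
        rw [Units.val_mul, hυ₁', hc]
        have key : ∀ X Y : M →ₗ[k] M, (1 - X) * (1 + (X + Y)) = 1 + Y - X * X - X * Y :=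
          fun X Y => by noncomm_ring
        have e : (1 - c • ((τ₁ : M →ₗ[k] M) - 1)) *
            (1 + c • (((τ₁ : M →ₗ[k] M) - 1) + ((τ₂ : M →ₗ[k] M) - 1))) =
            1 + c • ((τ₂ : M →ₗ[k] M) - 1)
              - c • c • (((τ₁ : M →ₗ[k] M) - 1) * ((τ₁ : M →ₗ[k] M) - 1))
              - c • c • (((τ₁ : M →ₗ[k] M) - 1) * ((τ₂ : M →ₗ[k] M) - 1)) := by
          rw [smul_add, key, smul_mul_assoc, mul_smul_comm, smul_mul_assoc, mul_smul_comm]
        rw [e, h11, h12, smul_zero, smul_zero, sub_zero, sub_zero]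
      have : υ = υ₁ * (υ₁⁻¹ * υ) := by group
      rw [this]
      exact G.mul_mem hυ₁G hυ₂G

theorem qc_closure_eq (hσ : σ ∈ minimalQuadraticElements G) :
    (sameActionSubgroup G σ : Set (LinearMap.GeneralLinearGroup k M)) = sameActionClass G σ ∪ {1} := by
  apply Set.Subset.antisymm
  · intro x hx
    change x ∈ Subgroup.closure (sameActionClass G σ) at hx
    induction hx using Subgroup.closure_induction with
    | mem y hy => exact Or.inl hy
    | one => exact Or.inr rfl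
    | mul a b _ _ ha hb =>
      rcases ha with ha | ha
      · rcases hb with hb | hb
        · rcases qc_mul_mem hσ ha hb with h | h
          · exact Or.inr h
          · exact Or.inl h
        · rw [Set.mem_singleton_iff] at hb
          rw [hb, mul_one]; exact Or.inl ha
      · rw [Set.mem_singleton_iff] at ha
        rw [ha, one_mul]; exact hb
    | inv a _ ha =>
      rcases ha with ha | ha
      · exact Or.inl (qc_inv_mem hσ ha)
      · rw [Set.mem_singleton_iff] at ha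
        rw [ha, inv_one]; exact Or.inr rfl
  · rintro x (hx | hx)
    · exact Subgroup.subset_closure hx
    · rw [Set.mem_singleton_iff] at hx
      rw [hx]
      exact Subgroup.one_mem _

theorem qc_comm (hσ : σ ∈ minimalQuadraticElements G) :
    IsMulCommutative ↥(sameActionSubgroup G σ) := by
  refine ⟨⟨fun a b => Subtype.ext ?_⟩⟩
  have ha : (a : LinearMap.GeneralLinearGroup k M) ∈
      (sameActionSubgroup G σ : Set (LinearMap.GeneralLinearGroup k M)) := a.2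
  have hb : (b : LinearMap.GeneralLinearGroup k M) ∈
      (sameActionSubgroup G σ : Set (LinearMap.GeneralLinearGroup k M)) := b.2
  rw [qc_closure_eq hσ] at ha hb
  show (a : LinearMap.GeneralLinearGroup k M) * b = b * a
  rcases ha with ha | ha
  · rcases hb with hb | hb
    · apply Units.ext
      rw [qc_mul_val hσ ha hb, qc_mul_val hσ hb ha, add_comm (((a : LinearMap.GeneralLinearGroup k M) : M →ₗ[k] M) - 1)]
    · rw [Set.mem_singleton_iff] at hb
      rw [hb, mul_one, one_mul]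
  · rw [Set.mem_singleton_iff] at ha
    rw [ha, mul_one, one_mul]

theorem qc_pow (hσ : σ ∈ minimalQuadraticElements G) (p : ℕ) (hp : ringChar k = p)
    {x : LinearMap.GeneralLinearGroup k M} (hx : x ∈ sameActionSubgroup G σ) : x ^ p = 1 := by
  have hx' : x ∈ (sameActionSubgroup G σ : Set (LinearMap.GeneralLinearGroup k M)) := hx
  rw [qc_closure_eq hσ] at hx'
  rcases hx' with hx' | hx'
  · apply Units.ext
    rw [Units.val_pow_eq_pow_val, Units.val_one, qc_unit_val x,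
      qc_pow_one_add _ (qc_nil_mul hσ hx' hx')]
    have h0 : ((p : ℕ) : k) = 0 := (ringChar.spec k p).2 (by rw [hp])
    rw [h0, zero_smul, add_zero]
  · rw [Set.mem_singleton_iff] at hx'
    rw [hx', one_pow]

end

end Cfsg.Agent.Helper8
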