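import Cfsg.Prelude.Def_RootSubgroups

/-!
# Rank one groups: first properties (Timmesfeld I.1)
-/

set_option autoImplicit false

namespace Cfsg.Agent.Helper8

open Cfsg

variable {G : Type*} [Group G]

theorem mem_conjBy {A : Subgroup G} {g x : G} : x ∈ conjBy A g ↔ g⁻¹ * x * g ∈ A := by
  constructor
  · rintro ⟨a, ha, rfl⟩
    show g⁻¹ * (g * a * g⁻¹) * g ∈ A
    have : g⁻¹ * (g * a * g⁻¹) * g = a := by group
    rw [this]
    exact ha
  · intro h
    refine ⟨g⁻¹ * x * g, h, ?_⟩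
    show g * (g⁻¹ * x * g) * g⁻¹ = x
    group

theorem conjBy_conjBy (A : Subgroup G) (g h : G) : conjBy (conjBy A g) h = conjBy A (h * g) := by
  ext x
  rw [mem_conjBy, mem_conjBy, mem_conjBy]
  have : g⁻¹ * (h⁻¹ * x * h) * g = (h * g)⁻¹ * x * (h * g) := by group
  rw [this]

theorem conjBy_one (A : Subgroup G) : conjBy A 1 = A := by
  ext x
  rw [mem_conjBy]
  simp

theorem conjBy_of_mem {A : Subgroup G} {g : G} (hg : g ∈ A) : conjBy A g = A := by
  ext x
  rw [mem_conjBy]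
  constructor
  · intro h
    have : x = g * (g⁻¹ * x * g) * g⁻¹ := by group
    rw [this]
    exact A.mul_mem (A.mul_mem hg h) (A.inv_mem hg)
  · intro h
    exact A.mul_mem (A.mul_mem (A.inv_mem hg) h) hg

theorem conjBy_eq_iff_mem_normalizer {A : Subgroup G} {g : G} :
    conjBy A g = A ↔ g ∈ Subgroup.normalizer (A : Set G) := by
  rw [Subgroup.mem_normalizer_iff]
  constructor
  · intro h x
    constructor
    · intro hx
      rw [← h]
      exact ⟨x, hx, rfl⟩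
    · intro hx
      rw [← h] at hx
      obtain ⟨y, hy, hxy⟩ := hx
      have h1 : g * y * g⁻¹ = g * x * g⁻¹ := hxy
      have : y = x := mul_left_cancel (mul_right_cancel h1)
      rw [← this]
      exact hy
  · intro h
    ext x
    rw [mem_conjBy]
    have h1 := h (g⁻¹ * x * g)
    have : g * (g⁻¹ * x * g) * g⁻¹ = x := by group
    rw [this] at h1
    exact h1

theorem conjBy_inj {A B : Subgroup G} {g : G} (h : conjBy A g = conjBy B g) : A = B := by
  have h1 := congrArg (fun C => conjBy C g⁻¹) h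
  simp only [conjBy_conjBy, inv_mul_cancel, conjBy_one] at h1
  exact h1

/-- In a rank one pair, no non-identity element of `A` normalizes `B`. -/
theorem RankOne.inf_normalizer {A B : Subgroup G} (h : IsRankOnePair A B) :
    A ⊓ Subgroup.normalizer (B : Set G) = ⊥ := by
  rw [eq_bot_iff]
  intro a ha
  rw [Subgroup.mem_bot]
  by_contra hne
  obtain ⟨haA, haN⟩ := Subgroup.mem_inf.mp ha
  obtain ⟨b, hb, -, hAB⟩ := h.cond_left a haA hne
  have h1 : conjBy B a⁻¹ = B :=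
    conjBy_eq_iff_mem_normalizer.mpr (Subgroup.inv_mem _ haN)
  rw [h1] at hAB
  have h2 : conjBy B b⁻¹ = B := conjBy_of_mem (B.inv_mem hb)
  rw [← h2] at hAB
  exact h.ne (conjBy_inj hAB)

theorem RankOne.inf_normalizer' {A B : Subgroup G} (h : IsRankOnePair A B) :
    B ⊓ Subgroup.normalizer (A : Set G) = ⊥ :=
  RankOne.inf_normalizer (RankOnePair_symm h)

theorem RankOne.eq_of_conj_eq_left {A B : Subgroup G} (h : IsRankOnePair A B) {b b' : G}
    (hb : b ∈ B) (hb' : b' ∈ B) (he : conjBy A b⁻¹ = conjBy A b'⁻¹) : b = b' := by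
  have h1 := congrArg (fun C => conjBy C b) he
  simp only [conjBy_conjBy, mul_inv_cancel, conjBy_one] at h1
  have h2 : b * b'⁻¹ ∈ B ⊓ Subgroup.normalizer (A : Set G) :=
    Subgroup.mem_inf.mpr ⟨B.mul_mem hb (B.inv_mem hb'), conjBy_eq_iff_mem_normalizer.mp h1.symm⟩
  rw [RankOne.inf_normalizer' h, Subgroup.mem_bot] at h2
  exact mul_inv_eq_one.mp h2

theorem RankOne.eq_of_conj_eq_right {A B : Subgroup G} (h : IsRankOnePair A B) {a a' : G}
    (ha : a ∈ A) (ha' : a' ∈ A) (he : conjBy B a⁻¹ = conjBy B a'⁻¹) : a = a' :=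
  RankOne.eq_of_conj_eq_left (RankOnePair_symm h) ha ha' he

theorem rankOne_partner_unique {A B : Subgroup G} (h : IsRankOnePair A B) :
    (∀ a ∈ A, a ≠ 1 → ∃! b : G, b ∈ B ∧ b ≠ 1 ∧ conjBy A b⁻¹ = conjBy B a⁻¹) ∧
    (∀ b ∈ B, b ≠ 1 → ∃! a : G, a ∈ A ∧ a ≠ 1 ∧ conjBy A b⁻¹ = conjBy B a⁻¹) ∧
    A ⊓ Subgroup.normalizer (B : Set G) = ⊥ ∧ B ⊓ Subgroup.normalizer (A : Set G) = ⊥ := by
  refine ⟨?_, ?_, RankOne.inf_normalizer h, RankOne.inf_normalizer' h⟩
  · intro a ha hne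
    obtain ⟨b, hb, hb1, hAB⟩ := h.cond_left a ha hne
    refine ⟨b, ⟨hb, hb1, hAB⟩, ?_⟩
    rintro b' ⟨hb', -, hAB'⟩
    exact (RankOne.eq_of_conj_eq_left h hb hb' (hAB.trans hAB'.symm)).symm
  · intro b hb hne
    obtain ⟨a, ha, ha1, hBA⟩ := h.cond_right b hb hne
    refine ⟨a, ⟨ha, ha1, hBA.symm⟩, ?_⟩
    rintro a' ⟨ha', -, hAB'⟩
    exact (RankOne.eq_of_conj_eq_right h ha ha' (hBA.trans hAB')).symm

end Cfsg.Agent.Helper8
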