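import Cfsg.Agent.Helper8.RankOne

/-!
# Rank one groups: double transitivity on the unipotent subgroups (Timmesfeld I.1.2)
-/

set_option autoImplicit false

namespace Cfsg.Agent.Helper8

open Cfsg

variable {G : Type*} [Group G]

theorem RankOne.left_ne_bot {A B : Subgroup G} (h : IsRankOnePair A B) : A ≠ ⊥ := by
  intro hA
  apply h.ne
  rw [hA]
  symm
  rw [eq_bot_iff]
  intro b hb
  rw [Subgroup.mem_bot]
  by_contra hne
  obtain ⟨a, ha, ha1, -⟩ := h.cond_right b hb hne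
  rw [hA, Subgroup.mem_bot] at ha
  exact ha1 ha

theorem RankOne.right_ne_bot {A B : Subgroup G} (h : IsRankOnePair A B) : B ≠ ⊥ :=
  RankOne.left_ne_bot (RankOnePair_symm h)

theorem exists_ne_one_of_ne_bot {A : Subgroup G} (h : A ≠ ⊥) : ∃ a ∈ A, a ≠ 1 := by
  by_contra hcon
  apply h
  rw [eq_bot_iff]
  intro a ha
  rw [Subgroup.mem_bot]
  by_contra ha1
  exact hcon ⟨a, ha, ha1⟩

/-- For `b ∈ B`, `b A b⁻¹` is `A` or an `A`-conjugate of `B`. -/
theorem RankOne.conj_left_by_right {A B : Subgroup G} (h : IsRankOnePair A B) {b : G}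
    (hb : b ∈ B) : conjBy A b = A ∨ ∃ a ∈ A, conjBy A b = conjBy B a := by
  by_cases hb1 : b = 1
  · left
    rw [hb1, conjBy_one]
  · right
    have hb' : b⁻¹ ≠ 1 := fun hh => hb1 (inv_eq_one.mp hh)
    obtain ⟨a, ha, -, hBA⟩ := h.cond_right b⁻¹ (B.inv_mem hb) hb'
    rw [inv_inv] at hBA
    exact ⟨a⁻¹, A.inv_mem ha, hBA.symm⟩

/-- The set `{A} ∪ B^A` is stable under conjugation by elements of `A` and of `B`. -/
theorem RankOne.orbit_stable {A B : Subgroup G} (h : IsRankOnePair A B) {x : G}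
    (hx : x ∈ A ⊔ B) :
    ∀ C : Subgroup G, (C = A ∨ ∃ a ∈ A, C = conjBy B a) →
      (conjBy C x = A ∨ ∃ a ∈ A, conjBy C x = conjBy B a) := by
  let K : Subgroup G :=
    { carrier := {x | ∀ C : Subgroup G, (C = A ∨ ∃ a ∈ A, C = conjBy B a) ↔
        (conjBy C x = A ∨ ∃ a ∈ A, conjBy C x = conjBy B a)}
      one_mem' := fun C => by rw [conjBy_one]
      mul_mem' := fun {x y} hx hy C => by
        rw [← conjBy_conjBy]
        exact (hy C).trans (hx _)
      inv_mem' := fun {x} hx C => by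
        have h1 := hx (conjBy C x⁻¹)
        rw [conjBy_conjBy, mul_inv_cancel, conjBy_one] at h1
        exact h1.symm }
  have key : ∀ y : G, (∀ C : Subgroup G, (C = A ∨ ∃ a ∈ A, C = conjBy B a) →
      (conjBy C y = A ∨ ∃ a ∈ A, conjBy C y = conjBy B a)) →
      (∀ C : Subgroup G, (C = A ∨ ∃ a ∈ A, C = conjBy B a) →
      (conjBy C y⁻¹ = A ∨ ∃ a ∈ A, conjBy C y⁻¹ = conjBy B a)) → y ∈ K := by
    intro y h1 h2 C
    refine ⟨h1 C, fun hC => ?_⟩
    have h3 := h2 _ hC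
    rw [conjBy_conjBy, inv_mul_cancel, conjBy_one] at h3
    exact h3
  have hAstab : ∀ y ∈ A, ∀ C : Subgroup G, (C = A ∨ ∃ a ∈ A, C = conjBy B a) →
      (conjBy C y = A ∨ ∃ a ∈ A, conjBy C y = conjBy B a) := by
    rintro y hy C (rfl | ⟨a, ha, rfl⟩)
    · left
      exact conjBy_of_mem hy
    · right
      exact ⟨y * a, A.mul_mem hy ha, conjBy_conjBy _ _ _⟩
  have hBstab : ∀ y ∈ B, ∀ C : Subgroup G, (C = A ∨ ∃ a ∈ A, C = conjBy B a) →
      (conjBy C y = A ∨ ∃ a ∈ A, conjBy C y = conjBy B a) := by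
    rintro y hy C (rfl | ⟨a, ha, rfl⟩)
    · exact RankOne.conj_left_by_right h hy
    · by_cases ha1 : a = 1
      · right
        refine ⟨1, A.one_mem, ?_⟩
        rw [ha1, conjBy_one]
        exact conjBy_of_mem hy
      · have ha' : a⁻¹ ≠ 1 := fun hh => ha1 (inv_eq_one.mp hh)
        obtain ⟨b', hb', -, hAB⟩ := h.cond_left a⁻¹ (A.inv_mem ha) ha'
        rw [inv_inv] at hAB
        rw [← hAB, conjBy_conjBy]
        exact RankOne.conj_left_by_right h (B.mul_mem hy (B.inv_mem hb'))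
  have hle : A ⊔ B ≤ K := by
    refine sup_le ?_ ?_
    · intro y hy
      exact key y (hAstab y hy) (hAstab _ (A.inv_mem hy))
    · intro y hy
      exact key y (hBstab y hy) (hBstab _ (B.inv_mem hy))
  intro C hC
  exact (hle hx C).mp hC

theorem RankOne.unipotent_cases {A B : Subgroup G} (h : IsRankOnePair A B) {C : Subgroup G}
    (hC : C ∈ unipotentSubgroups A B) : C = A ∨ ∃ a ∈ A, C = conjBy B a := by
  obtain ⟨x, hx, rfl⟩ := hC
  exact RankOne.orbit_stable h hx A (Or.inl rfl)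

theorem RankOne.left_mem_unipotent (A B : Subgroup G) : A ∈ unipotentSubgroups A B :=
  ⟨1, Subgroup.one_mem _, (conjBy_one A).symm⟩

theorem RankOne.conj_mem_unipotent {A B : Subgroup G} {C : Subgroup G}
    (hC : C ∈ unipotentSubgroups A B) {x : G} (hx : x ∈ A ⊔ B) :
    conjBy C x ∈ unipotentSubgroups A B := by
  obtain ⟨y, hy, rfl⟩ := hC
  exact ⟨x * y, Subgroup.mul_mem _ hx hy, conjBy_conjBy _ _ _⟩

theorem RankOne.right_mem_unipotent {A B : Subgroup G} (h : IsRankOnePair A B) :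
    B ∈ unipotentSubgroups A B := by
  obtain ⟨b, hb, hb1⟩ := exists_ne_one_of_ne_bot (RankOne.right_ne_bot h)
  obtain ⟨a, ha, -, hBA⟩ := h.cond_right b hb hb1
  refine ⟨a * b⁻¹, Subgroup.mul_mem _ (Subgroup.mem_sup_left ha)
    (Subgroup.inv_mem _ (Subgroup.mem_sup_right hb)), ?_⟩
  rw [← conjBy_conjBy, ← hBA, conjBy_conjBy, mul_inv_cancel, conjBy_one]

theorem RankOne.conj_right_ne_left {A B : Subgroup G} (h : IsRankOnePair A B) {a : G}
    (ha : a ∈ A) : conjBy B a ≠ A := by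
  intro hh
  apply h.ne
  have h1 : conjBy A a = A := conjBy_of_mem ha
  rw [← h1] at hh
  exact (conjBy_inj hh).symm

theorem RankOne.conj_right_inj {A B : Subgroup G} (h : IsRankOnePair A B) {a a' : G}
    (ha : a ∈ A) (ha' : a' ∈ A) (he : conjBy B a = conjBy B a') : a = a' := by
  have h1 := RankOne.eq_of_conj_eq_right h (A.inv_mem ha) (A.inv_mem ha')
    (by rw [inv_inv, inv_inv]; exact he)
  exact inv_injective h1

theorem rankOne_two_transitive {A B : Subgroup G} (h : IsRankOnePair A B) :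
    (∃ C₁ ∈ unipotentSubgroups A B, ∃ C₂ ∈ unipotentSubgroups A B,
      ∃ C₃ ∈ unipotentSubgroups A B, C₁ ≠ C₂ ∧ C₁ ≠ C₃ ∧ C₂ ≠ C₃) ∧
    (∀ C₁ ∈ unipotentSubgroups A B, ∀ C₂ ∈ unipotentSubgroups A B,
      ∀ D₁ ∈ unipotentSubgroups A B, ∀ D₂ ∈ unipotentSubgroups A B, C₁ ≠ C₂ → D₁ ≠ D₂ →
        ∃ x ∈ A ⊔ B, conjBy C₁ x = D₁ ∧ conjBy C₂ x = D₂) ∧
    (∀ C ∈ unipotentSubgroups A B, ∀ D ∈ unipotentSubgroups A B, C ≠ A → D ≠ A →
      ∃! a : G, a ∈ A ∧ conjBy C a = D) := by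
  have hB := RankOne.right_mem_unipotent h
  have hA := RankOne.left_mem_unipotent A B
  have reg : ∀ C ∈ unipotentSubgroups A B, ∀ D ∈ unipotentSubgroups A B, C ≠ A → D ≠ A →
      ∃! a : G, a ∈ A ∧ conjBy C a = D := by
    intro C hC D hD hCA hDA
    obtain ⟨a₁, ha₁, rfl⟩ := (RankOne.unipotent_cases h hC).resolve_left hCA
    obtain ⟨a₂, ha₂, rfl⟩ := (RankOne.unipotent_cases h hD).resolve_left hDA
    refine ⟨a₂ * a₁⁻¹, ⟨A.mul_mem ha₂ (A.inv_mem ha₁), ?_⟩, ?_⟩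
    · rw [conjBy_conjBy, inv_mul_cancel_right]
    · rintro a ⟨ha, hae⟩
      rw [conjBy_conjBy] at hae
      have h1 := RankOne.conj_right_inj h (A.mul_mem ha ha₁) ha₂ hae
      rw [← h1, mul_inv_cancel_right]
  refine ⟨?_, ?_, reg⟩
  · obtain ⟨a, ha, ha1⟩ := exists_ne_one_of_ne_bot (RankOne.left_ne_bot h)
    refine ⟨A, hA, B, hB, conjBy B a,
      RankOne.conj_mem_unipotent hB (Subgroup.mem_sup_left ha), h.ne,
      (RankOne.conj_right_ne_left h ha).symm, ?_⟩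
    intro hh
    have h1 : conjBy B 1 = conjBy B a := by rw [conjBy_one]; exact hh
    exact ha1 (RankOne.conj_right_inj h A.one_mem ha h1).symm
  · intro C₁ hC₁ C₂ hC₂ D₁ hD₁ D₂ hD₂ hC hD
    have move : ∀ C ∈ unipotentSubgroups A B, ∃ x ∈ A ⊔ B, conjBy C x = A := by
      rintro C ⟨y, hy, rfl⟩
      exact ⟨y⁻¹, Subgroup.inv_mem _ hy, by rw [conjBy_conjBy, inv_mul_cancel, conjBy_one]⟩
    obtain ⟨x₁, hx₁, hx₁A⟩ := move C₁ hC₁
    obtain ⟨y₁, hy₁, hy₁A⟩ := move D₁ hD₁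
    have hC₂' : conjBy C₂ x₁ ≠ A := by
      intro hh
      rw [← hx₁A] at hh
      exact hC (conjBy_inj hh).symm
    have hD₂' : conjBy D₂ y₁ ≠ A := by
      intro hh
      rw [← hy₁A] at hh
      exact hD (conjBy_inj hh).symm
    obtain ⟨a, ⟨ha, hae⟩, -⟩ := reg _ (RankOne.conj_mem_unipotent hC₂ hx₁) _
      (RankOne.conj_mem_unipotent hD₂ hy₁) hC₂' hD₂'
    refine ⟨y₁⁻¹ * a * x₁, Subgroup.mul_mem _ (Subgroup.mul_mem _ (Subgroup.inv_mem _ hy₁)
      (Subgroup.mem_sup_left ha)) hx₁, ?_, ?_⟩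
    · rw [← conjBy_conjBy, hx₁A, ← conjBy_conjBy, conjBy_of_mem ha, ← hy₁A, conjBy_conjBy,
        inv_mul_cancel, conjBy_one]
    · rw [← conjBy_conjBy, ← conjBy_conjBy, hae, conjBy_conjBy, inv_mul_cancel, conjBy_one]

end Cfsg.Agent.Helper8
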