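import Cfsg.Agent.Helper8.RankOne2

/-!
# Rank one groups: normal subgroups, centre (Timmesfeld I.1.10)
-/

set_option autoImplicit false

namespace Cfsg.Agent.Helper8

open Cfsg
open scoped commutatorElement

variable {X : Type*} [Group X]

/-- A normal subgroup normalizing `A` normalizes every conjugate of `A`. -/
theorem conjBy_conj_of_normal {A : Subgroup X} {N : Subgroup X} [hN : N.Normal]
    (hNA : ∀ n ∈ N, conjBy A n = A) (x : X) {n : X} (hn : n ∈ N) :
    conjBy (conjBy A x) n = conjBy A x := by
  have h1 : x⁻¹ * n * x ∈ N := by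
    have := hN.conj_mem n hn x⁻¹
    rwa [inv_inv] at this
  have h2 : n * x = x * (x⁻¹ * n * x) := by group
  rw [conjBy_conjBy, h2, ← conjBy_conjBy, hNA _ h1]

/-- Dichotomy for normal subgroups of a rank one group. -/
theorem rankOne_normal_dichotomy {A B : Subgroup X} (h : IsRankOneGroup X A B)
    (N : Subgroup X) [hN : N.Normal] : N ⊔ A = ⊤ ∨ N ≤ Subgroup.center X := by
  obtain ⟨htop, hp⟩ := h
  by_cases hNA : ∀ n ∈ N, conjBy A n = A
  · right
    have hBu := RankOne.right_mem_unipotent hp
    obtain ⟨x, -, hBx⟩ := hBu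
    have hNB : ∀ n ∈ N, conjBy B n = B := by
      intro n hn
      rw [hBx]
      exact conjBy_conj_of_normal hNA x hn
    have hcA : ∀ n ∈ N, ∀ a ∈ A, n * a = a * n := by
      intro n hn a ha
      have h1 : n * a * n⁻¹ * a⁻¹ ∈ A ⊓ Subgroup.normalizer (B : Set X) := by
        refine Subgroup.mem_inf.mpr ⟨?_, ?_⟩
        · have h2 : n * a * n⁻¹ ∈ conjBy A n := ⟨a, ha, rfl⟩
          rw [hNA n hn] at h2
          exact A.mul_mem h2 (A.inv_mem ha)
        · have h3 : n * a * n⁻¹ * a⁻¹ ∈ N := by
            have h4 := hN.conj_mem n⁻¹ (N.inv_mem hn) a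
            have h5 : n * a * n⁻¹ * a⁻¹ = n * (a * n⁻¹ * a⁻¹) := by group
            rw [h5]
            exact N.mul_mem hn h4
          exact conjBy_eq_iff_mem_normalizer.mp (hNB _ h3)
      rw [RankOne.inf_normalizer hp, Subgroup.mem_bot] at h1
      have h6 : n * a = (n * a * n⁻¹ * a⁻¹) * (a * n) := by group
      rw [h6, h1, one_mul]
    have hcB : ∀ n ∈ N, ∀ b ∈ B, n * b = b * n := by
      intro n hn b hb
      have h1 : n * b * n⁻¹ * b⁻¹ ∈ B ⊓ Subgroup.normalizer (A : Set X) := by
        refine Subgroup.mem_inf.mpr ⟨?_, ?_⟩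
        · have h2 : n * b * n⁻¹ ∈ conjBy B n := ⟨b, hb, rfl⟩
          rw [hNB n hn] at h2
          exact B.mul_mem h2 (B.inv_mem hb)
        · have h3 : n * b * n⁻¹ * b⁻¹ ∈ N := by
            have h4 := hN.conj_mem n⁻¹ (N.inv_mem hn) b
            have h5 : n * b * n⁻¹ * b⁻¹ = n * (b * n⁻¹ * b⁻¹) := by group
            rw [h5]
            exact N.mul_mem hn h4
          exact conjBy_eq_iff_mem_normalizer.mp (hNA _ h3)
      rw [RankOne.inf_normalizer' hp, Subgroup.mem_bot] at h1
      have h6 : n * b = (n * b * n⁻¹ * b⁻¹) * (b * n) := by group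
      rw [h6, h1, one_mul]
    intro n hn
    rw [Subgroup.mem_center_iff]
    have hcent : A ⊔ B ≤ Subgroup.centralizer ({n} : Set X) := by
      refine sup_le ?_ ?_
      · intro a ha
        rw [Subgroup.mem_centralizer_iff]
        intro m hm
        rw [Set.mem_singleton_iff] at hm
        rw [hm]
        exact hcA n hn a ha
      · intro b hb
        rw [Subgroup.mem_centralizer_iff]
        intro m hm
        rw [Set.mem_singleton_iff] at hm
        rw [hm]
        exact hcB n hn b hb
    intro g
    have hg : g ∈ Subgroup.centralizer ({n} : Set X) := hcent (htop ▸ Subgroup.mem_top g)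
    exact (Subgroup.mem_centralizer_iff.mp hg n rfl).symm
  · left
    push Not at hNA
    obtain ⟨n, hn, hne⟩ := hNA
    have hD : conjBy A n ∈ unipotentSubgroups A B :=
      ⟨n, htop ▸ Subgroup.mem_top n, rfl⟩
    obtain ⟨a, ⟨ha, hae⟩, -⟩ := (rankOne_two_transitive hp).2.2 _ hD _
      (RankOne.right_mem_unipotent hp) hne hp.ne.symm
    have hn' : a * n * a⁻¹ ∈ N := hN.conj_mem n hn a
    have hB : B = conjBy A (a * n * a⁻¹) := by
      rw [← hae, conjBy_conjBy]
      have h1 : conjBy A (a * n * a⁻¹) = conjBy (conjBy A a⁻¹) (a * n) := by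
        rw [conjBy_conjBy]
      rw [h1, conjBy_of_mem (A.inv_mem ha)]
    have hBle : B ≤ N ⊔ A := by
      rw [hB]
      rintro _ ⟨y, hy, rfl⟩
      exact Subgroup.mul_mem _ (Subgroup.mul_mem _ (Subgroup.mem_sup_left hn')
        (Subgroup.mem_sup_right hy)) (Subgroup.inv_mem _ (Subgroup.mem_sup_left hn'))
    rw [eq_top_iff, ← htop]
    exact sup_le le_sup_right hBle

theorem rankOne_center_ne_top {A B : Subgroup X} (h : IsRankOnePair A B) :
    Subgroup.center X ≠ ⊤ := by
  intro hc
  obtain ⟨b, hb, hb1⟩ := exists_ne_one_of_ne_bot (RankOne.right_ne_bot h)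
  have hbc : b ∈ Subgroup.center X := hc ▸ Subgroup.mem_top b
  have h1 : b ∈ B ⊓ Subgroup.normalizer (A : Set X) :=
    Subgroup.mem_inf.mpr ⟨hb, Subgroup.center_le_normalizer _ hbc⟩
  rw [RankOne.inf_normalizer' h, Subgroup.mem_bot] at h1
  exact hb1 h1

theorem rankOne_quasisimple {A B : Subgroup X} (h : IsRankOneGroup X A B)
    (hperf : Group.IsPerfect X) : IsQuasisimple X := by
  refine ⟨hperf, ?_⟩
  have hnt : Nontrivial (X ⧸ Subgroup.center X) := by
    by_contra hcon
    rw [not_nontrivial_iff_subsingleton] at hcon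
    apply rankOne_center_ne_top h.2
    rw [eq_top_iff]
    intro x _
    have : (QuotientGroup.mk x : X ⧸ Subgroup.center X) = 1 := Subsingleton.elim _ _
    exact (QuotientGroup.eq_one_iff x).mp this
  refine { toNontrivial := hnt, eq_bot_or_eq_top_of_normal := ?_ }
  intro M hM
  have hNn : (M.comap (QuotientGroup.mk' (Subgroup.center X))).Normal := hM.comap _
  have hsurj := QuotientGroup.mk'_surjective (Subgroup.center X)
  rcases rankOne_normal_dichotomy h (M.comap (QuotientGroup.mk' (Subgroup.center X))) with h1 | h1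
  · right
    -- X / N is perfect and nilpotent, hence trivial
    set N := M.comap (QuotientGroup.mk' (Subgroup.center X)) with hNdef
    have hsurjA : Function.Surjective ((QuotientGroup.mk' N).comp A.subtype) := by
      intro y
      obtain ⟨x, rfl⟩ := QuotientGroup.mk'_surjective N y
      have hx : x ∈ N ⊔ A := h1 ▸ Subgroup.mem_top x
      rw [Subgroup.mem_sup_of_normal_left] at hx
      obtain ⟨n, hn, a, ha, rfl⟩ := hx
      refine ⟨⟨a, ha⟩, ?_⟩
      show (QuotientGroup.mk a : X ⧸ N) = QuotientGroup.mk (n * a)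
      rw [QuotientGroup.mk_mul, (QuotientGroup.eq_one_iff n).mpr hn, one_mul]
    have hAnil : Group.IsNilpotent A := h.2.nilpotent_left
    have hnil : Group.IsNilpotent (X ⧸ N) := nilpotent_of_surjective _ hsurjA
    have hsub : Subsingleton (X ⧸ N) := by
      by_contra hcon
      rw [not_subsingleton_iff_nontrivial] at hcon
      exact Group.IsPerfect.not_isNilpotent (X ⧸ N) hnil
    have hNtop : N = ⊤ := by
      rw [eq_top_iff]
      intro x _
      have : (QuotientGroup.mk x : X ⧸ N) = 1 := Subsingleton.elim _ _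
      exact (QuotientGroup.eq_one_iff x).mp this
    rw [eq_top_iff]
    intro y _
    obtain ⟨x, rfl⟩ := hsurj y
    have hx : x ∈ N := hNtop ▸ Subgroup.mem_top x
    exact hx
  · left
    rw [eq_bot_iff]
    intro y hy
    obtain ⟨x, rfl⟩ := hsurj y
    have hx : x ∈ Subgroup.center X := h1 hy
    rw [Subgroup.mem_bot]
    exact (QuotientGroup.eq_one_iff x).mpr hx

theorem rankOne_second_center {A B : Subgroup X} (h : IsRankOneGroup X A B) :
    Subgroup.upperCentralSeries X 2 = Subgroup.center X ∧ ¬ Group.IsNilpotent X := by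
  have hp := h.2
  have h12 : Subgroup.upperCentralSeries X 2 = Subgroup.center X := by
    apply le_antisymm
    · rcases rankOne_normal_dichotomy h (Subgroup.upperCentralSeries X 2) with h1 | h1
      · exfalso
        -- Z₂ is transitive: some n ∈ Z₂ conjugates A to B
        have hBx : B ∈ unipotentSubgroups A B := RankOne.right_mem_unipotent hp
        obtain ⟨x, -, hBx⟩ := hBx
        have hx : x ∈ Subgroup.upperCentralSeries X 2 ⊔ A := h1 ▸ Subgroup.mem_top x
        rw [Subgroup.mem_sup_of_normal_left] at hx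
        obtain ⟨n, hn, a₀, ha₀, rfl⟩ := hx
        have hBn : B = conjBy A n := by
          rw [hBx, ← conjBy_conjBy, conjBy_of_mem ha₀]
        obtain ⟨a, ha, ha1⟩ := exists_ne_one_of_ne_bot (RankOne.left_ne_bot hp)
        have hz : ⁅n, a⁆ ∈ Subgroup.center X := by
          have := (Subgroup.mem_upperCentralSeries_succ_iff (n := 1)).mp hn a
          rwa [Subgroup.upperCentralSeries_one] at this
        have hb : n * a * n⁻¹ ∈ B := by
          rw [hBn]
          exact ⟨a, ha, rfl⟩
        have hnab : n * a * n⁻¹ = ⁅n, a⁆ * a := by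
          rw [commutatorElement_def]
          group
        have haN : a ∈ Subgroup.normalizer (B : Set X) := by
          have h2 : a = ⁅n, a⁆⁻¹ * (n * a * n⁻¹) := by
            rw [hnab]
            group
          rw [h2]
          exact Subgroup.mul_mem _ (Subgroup.inv_mem _ (Subgroup.center_le_normalizer _ hz))
            (Subgroup.le_normalizer hb)
        have h3 : a ∈ A ⊓ Subgroup.normalizer (B : Set X) := Subgroup.mem_inf.mpr ⟨ha, haN⟩
        rw [RankOne.inf_normalizer hp, Subgroup.mem_bot] at h3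
        exact ha1 h3
      · exact h1
    · rw [← Subgroup.upperCentralSeries_one]
      exact Subgroup.upperCentralSeries_mono X (by norm_num)
  refine ⟨h12, ?_⟩
  intro hnil
  obtain ⟨k, hk⟩ := hnil.nilpotent'
  apply rankOne_center_ne_top hp
  rw [← Subgroup.upperCentralSeries_one]
  by_cases hk0 : k = 0
  · rw [hk0, Subgroup.upperCentralSeries_zero] at hk
    rw [eq_top_iff, ← hk]
    exact bot_le
  · have h1 : Subgroup.upperCentralSeries X 1 = Subgroup.upperCentralSeries X (1 + 1) := by
      rw [Subgroup.upperCentralSeries_one]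
      exact h12.symm
    rw [Subgroup.upperCentralSeries.eq_ge_of_eq_succ (by omega : 1 ≤ k) h1, hk]

end Cfsg.Agent.Helper8
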