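import Cfsg.Agent.Helper8.RankOne2

/-!
# Rank one groups from doubly transitive actions (Timmesfeld I.1.3)
-/

set_option autoImplicit false

namespace Cfsg.Agent.Helper8

open Cfsg MulAction

variable {Y Ω : Type*} [Group Y] [MulAction Y Ω]

theorem exists_third_point (hΩ : 3 ≤ ENat.card Ω) (α β : Ω) : ∃ γ : Ω, γ ≠ α ∧ γ ≠ β := by
  by_contra hcon
  have hsub : (Set.univ : Set Ω) ⊆ {α, β} := by
    intro γ _
    by_contra hγ
    apply hcon
    refine ⟨γ, fun h => hγ (by rw [h]; exact Set.mem_insert _ _), fun h => hγ ?_⟩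
    rw [h]
    exact Set.mem_insert_of_mem _ rfl
  have h1 := Set.encard_le_encard hsub
  rw [Set.encard_univ] at h1
  have h2 : ({α, β} : Set Ω).encard ≤ 2 := by
    calc ({α, β} : Set Ω).encard ≤ ({β} : Set Ω).encard + 1 := Set.encard_insert_le _ _
      _ = 2 := by rw [Set.encard_singleton]; rfl
  have h3 : (3 : ℕ∞) ≤ 2 := hΩ.trans (h1.trans h2)
  exact absurd h3 (by decide)

theorem rankOne_of_regular (hΩ : 3 ≤ ENat.card Ω) (α : Ω) (A : Subgroup Y)
    (hA : A ≤ stabilizer Y α) (hAn : ∀ y ∈ stabilizer Y α, conjBy A y = A)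
    (hnil : Group.IsNilpotent A) (hreg : ∀ β γ : Ω, β ≠ α → γ ≠ α → ∃! a : Y, a ∈ A ∧ a • β = γ)
    (y : Y) (hy : y ∉ stabilizer Y α) :
    IsRankOnePair A (conjBy A y) ∧ Subgroup.normalClosure (A : Set Y) = A ⊔ conjBy A y := by
  have hyα : y • α ≠ α := fun h => hy (mem_stabilizer_iff.mpr h)
  have hfixA : ∀ a ∈ A, a • α = α := fun a ha => mem_stabilizer_iff.mp (hA ha)
  -- conjugates of `A` depend only on the image of `α`
  have hdep : ∀ g g' : Y, g • α = g' • α → conjBy A g = conjBy A g' := by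
    intro g g' hgg
    have h1 : g⁻¹ * g' ∈ stabilizer Y α := by
      rw [mem_stabilizer_iff, mul_smul, ← hgg, inv_smul_smul]
    have h2 := hAn _ h1
    have h3 : conjBy A g' = conjBy (conjBy A (g⁻¹ * g')) g := by
      rw [conjBy_conjBy, mul_inv_cancel_left]
    rw [h3, h2]
  -- a non-identity element of `A` moves every point other than `α`
  have hmoveA : ∀ a ∈ A, a ≠ 1 → ∀ β : Ω, β ≠ α → a • β ≠ β := by
    intro a ha ha1 β hβ hfix
    obtain ⟨a₀, -, huniq⟩ := hreg β β hβ hβ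
    have h1 := huniq a ⟨ha, hfix⟩
    have h2 := huniq 1 ⟨A.one_mem, one_smul _ _⟩
    exact ha1 (h1.trans h2.symm)
  have hAβ : ∀ a ∈ A, ∀ β : Ω, β ≠ α → a • β ≠ α := by
    intro a ha β hβ h
    apply hβ
    have h1 : a⁻¹ • (a • β) = a⁻¹ • α := by rw [h]
    rw [inv_smul_smul, hfixA _ (A.inv_mem ha)] at h1
    exact h1
  -- elements of `B`
  have hBmem : ∀ b ∈ conjBy A y, ∃ a ∈ A, b = y * a * y⁻¹ := by
    rintro b ⟨a, ha, rfl⟩
    exact ⟨a, ha, rfl⟩
  have hyinv : y⁻¹ • α ≠ α := by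
    intro h
    apply hyα
    have h1 : y • (y⁻¹ • α) = y • α := by rw [h]
    rw [smul_inv_smul] at h1
    exact h1.symm
  have hfixB : ∀ b ∈ conjBy A y, b • (y • α) = y • α := by
    intro b hb
    obtain ⟨a, ha, rfl⟩ := hBmem b hb
    rw [mul_smul, mul_smul, inv_smul_smul, hfixA a ha]
  have hmoveB : ∀ b ∈ conjBy A y, b ≠ 1 → b • α ≠ α := by
    intro b hb hb1 hfix
    obtain ⟨a, ha, rfl⟩ := hBmem b hb
    apply hb1
    have ha1 : a = 1 := by
      by_contra hne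
      apply hmoveA a ha hne (y⁻¹ • α) hyinv
      have h1 : y⁻¹ • ((y * a * y⁻¹) • α) = y⁻¹ • α := by rw [hfix]
      rw [mul_smul, mul_smul, inv_smul_smul] at h1
      exact h1
    rw [ha1]
    group
  have hBtrans : ∀ γ : Ω, γ ≠ y • α → ∃ b ∈ conjBy A y, b • α = γ := by
    intro γ hγ
    have hγ' : y⁻¹ • γ ≠ α := by
      intro h
      apply hγ
      rw [← h, smul_inv_smul]
    obtain ⟨a, ⟨ha, hae⟩, -⟩ := hreg (y⁻¹ • α) (y⁻¹ • γ) hyinv hγ'
    refine ⟨y * a * y⁻¹, ⟨a, ha, rfl⟩, ?_⟩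
    rw [mul_smul, mul_smul, hae, smul_inv_smul]
  obtain ⟨γ₀, hγ₀α, hγ₀β⟩ := exists_third_point hΩ α (y • α)
  obtain ⟨a₀, ⟨ha₀, ha₀e⟩, -⟩ := hreg (y • α) γ₀ hyα hγ₀α
  have hne : A ≠ conjBy A y := by
    intro hAB
    have h1 : a₀ ∈ conjBy A y := hAB ▸ ha₀
    have h2 := hfixB a₀ h1
    rw [ha₀e] at h2
    exact hγ₀β h2
  have hBnil : Group.IsNilpotent (conjBy A y) :=
    (Group.isNilpotent_congr (A.equivMapOfInjective (MulAut.conj y).toMonoidHom
      (MulAut.conj y).injective)).mp hnil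
  have hpair : IsRankOnePair A (conjBy A y) := by
    refine ⟨hne, hnil, hBnil, ?_, ?_⟩
    · intro a ha ha1
      have ha1' : a⁻¹ ≠ 1 := fun h => ha1 (inv_eq_one.mp h)
      have hγβ : a⁻¹ • (y • α) ≠ y • α := hmoveA _ (A.inv_mem ha) ha1' _ hyα
      have hγα : a⁻¹ • (y • α) ≠ α := hAβ _ (A.inv_mem ha) _ hyα
      obtain ⟨b', hb', hb'e⟩ := hBtrans _ hγβ
      refine ⟨b'⁻¹, Subgroup.inv_mem _ hb', ?_, ?_⟩
      · intro h
        have h1 : b' = 1 := inv_eq_one.mp h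
        rw [h1, one_smul] at hb'e
        exact hγα hb'e.symm
      · rw [inv_inv, conjBy_conjBy]
        apply hdep
        rw [hb'e, mul_smul]
    · intro b hb hb1
      have hb1' : b⁻¹ ≠ 1 := fun h => hb1 (inv_eq_one.mp h)
      have hγα : b⁻¹ • α ≠ α := hmoveB _ (Subgroup.inv_mem _ hb) hb1'
      have hγβ : b⁻¹ • α ≠ y • α := by
        intro h
        have h1 : b • (b⁻¹ • α) = b • (y • α) := by rw [h]
        rw [smul_inv_smul, hfixB b hb] at h1
        exact hyα h1.symm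
      obtain ⟨a', ⟨ha', ha'e⟩, -⟩ := hreg (y • α) (b⁻¹ • α) hyα hγα
      refine ⟨a'⁻¹, A.inv_mem ha', ?_, ?_⟩
      · intro h
        have h1 : a' = 1 := inv_eq_one.mp h
        rw [h1, one_smul] at ha'e
        exact hγβ ha'e.symm
      · rw [inv_inv, conjBy_conjBy]
        apply hdep
        rw [mul_smul, ha'e]
  refine ⟨hpair, ?_⟩
  -- the normal closure
  apply le_antisymm
  · rw [Subgroup.normalClosure, Subgroup.closure_le]
    intro z hz
    rw [Group.mem_conjugatesOfSet_iff] at hz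
    obtain ⟨a, ha, hconj⟩ := hz
    rw [isConj_iff] at hconj
    obtain ⟨c, rfl⟩ := hconj
    -- find x ∈ A ⊔ B with x • α = c • α
    have hx : ∃ x ∈ A ⊔ conjBy A y, x • α = c • α := by
      by_cases hc : c • α = α
      · exact ⟨1, Subgroup.one_mem _, by rw [one_smul, hc]⟩
      · obtain ⟨b, hb, hb1⟩ := exists_ne_one_of_ne_bot (RankOne.right_ne_bot hpair)
        have h1 := hmoveB b hb hb1
        obtain ⟨a', ⟨ha', ha'e⟩, -⟩ := hreg (b • α) (c • α) h1 hc
        exact ⟨a' * b, Subgroup.mul_mem _ (Subgroup.mem_sup_left ha') (Subgroup.mem_sup_right hb),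
          by rw [mul_smul, ha'e]⟩
    obtain ⟨x, hx, hxe⟩ := hx
    have h2 : c * a * c⁻¹ ∈ conjBy A c := ⟨a, ha, rfl⟩
    rw [hdep c x hxe.symm] at h2
    obtain ⟨a'', ha'', h3⟩ := h2
    rw [SetLike.mem_coe, ← h3]
    exact Subgroup.mul_mem _ (Subgroup.mul_mem _ hx (Subgroup.mem_sup_left ha''))
      (Subgroup.inv_mem _ hx)
  · refine sup_le Subgroup.le_normalClosure ?_
    rintro _ ⟨a, ha, rfl⟩
    exact (Subgroup.normalClosure_normal).conj_mem a (Subgroup.le_normalClosure ha) y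

end Cfsg.Agent.Helper8
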