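import Cfsg.Agent.Helper8.RankOne3

/-!
# Rank one groups acting quadratically on a module (Timmesfeld I (3.2))
-/

set_option autoImplicit false

namespace Cfsg.Agent.Helper8

open Cfsg

section ring

variable {R : Type*} [Ring R]

theorem one_add_mul_one_sub {α : R} (hα : α * α = 0) : (1 + α) * (1 - α) = 1 := by
  have : (1 + α) * (1 - α) = 1 - α * α := by noncomm_ring
  rw [this, hα, sub_zero]

theorem one_sub_mul_one_add {α : R} (hα : α * α = 0) : (1 - α) * (1 + α) = 1 := by
  have : (1 - α) * (1 + α) = 1 - α * α := by noncomm_ring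
  rw [this, hα, sub_zero]

/-- The ring-theoretic core of Timmesfeld's argument. -/
theorem quad_ring_core (α β γ : R) (hα : α * α = 0) (hβ : β * β = 0)
    (hC1 : (1 - β) * α * (1 + β) * ((1 - α) * β * (1 + α)) = 0)
    (hC2 : (1 - α) * β * (1 + α) * ((1 - β) * α * (1 + β)) = 0)
    (hR3 : (1 - β) * α * (1 + β) = (1 - α) * γ * (1 + α)) :
    α * (β + γ) = 0 ∧ (β + γ) * α = 0 := by
  have e1 := one_add_mul_one_sub hβ
  have e2 := one_add_mul_one_sub hα
  have e3 := one_sub_mul_one_add hα
  have e4 := one_sub_mul_one_add hβ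
  have h1 : α * (1 + β) * ((1 - α) * β) = 0 := by
    calc α * (1 + β) * ((1 - α) * β)
        = ((1 + β) * (1 - β)) * α * (1 + β) * ((1 - α) * β * ((1 + α) * (1 - α))) := by
          rw [e1, e2, one_mul, mul_one]
      _ = (1 + β) * ((1 - β) * α * (1 + β) * ((1 - α) * β * (1 + α))) * (1 - α) := by
          simp only [mul_assoc]
      _ = 0 := by rw [hC1, mul_zero, zero_mul]
  have R1 : α * β * α * β = α * β := by
    have e : α * (1 + β) * ((1 - α) * β) =
        α * β - α * β * α * β - (α * α) * β + α * (β * β) := by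
      noncomm_ring
    rw [e, hα, hβ] at h1
    simp only [mul_zero, zero_mul, sub_zero, add_zero] at h1
    exact (sub_eq_zero.mp h1).symm
  have h2 : β * (1 + α) * ((1 - β) * α) = 0 := by
    calc β * (1 + α) * ((1 - β) * α)
        = ((1 + α) * (1 - α)) * β * (1 + α) * ((1 - β) * α * ((1 + β) * (1 - β))) := by
          rw [e1, e2, one_mul, mul_one]
      _ = (1 + α) * ((1 - α) * β * (1 + α) * ((1 - β) * α * (1 + β))) * (1 - β) := by
          simp only [mul_assoc]
      _ = 0 := by rw [hC2, mul_zero, zero_mul]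
  have R2 : β * α * β * α = β * α := by
    have e : β * (1 + α) * ((1 - β) * α) =
        β * α - β * α * β * α - (β * β) * α + β * (α * α) := by
      noncomm_ring
    rw [e, hα, hβ] at h2
    simp only [mul_zero, zero_mul, sub_zero, add_zero] at h2
    exact (sub_eq_zero.mp h2).symm
  constructor
  · have hL : α * ((1 - β) * α * (1 + β)) = -(α * β * α) - α * β := by
      have e : α * ((1 - β) * α * (1 + β)) =
          (α * α) + (α * α) * β - α * β * α - α * β * α * β := by noncomm_ring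
      rw [e, hα, R1]
      simp only [zero_mul, zero_add]
      abel
    have hRr : α * ((1 - α) * γ * (1 + α)) = α * γ + α * γ * α := by
      have e : α * ((1 - α) * γ * (1 + α)) =
          α * γ + α * γ * α - (α * α) * γ - (α * α) * γ * α := by noncomm_ring
      rw [e, hα]
      simp only [zero_mul, sub_zero]
    have h4 : α * (β + γ) * (1 + α) = 0 := by
      have e : α * (β + γ) * (1 + α) =
          (α * γ + α * γ * α) - (-(α * β * α) - α * β) := by noncomm_ring
      rw [e, ← hL, ← hRr, hR3, sub_self]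
    calc α * (β + γ) = α * (β + γ) * ((1 + α) * (1 - α)) := by rw [e2, mul_one]
      _ = α * (β + γ) * (1 + α) * (1 - α) := by simp only [mul_assoc]
      _ = 0 := by rw [h4, zero_mul]
  · have hL : (1 - β) * α * (1 + β) * α = α * β * α - β * α := by
      have e : (1 - β) * α * (1 + β) * α =
          (α * α) + α * β * α - β * (α * α) - β * α * β * α := by noncomm_ring
      rw [e, hα, R2]
      simp only [mul_zero, zero_add, sub_zero]
    have hRr : (1 - α) * γ * (1 + α) * α = γ * α - α * γ * α := by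
      have e : (1 - α) * γ * (1 + α) * α =
          γ * α + γ * (α * α) - α * γ * α - α * γ * (α * α) := by noncomm_ring
      rw [e, hα]
      simp only [mul_zero, add_zero, sub_zero]
    have h5 : (1 - α) * ((β + γ) * α) = 0 := by
      have e : (1 - α) * ((β + γ) * α) =
          (γ * α - α * γ * α) - (α * β * α - β * α) := by noncomm_ring
      rw [e, ← hL, ← hRr, hR3, sub_self]
    calc (β + γ) * α = ((1 + α) * (1 - α)) * ((β + γ) * α) := by rw [e2, one_mul]
      _ = (1 + α) * ((1 - α) * ((β + γ) * α)) := by simp only [mul_assoc]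
      _ = 0 := by rw [h5, mul_zero]

end ring

section rep

variable {X : Type*} [Group X] {N : Type*} [AddCommGroup N] [DistribMulAction X N]

/-- The action as a homomorphism into the endomorphism ring. -/
noncomputable def quadRep (X : Type*) [Group X] (N : Type*) [AddCommGroup N]
    [DistribMulAction X N] : X →* AddMonoid.End N := DistribMulAction.toAddMonoidEnd X N

theorem quadRep_apply (x : X) (n : N) : quadRep X N x n = x • n := rfl

theorem quadRep_eq_iff {x y : X} : quadRep X N x = quadRep X N y ↔ ∀ n : N, x • n = y • n :=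
  ⟨fun h n => DFunLike.congr_fun h n, fun h => AddMonoidHom.ext h⟩

theorem quadRep_mul_inv (x : X) : quadRep X N x * quadRep X N x⁻¹ = 1 := by
  rw [← map_mul, mul_inv_cancel, map_one]

theorem quadRep_inv_mul (x : X) : quadRep X N x⁻¹ * quadRep X N x = 1 := by
  rw [← map_mul, inv_mul_cancel, map_one]

theorem quadRep_inv_of_sq {x : X}
    (h : (quadRep X N x - 1) * (quadRep X N x - 1) = 0) :
    quadRep X N x⁻¹ = 1 - (quadRep X N x - 1) := by
  have e := one_add_mul_one_sub h
  rw [add_sub_cancel] at e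
  calc quadRep X N x⁻¹ = quadRep X N x⁻¹ * (quadRep X N x * (1 - (quadRep X N x - 1))) := by
        rw [e, mul_one]
    _ = (quadRep X N x⁻¹ * quadRep X N x) * (1 - (quadRep X N x - 1)) := by rw [mul_assoc]
    _ = 1 - (quadRep X N x - 1) := by rw [quadRep_inv_mul, one_mul]

theorem quad_of_hq {A : Subgroup X}
    (hq : ∀ a ∈ A, ∀ a' ∈ A, ∀ n : N, a' • (a • n - n) = a • n - n)
    {u v : X} (hu : u ∈ A) (hv : v ∈ A) :
    (quadRep X N u - 1) * (quadRep X N v - 1) = 0 := by
  refine AddMonoidHom.ext fun n => ?_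
  show u • (v • n - n) - (v • n - n) = 0
  rw [hq v hv u hu n, sub_self]

theorem quad_conj {A : Subgroup X}
    (hq : ∀ a ∈ A, ∀ a' ∈ A, ∀ n : N, a' • (a • n - n) = a • n - n)
    (g : X) {u v : X} (hu : u ∈ conjBy A g) (hv : v ∈ conjBy A g) :
    (quadRep X N u - 1) * (quadRep X N v - 1) = 0 := by
  rw [mem_conjBy] at hu hv
  have key : ∀ w : X, quadRep X N w - 1 =
      quadRep X N g * (quadRep X N (g⁻¹ * w * g) - 1) * quadRep X N g⁻¹ := by
    intro w
    rw [mul_sub, sub_mul, mul_one, quadRep_mul_inv, ← map_mul, ← map_mul]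
    congr 2
    group
  rw [key u, key v]
  calc quadRep X N g * (quadRep X N (g⁻¹ * u * g) - 1) * quadRep X N g⁻¹ *
        (quadRep X N g * (quadRep X N (g⁻¹ * v * g) - 1) * quadRep X N g⁻¹)
      = quadRep X N g * ((quadRep X N (g⁻¹ * u * g) - 1) *
          (quadRep X N g⁻¹ * quadRep X N g) * (quadRep X N (g⁻¹ * v * g) - 1)) *
          quadRep X N g⁻¹ := by simp only [mul_assoc]
    _ = 0 := by
      rw [quadRep_inv_mul, mul_one, quad_of_hq hq hu hv, mul_zero, zero_mul]

/-- Timmesfeld I (3.2): a rank one group acting quadratically (through `A`) but not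
"globally quadratically" on a module is special. -/
theorem special_of_quadratic {A B : Subgroup X} (h : IsRankOneGroup X A B)
    (hq : ∀ a ∈ A, ∀ a' ∈ A, ∀ n : N, a' • (a • n - n) = a • n - n)
    (hX : ∃ x y : X, ∃ n : N, y • (x • n - n) ≠ x • n - n) : IsSpecialRankOnePair A B := by
  obtain ⟨htop, hp⟩ := h
  refine ⟨hp, ?_⟩
  intro a ha ha1 b hb hb1 hAB
  -- `B` is a conjugate of `A`
  obtain ⟨g₀, hg₀⟩ : ∃ g₀ : X, B = conjBy A g₀ := by
    have := congrArg (fun C => conjBy C a) hAB
    simp only [conjBy_conjBy, mul_inv_cancel, conjBy_one] at this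
    exact ⟨a * b⁻¹, this.symm⟩
  have hQB : ∀ u ∈ B, ∀ v ∈ B, (quadRep X N u - 1) * (quadRep X N v - 1) = 0 := by
    intro u hu v hv
    exact quad_conj hq g₀ (hg₀ ▸ hu) (hg₀ ▸ hv)
  have hc : b⁻¹ * a * b ∈ conjBy A b⁻¹ := by
    rw [mem_conjBy]
    have : b⁻¹⁻¹ * (b⁻¹ * a * b) * b⁻¹ = a := by group
    rw [this]; exact ha
  have hd : a⁻¹ * b * a ∈ conjBy A b⁻¹ := by
    rw [hAB, mem_conjBy]
    have : a⁻¹⁻¹ * (a⁻¹ * b * a) * a⁻¹ = b := by group
    rw [this]; exact hb
  have hb'' : a * (b⁻¹ * a * b) * a⁻¹ ∈ B := by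
    have h1 := hc
    rw [hAB, mem_conjBy, inv_inv] at h1
    exact h1
  obtain ⟨b'', hb''B, hb''def⟩ : ∃ b'' ∈ B, b'' = a * (b⁻¹ * a * b) * a⁻¹ := ⟨_, hb'', rfl⟩
  have hcb : b⁻¹ * a * b = a⁻¹ * b'' * a := by rw [hb''def]; group
  -- ring elements
  obtain ⟨α, hαdef⟩ : ∃ α, α = quadRep X N a - 1 := ⟨_, rfl⟩
  obtain ⟨β, hβdef⟩ : ∃ β, β = quadRep X N b - 1 := ⟨_, rfl⟩
  obtain ⟨γ, hγdef⟩ : ∃ γ, γ = quadRep X N b'' - 1 := ⟨_, rfl⟩
  have hα : α * α = 0 := by rw [hαdef]; exact quad_of_hq hq ha ha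
  have hβ : β * β = 0 := by rw [hβdef]; exact hQB b hb b hb
  have hγ : γ * γ = 0 := by rw [hγdef]; exact hQB b'' hb''B b'' hb''B
  have hβγ : β * γ = 0 := by rw [hβdef, hγdef]; exact hQB b hb b'' hb''B
  have ra : quadRep X N a = 1 + α := by rw [hαdef]; abel
  have rb : quadRep X N b = 1 + β := by rw [hβdef]; abel
  have rb'' : quadRep X N b'' = 1 + γ := by rw [hγdef]; abel
  have rai : quadRep X N a⁻¹ = 1 - α := by
    rw [hαdef]; exact quadRep_inv_of_sq (by rw [← hαdef]; exact hα)
  have rbi : quadRep X N b⁻¹ = 1 - β := by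
    rw [hβdef]; exact quadRep_inv_of_sq (by rw [← hβdef]; exact hβ)
  have hρc : quadRep X N (b⁻¹ * a * b) - 1 = (1 - β) * α * (1 + β) := by
    rw [map_mul, map_mul, rbi, ra, rb]
    have e : (1 - β) * (1 + α) * (1 + β) - 1 =
        ((1 - β) * (1 + β) - 1) + (1 - β) * α * (1 + β) := by noncomm_ring
    rw [e, one_sub_mul_one_add hβ, sub_self, zero_add]
  have hρd : quadRep X N (a⁻¹ * b * a) - 1 = (1 - α) * β * (1 + α) := by
    rw [map_mul, map_mul, rai, ra, rb]
    have e : (1 - α) * (1 + β) * (1 + α) - 1 =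
        ((1 - α) * (1 + α) - 1) + (1 - α) * β * (1 + α) := by noncomm_ring
    rw [e, one_sub_mul_one_add hα, sub_self, zero_add]
  have hρc' : quadRep X N (b⁻¹ * a * b) - 1 = (1 - α) * γ * (1 + α) := by
    rw [hcb, map_mul, map_mul, rai, ra, rb'']
    have e : (1 - α) * (1 + γ) * (1 + α) - 1 =
        ((1 - α) * (1 + α) - 1) + (1 - α) * γ * (1 + α) := by noncomm_ring
    rw [e, one_sub_mul_one_add hα, sub_self, zero_add]
  have hC1 := quad_conj hq b⁻¹ hc hd
  rw [hρc, hρd] at hC1
  have hC2 := quad_conj hq b⁻¹ hd hc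
  rw [hρc, hρd] at hC2
  have hR3 : (1 - β) * α * (1 + β) = (1 - α) * γ * (1 + α) := hρc.symm.trans hρc'
  obtain ⟨h4, h5⟩ := quad_ring_core α β γ hα hβ hC1 hC2 hR3
  have hcomm : quadRep X N (a * (b * b'')) = quadRep X N ((b * b'') * a) := by
    rw [map_mul, map_mul, map_mul, map_mul, ra, rb, rb'']
    have e : (1 + β) * (1 + γ) = 1 + (β + γ) := by
      have : (1 + β) * (1 + γ) = 1 + (β + γ) + β * γ := by noncomm_ring
      rw [this, hβγ, add_zero]
    rw [e]
    have l : (1 + α) * (1 + (β + γ)) = 1 + α + (β + γ) + α * (β + γ) := by noncomm_ring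
    have r : (1 + (β + γ)) * (1 + α) = 1 + α + (β + γ) + (β + γ) * α := by noncomm_ring
    rw [l, r, h4, h5]
  -- the kernel
  have hker : a * (b * b'') * ((b * b'') * a)⁻¹ ∈ (quadRep X N).ker := by
    rw [MonoidHom.mem_ker, map_mul, hcomm, quadRep_mul_inv]
  have hb₀ : b * b'' = 1 := by
    rcases rankOne_normal_dichotomy ⟨htop, hp⟩ (quadRep X N).ker with hK | hK
    · exfalso
      obtain ⟨x, y, n, hne⟩ := hX
      have key : ∀ x : X, ∃ a ∈ A, ∀ m : N, x • m = a • m := by
        intro x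
        have hx : x ∈ (quadRep X N).ker ⊔ A := hK ▸ Subgroup.mem_top x
        obtain ⟨k, hk, a', ha', rfl⟩ := Subgroup.mem_sup_of_normal_left.mp hx
        refine ⟨a', ha', fun m => ?_⟩
        rw [MonoidHom.mem_ker] at hk
        have : quadRep X N (k * a') = quadRep X N a' := by rw [map_mul, hk, one_mul]
        exact quadRep_eq_iff.mp this m
      obtain ⟨ax, hax, hx⟩ := key x
      obtain ⟨ay, hay, hy⟩ := key y
      apply hne
      rw [hy, hx]
      exact hq ax hax ay hay n
    · have hkc := hK hker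
      rw [Subgroup.mem_center_iff] at hkc
      -- x := a⁻¹ b₀ a
      have hx1 : a⁻¹ * (b * b'') * a ∈ conjBy A b⁻¹ := by
        rw [hAB, mem_conjBy]
        have : a⁻¹⁻¹ * (a⁻¹ * (b * b'') * a) * a⁻¹ = b * b'' := by group
        rw [this]; exact B.mul_mem hb hb''B
      have hx2 : a⁻¹ * (b * b'') * a ∈ Subgroup.normalizer (B : Set X) := by
        have e : a⁻¹ * (b * b'') * a =
            (a * (b * b'') * ((b * b'') * a)⁻¹)⁻¹ * (b * b'') := by
          have e1 := hkc a⁻¹
          have e2 : a⁻¹ * (a * (b * b'') * ((b * b'') * a)⁻¹) * a =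
              a * (b * b'') * ((b * b'') * a)⁻¹ := by
            rw [e1]; group
          have e3 : (a⁻¹ * (a * (b * b'') * ((b * b'') * a)⁻¹) * a)⁻¹ * (b * b'') =
              a⁻¹ * (b * b'') * a := by group
          rw [← e3, e2]
        rw [e]
        refine Subgroup.mul_mem _ (Subgroup.inv_mem _ ?_) ?_
        · exact Subgroup.center_le_normalizer _ (Subgroup.mem_center_iff.mpr hkc)
        · exact Subgroup.le_normalizer (B.mul_mem hb hb''B)
      rw [mem_conjBy, inv_inv] at hx1
      have hx3 : b * (a⁻¹ * (b * b'') * a) * b⁻¹ ∈ A ⊓ Subgroup.normalizer (B : Set X) := by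
        refine Subgroup.mem_inf.mpr ⟨hx1, ?_⟩
        exact Subgroup.mul_mem _ (Subgroup.mul_mem _ (Subgroup.le_normalizer hb) hx2)
          (Subgroup.inv_mem _ (Subgroup.le_normalizer hb))
      rw [RankOne.inf_normalizer hp, Subgroup.mem_bot] at hx3
      have : a⁻¹ * (b * b'') * a = 1 := by
        have e : a⁻¹ * (b * b'') * a = b⁻¹ * (b * (a⁻¹ * (b * b'') * a) * b⁻¹) * b := by group
        rw [e, hx3]; group
      have e : b * b'' = a * (a⁻¹ * (b * b'') * a) * a⁻¹ := by group
      rw [e, this]; group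
  have hb''eq : b'' = b⁻¹ := by
    rw [eq_comm, inv_eq_iff_mul_eq_one]; exact hb₀
  rw [hcb, hb''eq]

end rep

end Cfsg.Agent.Helper8
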