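import Cfsg.Agent.Helper8.RankOneQuad
import Cfsg.Prelude.Def_Transfer

/-!
# Faithful quadratic modules for rank one groups: structure of the unipotent subgroups
-/

set_option autoImplicit false

namespace Cfsg.Agent.Helper8

open Cfsg

section rep

variable {X : Type*} [Group X] {N : Type*} [AddCommGroup N] [DistribMulAction X N]

theorem quadRep_pow {x : X} (h : (quadRep X N x - 1) * (quadRep X N x - 1) = 0) (m : ℕ) :
    quadRep X N (x ^ m) = 1 + (m : AddMonoid.End N) * (quadRep X N x - 1) := by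
  induction m with
  | zero => simp
  | succ m ih =>
    rw [pow_succ, map_mul, ih]
    obtain ⟨δ, hδ⟩ : ∃ δ, δ = quadRep X N x - 1 := ⟨_, rfl⟩
    have hx : quadRep X N x = 1 + δ := by rw [hδ]; abel
    rw [← hδ] at h ⊢
    rw [hx]
    have e : (1 + (m : AddMonoid.End N) * δ) * (1 + δ) =
        1 + ((m : AddMonoid.End N) + 1) * δ + (m : AddMonoid.End N) * (δ * δ) := by
      noncomm_ring
    rw [e, h, mul_zero, add_zero]
    push_cast
    rfl

theorem quadRep_injective (hf : ∀ x : X, (∀ v : N, x • v = v) → x = 1) {x y : X}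
    (h : quadRep X N x = quadRep X N y) : x = y := by
  have h1 : quadRep X N (x * y⁻¹) = 1 := by
    rw [map_mul, h, quadRep_mul_inv]
  have h2 : x * y⁻¹ = 1 := hf _ (fun v => by
    have := DFunLike.congr_fun h1 v
    exact this)
  exact mul_inv_eq_one.mp h2

theorem comm_of_quad (hf : ∀ x : X, (∀ v : N, x • v = v) → x = 1) {x y : X}
    (h1 : (quadRep X N x - 1) * (quadRep X N y - 1) = 0)
    (h2 : (quadRep X N y - 1) * (quadRep X N x - 1) = 0) : x * y = y * x := by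
  apply quadRep_injective hf
  rw [map_mul, map_mul]
  obtain ⟨α, hα⟩ : ∃ α, α = quadRep X N x - 1 := ⟨_, rfl⟩
  obtain ⟨β, hβ⟩ : ∃ β, β = quadRep X N y - 1 := ⟨_, rfl⟩
  have hx : quadRep X N x = 1 + α := by rw [hα]; abel
  have hy : quadRep X N y = 1 + β := by rw [hβ]; abel
  rw [← hα, ← hβ] at h1 h2
  rw [hx, hy]
  have l : (1 + α) * (1 + β) = 1 + α + β + α * β := by noncomm_ring
  have r : (1 + β) * (1 + α) = 1 + α + β + β * α := by noncomm_ring
  rw [l, r, h1, h2]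

/-- Timmesfeld I (3.3)-type statement: a rank one group acting faithfully on a module on
which `A` acts quadratically has `A` torsion-free or elementary abelian. -/
theorem quad_faithful_structure {A B : Subgroup X} (h : IsRankOneGroup X A B)
    (hf : ∀ x : X, (∀ v : N, x • v = v) → x = 1)
    (hq : ∀ a ∈ A, ∀ a' ∈ A, ∀ v : N, a' • (a • v - v) = a • v - v) :
    (∀ a ∈ A, a ≠ 1 → ¬ IsOfFinOrder a) ∨ ∃ p : ℕ, p.Prime ∧ IsElementaryAbelian p A := by
  have hp := h.2
  have hAcomm : ∀ a ∈ A, ∀ a' ∈ A, a * a' = a' * a := fun a ha a' ha' =>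
    comm_of_quad hf (quad_of_hq hq ha ha') (quad_of_hq hq ha' ha)
  by_cases hfin : ∀ a ∈ A, a ≠ 1 → ¬ IsOfFinOrder a
  · exact Or.inl hfin
  right
  simp only [not_forall, not_not] at hfin
  obtain ⟨a₀, ha₀, ha₀1, ha₀fin⟩ := hfin
  have hn0 : 0 < orderOf a₀ := ha₀fin.orderOf_pos
  have hn1 : orderOf a₀ ≠ 1 := fun hh => ha₀1 (orderOf_eq_one_iff.mp hh)
  have hpp : (orderOf a₀).minFac.Prime := Nat.minFac_prime hn1
  obtain ⟨p, hpdef⟩ : ∃ p, p = (orderOf a₀).minFac := ⟨_, rfl⟩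
  rw [← hpdef] at hpp
  have hpn : p ∣ orderOf a₀ := hpdef ▸ Nat.minFac_dvd _
  refine ⟨p, hpp, ⟨⟨fun x y => Subtype.ext (hAcomm x x.2 y y.2)⟩⟩, ?_⟩
  -- an element of order `p`
  have ha₁ : a₀ ^ (orderOf a₀ / p) ∈ A := A.pow_mem ha₀ _
  have ha₁1 : a₀ ^ (orderOf a₀ / p) ≠ 1 := by
    intro hh
    have h1 := orderOf_dvd_of_pow_eq_one hh
    have h2 : 0 < orderOf a₀ / p := Nat.div_pos (Nat.le_of_dvd hn0 hpn) hpp.pos
    have h3 := Nat.le_of_dvd h2 h1
    have h4 := Nat.div_lt_self hn0 hpp.one_lt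
    omega
  have ha₁p : (a₀ ^ (orderOf a₀ / p)) ^ p = 1 := by
    rw [← pow_mul, Nat.div_mul_cancel hpn, pow_orderOf_eq_one]
  obtain ⟨a₁, ha₁def⟩ : ∃ a₁, a₁ = a₀ ^ (orderOf a₀ / p) := ⟨_, rfl⟩
  rw [← ha₁def] at ha₁ ha₁1 ha₁p
  obtain ⟨α, hαdef⟩ : ∃ α, α = quadRep X N a₁ - 1 := ⟨_, rfl⟩
  have hα : α * α = 0 := by rw [hαdef]; exact quad_of_hq hq ha₁ ha₁
  have hpα : (p : AddMonoid.End N) * α = 0 := by
    have h1 := quadRep_pow (x := a₁) (by rw [← hαdef]; exact hα) p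
    rw [ha₁p, map_one, ← hαdef] at h1
    have h2 : (1 : AddMonoid.End N) + 0 = 1 + (p : AddMonoid.End N) * α := by
      rw [add_zero]; exact h1
    exact (add_left_cancel h2).symm
  -- `X` is not globally quadratic
  have hX : ∃ x y : X, ∃ n : N, y • (x • n - n) ≠ x • n - n := by
    by_contra hno
    simp only [not_exists, not_not] at hno
    have hq' : ∀ a ∈ (⊤ : Subgroup X), ∀ a' ∈ (⊤ : Subgroup X), ∀ v : N,
        a' • (a • v - v) = a • v - v := fun a _ a' _ v => hno a a' v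
    apply rankOne_center_ne_top hp
    rw [eq_top_iff]
    intro x _
    rw [Subgroup.mem_center_iff]
    intro g
    exact comm_of_quad hf (quad_of_hq hq' (Subgroup.mem_top g) (Subgroup.mem_top x))
      (quad_of_hq hq' (Subgroup.mem_top x) (Subgroup.mem_top g))
  have hs := special_of_quadratic h hq hX
  obtain ⟨b₁, hb₁, hb₁1, hAB⟩ := hp.cond_left a₁ ha₁ ha₁1
  have hrel := hs.2 a₁ ha₁ ha₁1 b₁ hb₁ hb₁1 hAB
  obtain ⟨g₀, hg₀⟩ : ∃ g₀ : X, B = conjBy A g₀ := by
    have := congrArg (fun C => conjBy C a₁) hAB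
    simp only [conjBy_conjBy, mul_inv_cancel, conjBy_one] at this
    exact ⟨a₁ * b₁⁻¹, this.symm⟩
  obtain ⟨β, hβdef⟩ : ∃ β, β = quadRep X N b₁ - 1 := ⟨_, rfl⟩
  have hβ : β * β = 0 := by
    rw [hβdef]; exact quad_conj hq g₀ (hg₀ ▸ hb₁) (hg₀ ▸ hb₁)
  have ra : quadRep X N a₁ = 1 + α := by rw [hαdef]; abel
  have rb : quadRep X N b₁ = 1 + β := by rw [hβdef]; abel
  have rai : quadRep X N a₁⁻¹ = 1 - α := by
    rw [hαdef]; exact quadRep_inv_of_sq (by rw [← hαdef]; exact hα)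
  have rbi : quadRep X N b₁⁻¹ = 1 - β := by
    rw [hβdef]; exact quadRep_inv_of_sq (by rw [← hβdef]; exact hβ)
  have hsum : α + β = α * β * α + β * α * β := by
    have h1 := congrArg (quadRep X N) hrel
    rw [map_mul, map_mul, map_mul, map_mul, rai, rbi, ra, rb] at h1
    have E : (1 - β) * (1 + α) * (1 + β) - (1 - α) * (1 - β) * (1 + α) =
        α + β - α * β * α - β * α * β - β * β + α * α := by noncomm_ring
    rw [h1, sub_self, hα, hβ, sub_zero, add_zero] at E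
    have E2 : α + β - (α * β * α + β * α * β) = 0 := by rw [E]; abel
    exact sub_eq_zero.mp E2
  have hpβ : (p : AddMonoid.End N) * β = 0 := by
    have e1 : (p : AddMonoid.End N) * (α + β) =
        (p : AddMonoid.End N) * α * β * α + β * ((p : AddMonoid.End N) * α) * β := by
      have t1 : (p : AddMonoid.End N) * (α * β * α) = (p : AddMonoid.End N) * α * β * α := by
        simp only [mul_assoc]
      have t2 : (p : AddMonoid.End N) * (β * α * β) =
          β * ((p : AddMonoid.End N) * α) * β := by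
        rw [← mul_assoc, ← mul_assoc, (Nat.cast_commute p β).eq]
        simp only [mul_assoc]
      rw [hsum, mul_add, t1, t2]
    rw [hpα, zero_mul, zero_mul, mul_zero, zero_mul, add_zero, mul_add, hpα, zero_add] at e1
    exact e1
  -- every element of `A` has order dividing `p`
  intro a' ha'
  by_contra hne
  have ha'' : a' ^ p ∈ A := A.pow_mem ha' p
  obtain ⟨α', hα'def⟩ : ∃ α', α' = quadRep X N a' - 1 := ⟨_, rfl⟩
  have hα' : α' * α' = 0 := by rw [hα'def]; exact quad_of_hq hq ha' ha'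
  have hpow : quadRep X N (a' ^ p) - 1 = (p : AddMonoid.End N) * α' := by
    rw [quadRep_pow (x := a') (by rw [← hα'def]; exact hα') p, ← hα'def]
    abel
  have hcomm : a' ^ p * b₁ = b₁ * a' ^ p := by
    apply comm_of_quad hf
    · rw [hpow, ← hβdef, mul_assoc, (Nat.cast_commute p (α' * β)).eq, mul_assoc,
        ← (Nat.cast_commute p β).eq, hpβ, mul_zero]
    · rw [hpow, ← hβdef, ← mul_assoc, ← (Nat.cast_commute p β).eq, hpβ, zero_mul]
  obtain ⟨b', hb', -, hAB'⟩ := hp.cond_left (a' ^ p)⁻¹ (A.inv_mem ha'')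
    (fun hh => hne (inv_eq_one.mp hh))
  rw [inv_inv] at hAB'
  have h1 : b₁ ∈ conjBy B (a' ^ p) := by
    rw [mem_conjBy]
    have : (a' ^ p)⁻¹ * b₁ * a' ^ p = b₁ := by
      rw [mul_assoc, ← hcomm, ← mul_assoc, inv_mul_cancel, one_mul]
    rw [this]; exact hb₁
  rw [← hAB', mem_conjBy, inv_inv] at h1
  have h2 : b' * b₁ * b'⁻¹ ∈ A ⊓ Subgroup.normalizer (B : Set X) :=
    Subgroup.mem_inf.mpr ⟨h1, Subgroup.le_normalizer
      (B.mul_mem (B.mul_mem hb' hb₁) (B.inv_mem hb'))⟩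
  rw [RankOne.inf_normalizer hp, Subgroup.mem_bot] at h2
  apply hb₁1
  have e : b₁ = b'⁻¹ * (b' * b₁ * b'⁻¹) * b' := by group
  rw [e, h2]; group

end rep

end Cfsg.Agent.Helper8
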