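import Cfsg.Agent.Helper8.RankOne2

/-!
# `SL₂(k)` is a special rank one group with abelian unipotent subgroups
-/

set_option autoImplicit false

namespace Cfsg.Agent.Helper8

open Cfsg Matrix

open scoped IsMulCommutative in
theorem isNilpotent_of_isMulCommutative {G : Type*} [Group G] [IsMulCommutative G] :
    Group.IsNilpotent G :=
  CommGroup.isNilpotent

section SL2

variable {k : Type*} [Field k]

/-- lower unitriangular matrix -/
def sl2L (t : k) : SpecialLinearGroup (Fin 2) k :=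
  ⟨!![1, 0; t, 1], by simp [Matrix.det_fin_two]⟩

/-- upper unitriangular matrix -/
def sl2U (s : k) : SpecialLinearGroup (Fin 2) k :=
  ⟨!![1, s; 0, 1], by simp [Matrix.det_fin_two]⟩

theorem sl2L_val (t : k) : (sl2L t : Matrix (Fin 2) (Fin 2) k) = !![1, 0; t, 1] := rfl

theorem sl2U_val (s : k) : (sl2U s : Matrix (Fin 2) (Fin 2) k) = !![1, s; 0, 1] := rfl

theorem sl2L_mul (t t' : k) : sl2L t * sl2L t' = sl2L (t + t') := by
  ext i j
  fin_cases i <;> fin_cases j <;>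
    simp [sl2L_val, Matrix.mul_apply, Fin.sum_univ_two, add_comm]

theorem sl2U_mul (s s' : k) : sl2U s * sl2U s' = sl2U (s + s') := by
  ext i j
  fin_cases i <;> fin_cases j <;>
    simp [sl2U_val, Matrix.mul_apply, Fin.sum_univ_two, add_comm]

theorem sl2L_zero : sl2L (0 : k) = 1 := by
  ext i j
  fin_cases i <;> fin_cases j <;> simp [sl2L_val]

theorem sl2U_zero : sl2U (0 : k) = 1 := by
  ext i j
  fin_cases i <;> fin_cases j <;> simp [sl2U_val]

theorem sl2L_inv (t : k) : (sl2L t)⁻¹ = sl2L (-t) := by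
  apply inv_eq_of_mul_eq_one_right
  rw [sl2L_mul, add_neg_cancel, sl2L_zero]

theorem sl2U_inv (s : k) : (sl2U s)⁻¹ = sl2U (-s) := by
  apply inv_eq_of_mul_eq_one_right
  rw [sl2U_mul, add_neg_cancel, sl2U_zero]

/-- The stabilizer of a vector. -/
def vecStab (v : Fin 2 → k) : Subgroup (SpecialLinearGroup (Fin 2) k) where
  carrier := {g | (g : Matrix (Fin 2) (Fin 2) k) *ᵥ v = v}
  mul_mem' := by
    intro a b ha hb
    show (↑(a * b) : Matrix (Fin 2) (Fin 2) k) *ᵥ v = v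
    have ha' : (a : Matrix (Fin 2) (Fin 2) k) *ᵥ v = v := ha
    have hb' : (b : Matrix (Fin 2) (Fin 2) k) *ᵥ v = v := hb
    rw [Matrix.SpecialLinearGroup.coe_mul, ← Matrix.mulVec_mulVec, hb', ha']
  one_mem' := by
    show (↑(1 : SpecialLinearGroup (Fin 2) k) : Matrix (Fin 2) (Fin 2) k) *ᵥ v = v
    rw [Matrix.SpecialLinearGroup.coe_one, Matrix.one_mulVec]
  inv_mem' := by
    intro a ha
    have ha' : (a : Matrix (Fin 2) (Fin 2) k) *ᵥ v = v := ha
    show (↑(a⁻¹) : Matrix (Fin 2) (Fin 2) k) *ᵥ v = v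
    calc (↑(a⁻¹) : Matrix (Fin 2) (Fin 2) k) *ᵥ v
        = (↑(a⁻¹) : Matrix (Fin 2) (Fin 2) k) *ᵥ ((a : Matrix (Fin 2) (Fin 2) k) *ᵥ v) := by
          rw [ha']
      _ = v := by
          rw [Matrix.mulVec_mulVec, ← Matrix.SpecialLinearGroup.coe_mul, inv_mul_cancel,
            Matrix.SpecialLinearGroup.coe_one, Matrix.one_mulVec]

theorem mem_vecStab {v : Fin 2 → k} {g : SpecialLinearGroup (Fin 2) k} :
    g ∈ vecStab v ↔ (g : Matrix (Fin 2) (Fin 2) k) *ᵥ v = v := Iff.rfl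

theorem conjBy_vecStab (g : SpecialLinearGroup (Fin 2) k) (v : Fin 2 → k) :
    conjBy (vecStab v) g = vecStab ((g : Matrix (Fin 2) (Fin 2) k) *ᵥ v) := by
  ext x
  rw [mem_conjBy, mem_vecStab, mem_vecStab, Matrix.SpecialLinearGroup.coe_mul,
    Matrix.SpecialLinearGroup.coe_mul, ← Matrix.mulVec_mulVec, ← Matrix.mulVec_mulVec]
  constructor
  · intro h
    have h1 := congrArg (fun w => (g : Matrix (Fin 2) (Fin 2) k) *ᵥ w) h
    beta_reduce at h1
    rwa [Matrix.mulVec_mulVec, ← Matrix.SpecialLinearGroup.coe_mul, mul_inv_cancel,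
      Matrix.SpecialLinearGroup.coe_one, Matrix.one_mulVec] at h1
  · intro h
    rw [h, Matrix.mulVec_mulVec, ← Matrix.SpecialLinearGroup.coe_mul, inv_mul_cancel,
      Matrix.SpecialLinearGroup.coe_one, Matrix.one_mulVec]

theorem vecStab_smul {c : k} (hc : c ≠ 0) (v : Fin 2 → k) : vecStab (c • v) = vecStab v := by
  ext g
  rw [mem_vecStab, mem_vecStab, Matrix.mulVec_smul]
  constructor
  · intro h
    exact smul_right_injective _ hc h
  · intro h
    rw [h]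

theorem det_entries (g : SpecialLinearGroup (Fin 2) k) :
    (g : Matrix (Fin 2) (Fin 2) k) 0 0 * (g : Matrix (Fin 2) (Fin 2) k) 1 1 -
      (g : Matrix (Fin 2) (Fin 2) k) 0 1 * (g : Matrix (Fin 2) (Fin 2) k) 1 0 = 1 := by
  have h := g.2
  rw [Matrix.det_fin_two] at h
  exact h

theorem mem_vecStab_e2 {g : SpecialLinearGroup (Fin 2) k} :
    g ∈ vecStab ![0, 1] ↔ (g : Matrix (Fin 2) (Fin 2) k) 0 1 = 0 ∧
      (g : Matrix (Fin 2) (Fin 2) k) 0 0 = 1 ∧ (g : Matrix (Fin 2) (Fin 2) k) 1 1 = 1 := by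
  rw [mem_vecStab]
  constructor
  · intro h
    have h0 := congrFun h 0
    have h1 := congrFun h 1
    simp [Matrix.mulVec, dotProduct, Fin.sum_univ_two] at h0 h1
    refine ⟨h0, ?_, h1⟩
    have hd := det_entries g
    rw [h0, h1] at hd
    simpa using hd
  · rintro ⟨h0, -, h1⟩
    ext i
    fin_cases i <;> simp [Matrix.mulVec, dotProduct, Fin.sum_univ_two, h0, h1]

theorem mem_vecStab_e1 {g : SpecialLinearGroup (Fin 2) k} :
    g ∈ vecStab ![1, 0] ↔ (g : Matrix (Fin 2) (Fin 2) k) 1 0 = 0 ∧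
      (g : Matrix (Fin 2) (Fin 2) k) 0 0 = 1 ∧ (g : Matrix (Fin 2) (Fin 2) k) 1 1 = 1 := by
  rw [mem_vecStab]
  constructor
  · intro h
    have h0 := congrFun h 0
    have h1 := congrFun h 1
    simp [Matrix.mulVec, dotProduct, Fin.sum_univ_two] at h0 h1
    refine ⟨h1, h0, ?_⟩
    have hd := det_entries g
    rw [h0, h1] at hd
    simpa using hd
  · rintro ⟨h0, h1, -⟩
    ext i
    fin_cases i <;> simp [Matrix.mulVec, dotProduct, Fin.sum_univ_two, h0, h1]

theorem lower_eq : lowerUnipotentSL2 k = vecStab ![0, 1] := by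
  unfold lowerUnipotentSL2
  have : {g : SpecialLinearGroup (Fin 2) k | (g : Matrix (Fin 2) (Fin 2) k) 0 1 = 0 ∧
      (g : Matrix (Fin 2) (Fin 2) k) 0 0 = 1 ∧ (g : Matrix (Fin 2) (Fin 2) k) 1 1 = 1} =
      ((vecStab ![0, 1] : Subgroup (SpecialLinearGroup (Fin 2) k)) : Set _) := by
    ext g
    exact mem_vecStab_e2.symm
  rw [this, Subgroup.closure_eq]

theorem upper_eq : upperUnipotentSL2 k = vecStab ![1, 0] := by
  unfold upperUnipotentSL2
  have : {g : SpecialLinearGroup (Fin 2) k | (g : Matrix (Fin 2) (Fin 2) k) 1 0 = 0 ∧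
      (g : Matrix (Fin 2) (Fin 2) k) 0 0 = 1 ∧ (g : Matrix (Fin 2) (Fin 2) k) 1 1 = 1} =
      ((vecStab ![1, 0] : Subgroup (SpecialLinearGroup (Fin 2) k)) : Set _) := by
    ext g
    exact mem_vecStab_e1.symm
  rw [this, Subgroup.closure_eq]

theorem mem_lower_iff {g : SpecialLinearGroup (Fin 2) k} :
    g ∈ vecStab ![0, 1] ↔ ∃ t : k, g = sl2L t := by
  constructor
  · intro h
    obtain ⟨h01, h00, h11⟩ := mem_vecStab_e2.mp h
    refine ⟨(g : Matrix (Fin 2) (Fin 2) k) 1 0, ?_⟩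
    ext i j
    fin_cases i <;> fin_cases j <;> simp [sl2L_val, h01, h00, h11]
  · rintro ⟨t, rfl⟩
    rw [mem_vecStab_e2]
    simp [sl2L_val]

theorem mem_upper_iff {g : SpecialLinearGroup (Fin 2) k} :
    g ∈ vecStab ![1, 0] ↔ ∃ s : k, g = sl2U s := by
  constructor
  · intro h
    obtain ⟨h10, h00, h11⟩ := mem_vecStab_e1.mp h
    refine ⟨(g : Matrix (Fin 2) (Fin 2) k) 0 1, ?_⟩
    ext i j
    fin_cases i <;> fin_cases j <;> simp [sl2U_val, h10, h00, h11]
  · rintro ⟨s, rfl⟩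
    rw [mem_vecStab_e1]
    simp [sl2U_val]

theorem sl2L_eq_one_iff {t : k} : sl2L t = 1 ↔ t = 0 := by
  constructor
  · intro h
    have := congrArg (fun g : SpecialLinearGroup (Fin 2) k => (g : Matrix (Fin 2) (Fin 2) k) 1 0) h
    simpa [sl2L_val] using this
  · rintro rfl
    exact sl2L_zero

theorem sl2U_eq_one_iff {s : k} : sl2U s = 1 ↔ s = 0 := by
  constructor
  · intro h
    have := congrArg (fun g : SpecialLinearGroup (Fin 2) k => (g : Matrix (Fin 2) (Fin 2) k) 0 1) h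
    simpa [sl2U_val] using this
  · rintro rfl
    exact sl2U_zero

theorem sl2_partner_eq {t s : k} (h : t * s = 1) :
    conjBy (vecStab ![0, 1]) (sl2U s)⁻¹ = conjBy (vecStab ![1, 0]) (sl2L t)⁻¹ := by
  rw [conjBy_vecStab, conjBy_vecStab, sl2U_inv, sl2L_inv]
  have hs : s ≠ 0 := by
    rintro rfl
    rw [mul_zero] at h
    exact zero_ne_one h
  have e1 : (sl2U (-s) : Matrix (Fin 2) (Fin 2) k) *ᵥ ![0, 1] =
      (-s) • ((sl2L (-t) : Matrix (Fin 2) (Fin 2) k) *ᵥ ![1, 0]) := by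
    ext i
    fin_cases i
    · simp [sl2U_val, sl2L_val, Matrix.mulVec, dotProduct, Fin.sum_univ_two]
    · simp [sl2U_val, sl2L_val, Matrix.mulVec, dotProduct, Fin.sum_univ_two]
      rw [mul_comm]; exact h.symm
  rw [e1, vecStab_smul (neg_ne_zero.mpr hs)]

theorem sl2_gen_of_ne (g : SpecialLinearGroup (Fin 2) k)
    (hr : (g : Matrix (Fin 2) (Fin 2) k) 1 0 ≠ 0) :
    g ∈ vecStab ![0, 1] ⊔ vecStab (![1, 0] : Fin 2 → k) := by
  have hd := det_entries g
  have e : g = sl2U (((g : Matrix (Fin 2) (Fin 2) k) 0 0 - 1) / (g : Matrix (Fin 2) (Fin 2) k) 1 0) *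
      sl2L ((g : Matrix (Fin 2) (Fin 2) k) 1 0) *
      sl2U (((g : Matrix (Fin 2) (Fin 2) k) 1 1 - 1) / (g : Matrix (Fin 2) (Fin 2) k) 1 0) := by
    ext i j
    fin_cases i <;> fin_cases j
    · simp [sl2U_val, sl2L_val, Matrix.mul_apply, Fin.sum_univ_two]
      field_simp
      ring
    · simp [sl2U_val, sl2L_val, Matrix.mul_apply, Fin.sum_univ_two]
      field_simp
      linear_combination (-1 : k) * hd
    · simp [sl2U_val, sl2L_val, Matrix.mul_apply, Fin.sum_univ_two]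
    · simp [sl2U_val, sl2L_val, Matrix.mul_apply, Fin.sum_univ_two]
      field_simp
      ring
  rw [e]
  exact Subgroup.mul_mem _ (Subgroup.mul_mem _
    (Subgroup.mem_sup_right (mem_upper_iff.mpr ⟨_, rfl⟩))
    (Subgroup.mem_sup_left (mem_lower_iff.mpr ⟨_, rfl⟩)))
    (Subgroup.mem_sup_right (mem_upper_iff.mpr ⟨_, rfl⟩))

theorem sl2_gen (g : SpecialLinearGroup (Fin 2) k) :
    g ∈ vecStab ![0, 1] ⊔ vecStab (![1, 0] : Fin 2 → k) := by
  by_cases hr : (g : Matrix (Fin 2) (Fin 2) k) 1 0 = 0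
  · have hd := det_entries g
    rw [hr, mul_zero, sub_zero] at hd
    have hp : (g : Matrix (Fin 2) (Fin 2) k) 0 0 ≠ 0 := by
      intro h0
      rw [h0, zero_mul] at hd
      exact zero_ne_one hd
    have h1 : sl2L 1 * g ∈ vecStab ![0, 1] ⊔ vecStab (![1, 0] : Fin 2 → k) := by
      apply sl2_gen_of_ne
      simp [sl2L_val, Matrix.mul_apply, Fin.sum_univ_two, hr, hp]
    have e : g = (sl2L 1)⁻¹ * (sl2L 1 * g) := by group
    rw [e]
    exact Subgroup.mul_mem _ (Subgroup.inv_mem _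
      (Subgroup.mem_sup_left (mem_lower_iff.mpr ⟨_, rfl⟩))) h1
  · exact sl2_gen_of_ne g hr

theorem sl2_comm_lower : IsMulCommutative ↥(vecStab (![0, 1] : Fin 2 → k)) :=
  ⟨⟨fun x y => Subtype.ext (by
    obtain ⟨t, ht⟩ := mem_lower_iff.mp x.2
    obtain ⟨t', ht'⟩ := mem_lower_iff.mp y.2
    show (x : SpecialLinearGroup (Fin 2) k) * y = y * x
    rw [ht, ht', sl2L_mul, sl2L_mul, add_comm])⟩⟩

theorem sl2_comm_upper : IsMulCommutative ↥(vecStab (![1, 0] : Fin 2 → k)) :=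
  ⟨⟨fun x y => Subtype.ext (by
    obtain ⟨t, ht⟩ := mem_upper_iff.mp x.2
    obtain ⟨t', ht'⟩ := mem_upper_iff.mp y.2
    show (x : SpecialLinearGroup (Fin 2) k) * y = y * x
    rw [ht, ht', sl2U_mul, sl2U_mul, add_comm])⟩⟩

theorem sl2_rankOnePair :
    IsRankOnePair (vecStab (![0, 1] : Fin 2 → k)) (vecStab (![1, 0] : Fin 2 → k)) := by
  refine ⟨?_, ?_, ?_, ?_, ?_⟩
  · intro h
    have h1 : sl2L (1 : k) ∈ vecStab (![0, 1] : Fin 2 → k) := mem_lower_iff.mpr ⟨_, rfl⟩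
    rw [h, mem_vecStab_e1] at h1
    have := h1.1
    simp [sl2L_val] at this
  · have := sl2_comm_lower (k := k)
    exact isNilpotent_of_isMulCommutative
  · have := sl2_comm_upper (k := k)
    exact isNilpotent_of_isMulCommutative
  · intro a ha ha1
    obtain ⟨t, rfl⟩ := mem_lower_iff.mp ha
    have ht : t ≠ 0 := fun h => ha1 (sl2L_eq_one_iff.mpr h)
    refine ⟨sl2U t⁻¹, mem_upper_iff.mpr ⟨_, rfl⟩, ?_, sl2_partner_eq (mul_inv_cancel₀ ht)⟩
    intro h
    exact inv_ne_zero ht (sl2U_eq_one_iff.mp h)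
  · intro b hb hb1
    obtain ⟨s, rfl⟩ := mem_upper_iff.mp hb
    have hs : s ≠ 0 := fun h => hb1 (sl2U_eq_one_iff.mpr h)
    refine ⟨sl2L s⁻¹, mem_lower_iff.mpr ⟨_, rfl⟩, ?_, (sl2_partner_eq (inv_mul_cancel₀ hs)).symm⟩
    intro h
    exact inv_ne_zero hs (sl2L_eq_one_iff.mp h)

theorem sl2_special :
    IsSpecialRankOnePair (vecStab (![0, 1] : Fin 2 → k)) (vecStab (![1, 0] : Fin 2 → k)) := by
  refine ⟨sl2_rankOnePair, ?_⟩
  intro a ha ha1 b hb hb1 hAB
  obtain ⟨t, rfl⟩ := mem_lower_iff.mp ha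
  have ht : t ≠ 0 := fun h => ha1 (sl2L_eq_one_iff.mpr h)
  have hb' : b = sl2U t⁻¹ :=
    RankOne.eq_of_conj_eq_left sl2_rankOnePair hb (mem_upper_iff.mpr ⟨_, rfl⟩)
      (hAB.trans (sl2_partner_eq (mul_inv_cancel₀ ht)).symm)
  rw [hb', sl2U_inv, sl2L_inv]
  ext i j
  fin_cases i <;> fin_cases j
  · simp [sl2U_val, sl2L_val, Matrix.mul_apply, Fin.sum_univ_two]
  · simp [sl2U_val, sl2L_val, Matrix.mul_apply, Fin.sum_univ_two, ht]
  · simp [sl2U_val, sl2L_val, Matrix.mul_apply, Fin.sum_univ_two, ht]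
    ring
  · simp [sl2U_val, sl2L_val, Matrix.mul_apply, Fin.sum_univ_two, ht]

theorem sl2_rank_one_main (k : Type*) [Field k] :
    IsRankOneGroup (SpecialLinearGroup (Fin 2) k) (lowerUnipotentSL2 k) (upperUnipotentSL2 k) ∧
    IsSpecialRankOnePair (lowerUnipotentSL2 k) (upperUnipotentSL2 k) ∧
    HasAbelianUnipotents (lowerUnipotentSL2 k) (upperUnipotentSL2 k) := by
  rw [lower_eq, upper_eq]
  refine ⟨⟨?_, sl2_rankOnePair⟩, sl2_special, sl2_comm_lower, sl2_comm_upper⟩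
  rw [eq_top_iff]
  intro g _
  exact sl2_gen g

end SL2

end Cfsg.Agent.Helper8
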