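import Mathlib

set_option autoImplicit false

namespace Cfsg.Agent.Helper8.RegNormal

variable {G : Type*} [Group G] {X : Type*} [MulAction G X]

theorem free_of_reg (N : Subgroup G) (hreg : ∀ x : X, MulAction.stabilizer N x = ⊥) (x : X) :
    ∀ m₁ ∈ N, ∀ m₂ ∈ N, m₁ • x = m₂ • x → m₁ = m₂ := by
  intro m₁ h₁ m₂ h₂ h
  have h3 : (⟨m₂⁻¹ * m₁, mul_mem (inv_mem h₂) h₁⟩ : N) ∈ MulAction.stabilizer N x := by
    rw [MulAction.mem_stabilizer_iff]
    change (m₂⁻¹ * m₁) • x = x
    rw [mul_smul, h, inv_smul_smul]
  rw [hreg x, Subgroup.mem_bot] at h3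
  have h4 : m₂⁻¹ * m₁ = 1 := congrArg Subtype.val h3
  exact (inv_mul_eq_one.mp h4).symm

theorem conj_smul {g : G} {x : X} (hgx : g • x = x) (m : G) :
    g • (m • x) = (g * m * g⁻¹) • x := by
  rw [mul_smul, mul_smul, inv_smul_eq_iff.mpr hgx.symm]

theorem card_eq_card (N : Subgroup G) (htrans : MulAction.IsPretransitive N X) (x : X)
    (hfree : ∀ m₁ ∈ N, ∀ m₂ ∈ N, m₁ • x = m₂ • x → m₁ = m₂) : Nat.card N = Nat.card X := by
  apply Nat.card_congr
  refine Equiv.ofBijective (fun n : N => (n : G) • x) ⟨?_, ?_⟩
  · intro a b hab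
    exact Subtype.ext (hfree a a.2 b b.2 hab)
  · intro y
    obtain ⟨n, hn⟩ := MulAction.exists_smul_eq N x y
    exact ⟨n, hn⟩

/-- regular normal subgroup of a 2-primitive group -/
theorem two_prim [Fintype X] (hX : 2 ≤ Fintype.card X) (h2 : MulAction.IsMultiplyPreprimitive G X 2)
    (N : Subgroup G) [hN : N.Normal] (htrans : MulAction.IsPretransitive N X)
    (hreg : ∀ x : X, MulAction.stabilizer N x = ⊥) :
    Fintype.card X = 3 ∨
      (IsMulCommutative N ∧ (∀ n ∈ N, n ^ 2 = 1) ∧ ∃ m : ℕ, Fintype.card X = 2 ^ m) := by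
  classical
  have hne : Nonempty X := Fintype.card_pos_iff.mp (by omega)
  obtain ⟨x⟩ := hne
  have hfree := free_of_reg N hreg x
  by_cases h3 : Fintype.card X = 3
  · left
    exact h3
  right
  have hprim : MulAction.IsPreprimitive (fixingSubgroup G ({x} : Set X))
      (SubMulAction.ofFixingSubgroup G ({x} : Set X)) :=
    MulAction.IsMultiplyPreprimitive.isPreprimitive_ofFixingSubgroup G 2 (by simp; rfl)
  have hmem : ∀ y : X, y ≠ x → y ∈ SubMulAction.ofFixingSubgroup G ({x} : Set X) := by
    intro y hy
    rw [SubMulAction.mem_ofFixingSubgroup_iff]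
    simpa using hy
  have hsq : ∀ n ∈ N, n ^ 2 = 1 := by
    intro n hn
    by_contra hn2
    have hn1 : n ≠ 1 := by
      rintro rfl
      exact hn2 (one_pow 2)
    have hninv : n ≠ n⁻¹ := by
      intro h
      apply hn2
      rw [pow_two]
      nth_rewrite 2 [h]
      exact mul_inv_cancel n
    have hnx : n • x ≠ x := fun h => hn1 (hfree n hn 1 (one_mem _) (by rw [h, one_smul]))
    have hnx' : n⁻¹ • x ≠ x := fun h =>
      hn1 (inv_eq_one.mp (hfree n⁻¹ (inv_mem hn) 1 (one_mem _) (by rw [h, one_smul])))
    have hnn : n • x ≠ n⁻¹ • x := fun h => hninv (hfree n hn n⁻¹ (inv_mem hn) h)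
    have hblock : MulAction.IsBlock (fixingSubgroup G ({x} : Set X))
        ({⟨n • x, hmem _ hnx⟩, ⟨n⁻¹ • x, hmem _ hnx'⟩} :
          Set ↥(SubMulAction.ofFixingSubgroup G ({x} : Set X))) := by
      rw [MulAction.isBlock_iff_smul_eq_of_mem]
      intro g z hz hgz
      have hgx : (g : G) • x = x := (mem_fixingSubgroup_iff G).mp g.2 x rfl
      have hgn : (g : G) * n * (g : G)⁻¹ ∈ N := hN.conj_mem n hn g
      have hgn' : (g : G) * n⁻¹ * (g : G)⁻¹ ∈ N := hN.conj_mem n⁻¹ (inv_mem hn) g
      have e : (g : G) * n * (g : G)⁻¹ = ((g : G) * n⁻¹ * (g : G)⁻¹)⁻¹ := by group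
      have hcase : (g : G) * n * (g : G)⁻¹ = n ∨ (g : G) * n * (g : G)⁻¹ = n⁻¹ := by
        rcases hz with rfl | rfl
        · rcases hgz with h | h
          · left
            have h' : (g : G) • (n • x) = n • x := congrArg Subtype.val h
            rw [conj_smul hgx] at h'
            exact hfree _ hgn _ hn h'
          · right
            have h' : (g : G) • (n • x) = n⁻¹ • x := congrArg Subtype.val h
            rw [conj_smul hgx] at h'
            exact hfree _ hgn _ (inv_mem hn) h'
        · rcases hgz with h | h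
          · right
            have h' : (g : G) • (n⁻¹ • x) = n • x := congrArg Subtype.val h
            rw [conj_smul hgx] at h'
            rw [e, hfree _ hgn' _ hn h']
          · left
            have h' : (g : G) • (n⁻¹ • x) = n⁻¹ • x := congrArg Subtype.val h
            rw [conj_smul hgx] at h'
            rw [e, hfree _ hgn' _ (inv_mem hn) h', inv_inv]
      have hg1 : ∀ (m : G) (hm : m • x ≠ x) (hm' : ((g : G) * m * (g : G)⁻¹) • x ≠ x),
          g • (⟨m • x, hmem _ hm⟩ : ↥(SubMulAction.ofFixingSubgroup G ({x} : Set X)))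
            = ⟨((g : G) * m * (g : G)⁻¹) • x, hmem _ hm'⟩ := by
        intro m hm hm'
        exact Subtype.ext (conj_smul hgx m)
      rw [Set.smul_set_insert, Set.smul_set_singleton]
      rcases hcase with hc | hc
      · have hc' : (g : G) * n⁻¹ * (g : G)⁻¹ = n⁻¹ := by
          rw [← inv_inj, ← e, hc, inv_inv]
        rw [hg1 n hnx (by rw [hc]; exact hnx), hg1 n⁻¹ hnx' (by rw [hc']; exact hnx')]
        simp only [hc, hc']
      · have hc' : (g : G) * n⁻¹ * (g : G)⁻¹ = n := by
          rw [← inv_inj, ← e, hc]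
        rw [hg1 n hnx (by rw [hc]; exact hnx'), hg1 n⁻¹ hnx' (by rw [hc']; exact hnx)]
        simp only [hc, hc']
        exact Set.pair_comm _ _
    rcases hprim.isTrivialBlock_of_isBlock hblock with hsub | huniv
    · have := hsub (Set.mem_insert _ _) (Set.mem_insert_of_mem _ (Set.mem_singleton _))
      exact hnn (congrArg Subtype.val this)
    · apply h3
      have hall : (Set.univ : Set X) = {x, n • x, n⁻¹ • x} := by
        ext y
        simp only [Set.mem_univ, Set.mem_insert_iff, Set.mem_singleton_iff, true_iff]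
        by_cases hy : y = x
        · left
          exact hy
        · right
          have : (⟨y, hmem y hy⟩ : ↥(SubMulAction.ofFixingSubgroup G ({x} : Set X))) ∈
              ({⟨n • x, hmem _ hnx⟩, ⟨n⁻¹ • x, hmem _ hnx'⟩} :
                Set ↥(SubMulAction.ofFixingSubgroup G ({x} : Set X))) := by
            rw [huniv]
            trivial
          rcases this with h | h
          · left
            exact congrArg Subtype.val h
          · right
            exact congrArg Subtype.val h
      have h5 : (Set.univ : Set X).ncard = 3 :=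
        Set.ncard_eq_three.mpr ⟨x, n • x, n⁻¹ • x, Ne.symm hnx, Ne.symm hnx', hnn, hall⟩
      rw [Set.ncard_univ, Nat.card_eq_fintype_card] at h5
      exact h5
  have hcard := card_eq_card N htrans x hfree
  have hfin : Finite N := by
    apply Nat.finite_of_card_ne_zero
    rw [hcard, Nat.card_eq_fintype_card]
    omega
  refine ⟨⟨⟨fun a b => Subtype.ext ?_⟩⟩, hsq, ?_⟩
  · have ha := hsq a a.2
    have hb := hsq b b.2
    have hab := hsq _ (mul_mem a.2 b.2)
    change (a : G) * (b : G) = (b : G) * (a : G)
    have e1 : (a : G) * b = ((a : G) * b)⁻¹ := by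
      rw [eq_inv_iff_mul_eq_one, ← pow_two]
      exact hab
    have e2 : (a : G)⁻¹ = a := by
      rw [inv_eq_iff_eq_inv, eq_inv_iff_mul_eq_one, ← pow_two]
      exact ha
    have e3 : (b : G)⁻¹ = b := by
      rw [inv_eq_iff_eq_inv, eq_inv_iff_mul_eq_one, ← pow_two]
      exact hb
    rw [e1, mul_inv_rev, e2, e3]
  · have hP : IsPGroup 2 N := by
      intro n
      refine ⟨1, ?_⟩
      rw [pow_one]
      exact Subtype.ext (hsq n n.2)
    obtain ⟨m, hm⟩ := IsPGroup.iff_card.mp hP
    refine ⟨m, ?_⟩
    rw [← Nat.card_eq_fintype_card, ← hcard, hm]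


/-- regular normal subgroup of a 3-primitive group -/
theorem three_prim [Fintype X] (hX : 3 ≤ Fintype.card X)
    (h3 : MulAction.IsMultiplyPreprimitive G X 3)
    (N : Subgroup G) [hN : N.Normal] (htrans : MulAction.IsPretransitive N X)
    (hreg : ∀ x : X, MulAction.stabilizer N x = ⊥) :
    Fintype.card X = 3 ∨ Fintype.card X = 4 := by
  classical
  have hne : Nonempty X := Fintype.card_pos_iff.mp (by omega)
  obtain ⟨x⟩ := hne
  have hfree := free_of_reg N hreg x
  -- a second point
  obtain ⟨y, hy⟩ : ∃ y : X, y ≠ x := by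
    by_contra hcon
    push Not at hcon
    have : Fintype.card X ≤ 1 := Fintype.card_le_one_iff.mpr (fun a b => by rw [hcon a, hcon b])
    omega
  obtain ⟨⟨n₁, hn₁⟩, hn₁y⟩ := MulAction.exists_smul_eq N x y
  have hn₁y' : n₁ • x = y := hn₁y
  have hn₁x : n₁ • x ≠ x := by
    rw [hn₁y']
    exact hy
  have hn₁1 : n₁ ≠ 1 := by
    rintro rfl
    exact hn₁x (one_smul _ _)
  have hprim : MulAction.IsPreprimitive (fixingSubgroup G ({x, n₁ • x} : Set X))
      (SubMulAction.ofFixingSubgroup G ({x, n₁ • x} : Set X)) :=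
    MulAction.IsMultiplyPreprimitive.isPreprimitive_ofFixingSubgroup G 3 (by
      rw [Set.encard_pair (Ne.symm hn₁x)]
      rfl)
  have hmem : ∀ z : X, z ≠ x → z ≠ n₁ • x →
      z ∈ SubMulAction.ofFixingSubgroup G ({x, n₁ • x} : Set X) := by
    intro z hz hz'
    rw [SubMulAction.mem_ofFixingSubgroup_iff]
    simp [hz, hz']
  have hfixx : ∀ g : fixingSubgroup G ({x, n₁ • x} : Set X), (g : G) • x = x := fun g =>
    (mem_fixingSubgroup_iff G).mp g.2 x (Set.mem_insert _ _)
  have hfixn : ∀ g : fixingSubgroup G ({x, n₁ • x} : Set X), (g : G) * n₁ * (g : G)⁻¹ = n₁ := by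
    intro g
    have h1 : (g : G) • (n₁ • x) = n₁ • x :=
      (mem_fixingSubgroup_iff G).mp g.2 _ (Set.mem_insert_of_mem _ rfl)
    rw [conj_smul (hfixx g)] at h1
    exact hfree _ (hN.conj_mem n₁ hn₁ g) _ hn₁ h1
  by_cases hsq : n₁ * n₁ = 1
  · -- involution case
    right
    obtain ⟨z, hzx, hzn⟩ : ∃ z : X, z ≠ x ∧ z ≠ n₁ • x := by
      by_contra hcon
      push Not at hcon
      have hsub : (Finset.univ : Finset X) ⊆ {x, n₁ • x} := by
        intro z _
        by_cases hz : z = x
        · simp [hz]
        · simp [hcon z hz]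
      have := Finset.card_le_card hsub
      have h2 : ({x, n₁ • x} : Finset X).card ≤ 2 := Finset.card_le_two
      rw [Finset.card_univ] at this
      omega
    obtain ⟨⟨m, hm⟩, hmz⟩ := MulAction.exists_smul_eq N x z
    have hmz' : m • x = z := hmz
    have hninv : n₁⁻¹ = n₁ := inv_eq_of_mul_eq_one_left hsq
    have hmx : m • x ≠ x := by
      rw [hmz']
      exact hzx
    have hmn : m • x ≠ n₁ • x := by
      rw [hmz']
      exact hzn
    have hm1 : m ≠ 1 := by
      rintro rfl
      exact hmx (one_smul _ _)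
    have hmn₁ : m ≠ n₁ := by
      rintro rfl
      exact hmn rfl
    have hnm : n₁ * m ∈ N := mul_mem hn₁ hm
    have hnmx : (n₁ * m) • x ≠ x := by
      intro h
      have := hfree _ hnm 1 (one_mem _) (by rw [h, one_smul])
      apply hmn₁
      rw [← hninv]
      exact (eq_inv_of_mul_eq_one_right this)
    have hnmn : (n₁ * m) • x ≠ n₁ • x := by
      intro h
      have := hfree _ hnm _ hn₁ h
      exact hm1 (mul_eq_left.mp this)
    have hb12 : m • x ≠ (n₁ * m) • x := by
      intro h
      have := hfree _ hm _ hnm h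
      exact hn₁1 (mul_eq_right.mp this.symm)
    have hblock : MulAction.IsBlock (fixingSubgroup G ({x, n₁ • x} : Set X))
        ({⟨m • x, hmem _ hmx hmn⟩, ⟨(n₁ * m) • x, hmem _ hnmx hnmn⟩} :
          Set ↥(SubMulAction.ofFixingSubgroup G ({x, n₁ • x} : Set X))) := by
      rw [MulAction.isBlock_iff_smul_eq_of_mem]
      intro g w hw hgw
      have hgx := hfixx g
      have hgm : (g : G) * m * (g : G)⁻¹ ∈ N := hN.conj_mem m hm g
      have e : (g : G) * (n₁ * m) * (g : G)⁻¹ = n₁ * ((g : G) * m * (g : G)⁻¹) := by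
        have h1 : (g : G) * (n₁ * m) * (g : G)⁻¹
            = ((g : G) * n₁ * (g : G)⁻¹) * ((g : G) * m * (g : G)⁻¹) := by group
        rw [h1, hfixn g]
      have hcase : (g : G) * m * (g : G)⁻¹ = m ∨ (g : G) * m * (g : G)⁻¹ = n₁ * m := by
        rcases hw with rfl | rfl
        · rcases hgw with h | h
          · left
            have h' : (g : G) • (m • x) = m • x := congrArg Subtype.val h
            rw [conj_smul hgx] at h'
            exact hfree _ hgm _ hm h'
          · right
            have h' : (g : G) • (m • x) = (n₁ * m) • x := congrArg Subtype.val h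
            rw [conj_smul hgx] at h'
            exact hfree _ hgm _ hnm h'
        · rcases hgw with h | h
          · right
            have h' : (g : G) • ((n₁ * m) • x) = m • x := congrArg Subtype.val h
            rw [conj_smul hgx, e] at h'
            have h2 := hfree _ (mul_mem hn₁ hgm) _ hm h'
            calc (g : G) * m * (g : G)⁻¹ = n₁ * (n₁ * ((g : G) * m * (g : G)⁻¹)) := by
                  rw [← mul_assoc, hsq, one_mul]
              _ = n₁ * m := by rw [h2]
          · left
            have h' : (g : G) • ((n₁ * m) • x) = (n₁ * m) • x := congrArg Subtype.val h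
            rw [conj_smul hgx, e] at h'
            have h2 := hfree _ (mul_mem hn₁ hgm) _ hnm h'
            exact mul_left_cancel h2
      have hg1 : ∀ (k : G) (hk : k • x ≠ x) (hk2 : k • x ≠ n₁ • x)
          (hk' : ((g : G) * k * (g : G)⁻¹) • x ≠ x)
          (hk2' : ((g : G) * k * (g : G)⁻¹) • x ≠ n₁ • x),
          g • (⟨k • x, hmem _ hk hk2⟩ :
            ↥(SubMulAction.ofFixingSubgroup G ({x, n₁ • x} : Set X)))
            = ⟨((g : G) * k * (g : G)⁻¹) • x, hmem _ hk' hk2'⟩ := by
        intro k hk hk2 hk' hk2'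
        exact Subtype.ext (conj_smul hgx k)
      rw [Set.smul_set_insert, Set.smul_set_singleton]
      rcases hcase with hc | hc
      · have hc' : (g : G) * (n₁ * m) * (g : G)⁻¹ = n₁ * m := by rw [e, hc]
        rw [hg1 m hmx hmn (by rw [hc]; exact hmx) (by rw [hc]; exact hmn),
          hg1 (n₁ * m) hnmx hnmn (by rw [hc']; exact hnmx) (by rw [hc']; exact hnmn)]
        simp only [hc, hc']
      · have hc' : (g : G) * (n₁ * m) * (g : G)⁻¹ = m := by
          rw [e, hc, ← mul_assoc, hsq, one_mul]
        rw [hg1 m hmx hmn (by rw [hc]; exact hnmx) (by rw [hc]; exact hnmn),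
          hg1 (n₁ * m) hnmx hnmn (by rw [hc']; exact hmx) (by rw [hc']; exact hmn)]
        simp only [hc, hc']
        exact Set.pair_comm _ _
    rcases hprim.isTrivialBlock_of_isBlock hblock with hsub | huniv
    · have := hsub (Set.mem_insert _ _) (Set.mem_insert_of_mem _ (Set.mem_singleton _))
      exact absurd (congrArg Subtype.val this) hb12
    · have hU : (Finset.univ : Finset X) = {x, n₁ • x, m • x, (n₁ * m) • x} := by
        ext w
        simp only [Finset.mem_univ, Finset.mem_insert, Finset.mem_singleton, true_iff]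
        by_cases hw : w = x
        · left
          exact hw
        by_cases hw' : w = n₁ • x
        · right
          left
          exact hw'
        have : (⟨w, hmem w hw hw'⟩ : ↥(SubMulAction.ofFixingSubgroup G ({x, n₁ • x} : Set X))) ∈
            ({⟨m • x, hmem _ hmx hmn⟩, ⟨(n₁ * m) • x, hmem _ hnmx hnmn⟩} :
              Set ↥(SubMulAction.ofFixingSubgroup G ({x, n₁ • x} : Set X))) := by
          rw [huniv]
          trivial
        rcases this with h | h
        · right
          right
          left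
          exact congrArg Subtype.val h
        · right
          right
          right
          exact congrArg Subtype.val h
      rw [← Finset.card_univ, hU,
        Finset.card_insert_of_notMem (by simp [Ne.symm hn₁x, Ne.symm hmx, Ne.symm hnmx]),
        Finset.card_insert_of_notMem (by simp [Ne.symm hmn, Ne.symm hnmn]),
        Finset.card_insert_of_notMem (by simp [hb12]), Finset.card_singleton]
  · -- order at least three: the point `n₁² x` is fixed
    left
    have hn2 : n₁ * n₁ ∈ N := mul_mem hn₁ hn₁
    have hyx : (n₁ * n₁) • x ≠ x := by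
      intro h
      exact hsq (hfree _ hn2 1 (one_mem _) (by rw [h, one_smul]))
    have hyn : (n₁ * n₁) • x ≠ n₁ • x := by
      intro h
      have := hfree _ hn2 _ hn₁ h
      exact hn₁1 (mul_eq_left.mp this)
    have hpt := hprim.toIsPretransitive
    have hU : (Finset.univ : Finset X) = {x, n₁ • x, (n₁ * n₁) • x} := by
      ext w
      simp only [Finset.mem_univ, Finset.mem_insert, Finset.mem_singleton, true_iff]
      by_cases hw : w = x
      · left
        exact hw
      by_cases hw' : w = n₁ • x
      · right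
        left
        exact hw'
      right
      right
      obtain ⟨g, hg⟩ := MulAction.exists_smul_eq (fixingSubgroup G ({x, n₁ • x} : Set X))
        (⟨(n₁ * n₁) • x, hmem _ hyx hyn⟩ :
          ↥(SubMulAction.ofFixingSubgroup G ({x, n₁ • x} : Set X))) ⟨w, hmem w hw hw'⟩
      have h1 : (g : G) • ((n₁ * n₁) • x) = w := congrArg Subtype.val hg
      rw [conj_smul (hfixx g)] at h1
      have e : (g : G) * (n₁ * n₁) * (g : G)⁻¹
          = ((g : G) * n₁ * (g : G)⁻¹) * ((g : G) * n₁ * (g : G)⁻¹) := by group
      rw [e, hfixn g] at h1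
      exact h1.symm
    rw [← Finset.card_univ, hU,
      Finset.card_insert_of_notMem (by simp [Ne.symm hn₁x, Ne.symm hyx]),
      Finset.card_insert_of_notMem (by simp [Ne.symm hyn]), Finset.card_singleton]

end Cfsg.Agent.Helper8.RegNormal
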