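import Cfsg.Agent.Helper8.RootMap

/-!
# Basic facts on sets of abstract root subgroups (Timmesfeld II §2)
-/

set_option autoImplicit false

namespace Cfsg.Agent.Helper8

open Cfsg
open scoped commutatorElement

variable {G : Type*} [Group G]

/-- In a rank one pair `(A, C)`, `a C a⁻¹ ∩ N(C) = 1` for `1 ≠ a ∈ A`. -/
theorem RankOne.conj_right_inf_normalizer {A C : Subgroup G} (hp : IsRankOnePair A C) {a : G}
    (ha : a ∈ A) (ha1 : a ≠ 1) : conjBy C a ⊓ Subgroup.normalizer (C : Set G) = ⊥ := by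
  rw [eq_bot_iff]
  intro z hz
  obtain ⟨hz1, hz2⟩ := Subgroup.mem_inf.mp hz
  obtain ⟨c₀, hc₀, -, hAC⟩ := hp.cond_left a⁻¹ (A.inv_mem ha) (fun h => ha1 (inv_eq_one.mp h))
  rw [inv_inv] at hAC
  rw [← hAC, mem_conjBy, inv_inv] at hz1
  have h1 : c₀ * z * c₀⁻¹ ∈ A ⊓ Subgroup.normalizer (C : Set G) :=
    Subgroup.mem_inf.mpr ⟨hz1, Subgroup.mul_mem _ (Subgroup.mul_mem _
      (Subgroup.le_normalizer hc₀) hz2) (Subgroup.inv_mem _ (Subgroup.le_normalizer hc₀))⟩
  rw [RankOne.inf_normalizer hp, Subgroup.mem_bot] at h1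
  rw [Subgroup.mem_bot]
  have e : z = c₀⁻¹ * (c₀ * z * c₀⁻¹) * c₀ := by group
  rw [e, h1]; group

/-- In a rank one pair `(A, C)`, `c A c⁻¹ ∩ N(A) = 1` for `1 ≠ c ∈ C`. -/
theorem RankOne.conj_left_inf_normalizer {A C : Subgroup G} (hp : IsRankOnePair A C) {c : G}
    (hc : c ∈ C) (hc1 : c ≠ 1) : conjBy A c ⊓ Subgroup.normalizer (A : Set G) = ⊥ :=
  RankOne.conj_right_inf_normalizer (RankOnePair_symm hp) hc hc1

theorem RankOne.inf_conj_left {A C : Subgroup G} (hp : IsRankOnePair A C) {c : G}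
    (hc : c ∈ C) (hc1 : c ≠ 1) : A ⊓ conjBy A c = ⊥ := by
  rw [eq_bot_iff, ← RankOne.conj_left_inf_normalizer hp hc hc1]
  intro x hx
  obtain ⟨h1, h2⟩ := Subgroup.mem_inf.mp hx
  exact Subgroup.mem_inf.mpr ⟨h2, Subgroup.le_normalizer h1⟩

theorem RankOne.inf_conj_right {A C : Subgroup G} (hp : IsRankOnePair A C) {a : G}
    (ha : a ∈ A) (ha1 : a ≠ 1) : C ⊓ conjBy C a = ⊥ :=
  RankOne.inf_conj_left (RankOnePair_symm hp) ha ha1

theorem exists_partner_of_not_isolated {S : Set (Subgroup G)} {A : Subgroup G}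
    (hA : ¬ IsIsolatedIn (FAdj S) S A) (hAS : A ∈ S) : ∃ C ∈ S, IsRankOnePair A C := by
  unfold IsIsolatedIn at hA
  by_contra hcon
  apply hA
  refine ⟨hAS, fun B => ⟨?_, ?_⟩⟩
  · rintro ⟨-, hB, hp⟩
    exact hcon ⟨B, hB, hp⟩
  · rintro ⟨hB, -, hp⟩
    exact hcon ⟨B, hB, RankOnePair_symm hp⟩

theorem conjBy_central_mul {ζ : G} (hζ : ζ ∈ Subgroup.center G) (C : Subgroup G) (g : G) :
    conjBy C (ζ * g) = conjBy C g := by
  rw [Subgroup.mem_center_iff] at hζ
  ext x
  rw [mem_conjBy, mem_conjBy]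
  have e : (ζ * g)⁻¹ * x * (ζ * g) = g⁻¹ * x * g := by
    have h1 := hζ x
    have h2 : (ζ * g)⁻¹ * x * (ζ * g) = g⁻¹ * (ζ⁻¹ * (x * ζ)) * g := by group
    rw [h2, h1]; group
  rw [e]

theorem mem_normalizer_of_centralizes {C : Subgroup G} {x : G}
    (h : ∀ y ∈ C, x * y = y * x) : x ∈ Subgroup.normalizer (C : Set G) :=
  mem_normalizer_of_forall_comm fun y hy => (h y hy).symm

theorem comm_of_commutator_eq_bot {D C : Subgroup G} (h : ⁅D, C⁆ = ⊥) {x y : G} (hx : x ∈ D)
    (hy : y ∈ C) : x * y = y * x := by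
  have h1 := Subgroup.commutator_eq_bot_iff_le_centralizer.mp h hx
  rw [Subgroup.mem_centralizer_iff] at h1
  exact (h1 y hy).symm

/-- The common argument: in the commutator case for `(E, C)`, an element `x ∈ E` acting on `C`
like a non-identity element `a` of a rank one partner `A` of `C` gives a contradiction. -/
theorem commCase_contra {S : Set (Subgroup G)} {A C E : Subgroup G} (hp : IsRankOnePair A C)
    (hE : RootCommutatorCase S E C) {x a : G} (hx : x ∈ E) (hx1 : x ≠ 1) (ha : a ∈ A)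
    (ha1 : a ≠ 1) (hxa : ∀ c ∈ C, x * c * x⁻¹ = a * c * a⁻¹) : False := by
  obtain ⟨-, hcentral, hcl1, -⟩ := hE
  obtain ⟨c, hc, hc1⟩ := exists_ne_one_of_ne_bot (RankOne.right_ne_bot hp)
  have he : x * c * x⁻¹ * c⁻¹ ∈ ⁅E, C⁆ := by
    rw [← hcl1 x hx hx1]
    exact Subgroup.subset_closure ⟨c, hc, rfl⟩
  have heN : x * c * x⁻¹ * c⁻¹ ∈ Subgroup.normalizer (C : Set G) :=
    mem_normalizer_of_centralizes fun y hy => hcentral _ he y (Subgroup.mem_sup_right hy)
  have h1 : a * c * a⁻¹ ∈ Subgroup.normalizer (C : Set G) := by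
    have e : a * c * a⁻¹ = x * c * x⁻¹ * c⁻¹ * c := by rw [← hxa c hc]; group
    rw [e]
    exact Subgroup.mul_mem _ heN (Subgroup.le_normalizer hc)
  have h2 : a * c * a⁻¹ ∈ conjBy C a := ⟨c, hc, rfl⟩
  have h3 : a * c * a⁻¹ ∈ conjBy C a ⊓ Subgroup.normalizer (C : Set G) :=
    Subgroup.mem_inf.mpr ⟨h2, h1⟩
  rw [RankOne.conj_right_inf_normalizer hp ha ha1, Subgroup.mem_bot] at h3
  apply hc1
  have e : c = a⁻¹ * (a * c * a⁻¹) * a := by group
  rw [e, h3]; group

/-- Timmesfeld II (2.1): a non-isolated root subgroup meets every other root subgroup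
trivially. -/
theorem root_inf_trivial {S : Set (Subgroup G)} (hS : IsRootSubgroupSet S) {A : Subgroup G}
    (hA : ¬ IsIsolatedIn (FAdj S) S A) (hAS : A ∈ S) : ∀ D ∈ S, A ⊓ D = ⊥ ∨ A = D := by
  obtain ⟨C, hC, hp⟩ := exists_partner_of_not_isolated hA hAS
  intro D hD
  by_cases h : A ⊓ D = ⊥
  · exact Or.inl h
  right
  obtain ⟨x, hx, hx1⟩ := exists_ne_one_of_ne_bot h
  obtain ⟨hxA, hxD⟩ := Subgroup.mem_inf.mp hx
  rcases hS.pair D hD C hC with h1 | h1 | h1
  · exfalso
    have h2 : x ∈ A ⊓ Subgroup.normalizer (C : Set G) :=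
      Subgroup.mem_inf.mpr ⟨hxA, mem_normalizer_of_centralizes fun y hy =>
        comm_of_commutator_eq_bot h1 hxD hy⟩
    rw [RankOne.inf_normalizer hp, Subgroup.mem_bot] at h2
    exact hx1 h2
  · obtain ⟨c, hc, -, hAC⟩ := hp.cond_left x hxA hx1
    obtain ⟨c', hc', -, hDC⟩ := h1.cond_left x hxD hx1
    have h2 := congrArg (fun E => conjBy E c') (hAC.trans hDC.symm)
    simp only [conjBy_conjBy, mul_inv_cancel, conjBy_one] at h2
    by_cases hy : c' * c⁻¹ = 1
    · rw [hy, conjBy_one] at h2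
      exact h2
    · exfalso
      have h3 : x ∈ A ⊓ conjBy A (c' * c⁻¹) := Subgroup.mem_inf.mpr ⟨hxA, h2 ▸ hxD⟩
      rw [RankOne.inf_conj_left hp (C.mul_mem hc' (C.inv_mem hc)) hy, Subgroup.mem_bot] at h3
      exact hx1 h3
  · exfalso
    exact commCase_contra hp h1 hxD hx1 hxA hx1 (fun _ _ => rfl)

/-- Timmesfeld II (2.2)-type statement: a central translate of a root element is not a root
element. -/
theorem root_central_translate {S : Set (Subgroup G)} (hS : IsRootSubgroupSet S)
    {A B : Subgroup G} (hA : A ∈ S) (hB : B ∈ rankOnePartners S A) {z : G}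
    (hz : z ∈ Subgroup.centralizer ((A ⊔ B : Subgroup G) : Set G)) (hz1 : z ≠ 1) :
    ∀ a ∈ A, a ≠ 1 → z * a ∉ rootElements S := by
  obtain ⟨hBS, hp⟩ := hB
  rw [Subgroup.mem_centralizer_iff] at hz
  have hzA : ∀ y ∈ A, y * z = z * y := fun y hy => hz y (Subgroup.mem_sup_left hy)
  have hzB : ∀ y ∈ B, y * z = z * y := fun y hy => hz y (Subgroup.mem_sup_right hy)
  have hAc := hS.commutative A hA
  have hAcomm : ∀ y ∈ A, ∀ y' ∈ A, y * y' = y' * y := fun y hy y' hy' =>
    congrArg Subtype.val (mul_comm' (⟨y, hy⟩ : A) ⟨y', hy'⟩)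
  intro a ha ha1 hroot
  obtain ⟨hx1, E, hE, hxE⟩ := hroot
  -- `z * a` centralizes `A`
  have hxA : ∀ y ∈ A, (z * a) * y = y * (z * a) := by
    intro y hy
    rw [mul_assoc, hAcomm a ha y hy, ← mul_assoc, ← hzA y hy, mul_assoc]
  -- `z * a` acts on `B` like `a`
  have hxB : ∀ b ∈ B, (z * a) * b * (z * a)⁻¹ = a * b * a⁻¹ := by
    intro b hb
    have h1 : a * b * a⁻¹ ∈ A ⊔ B := Subgroup.mul_mem _ (Subgroup.mul_mem _
      (Subgroup.mem_sup_left ha) (Subgroup.mem_sup_right hb))
      (Subgroup.inv_mem _ (Subgroup.mem_sup_left ha))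
    have h2 := hz _ h1
    have e : (z * a) * b * (z * a)⁻¹ = z * (a * b * a⁻¹) * z⁻¹ := by group
    rw [e, ← h2]; group
  have hEA : ⁅E, A⁆ = ⊥ := by
    rcases hS.pair E hE A hA with h1 | h1 | h1
    · exact h1
    · exfalso
      have h2 : z * a ∈ E ⊓ Subgroup.normalizer (A : Set G) :=
        Subgroup.mem_inf.mpr ⟨hxE, mem_normalizer_of_centralizes hxA⟩
      rw [RankOne.inf_normalizer h1, Subgroup.mem_bot] at h2
      exact hx1 h2
    · exfalso
      obtain ⟨hmem, -, hcl1, -⟩ := h1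
      apply hS.ne_bot _ hmem
      rw [← hcl1 _ hxE hx1, Subgroup.closure_eq_bot_iff]
      rintro _ ⟨y, hy, rfl⟩
      rw [Set.mem_singleton_iff]
      show z * a * y * (z * a)⁻¹ * y⁻¹ = 1
      rw [hxA y hy]
      group
  rcases hS.pair E hE B hBS with h2 | h2 | h2
  · -- `a` centralizes `B`
    have h3 : a ∈ A ⊓ Subgroup.normalizer (B : Set G) := by
      refine Subgroup.mem_inf.mpr ⟨ha, mem_normalizer_of_centralizes fun b hb => ?_⟩
      have h4 := comm_of_commutator_eq_bot h2 hxE hb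
      have h5 := hxB b hb
      rw [h4, mul_inv_cancel_right] at h5
      have e : a * b = a * b * a⁻¹ * a := by group
      rw [e, ← h5]
    rw [RankOne.inf_normalizer hp, Subgroup.mem_bot] at h3
    exact ha1 h3
  · obtain ⟨b, hb, -, hEB⟩ := h2.cond_left _ hxE hx1
    obtain ⟨b₀, hb₀, -, hAB⟩ := hp.cond_left a ha ha1
    have h3 : conjBy B (z * a)⁻¹ = conjBy B a⁻¹ := by
      ext y
      rw [mem_conjBy, mem_conjBy, inv_inv, inv_inv]
      have h4 : (z * a) * y * (z * a)⁻¹ = z * (a * y * a⁻¹) * z⁻¹ := by group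
      rw [h4]
      constructor
      · intro h5
        have h6 := hzB _ h5
        have e : a * y * a⁻¹ = z⁻¹ * (z * (a * y * a⁻¹) * z⁻¹ * z) := by group
        rw [e, h6]
        have e2 : z⁻¹ * (z * (z * (a * y * a⁻¹) * z⁻¹)) = z * (a * y * a⁻¹) * z⁻¹ := by group
        rw [e2]; exact h5
      · intro h5
        have h6 := hzB _ h5
        have e : z * (a * y * a⁻¹) * z⁻¹ = a * y * a⁻¹ := by
          rw [← h6]; group
        rw [e]; exact h5
    have h4 := congrArg (fun E => conjBy E b) ((hEB.trans h3).trans hAB.symm)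
    simp only [conjBy_conjBy, mul_inv_cancel, conjBy_one] at h4
    by_cases hy : b * b₀⁻¹ = 1
    · rw [hy, conjBy_one] at h4
      -- `E = A`, so `z ∈ A`
      have h5 : z ∈ A ⊓ Subgroup.normalizer (B : Set G) := by
        refine Subgroup.mem_inf.mpr ⟨?_, mem_normalizer_of_centralizes fun b hb =>
          (hzB b hb).symm⟩
        have e : z = z * a * a⁻¹ := by group
        rw [e]
        exact A.mul_mem (h4 ▸ hxE) (A.inv_mem ha)
      rw [RankOne.inf_normalizer hp, Subgroup.mem_bot] at h5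
      exact hz1 h5
    · have h5 : z * a ∈ conjBy A (b * b₀⁻¹) ⊓ Subgroup.normalizer (A : Set G) :=
        Subgroup.mem_inf.mpr ⟨h4 ▸ hxE, mem_normalizer_of_centralizes hxA⟩
      rw [RankOne.conj_left_inf_normalizer hp (B.mul_mem hb (B.inv_mem hb₀)) hy,
        Subgroup.mem_bot] at h5
      exact hx1 h5
  · exact commCase_contra hp h2 hxE hx1 ha ha1 hxB

theorem le_centralizer_zpowers_iff {E : Subgroup G} {g : G} :
    E ≤ Subgroup.centralizer ((Subgroup.zpowers g : Subgroup G) : Set G) ↔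
      ∀ e ∈ E, g * e = e * g := by
  constructor
  · intro h e he
    have h1 := h he
    rw [Subgroup.mem_centralizer_iff] at h1
    exact h1 g (Subgroup.mem_zpowers g)
  · intro h e he
    rw [Subgroup.mem_centralizer_iff]
    rintro _ ⟨n, rfl⟩
    have h1 : Commute g e := h e he
    exact (h1.zpow_left n).eq

/-- Timmesfeld II (2.?): centralizers of commuting products in degenerate sets. -/
theorem root_centralizers_of_commuting_product {S : Set (Subgroup G)}
    (hS : IsRootSubgroupSet S) (hdeg : IsDegenerateRootSet S) {a b : G}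
    (ha : a ∈ rootElements S) (hb : b ∈ rootElements S) (hab : a * b = b * a)
    (hab1 : a * b ≠ 1) :
    centralizingMembers S (Subgroup.zpowers (a * b)) =
      centralizingMembers S (Subgroup.zpowers a) ∩ centralizingMembers S (Subgroup.zpowers b) := by
  obtain ⟨ha1, A, hA, haA⟩ := ha
  obtain ⟨hb1, B, hB, hbB⟩ := hb
  ext E
  simp only [centralizingMembers, Set.mem_setOf_eq, Set.mem_inter_iff, le_centralizer_zpowers_iff]
  constructor
  · rintro ⟨hE, hEab⟩
    -- `[A, B] = 1`
    have hAB : ⁅A, B⁆ = ⊥ := by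
      rcases hS.pair A hA B hB with h | h | h
      · exact h
      · exfalso
        have h1 : b ∈ B ⊓ conjBy B a := by
          refine Subgroup.mem_inf.mpr ⟨hbB, ?_⟩
          rw [mem_conjBy]
          have e : a⁻¹ * b * a = b := by rw [mul_assoc, ← hab]; group
          rw [e]; exact hbB
        rw [RankOne.inf_conj_right h haA ha1, Subgroup.mem_bot] at h1
        exact hb1 h1
      · exact absurd h (hdeg A hA B hB)
    have hAc := hS.commutative A hA
    have hAcomm : ∀ y ∈ A, ∀ y' ∈ A, y * y' = y' * y := fun y hy y' hy' =>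
      congrArg Subtype.val (mul_comm' (⟨y, hy⟩ : A) ⟨y', hy'⟩)
    have hEA : ⁅E, A⁆ = ⊥ := by
      rcases hS.pair E hE A hA with h | h | h
      · exact h
      · exfalso
        have hz : a * b ∈ Subgroup.centralizer ((A ⊔ E : Subgroup G) : Set G) := by
          have h1 : A ⊔ E ≤ Subgroup.centralizer ({a * b} : Set G) := by
            refine sup_le ?_ ?_
            · intro y hy
              rw [Subgroup.mem_centralizer_iff]
              rintro _ rfl
              rw [mul_assoc, ← comm_of_commutator_eq_bot hAB hy hbB, ← mul_assoc,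
                hAcomm a haA y hy, mul_assoc]
            · intro e he
              rw [Subgroup.mem_centralizer_iff]
              rintro _ rfl
              exact hEab e he
          rw [Subgroup.mem_centralizer_iff]
          intro y hy
          have h2 := h1 hy
          rw [Subgroup.mem_centralizer_iff] at h2
          exact (h2 _ rfl).symm
        have h3 := root_central_translate hS hA ⟨hE, RankOnePair_symm h⟩ hz hab1 a⁻¹
          (A.inv_mem haA) (fun hh => ha1 (inv_eq_one.mp hh))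
        apply h3
        have e : a * b * a⁻¹ = b := by rw [hab]; group
        rw [e]
        exact ⟨hb1, B, hB, hbB⟩
      · exact absurd h (hdeg E hE A hA)
    have hEa : ∀ e ∈ E, a * e = e * a := fun e he =>
      (comm_of_commutator_eq_bot hEA he haA).symm
    refine ⟨⟨hE, hEa⟩, hE, fun e he => ?_⟩
    have h1 := hEab e he
    have h2 := hEa e he
    have e1 : b * e = a⁻¹ * (a * b * e) := by group
    rw [e1, h1]
    have e2 : a⁻¹ * (e * (a * b)) = a⁻¹ * (e * a) * b := by group
    rw [e2, ← h2]; group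
  · rintro ⟨⟨hE, hEa⟩, -, hEb⟩
    refine ⟨hE, fun e he => ?_⟩
    rw [mul_assoc, hEb e he, ← mul_assoc, hEa e he, mul_assoc]

/-- Timmesfeld II (2.?): the second centre equals the centre when no root subgroup is
isolated. -/
theorem root_second_center {S : Set (Subgroup G)} (hS : IsRootSubgroupSet S)
    (hF : ∀ A ∈ S, ¬ IsIsolatedIn (FAdj S) S A) :
    Subgroup.upperCentralSeries G 2 = Subgroup.center G := by
  apply le_antisymm
  · intro z hz
    have hζ : ∀ g : G, ⁅z, g⁆ ∈ Subgroup.center G := by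
      intro g
      have := (Subgroup.mem_upperCentralSeries_succ_iff (n := 1)).mp hz g
      rwa [Subgroup.upperCentralSeries_one] at this
    have key : ∀ A ∈ S, ∀ a ∈ A, a * z = z * a := by
      intro A hA a ha
      by_cases ha1 : a = 1
      · rw [ha1, one_mul, mul_one]
      obtain ⟨C, hC, hp⟩ := exists_partner_of_not_isolated (hF A hA) hA
      have hA' : conjBy A z ∈ S := hS.conj_mem A hA z
      have hζa := hζ a
      have hza : z * a * z⁻¹ = ⁅z, a⁆ * a := by rw [commutatorElement_def]; group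
      have ha' : z * a * z⁻¹ ∈ conjBy A z := ⟨a, ha, rfl⟩
      have ha'1 : z * a * z⁻¹ ≠ 1 := by
        intro hh
        apply ha1
        have e : a = z⁻¹ * (z * a * z⁻¹) * z := by group
        rw [e, hh]; group
      have hact : ∀ c ∈ C, (z * a * z⁻¹) * c * (z * a * z⁻¹)⁻¹ = a * c * a⁻¹ := by
        intro c _
        have h1 := (Subgroup.mem_center_iff.mp hζa) (a * c * a⁻¹)
        rw [hza]
        have e : ⁅z, a⁆ * a * c * (⁅z, a⁆ * a)⁻¹ = ⁅z, a⁆ * (a * c * a⁻¹) * ⁅z, a⁆⁻¹ := by group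
        rw [e, ← h1]; group
      rcases hS.pair _ hA' C hC with h1 | h1 | h1
      · exfalso
        have h2 : a ∈ A ⊓ Subgroup.normalizer (C : Set G) := by
          refine Subgroup.mem_inf.mpr ⟨ha, mem_normalizer_of_centralizes fun c hc => ?_⟩
          have h3 := comm_of_commutator_eq_bot h1 ha' hc
          have h4 := hact c hc
          rw [h3, mul_inv_cancel_right] at h4
          have e : a * c = a * c * a⁻¹ * a := by group
          rw [e, ← h4]
        rw [RankOne.inf_normalizer hp, Subgroup.mem_bot] at h2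
        exact ha1 h2
      · obtain ⟨c, hc, -, hA'C⟩ := h1.cond_left _ ha' ha'1
        obtain ⟨c₀, hc₀, -, hAC⟩ := hp.cond_left a ha ha1
        have h3 : conjBy C (z * a * z⁻¹)⁻¹ = conjBy C a⁻¹ := by
          have e : (z * a * z⁻¹)⁻¹ = ⁅z, a⁆⁻¹ * a⁻¹ := by
            rw [hza, mul_inv_rev]
            exact (Subgroup.mem_center_iff.mp (Subgroup.inv_mem _ hζa) a⁻¹)
          rw [e, conjBy_central_mul (Subgroup.inv_mem _ hζa)]
        have h4 := congrArg (fun E => conjBy E c) ((hA'C.trans h3).trans hAC.symm)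
        simp only [conjBy_conjBy, mul_inv_cancel_left] at h4
        have hζN : ∀ D : Subgroup G, ⁅z, a⁆ ∈ Subgroup.normalizer (D : Set G) := fun D =>
          Subgroup.center_le_normalizer _ hζa
        by_cases hy : c * c₀⁻¹ = 1
        · rw [hy, conjBy_one] at h4
          have h5 : ⁅z, a⁆ ∈ A ⊓ Subgroup.normalizer (C : Set G) := by
            refine Subgroup.mem_inf.mpr ⟨?_, hζN C⟩
            have e : ⁅z, a⁆ = z * a * z⁻¹ * a⁻¹ := by rw [commutatorElement_def]
            rw [e]
            exact A.mul_mem (h4 ▸ ha') (A.inv_mem ha)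
          rw [RankOne.inf_normalizer hp, Subgroup.mem_bot] at h5
          have e : a * z = (⁅z, a⁆)⁻¹ * (z * a) := by rw [commutatorElement_def]; group
          rw [e, h5]; group
        · exfalso
          have h5 : z * a * z⁻¹ ∈ conjBy A (c * c₀⁻¹) ⊓ Subgroup.normalizer (A : Set G) := by
            refine Subgroup.mem_inf.mpr ⟨h4 ▸ ha', ?_⟩
            rw [hza]
            exact Subgroup.mul_mem _ (hζN A) (Subgroup.le_normalizer ha)
          rw [RankOne.conj_left_inf_normalizer hp (C.mul_mem hc (C.inv_mem hc₀)) hy,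
            Subgroup.mem_bot] at h5
          exact ha'1 h5
      · exfalso
        exact commCase_contra hp h1 ha' ha'1 ha ha1 hact
    have h1 : (⨆ A ∈ S, A) ≤ Subgroup.centralizer ({z} : Set G) := by
      refine iSup₂_le fun A hA a ha => ?_
      rw [Subgroup.mem_centralizer_iff]
      rintro _ rfl
      exact (key A hA a ha).symm
    rw [hS.generates] at h1
    rw [Subgroup.mem_center_iff]
    intro g
    have h2 := h1 (Subgroup.mem_top g)
    rw [Subgroup.mem_centralizer_iff] at h2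
    exact (h2 z rfl).symm
  · rw [← Subgroup.upperCentralSeries_one]
    exact Subgroup.upperCentralSeries_mono G (by norm_num)

end Cfsg.Agent.Helper8
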