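import Cfsg.Agent.Helper8.RootBasic

/-!
# Rank one subgroups generated by root subgroups (Timmesfeld II (2.1)-type statements)
-/

set_option autoImplicit false

namespace Cfsg.Agent.Helper8

open Cfsg
open scoped commutatorElement

variable {G : Type*} [Group G]

/-- Conjugates of rank one pairs are rank one pairs. -/
theorem RankOne.conj {A C : Subgroup G} (hp : IsRankOnePair A C) (g : G) :
    IsRankOnePair (conjBy A g) (conjBy C g) := by
  rcases rankOne_map hp (MulAut.conj g).toMonoidHom with h | h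
  · exact absurd (conjBy_inj h) hp.ne
  · exact h

theorem unipotent_mem_S {S : Set (Subgroup G)} (hS : IsRootSubgroupSet S) {C D E : Subgroup G}
    (hC : C ∈ S) (hE : E ∈ unipotentSubgroups C D) : E ∈ S := by
  obtain ⟨y, -, rfl⟩ := hE
  exact hS.conj_mem C hC y

theorem unipotent_le {C D E : Subgroup G} (hE : E ∈ unipotentSubgroups C D) : E ≤ C ⊔ D := by
  obtain ⟨y, hy, rfl⟩ := hE
  rintro _ ⟨c, hc, rfl⟩
  exact Subgroup.mul_mem _ (Subgroup.mul_mem _ hy (Subgroup.mem_sup_left hc))
    (Subgroup.inv_mem _ hy)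

/-- Two distinct unipotent subgroups of a rank one group form a rank one pair. -/
theorem unipotent_pair {C D E E' : Subgroup G} (hp : IsRankOnePair C D)
    (hE : E ∈ unipotentSubgroups C D) (hE' : E' ∈ unipotentSubgroups C D) (hne : E' ≠ E) :
    IsRankOnePair E' E := by
  obtain ⟨g, -, h1, h2⟩ := (rankOne_two_transitive hp).2.1 C (RankOne.left_mem_unipotent C D) D
    (RankOne.right_mem_unipotent hp) E' hE' E hE hp.ne hne
  rw [← h1, ← h2]
  exact RankOne.conj hp g

/-- A root subgroup inside a rank one group `⟨C, D⟩` which has a rank one partner inside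
`⟨C, D⟩` is a unipotent subgroup of `⟨C, D⟩`. -/
theorem mem_unipotent_of_le {S : Set (Subgroup G)} (hS : IsRootSubgroupSet S)
    {A B C D : Subgroup G} (hA : A ∈ S) (hC : C ∈ S) (hD : D ∈ S) (hAB : IsRankOnePair A B)
    (hCD : IsRankOnePair C D) (hAle : A ≤ C ⊔ D) (hBle : B ≤ C ⊔ D) :
    A ∈ unipotentSubgroups C D := by
  by_contra hnot
  have hcomm : ∀ E ∈ unipotentSubgroups C D, ⁅A, E⁆ = ⊥ := by
    intro E hE
    have hES : E ∈ S := unipotent_mem_S hS hC hE
    rcases hS.pair A hA E hES with h | h | h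
    · exact h
    · exfalso
      apply hnot
      obtain ⟨a, ha, ha1⟩ := exists_ne_one_of_ne_bot (RankOne.left_ne_bot h)
      obtain ⟨e, he, -, hAE⟩ := h.cond_left a ha ha1
      have h1 := congrArg (fun K => conjBy K e) hAE
      simp only [conjBy_conjBy, mul_inv_cancel, conjBy_one] at h1
      rw [h1]
      exact RankOne.conj_mem_unipotent hE (Subgroup.mul_mem _ (unipotent_le hE he)
        (Subgroup.inv_mem _ (hAle ha)))
    · exfalso
      obtain ⟨hmem, hcentral, hcl1, -⟩ := h
      -- `A` normalizes `E`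
      have hnorm : ∀ a ∈ A, conjBy E a = E := by
        intro a ha
        by_contra hne
        have hE' : conjBy E a ∈ unipotentSubgroups C D :=
          RankOne.conj_mem_unipotent hE (hAle ha)
        have hpair := unipotent_pair hCD hE hE' hne
        have ha1 : a ≠ 1 := by
          rintro rfl
          exact hne (conjBy_one E)
        obtain ⟨e, he, he1⟩ := exists_ne_one_of_ne_bot (hS.ne_bot E hES)
        have hζ : a * e * a⁻¹ * e⁻¹ ∈ ⁅A, E⁆ := by
          rw [← hcl1 a ha ha1]
          exact Subgroup.subset_closure ⟨e, he, rfl⟩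
        have hζN : a * e * a⁻¹ * e⁻¹ ∈ Subgroup.normalizer (E : Set G) :=
          mem_normalizer_of_centralizes fun y hy => hcentral _ hζ y (Subgroup.mem_sup_right hy)
        have h1 : a * e * a⁻¹ ∈ conjBy E a ⊓ Subgroup.normalizer (E : Set G) := by
          refine Subgroup.mem_inf.mpr ⟨⟨e, he, rfl⟩, ?_⟩
          have e1 : a * e * a⁻¹ = a * e * a⁻¹ * e⁻¹ * e := by group
          rw [e1]
          exact Subgroup.mul_mem _ hζN (Subgroup.le_normalizer he)
        rw [RankOne.inf_normalizer hpair, Subgroup.mem_bot] at h1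
        apply he1
        have e2 : e = a⁻¹ * (a * e * a⁻¹) * a := by group
        rw [e2, h1]; group
      have hle : ⁅A, E⁆ ≤ E := by
        rw [Subgroup.commutator_le]
        intro a ha e he
        have h1 : a * e * a⁻¹ ∈ E := by
          rw [← hnorm a ha]
          exact ⟨e, he, rfl⟩
        rw [commutatorElement_def]
        exact E.mul_mem h1 (E.inv_mem he)
      -- `E` is not isolated
      have hEni : ¬ IsIsolatedIn (FAdj S) S E := by
        obtain ⟨E', hE', hne⟩ : ∃ E' ∈ unipotentSubgroups C D, E' ≠ E := by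
          by_cases hEC : E = C
          · exact ⟨D, RankOne.right_mem_unipotent hCD, hEC ▸ hCD.ne.symm⟩
          · exact ⟨C, RankOne.left_mem_unipotent C D, fun h => hEC h.symm⟩
        have hpair := unipotent_pair hCD hE hE' hne
        intro hiso
        exact (hiso.2 E').2 ⟨unipotent_mem_S hS hC hE', hES, hpair⟩
      rcases root_inf_trivial hS hEni hES _ hmem with h1 | h1
      · apply hS.ne_bot _ hmem
        rw [eq_bot_iff, ← h1]
        exact le_inf hle le_rfl
      · apply hS.ne_bot _ hmem
        rw [Subgroup.commutator_eq_bot_iff_le_centralizer]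
        intro a ha
        rw [Subgroup.mem_centralizer_iff]
        intro e he
        have he' : e ∈ ⁅A, E⁆ := h1 ▸ he
        exact hcentral e he' a (Subgroup.mem_sup_left ha)
  -- `A` centralizes `C ⊔ D`, hence `B`
  have h1 : C ⊔ D ≤ Subgroup.centralizer (A : Set G) := by
    have hc := hcomm C (RankOne.left_mem_unipotent C D)
    have hd := hcomm D (RankOne.right_mem_unipotent hCD)
    rw [Subgroup.commutator_comm, Subgroup.commutator_eq_bot_iff_le_centralizer] at hc hd
    exact sup_le hc hd
  obtain ⟨b, hb, hb1⟩ := exists_ne_one_of_ne_bot (RankOne.right_ne_bot hAB)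
  have h2 : b ∈ B ⊓ Subgroup.normalizer (A : Set G) := by
    refine Subgroup.mem_inf.mpr ⟨hb, mem_normalizer_of_centralizes fun y hy => ?_⟩
    have h3 := h1 (hBle hb)
    rw [Subgroup.mem_centralizer_iff] at h3
    exact (h3 y hy).symm
  rw [RankOne.inf_normalizer' hAB, Subgroup.mem_bot] at h2
  exact hb1 h2

/-- Timmesfeld II (2.1): containment between rank one subgroups generated by root subgroups
forces equality. -/
theorem root_rank_one_containment {S : Set (Subgroup G)} (hS : IsRootSubgroupSet S)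
    {A B C D : Subgroup G} (hA : A ∈ S) (hC : C ∈ S) (hB : B ∈ rankOnePartners S A)
    (hD : D ∈ rankOnePartners S C) (hle : A ⊔ B ≤ C ⊔ D) :
    A ⊔ B = C ⊔ D ∧ C ∈ unipotentSubgroups A B ∧ D ∈ unipotentSubgroups A B := by
  obtain ⟨hBS, hAB⟩ := hB
  obtain ⟨hDS, hCD⟩ := hD
  have hAle : A ≤ C ⊔ D := le_sup_left.trans hle
  have hBle : B ≤ C ⊔ D := le_sup_right.trans hle
  have hAu := mem_unipotent_of_le hS hA hC hDS hAB hCD hAle hBle
  have hBu := mem_unipotent_of_le hS hBS hC hDS (RankOnePair_symm hAB) hCD hBle hAle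
  obtain ⟨g, hg, h1, h2⟩ := (rankOne_two_transitive hCD).2.1 C (RankOne.left_mem_unipotent C D) D
    (RankOne.right_mem_unipotent hCD) A hAu B hBu hCD.ne hAB.ne
  have hsup : A ⊔ B = C ⊔ D := by
    rw [← h1, ← h2]
    show Subgroup.map _ C ⊔ Subgroup.map _ D = C ⊔ D
    rw [← Subgroup.map_sup]
    exact conjBy_of_mem hg
  have hg' : g⁻¹ ∈ A ⊔ B := hsup ▸ Subgroup.inv_mem _ hg
  refine ⟨hsup, ⟨g⁻¹, hg', ?_⟩, ?_⟩
  · rw [← h1, conjBy_conjBy, inv_mul_cancel, conjBy_one]
  · have hD' : D = conjBy B g⁻¹ := by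
      rw [← h2, conjBy_conjBy, inv_mul_cancel, conjBy_one]
    rw [hD']
    exact RankOne.conj_mem_unipotent (RankOne.right_mem_unipotent hAB) hg'

end Cfsg.Agent.Helper8
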