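import Cfsg.Agent.Helper8.RootBasic2

/-!
# The commutator case for abstract root subgroups (Timmesfeld II (2.3)-type statements)
-/

set_option autoImplicit false

namespace Cfsg.Agent.Helper8

open Cfsg
open scoped commutatorElement

variable {G : Type*} [Group G]

theorem not_isolated_of_partner {S : Set (Subgroup G)} {A D : Subgroup G} (hA : A ∈ S)
    (hD : D ∈ S) (hp : IsRankOnePair A D) : ¬ IsIsolatedIn (FAdj S) S A :=
  fun h => (h.2 D).1 ⟨hA, hD, hp⟩

theorem not_isolated_conj {S : Set (Subgroup G)} (hS : IsRootSubgroupSet S) {A : Subgroup G}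
    (hA : ¬ IsIsolatedIn (FAdj S) S A) (hAS : A ∈ S) (g : G) :
    ¬ IsIsolatedIn (FAdj S) S (conjBy A g) := by
  obtain ⟨D, hD, hp⟩ := exists_partner_of_not_isolated hA hAS
  exact not_isolated_of_partner (hS.conj_mem A hAS g) (hS.conj_mem D hD g) (RankOne.conj hp g)

/-- Elements of the join of two elementwise commuting subgroups. -/
theorem mem_sup_of_commute {A C : Subgroup G} (hc : ∀ a ∈ A, ∀ c ∈ C, a * c = c * a) {x : G} :
    x ∈ A ⊔ C ↔ ∃ a ∈ A, ∃ c ∈ C, x = a * c := by
  constructor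
  · intro hx
    let K : Subgroup G :=
      { carrier := {x | ∃ a ∈ A, ∃ c ∈ C, x = a * c}
        one_mem' := ⟨1, A.one_mem, 1, C.one_mem, (mul_one 1).symm⟩
        mul_mem' := by
          rintro _ _ ⟨a, ha, c, hc', rfl⟩ ⟨a', ha', c', hc'', rfl⟩
          refine ⟨a * a', A.mul_mem ha ha', c * c', C.mul_mem hc' hc'', ?_⟩
          have h := hc a' ha' c hc'
          calc a * c * (a' * c') = a * (c * a') * c' := by group
            _ = a * (a' * c) * c' := by rw [h]
            _ = a * a' * (c * c') := by group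
        inv_mem' := by
          rintro _ ⟨a, ha, c, hc', rfl⟩
          refine ⟨a⁻¹, A.inv_mem ha, c⁻¹, C.inv_mem hc', ?_⟩
          rw [mul_inv_rev, hc a⁻¹ (A.inv_mem ha) c⁻¹ (C.inv_mem hc')] }
    have hle : A ⊔ C ≤ K :=
      sup_le (fun a ha => ⟨a, ha, 1, C.one_mem, (mul_one a).symm⟩)
        (fun c hc' => ⟨1, A.one_mem, c, hc', (one_mul c).symm⟩)
    exact hle hx
  · rintro ⟨a, ha, c, hc', rfl⟩
    exact Subgroup.mul_mem _ (Subgroup.mem_sup_left ha) (Subgroup.mem_sup_right hc')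

theorem rootCommutatorCase_symm {S : Set (Subgroup G)} {A B : Subgroup G}
    (h : RootCommutatorCase S A B) : RootCommutatorCase S B A := by
  obtain ⟨h1, h2, h3, h4⟩ := h
  have hset : ∀ (x : G) (T : Subgroup G),
      Subgroup.closure ((fun y => x * y * x⁻¹ * y⁻¹) '' (T : Set G)) =
        Subgroup.closure ((fun y => y * x * y⁻¹ * x⁻¹) '' (T : Set G)) := by
    intro x T
    rw [← Subgroup.closure_inv]
    congr 1
    ext z
    simp only [Set.mem_inv, Set.mem_image]
    constructor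
    · rintro ⟨y, hy, hz⟩
      refine ⟨y, hy, ?_⟩
      rw [← inv_inv z, ← hz]; group
    · rintro ⟨y, hy, rfl⟩
      exact ⟨y, hy, by group⟩
  refine ⟨?_, ?_, ?_, ?_⟩
  · rw [Subgroup.commutator_comm]; exact h1
  · rw [Subgroup.commutator_comm, sup_comm]; exact h2
  · intro b hb hb1
    rw [hset, Subgroup.commutator_comm]; exact h4 b hb hb1
  · intro a ha ha1
    rw [← hset, Subgroup.commutator_comm]; exact h3 a ha ha1

theorem commutator_conj_mem_left {A B : Subgroup G} {a' : G} (ha' : a' ∈ A) {h : G}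
    (hh : h ∈ ⁅A, B⁆) : a' * h * a'⁻¹ ∈ ⁅A, B⁆ := by
  have hle : ⁅A, B⁆ ≤ (⁅A, B⁆).comap (MulAut.conj a').toMonoidHom := by
    rw [Subgroup.commutator_le]
    intro a ha b hb
    rw [Subgroup.mem_comap]
    show a' * ⁅a, b⁆ * a'⁻¹ ∈ ⁅A, B⁆
    have e : a' * ⁅a, b⁆ * a'⁻¹ = ⁅a' * a, b⁆ * ⁅a', b⁆⁻¹ := by
      simp only [commutatorElement_def]; group
    rw [e]
    exact Subgroup.mul_mem _ (Subgroup.commutator_mem_commutator (A.mul_mem ha' ha) hb)
      (Subgroup.inv_mem _ (Subgroup.commutator_mem_commutator ha' hb))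
  exact hle hh

theorem commutator_conj_mem_right {A B : Subgroup G} {b' : G} (hb' : b' ∈ B) {h : G}
    (hh : h ∈ ⁅A, B⁆) : b' * h * b'⁻¹ ∈ ⁅A, B⁆ := by
  rw [Subgroup.commutator_comm] at hh ⊢
  exact commutator_conj_mem_left hb' hh

theorem sup_le_normalizer_commutator (A B : Subgroup G) :
    A ⊔ B ≤ Subgroup.normalizer ((⁅A, B⁆ : Subgroup G) : Set G) := by
  refine sup_le ?_ ?_
  · intro a ha
    rw [Subgroup.mem_normalizer_iff]
    intro h
    constructor
    · exact fun hh => commutator_conj_mem_left ha hh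
    · intro hh
      have := commutator_conj_mem_left (B := B) (A.inv_mem ha) hh
      have e : a⁻¹ * (a * h * a⁻¹) * a⁻¹⁻¹ = h := by group
      rwa [e] at this
  · intro b hb
    rw [Subgroup.mem_normalizer_iff]
    intro h
    constructor
    · exact fun hh => commutator_conj_mem_right hb hh
    · intro hh
      have := commutator_conj_mem_right (A := A) (B.inv_mem hb) hh
      have e : b⁻¹ * (b * h * b⁻¹) * b⁻¹⁻¹ = h := by group
      rwa [e] at this

/-- If `A` is not isolated and `[A, B]` is a root subgroup, then `(A, B)` is in the commutator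
case. -/
theorem commCase_of_mem {S : Set (Subgroup G)} (hS : IsRootSubgroupSet S) {A B : Subgroup G}
    (hAS : A ∈ S) (hB : B ∈ S) (hC : ⁅A, B⁆ ∈ S) : RootCommutatorCase S A B := by
  rcases hS.pair A hAS B hB with h | h | h
  · exact absurd h (hS.ne_bot _ hC)
  · exfalso
    have hA' : A ≤ A ⊔ B := le_sup_left
    have hB' : B ≤ A ⊔ B := le_sup_right
    have hCle : ⁅A, B⁆ ≤ A ⊔ B := by
      rw [Subgroup.commutator_le]
      intro a ha b hb
      rw [commutatorElement_def]
      exact Subgroup.mul_mem _ (Subgroup.mul_mem _ (Subgroup.mul_mem _ (hA' ha) (hB' hb))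
        (Subgroup.inv_mem _ (hA' ha))) (Subgroup.inv_mem _ (hB' hb))
    haveI : ((⁅A, B⁆).subgroupOf (A ⊔ B)).Normal :=
      (Subgroup.normal_subgroupOf_iff_le_normalizer hCle).mpr (sup_le_normalizer_commutator A B)
    obtain ⟨a, ha, ha1⟩ := exists_ne_one_of_ne_bot (RankOne.left_ne_bot h)
    obtain ⟨b, hb, hb1⟩ := exists_ne_one_of_ne_bot (RankOne.right_ne_bot h)
    rcases rankOne_normal_dichotomy (rankOneGroup_subtype h)
        ((⁅A, B⁆).subgroupOf (A ⊔ B)) with hd | hd
    · have hdecomp : ∀ x ∈ A ⊔ B, ∃ c ∈ ⁅A, B⁆, ∃ a' ∈ A, x = c * a' := by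
        intro x hx
        have hx' : (⟨x, hx⟩ : ↥(A ⊔ B)) ∈
            (⁅A, B⁆).subgroupOf (A ⊔ B) ⊔ A.subgroupOf (A ⊔ B) := hd ▸ Subgroup.mem_top _
        obtain ⟨c, hc, a', ha', hca⟩ := Subgroup.mem_sup_of_normal_left.mp hx'
        refine ⟨c, Subgroup.mem_subgroupOf.mp hc, a', Subgroup.mem_subgroupOf.mp ha', ?_⟩
        rw [← Subgroup.coe_mul, hca]
      have hAc := hS.commutative A hAS
      have hAcomm : ∀ y ∈ A, ∀ y' ∈ A, y * y' = y' * y := fun y hy y' hy' =>
        congrArg Subtype.val (mul_comm' (⟨y, hy⟩ : A) ⟨y', hy'⟩)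
      rcases hS.pair A hAS _ hC with h1 | h1 | h1
      · obtain ⟨c, hc, a', ha', hbe⟩ := hdecomp b (hB' hb)
        have h2 : b ∈ B ⊓ Subgroup.normalizer (A : Set G) := by
          refine Subgroup.mem_inf.mpr ⟨hb, ?_⟩
          rw [hbe]
          refine Subgroup.mul_mem _ (mem_normalizer_of_centralizes fun y hy => ?_)
            (Subgroup.le_normalizer ha')
          exact (comm_of_commutator_eq_bot h1 hy hc).symm
        rw [RankOne.inf_normalizer' h, Subgroup.mem_bot] at h2
        exact hb1 h2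
      · have h2 : a ∈ A ⊓ Subgroup.normalizer ((⁅A, B⁆ : Subgroup G) : Set G) :=
          Subgroup.mem_inf.mpr ⟨ha, sup_le_normalizer_commutator A B (hA' ha)⟩
        rw [RankOne.inf_normalizer h1, Subgroup.mem_bot] at h2
        exact ha1 h2
      · obtain ⟨-, hcen, -, -⟩ := h1
        obtain ⟨c, hc, a', ha', hbe⟩ := hdecomp b (hB' hb)
        have h2 : b * a * b⁻¹ = ⁅c, a⁆ * a := by
          rw [hbe, commutatorElement_def]
          have := hAcomm a' ha' a ha
          calc c * a' * a * (c * a')⁻¹ = c * (a' * a) * a'⁻¹ * c⁻¹ := by group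
            _ = c * (a * a') * a'⁻¹ * c⁻¹ := by rw [this]
            _ = c * a * c⁻¹ * a⁻¹ * a := by group
        have hε : ⁅c, a⁆ ∈ ⁅A, ⁅A, B⁆⁆ := by
          rw [Subgroup.commutator_comm]
          exact Subgroup.commutator_mem_commutator hc ha
        have h3 : b * a * b⁻¹ ∈ conjBy A b ⊓ Subgroup.normalizer (A : Set G) := by
          refine Subgroup.mem_inf.mpr ⟨⟨a, ha, rfl⟩, ?_⟩
          rw [h2]
          refine Subgroup.mul_mem _ (mem_normalizer_of_centralizes fun y hy => ?_)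
            (Subgroup.le_normalizer ha)
          exact hcen _ hε y (Subgroup.mem_sup_left hy)
        rw [RankOne.conj_left_inf_normalizer h hb hb1, Subgroup.mem_bot] at h3
        apply ha1
        have e : a = b⁻¹ * (b * a * b⁻¹) * b := by group
        rw [e, h3]; group
    · have hcenX : ∀ c ∈ ⁅A, B⁆, ∀ y ∈ A ⊔ B, c * y = y * c := by
        intro c hc y hy
        have h1 : (⟨c, hCle hc⟩ : ↥(A ⊔ B)) ∈ Subgroup.center ↥(A ⊔ B) :=
          hd (Subgroup.mem_subgroupOf.mpr hc)
        rw [Subgroup.mem_center_iff] at h1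
        exact (congrArg Subtype.val (h1 ⟨y, hy⟩)).symm
      have hζ : a * b * a⁻¹ * b⁻¹ ∈ ⁅A, B⁆ := by
        have := Subgroup.commutator_mem_commutator ha hb
        rwa [commutatorElement_def] at this
      have h3 : a * b * a⁻¹ ∈ conjBy B a ⊓ Subgroup.normalizer (B : Set G) := by
        refine Subgroup.mem_inf.mpr ⟨⟨b, hb, rfl⟩, ?_⟩
        have e : a * b * a⁻¹ = a * b * a⁻¹ * b⁻¹ * b := by group
        rw [e]
        exact Subgroup.mul_mem _ (mem_normalizer_of_centralizes fun y hy =>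
          hcenX _ hζ y (hB' hy)) (Subgroup.le_normalizer hb)
      rw [RankOne.conj_right_inf_normalizer h ha ha1, Subgroup.mem_bot] at h3
      apply hb1
      have e : b = a⁻¹ * (a * b * a⁻¹) * a := by group
      rw [e, h3]; group
  · exact h

theorem comm_inf_eq_bot {S : Set (Subgroup G)} (hS : IsRootSubgroupSet S) {A B : Subgroup G}
    (hA : ¬ IsIsolatedIn (FAdj S) S A) (hAS : A ∈ S) (hcc : RootCommutatorCase S A B) :
    A ⊓ ⁅A, B⁆ = ⊥ := by
  rcases root_inf_trivial hS hA hAS _ hcc.1 with h | h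
  · exact h
  · exfalso
    apply hS.ne_bot _ hcc.1
    rw [Subgroup.commutator_eq_bot_iff_le_centralizer]
    intro a ha
    rw [Subgroup.mem_centralizer_iff]
    intro b hb
    have ha' : a ∈ ⁅A, B⁆ := h ▸ ha
    exact (hcc.2.1 a ha' b (Subgroup.mem_sup_right hb)).symm

/-- In the commutator case with `A` not isolated, non-identity elements of `A` and `B` never
commute. -/
theorem comm_ne {S : Set (Subgroup G)} (hS : IsRootSubgroupSet S) {A B : Subgroup G}
    (hA : ¬ IsIsolatedIn (FAdj S) S A) (hAS : A ∈ S) (hcc : RootCommutatorCase S A B)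
    {a : G} (ha : a ∈ A) (ha1 : a ≠ 1) {b : G} (hb : b ∈ B) (hb1 : b ≠ 1) : a * b ≠ b * a := by
  intro hab
  have h1 : a ∈ A ⊓ conjBy A b := by
    refine Subgroup.mem_inf.mpr ⟨ha, ?_⟩
    rw [mem_conjBy]
    have e : b⁻¹ * a * b = a := by rw [mul_assoc, hab]; group
    rw [e]; exact ha
  rcases root_inf_trivial hS hA hAS _ (hS.conj_mem A hAS b) with h | h
  · rw [h, Subgroup.mem_bot] at h1
    exact ha1 h1
  · have hbN : ∀ a' ∈ A, b * a' * b⁻¹ ∈ A := by
      intro a' ha'
      have : b * a' * b⁻¹ ∈ conjBy A b := ⟨a', ha', rfl⟩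
      rwa [← h] at this
    have hcomm : ∀ a' ∈ A, a' * b * a'⁻¹ * b⁻¹ = 1 := by
      intro a' ha'
      have h2 : b * a' * b⁻¹ * a'⁻¹ ∈ A ⊓ ⁅A, B⁆ := by
        refine Subgroup.mem_inf.mpr ⟨A.mul_mem (hbN a' ha') (A.inv_mem ha'), ?_⟩
        have := Subgroup.commutator_mem_commutator hb ha'
        rw [commutatorElement_def, Subgroup.commutator_comm] at this
        exact this
      rw [comm_inf_eq_bot hS hA hAS hcc, Subgroup.mem_bot] at h2
      have e : a' * b * a'⁻¹ * b⁻¹ = (b * a' * b⁻¹ * a'⁻¹)⁻¹ := by group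
      rw [e, h2, inv_one]
    apply hS.ne_bot _ hcc.1
    rw [← hcc.2.2.2 b hb hb1, Subgroup.closure_eq_bot_iff]
    rintro _ ⟨a', ha', rfl⟩
    rw [Set.mem_singleton_iff]
    exact hcomm a' ha'

/-- In the commutator case every element of `[A, B]` is a commutator `[a, b]` with the given
`a ≠ 1`. -/
theorem comm_surj {S : Set (Subgroup G)} {A B : Subgroup G} (hcc : RootCommutatorCase S A B)
    {a : G} (ha : a ∈ A) (ha1 : a ≠ 1) :
    ∀ c ∈ ⁅A, B⁆, ∃ b ∈ B, c = a * b * a⁻¹ * b⁻¹ := by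
  obtain ⟨-, hcen, hcl1, -⟩ := hcc
  have hmem : ∀ b ∈ B, a * b * a⁻¹ * b⁻¹ ∈ ⁅A, B⁆ := by
    intro b hb
    have := Subgroup.commutator_mem_commutator ha hb
    rwa [commutatorElement_def] at this
  let K : Subgroup G :=
    { carrier := {c | ∃ b ∈ B, c = a * b * a⁻¹ * b⁻¹}
      one_mem' := ⟨1, B.one_mem, by group⟩
      mul_mem' := by
        rintro _ _ ⟨b, hb, rfl⟩ ⟨b', hb', rfl⟩
        refine ⟨b * b', B.mul_mem hb hb', ?_⟩
        have h := hcen _ (hmem b' hb') b (Subgroup.mem_sup_right hb)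
        calc a * b * a⁻¹ * b⁻¹ * (a * b' * a⁻¹ * b'⁻¹)
            = a * b * a⁻¹ * (b⁻¹ * (a * b' * a⁻¹ * b'⁻¹ * b) * b⁻¹) := by group
          _ = a * b * a⁻¹ * (b⁻¹ * (b * (a * b' * a⁻¹ * b'⁻¹)) * b⁻¹) := by rw [h]
          _ = a * (b * b') * a⁻¹ * (b * b')⁻¹ := by group
      inv_mem' := by
        rintro _ ⟨b, hb, rfl⟩
        refine ⟨b⁻¹, B.inv_mem hb, ?_⟩
        have h := hcen _ (hmem b hb) b (Subgroup.mem_sup_right hb)
        calc (a * b * a⁻¹ * b⁻¹)⁻¹ = b⁻¹ * (b * (a * b * a⁻¹ * b⁻¹)⁻¹) := by group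
          _ = b⁻¹ * ((a * b * a⁻¹ * b⁻¹)⁻¹ * b) := by
              congr 1
              have h' : (a * b * a⁻¹ * b⁻¹)⁻¹ * b = b * (a * b * a⁻¹ * b⁻¹)⁻¹ := by
                have e1 : (a * b * a⁻¹ * b⁻¹)⁻¹ * b =
                    (a * b * a⁻¹ * b⁻¹)⁻¹ * (b * (a * b * a⁻¹ * b⁻¹)) *
                      (a * b * a⁻¹ * b⁻¹)⁻¹ := by group
                rw [e1, ← h]; group
              exact h'.symm
          _ = a * b⁻¹ * a⁻¹ * b⁻¹⁻¹ := by group }
  have hle : ⁅A, B⁆ ≤ K := by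
    rw [← hcl1 a ha ha1, Subgroup.closure_le]
    rintro _ ⟨b, hb, rfl⟩
    exact ⟨b, hb, rfl⟩
  intro c hc
  exact hle hc

theorem comm_surj' {S : Set (Subgroup G)} {A B : Subgroup G} (hcc : RootCommutatorCase S A B)
    {a : G} (ha : a ∈ A) (ha1 : a ≠ 1) :
    ∀ c ∈ ⁅A, B⁆, ∃ b ∈ B, c = b * a * b⁻¹ * a⁻¹ := by
  intro c hc
  obtain ⟨b, hb, hcb⟩ := comm_surj hcc ha ha1 c⁻¹ (Subgroup.inv_mem _ hc)
  refine ⟨b, hb, ?_⟩
  rw [← inv_inv c, hcb]; group

/-- A root subgroup inside `[A, B]` equals `[A, B]`. -/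
theorem eq_of_le_comm {S : Set (Subgroup G)} (hS : IsRootSubgroupSet S) {A B E : Subgroup G}
    (hA : ¬ IsIsolatedIn (FAdj S) S A) (hAS : A ∈ S) (hcc : RootCommutatorCase S A B)
    (hE : E ∈ S) (hle : E ≤ ⁅A, B⁆) : E = ⁅A, B⁆ := by
  obtain ⟨D, hD, hAD⟩ := exists_partner_of_not_isolated hA hAS
  have hC := hcc.1
  obtain ⟨e, he, he1⟩ := exists_ne_one_of_ne_bot (hS.ne_bot E hE)
  obtain ⟨a, ha, ha1⟩ := exists_ne_one_of_ne_bot (RankOne.left_ne_bot hAD)
  rcases hS.pair E hE D hD with h | h | h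
  · exfalso
    obtain ⟨b, hb, heb⟩ := comm_surj' hcc ha ha1 e (hle he)
    have hea : e * a = b * a * b⁻¹ := by rw [heb]; group
    have hz : e ∈ Subgroup.centralizer ((A ⊔ D : Subgroup G) : Set G) := by
      have h1 : A ⊔ D ≤ Subgroup.centralizer ({e} : Set G) := by
        refine sup_le ?_ ?_
        · intro y hy
          rw [Subgroup.mem_centralizer_iff]
          rintro _ rfl
          exact hcc.2.1 _ (hle he) y (Subgroup.mem_sup_left hy)
        · intro y hy
          rw [Subgroup.mem_centralizer_iff]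
          rintro _ rfl
          exact comm_of_commutator_eq_bot h he hy
      rw [Subgroup.mem_centralizer_iff]
      intro y hy
      have h2 := h1 hy
      rw [Subgroup.mem_centralizer_iff] at h2
      exact (h2 _ rfl).symm
    apply root_central_translate hS hAS ⟨hD, hAD⟩ hz he1 a ha ha1
    refine ⟨?_, conjBy A b, hS.conj_mem A hAS b, ?_⟩
    · intro h1
      have h2 : a ∈ A ⊓ ⁅A, B⁆ := by
        refine Subgroup.mem_inf.mpr ⟨ha, ?_⟩
        have e1 : a = e⁻¹ := by
          rw [eq_inv_iff_mul_eq_one]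
          have : a * e = e * a := (hcc.2.1 _ (hle he) a (Subgroup.mem_sup_left ha)).symm
          rw [this]; exact h1
        rw [e1]
        exact Subgroup.inv_mem _ (hle he)
      rw [comm_inf_eq_bot hS hA hAS hcc, Subgroup.mem_bot] at h2
      exact ha1 h2
    · rw [hea]
      exact ⟨a, ha, rfl⟩
  · have hEni := not_isolated_of_partner hE hD h
    rcases root_inf_trivial hS hEni hE _ hC with h1 | h1
    · exfalso
      apply he1
      have : e ∈ E ⊓ ⁅A, B⁆ := Subgroup.mem_inf.mpr ⟨he, hle he⟩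
      rwa [h1, Subgroup.mem_bot] at this
    · exact h1
  · rcases hS.pair _ hC D hD with h2 | h2 | h2
    · exfalso
      apply hS.ne_bot _ h.1
      rw [eq_bot_iff, ← h2]
      exact Subgroup.commutator_mono hle le_rfl
    · have hCni := not_isolated_of_partner hC hD h2
      rcases root_inf_trivial hS hCni hC _ hE with h1 | h1
      · exfalso
        apply he1
        have : e ∈ ⁅A, B⁆ ⊓ E := Subgroup.mem_inf.mpr ⟨hle he, he⟩
        rwa [h1, Subgroup.mem_bot] at this
      · exact h1.symm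
    · -- both `(E, D)` and `([A, B], D)` in the commutator case
      apply le_antisymm hle
      obtain ⟨d, hd, hd1⟩ := exists_ne_one_of_ne_bot (RankOne.right_ne_bot hAD)
      have hDni := not_isolated_of_partner hD hAS (RankOnePair_symm hAD)
      have heq : ⁅E, D⁆ = ⁅⁅A, B⁆, D⁆ := by
        rw [← h.2.2.1 e he he1, ← h2.2.2.1 e (hle he) he1]
      intro c hc
      have hf : c * d * c⁻¹ * d⁻¹ ∈ ⁅E, D⁆ := by
        rw [heq]
        have := Subgroup.commutator_mem_commutator hc hd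
        rwa [commutatorElement_def] at this
      -- surjectivity in the first variable
      have hsymm := rootCommutatorCase_symm h
      rw [Subgroup.commutator_comm] at hf
      obtain ⟨e', he', hfe⟩ := comm_surj' hsymm hd hd1 _ hf
      -- `e'⁻¹ c` commutes with `d`
      have hcomm : (e'⁻¹ * c) * d = d * (e'⁻¹ * c) := by
        have e1 : c * d * c⁻¹ = e' * d * e'⁻¹ := by
          have e2 : c * d * c⁻¹ = c * d * c⁻¹ * d⁻¹ * d := by group
          rw [e2, hfe]; group
        have e3 : e'⁻¹ * c * d = e'⁻¹ * (c * d * c⁻¹) * c := by group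
        rw [e3, e1]; group
      have h2symm := rootCommutatorCase_symm h2
      by_cases hone : e'⁻¹ * c = 1
      · have : c = e' := by
          have e4 : c = e' * (e'⁻¹ * c) := by group
          rw [e4, hone, mul_one]
        rw [this]; exact he'
      · exfalso
        exact comm_ne hS hDni hD h2symm hd hd1
          (Subgroup.mul_mem _ (Subgroup.inv_mem _ (hle he')) hc) hone hcomm.symm

end Cfsg.Agent.Helper8
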