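import Cfsg.Agent.Helper8.RootComm

/-!
# The partition of `A[A, B]` (Timmesfeld II (2.3))
-/

set_option autoImplicit false

namespace Cfsg.Agent.Helper8

open Cfsg
open scoped commutatorElement

variable {G : Type*} [Group G]

theorem conj_le_sup_comm {A B : Subgroup G} {b : G} (hb : b ∈ B) :
    conjBy A b ≤ A ⊔ ⁅A, B⁆ := by
  rintro _ ⟨a, ha, rfl⟩
  show b * a * b⁻¹ ∈ A ⊔ ⁅A, B⁆
  have e : b * a * b⁻¹ = ⁅b, a⁆ * a := by rw [commutatorElement_def]; group
  rw [e]
  refine Subgroup.mul_mem _ (Subgroup.mem_sup_right ?_) (Subgroup.mem_sup_left ha)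
  rw [Subgroup.commutator_comm]
  exact Subgroup.commutator_mem_commutator hb ha

/-- Timmesfeld II (2.3): the root subgroups in `A[A, B]`. -/
theorem root_commutator_partition {S : Set (Subgroup G)} (hS : IsRootSubgroupSet S)
    {A B : Subgroup G} (hA : ¬ IsIsolatedIn (FAdj S) S A) (hAS : A ∈ S) (hB : B ∈ S)
    (hC : ⁅A, B⁆ ∈ S) :
    membersIn S (A ⊔ ⁅A, B⁆) = (fun b : G => conjBy A b) '' (B : Set G) ∪ {⁅A, B⁆} ∧
    IsSubgroupPartition (A ⊔ ⁅A, B⁆) (membersIn S (A ⊔ ⁅A, B⁆)) ∧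
    A ∈ linePartners S ⁅A, B⁆ ∧
    ∀ a ∈ A, a ≠ 1 → ∃ φ : ↥B ≃* ↥⁅A, B⁆, ∀ b : ↥B, (φ b : G) = a⁻¹ * (b : G)⁻¹ * a * b := by
  have hcc := commCase_of_mem hS hAS hB hC
  have hinf := comm_inf_eq_bot hS hA hAS hcc
  have hcomm : ∀ a ∈ A, ∀ c ∈ ⁅A, B⁆, a * c = c * a := fun a ha c hc =>
    (hcc.2.1 c hc a (Subgroup.mem_sup_left ha)).symm
  have key_cover : ∀ a ∈ A, a ≠ 1 → ∀ c ∈ ⁅A, B⁆, ∃ b ∈ B, a * c = b * a * b⁻¹ := by
    intro a ha ha1 c hc
    obtain ⟨b, hb, hcb⟩ := comm_surj' hcc ha ha1 c hc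
    refine ⟨b, hb, ?_⟩
    rw [hcomm a ha c hc, hcb]; group
  have hmem : membersIn S (A ⊔ ⁅A, B⁆) =
      (fun b : G => conjBy A b) '' (B : Set G) ∪ {⁅A, B⁆} := by
    ext E
    constructor
    · rintro ⟨hE, hEle⟩
      by_cases hEC : E ≤ ⁅A, B⁆
      · right
        exact eq_of_le_comm hS hA hAS hcc hE hEC
      · left
        obtain ⟨e, he, heC⟩ := SetLike.not_le_iff_exists.mp hEC
        obtain ⟨a, ha, c, hc, rfl⟩ := (mem_sup_of_commute hcomm).mp (hEle he)
        have ha1 : a ≠ 1 := by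
          rintro rfl
          apply heC
          rw [one_mul]; exact hc
        obtain ⟨b, hb, hab⟩ := key_cover a ha ha1 c hc
        refine ⟨b, hb, ?_⟩
        have hni := not_isolated_conj hS hA hAS b
        rcases root_inf_trivial hS hni (hS.conj_mem A hAS b) E hE with h1 | h1
        · exfalso
          have h2 : a * c ∈ conjBy A b ⊓ E := by
            refine Subgroup.mem_inf.mpr ⟨?_, he⟩
            rw [hab]; exact ⟨a, ha, rfl⟩
          rw [h1, Subgroup.mem_bot] at h2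
          apply heC
          rw [h2]; exact Subgroup.one_mem _
        · exact h1
    · rintro (⟨b, hb, rfl⟩ | hE)
      · exact ⟨hS.conj_mem A hAS b, conj_le_sup_comm hb⟩
      · rw [Set.mem_singleton_iff] at hE
        rw [hE]
        exact ⟨hC, le_sup_right⟩
  have hpart : IsSubgroupPartition (A ⊔ ⁅A, B⁆) (membersIn S (A ⊔ ⁅A, B⁆)) := by
    refine ⟨fun E hE => hE.2, ?_, ?_⟩
    · intro x hx hx1
      obtain ⟨a, ha, c, hc, rfl⟩ := (mem_sup_of_commute hcomm).mp hx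
      by_cases ha1 : a = 1
      · refine ⟨⁅A, B⁆, ⟨hC, le_sup_right⟩, ?_⟩
        rw [ha1, one_mul]; exact hc
      · obtain ⟨b, hb, hab⟩ := key_cover a ha ha1 c hc
        refine ⟨conjBy A b, ⟨hS.conj_mem A hAS b, conj_le_sup_comm hb⟩, ?_⟩
        rw [hab]; exact ⟨a, ha, rfl⟩
    · intro E hE E' hE' hne
      have hES := hE.1
      have hE'S := hE'.1
      rw [hmem] at hE hE'
      rcases hE with ⟨b, hb, rfl⟩ | hE
      · exact (root_inf_trivial hS (not_isolated_conj hS hA hAS b) (hS.conj_mem A hAS b)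
          E' hE'S).resolve_right hne
      · rcases hE' with ⟨b', hb', rfl⟩ | hE'
        · rw [inf_comm]
          exact (root_inf_trivial hS (not_isolated_conj hS hA hAS b') (hS.conj_mem A hAS b')
            E hES).resolve_right (Ne.symm hne)
        · exfalso
          rw [Set.mem_singleton_iff] at hE hE'
          exact hne (hE.trans hE'.symm)
  refine ⟨hmem, hpart, ?_, ?_⟩
  · refine ⟨⟨hAS, ?_, ?_⟩, ?_⟩
    · intro h
      apply hS.ne_bot A hAS
      rw [← hinf, ← h, inf_idem]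
    · rw [Subgroup.commutator_eq_bot_iff_le_centralizer]
      intro c hc
      rw [Subgroup.mem_centralizer_iff]
      intro a ha
      exact hcomm a ha c hc
    · rw [sup_comm]
      exact hpart
  · intro a ha ha1
    have hmemf : ∀ b : ↥B, a⁻¹ * (b : G)⁻¹ * a * b ∈ ⁅A, B⁆ := by
      intro b
      have := Subgroup.commutator_mem_commutator (A.inv_mem ha) (B.inv_mem b.2)
      rwa [commutatorElement_def, inv_inv, inv_inv] at this
    let f : ↥B →* ↥⁅A, B⁆ :=
      { toFun := fun b => ⟨a⁻¹ * (b : G)⁻¹ * a * b, hmemf b⟩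
        map_one' := by
          apply Subtype.ext
          show a⁻¹ * ((1 : ↥B) : G)⁻¹ * a * ((1 : ↥B) : G) = 1
          rw [Subgroup.coe_one]; group
        map_mul' := by
          intro b b'
          apply Subtype.ext
          show a⁻¹ * ((b * b' : ↥B) : G)⁻¹ * a * ((b * b' : ↥B) : G) =
            (a⁻¹ * (b : G)⁻¹ * a * b) * (a⁻¹ * (b' : G)⁻¹ * a * b')
          rw [Subgroup.coe_mul]
          have hz := hcc.2.1 _ (hmemf b) (b' : G) (Subgroup.mem_sup_right b'.2)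
          have hz2 := hcc.2.1 _ (hmemf b') (a⁻¹ * (b : G)⁻¹ * a * b)
            (Subgroup.mul_mem _ (Subgroup.mul_mem _ (Subgroup.mul_mem _
              (Subgroup.mem_sup_left (A.inv_mem ha)) (Subgroup.mem_sup_right (B.inv_mem b.2)))
              (Subgroup.mem_sup_left ha)) (Subgroup.mem_sup_right b.2))
          calc a⁻¹ * ((b : G) * (b' : G))⁻¹ * a * ((b : G) * (b' : G))
              = a⁻¹ * (b' : G)⁻¹ * a * ((a⁻¹ * (b : G)⁻¹ * a * b) * b') := by group
            _ = a⁻¹ * (b' : G)⁻¹ * a * ((b' : G) * (a⁻¹ * (b : G)⁻¹ * a * b)) := by rw [hz]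
            _ = (a⁻¹ * (b' : G)⁻¹ * a * b') * (a⁻¹ * (b : G)⁻¹ * a * b) := by group
            _ = (a⁻¹ * (b : G)⁻¹ * a * b) * (a⁻¹ * (b' : G)⁻¹ * a * b') := hz2 }
    have hinj : Function.Injective f := by
      rw [injective_iff_map_eq_one]
      intro b hb
      by_contra hb1
      have h1 : a⁻¹ * (b : G)⁻¹ * a * b = 1 := congrArg Subtype.val hb
      have h2 : a * (b : G) = b * a := by
        have e : a * (b : G) = (b : G) * a * (a⁻¹ * (b : G)⁻¹ * a * b) := by group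
        rw [e, h1, mul_one]
      exact comm_ne hS hA hAS hcc ha ha1 b.2 (fun h => hb1 (Subtype.ext h)) h2
    have hsurj : Function.Surjective f := by
      rintro ⟨c, hc⟩
      obtain ⟨b₁, hb₁, hcb⟩ := comm_surj hcc (A.inv_mem ha)
        (fun h => ha1 (inv_eq_one.mp h)) c hc
      refine ⟨⟨b₁⁻¹, B.inv_mem hb₁⟩, ?_⟩
      apply Subtype.ext
      show a⁻¹ * (b₁⁻¹)⁻¹ * a * b₁⁻¹ = c
      rw [hcb, inv_inv, inv_inv]
    exact ⟨MulEquiv.ofBijective f ⟨hinj, hsurj⟩, fun b => rfl⟩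

end Cfsg.Agent.Helper8
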