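import Cfsg.Agent.Helper8.RootSpecial

/-!
# The graphs `𝓔(Σ)` and `𝓓(Σ)` for a non-degenerate class of root subgroups
-/

set_option autoImplicit false

namespace Cfsg.Agent.Helper8

open Cfsg
open scoped commutatorElement

variable {G : Type*} [Group G]

theorem linePartners_symm {S : Set (Subgroup G)} {A B : Subgroup G} (hA : A ∈ S)
    (h : B ∈ linePartners S A) : A ∈ linePartners S B :=
  ⟨⟨hA, h.1.2.1.symm, by rw [Subgroup.commutator_comm]; exact h.1.2.2⟩,
    by rw [sup_comm]; exact h.2⟩

theorem e_path_of_rankOne {S : Set (Subgroup G)} (hS : IsRootSubgroupSet S)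
    (hclass : IsConjClassOfSubgroups S) (hnd : IsNondegenerateRootSet S) {A B : Subgroup G}
    (hA : A ∈ S) (hB : B ∈ S) (hAB : IsRankOnePair A B) :
    Relation.ReflTransGen (EAdj S S) A B := by
  have hni := class_not_isolated hS hclass hA hB hAB
  obtain ⟨C, hCL, hcc⟩ := exists_line_comm_partner hS hclass hnd hA hB hAB
  have hC : C ∈ S := hCL.1.1
  have hF : ⁅B, C⁆ ∈ S := hcc.1
  have e1 : EAdj S S A C := ⟨hA, hC, hCL⟩
  have e2 : EAdj S S C ⁅B, C⁆ := by
    refine ⟨hC, hF, ?_⟩
    have hCB : ⁅C, B⁆ ∈ S := by rw [Subgroup.commutator_comm]; exact hF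
    have h1 := (root_commutator_partition hS (hni C hC) hC hB hCB).2.2.1
    rw [Subgroup.commutator_comm] at h1
    exact linePartners_symm hF h1
  have e3 : EAdj S S ⁅B, C⁆ B :=
    ⟨hF, hB, (root_commutator_partition hS (hni B hB) hB hC hF).2.2.1⟩
  exact Relation.ReflTransGen.head e1 (Relation.ReflTransGen.head e2
    (Relation.ReflTransGen.single e3))

theorem e_path_of_f_path {S : Set (Subgroup G)} (hS : IsRootSubgroupSet S)
    (hclass : IsConjClassOfSubgroups S) (hnd : IsNondegenerateRootSet S) {A B : Subgroup G}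
    (h : Relation.ReflTransGen (FAdj S) A B) : Relation.ReflTransGen (EAdj S S) A B := by
  induction h with
  | refl => exact Relation.ReflTransGen.refl
  | tail _ hbc ih =>
    exact ih.trans (e_path_of_rankOne hS hclass hnd hbc.1 hbc.2.1 hbc.2.2)

theorem e_connected {S : Set (Subgroup G)} (hS : IsRootSubgroupSet S)
    (hclass : IsConjClassOfSubgroups S) (hnd : IsNondegenerateRootSet S) :
    IsConnectedFamily (EAdj S S) S := by
  obtain ⟨A₀, hA₀, B₀, hB₀, hAB₀⟩ := hnd.2.1
  have hni := class_not_isolated hS hclass hA₀ hB₀ hAB₀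
  intro A hA B hB
  obtain ⟨g, rfl⟩ := hclass.2 A hA B hB
  exact e_path_of_f_path hS hclass hnd (connected_of_class hS hni A hA g)

theorem d_connected {S : Set (Subgroup G)} (hS : IsRootSubgroupSet S)
    (hclass : IsConjClassOfSubgroups S) (hnd : IsNondegenerateRootSet S) :
    IsConnectedFamily (DAdj S) S := by
  intro A hA B hB
  have hmono : EAdj S S ≤ DAdj S :=
    fun X Y h => ⟨h.1, h.2.1, h.2.2.1.2.1.symm, h.2.2.1.2.2⟩
  exact Relation.ReflTransGen.mono hmono A B (e_connected hS hclass hnd A hA B hB)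

end Cfsg.Agent.Helper8
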