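import Cfsg.Agent.Helper8.RootOpp

/-!
# Lines and connected components of the graph of rank one pairs (Timmesfeld II (2.7), (2.8))
-/

set_option autoImplicit false

namespace Cfsg.Agent.Helper8

open Cfsg
open scoped commutatorElement

variable {G : Type*} [Group G]

/-- A rank one pair is not in the commutator case. -/
theorem not_commCase_of_rankOne {S : Set (Subgroup G)} {B D : Subgroup G}
    (hp : IsRankOnePair B D) : ¬ RootCommutatorCase S D B := by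
  intro hcc
  obtain ⟨b, hb, hb1⟩ := exists_ne_one_of_ne_bot (RankOne.left_ne_bot hp)
  obtain ⟨d, hd, hd1⟩ := exists_ne_one_of_ne_bot (RankOne.right_ne_bot hp)
  have hf : b * d * b⁻¹ * d⁻¹ ∈ ⁅D, B⁆ := by
    rw [Subgroup.commutator_comm]
    have := Subgroup.commutator_mem_commutator hb hd
    rwa [commutatorElement_def] at this
  have h1 : b * d * b⁻¹ ∈ conjBy D b ⊓ Subgroup.normalizer (D : Set G) := by
    refine Subgroup.mem_inf.mpr ⟨⟨d, hd, rfl⟩, ?_⟩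
    have e : b * d * b⁻¹ = b * d * b⁻¹ * d⁻¹ * d := by group
    rw [e]
    exact Subgroup.mul_mem _ (mem_normalizer_of_centralizes fun y hy =>
      hcc.2.1 _ hf y (Subgroup.mem_sup_left hy)) (Subgroup.le_normalizer hd)
  rw [RankOne.conj_right_inf_normalizer hp hb hb1, Subgroup.mem_bot] at h1
  apply hd1
  have e : d = b⁻¹ * (b * d * b⁻¹) * b := by group
  rw [e, h1]; group

/-- If `(A, D)` is a rank one pair, `a ∈ A#`, `b` centralizes `D` and `a b` lies in the root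
subgroup `C`, then `(C, D)` is a rank one pair. -/
theorem rankOne_of_mul_mem {S : Set (Subgroup G)} (hS : IsRootSubgroupSet S)
    {A C D : Subgroup G} (hC : C ∈ S) (hD : D ∈ S) (hAD : IsRankOnePair A D) {a b : G}
    (ha : a ∈ A) (ha1 : a ≠ 1) (hb : ∀ d ∈ D, b * d = d * b) (hab : a * b ∈ C) :
    IsRankOnePair C D := by
  rcases hS.pair C hC D hD with h | h | h
  · exfalso
    have h2 : a ∈ A ⊓ Subgroup.normalizer (D : Set G) := by
      refine Subgroup.mem_inf.mpr ⟨ha, mem_normalizer_of_centralizes fun d hd => ?_⟩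
      have h3 := comm_of_commutator_eq_bot h hab hd
      have h4 := hb d hd
      calc a * d = a * (b * d) * b⁻¹ := by rw [h4]; group
        _ = (a * b * d) * b⁻¹ := by group
        _ = d * (a * b) * b⁻¹ := by rw [h3]
        _ = d * a := by group
    rw [RankOne.inf_normalizer hAD, Subgroup.mem_bot] at h2
    exact ha1 h2
  · exact h
  · exfalso
    obtain ⟨d, hd, hd1⟩ := exists_ne_one_of_ne_bot (RankOne.right_ne_bot hAD)
    have hf : a * d * a⁻¹ * d⁻¹ ∈ ⁅C, D⁆ := by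
      have := Subgroup.commutator_mem_commutator hab hd
      rw [commutatorElement_def] at this
      have e : a * b * d * (a * b)⁻¹ * d⁻¹ = a * d * a⁻¹ * d⁻¹ := by
        have h4 := hb d hd
        calc a * b * d * (a * b)⁻¹ * d⁻¹ = a * (b * d) * b⁻¹ * a⁻¹ * d⁻¹ := by group
          _ = a * (d * b) * b⁻¹ * a⁻¹ * d⁻¹ := by rw [h4]
          _ = a * d * a⁻¹ * d⁻¹ := by group
      rwa [e] at this
    have h1 : a * d * a⁻¹ ∈ conjBy D a ⊓ Subgroup.normalizer (D : Set G) := by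
      refine Subgroup.mem_inf.mpr ⟨⟨d, hd, rfl⟩, ?_⟩
      have e : a * d * a⁻¹ = a * d * a⁻¹ * d⁻¹ * d := by group
      rw [e]
      exact Subgroup.mul_mem _ (mem_normalizer_of_centralizes fun y hy =>
        h.2.1 _ hf y (Subgroup.mem_sup_right hy)) (Subgroup.le_normalizer hd)
    rw [RankOne.conj_right_inf_normalizer hAD ha ha1, Subgroup.mem_bot] at h1
    apply hd1
    have e : d = a⁻¹ * (a * d * a⁻¹) * a := by group
    rw [e, h1]; group

theorem not_rankOne_conj_comm {S : Set (Subgroup G)} (hS : IsRootSubgroupSet S)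
    {A B D : Subgroup G} (hA : A ∈ S) (hB : B ∈ S) (hD : D ∈ S) (hAD : IsRankOnePair A D)
    (hAB : ∀ a ∈ A, ∀ b ∈ B, a * b = b * a) (hcc : RootCommutatorCase S D B) {a : G}
    (ha : a ∈ A) (ha1 : a ≠ 1) : ¬ IsRankOnePair D (conjBy ⁅D, B⁆ a) := by
  intro hr
  obtain ⟨d, hd, hd1, hpar⟩ := hAD.cond_left a ha ha1
  obtain ⟨b₀, hb₀, hb₀1⟩ := exists_ne_one_of_ne_bot (hS.ne_bot B hB)
  have hDni : ¬ IsIsolatedIn (FAdj S) S D :=
    not_isolated_of_partner hD hA (RankOnePair_symm hAD)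
  have hy : ∀ d' ∈ D, (a * d⁻¹ * b₀ * d * a⁻¹) * d' = d' * (a * d⁻¹ * b₀ * d * a⁻¹) := by
    intro d' hd'
    have h1 : a⁻¹ * d' * a ∈ conjBy D a⁻¹ := by
      rw [mem_conjBy]
      have e : a⁻¹⁻¹ * (a⁻¹ * d' * a) * a⁻¹ = d' := by group
      rw [e]; exact hd'
    rw [← hpar, mem_conjBy] at h1
    have h2 := hAB _ h1 b₀ hb₀
    calc (a * d⁻¹ * b₀ * d * a⁻¹) * d'
        = a * d⁻¹ * (b₀ * (d⁻¹⁻¹ * (a⁻¹ * d' * a) * d⁻¹)) * d * a⁻¹ := by group
      _ = a * d⁻¹ * ((d⁻¹⁻¹ * (a⁻¹ * d' * a) * d⁻¹) * b₀) * d * a⁻¹ := by rw [h2]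
      _ = d' * (a * d⁻¹ * b₀ * d * a⁻¹) := by group
  have hb0a : a * b₀ = b₀ * a := hAB a ha b₀ hb₀
  have hf : b₀ * d⁻¹ * b₀⁻¹ * d⁻¹⁻¹ ∈ ⁅D, B⁆ := by
    rw [Subgroup.commutator_comm]
    have := Subgroup.commutator_mem_commutator hb₀ (D.inv_mem hd)
    rwa [commutatorElement_def] at this
  have ha' : b₀ * (a * d⁻¹ * b₀ * d * a⁻¹)⁻¹ = a * (b₀ * d⁻¹ * b₀⁻¹ * d⁻¹⁻¹) * a⁻¹ := by
    calc b₀ * (a * d⁻¹ * b₀ * d * a⁻¹)⁻¹ = (b₀ * a) * d⁻¹ * b₀⁻¹ * d * a⁻¹ := by group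
      _ = (a * b₀) * d⁻¹ * b₀⁻¹ * d * a⁻¹ := by rw [hb0a]
      _ = a * (b₀ * d⁻¹ * b₀⁻¹ * d⁻¹⁻¹) * a⁻¹ := by group
  have ha'mem : b₀ * (a * d⁻¹ * b₀ * d * a⁻¹)⁻¹ ∈ conjBy ⁅D, B⁆ a := by
    rw [ha']; exact ⟨_, hf, rfl⟩
  have ha'1 : b₀ * (a * d⁻¹ * b₀ * d * a⁻¹)⁻¹ ≠ 1 := by
    rw [ha']
    intro h1
    have h2 : b₀ * d⁻¹ * b₀⁻¹ * d⁻¹⁻¹ = 1 := by
      have e : b₀ * d⁻¹ * b₀⁻¹ * d⁻¹⁻¹ =
          a⁻¹ * (a * (b₀ * d⁻¹ * b₀⁻¹ * d⁻¹⁻¹) * a⁻¹) * a := by group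
      rw [e, h1]; group
    have h3 : d⁻¹ * b₀ = b₀ * d⁻¹ := by
      have e : b₀ * d⁻¹ = (b₀ * d⁻¹ * b₀⁻¹ * d⁻¹⁻¹) * (d⁻¹ * b₀) := by group
      rw [e, h2, one_mul]
    exact comm_ne hS hDni hD hcc (D.inv_mem hd) (inv_ne_one.mpr hd1) hb₀ hb₀1 h3
  have hBD := rankOne_of_mul_mem hS hB hD (RankOnePair_symm hr) ha'mem ha'1 hy (by
    have e : b₀ * (a * d⁻¹ * b₀ * d * a⁻¹)⁻¹ * (a * d⁻¹ * b₀ * d * a⁻¹) = b₀ := by group
    rw [e]; exact hb₀)
  exact not_commCase_of_rankOne hBD hcc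

theorem rankOne_of_line_comm {S : Set (Subgroup G)} (hS : IsRootSubgroupSet S)
    {A B C D : Subgroup G} (hA : A ∈ S) (hB : B ∈ S) (hC : C ∈ S) (hD : D ∈ S)
    (hAD : IsRankOnePair A D) (hAB : ∀ a ∈ A, ∀ b ∈ B, a * b = b * a)
    (hcc : RootCommutatorCase S D B) {a b : G} (ha : a ∈ A) (ha1 : a ≠ 1) (hb : b ∈ B)
    (hab : a * b ∈ C) : IsRankOnePair C D := by
  have hainv : a⁻¹ ≠ 1 := inv_ne_one.mpr ha1
  rcases hS.pair C hC D hD with h | h | h
  · exfalso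
    obtain ⟨d, hd, hd1⟩ := exists_ne_one_of_ne_bot (RankOne.right_ne_bot hAD)
    have h3 := comm_of_commutator_eq_bot h hab hd
    have hf : d * b * d⁻¹ * b⁻¹ ∈ ⁅D, B⁆ := by
      have := Subgroup.commutator_mem_commutator hd hb
      rwa [commutatorElement_def] at this
    have h4 : a⁻¹ * d * a = (d * b * d⁻¹ * b⁻¹)⁻¹ * d := by
      calc a⁻¹ * d * a = a⁻¹ * (d * (a * b)) * b⁻¹ := by group
        _ = a⁻¹ * (a * b * d) * b⁻¹ := by rw [h3]
        _ = (d * b * d⁻¹ * b⁻¹)⁻¹ * d := by group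
    have h1 : a⁻¹ * d * a ∈ conjBy D a⁻¹ ⊓ Subgroup.normalizer (D : Set G) := by
      refine Subgroup.mem_inf.mpr ⟨?_, ?_⟩
      · rw [mem_conjBy]
        have e : a⁻¹⁻¹ * (a⁻¹ * d * a) * a⁻¹ = d := by group
        rw [e]; exact hd
      · rw [h4]
        exact Subgroup.mul_mem _ (Subgroup.inv_mem _ (mem_normalizer_of_centralizes fun y hy =>
          hcc.2.1 _ hf y (Subgroup.mem_sup_left hy))) (Subgroup.le_normalizer hd)
    rw [RankOne.conj_right_inf_normalizer hAD (A.inv_mem ha) hainv, Subgroup.mem_bot] at h1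
    apply hd1
    have e : d = a * (a⁻¹ * d * a) * a⁻¹ := by group
    rw [e, h1]; group
  · exact h
  · exfalso
    have hDc : IsMulCommutative D := hS.commutative D hD
    have hDcomm : ∀ y ∈ D, ∀ y' ∈ D, y * y' = y' * y := fun y hy y' hy' =>
      congrArg Subtype.val (mul_comm' (⟨y, hy⟩ : D) ⟨y', hy'⟩)
    have hcD : ∀ d₁ ∈ D, ∀ d₂ ∈ D,
        ((a * b) * d₁ * (a * b)⁻¹) * d₂ = d₂ * ((a * b) * d₁ * (a * b)⁻¹) := by
      intro d₁ hd₁ d₂ hd₂
      have hf' : (a * b) * d₁ * (a * b)⁻¹ * d₁⁻¹ ∈ ⁅C, D⁆ := by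
        have := Subgroup.commutator_mem_commutator hab hd₁
        rwa [commutatorElement_def] at this
      have h5 := h.2.1 _ hf' d₂ (Subgroup.mem_sup_right hd₂)
      have h6 := hDcomm d₁ hd₁ d₂ hd₂
      calc ((a * b) * d₁ * (a * b)⁻¹) * d₂
          = ((a * b) * d₁ * (a * b)⁻¹ * d₁⁻¹) * (d₁ * d₂) := by group
        _ = ((a * b) * d₁ * (a * b)⁻¹ * d₁⁻¹) * (d₂ * d₁) := by rw [h6]
        _ = (((a * b) * d₁ * (a * b)⁻¹ * d₁⁻¹) * d₂) * d₁ := by group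
        _ = (d₂ * ((a * b) * d₁ * (a * b)⁻¹ * d₁⁻¹)) * d₁ := by rw [h5]
        _ = d₂ * ((a * b) * d₁ * (a * b)⁻¹) := by group
    have hY : IsRankOnePair D (conjBy D a⁻¹) := by
      have hDA := RankOnePair_symm hAD
      refine unipotent_pair hDA ⟨a⁻¹, Subgroup.mem_sup_right (A.inv_mem ha), rfl⟩
        (RankOne.left_mem_unipotent D A) ?_
      intro heq
      have h7 : a⁻¹ ∈ A ⊓ Subgroup.normalizer (D : Set G) :=
        Subgroup.mem_inf.mpr ⟨A.inv_mem ha, conjBy_eq_iff_mem_normalizer.mp heq.symm⟩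
      rw [RankOne.inf_normalizer hAD, Subgroup.mem_bot] at h7
      exact hainv h7
    obtain ⟨d', hd', hd'1⟩ := exists_ne_one_of_ne_bot (RankOne.right_ne_bot hAD)
    have hFY : IsRankOnePair ⁅D, B⁆ (conjBy D a⁻¹) := by
      refine rankOne_of_mul_mem hS hcc.1 (hS.conj_mem D hD a⁻¹) hY (a := d'⁻¹)
        (b := b * d' * b⁻¹) (D.inv_mem hd') (inv_ne_one.mpr hd'1) ?_ ?_
      · rintro _ ⟨d₂, hd₂, rfl⟩
        show b * d' * b⁻¹ * (a⁻¹ * d₂ * a⁻¹⁻¹) = a⁻¹ * d₂ * a⁻¹⁻¹ * (b * d' * b⁻¹)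
        have h8 := hcD d' hd' d₂ hd₂
        calc b * d' * b⁻¹ * (a⁻¹ * d₂ * a⁻¹⁻¹)
            = a⁻¹ * (((a * b) * d' * (a * b)⁻¹) * d₂) * a := by group
          _ = a⁻¹ * (d₂ * ((a * b) * d' * (a * b)⁻¹)) * a := by rw [h8]
          _ = a⁻¹ * d₂ * a⁻¹⁻¹ * (b * d' * b⁻¹) := by group
      · have := Subgroup.commutator_mem_commutator (D.inv_mem hd') hb
        rw [commutatorElement_def] at this
        have e : d'⁻¹ * (b * d' * b⁻¹) = d'⁻¹ * b * d'⁻¹⁻¹ * b⁻¹ := by group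
        rw [e]; exact this
    have h9 := RankOne.conj hFY a
    rw [conjBy_conjBy, mul_inv_cancel, conjBy_one] at h9
    exact not_rankOne_conj_comm hS hA hB hD hAD hAB hcc ha ha1 (RankOnePair_symm h9)

/-- The line lemma: `(A, D)` a rank one pair, `B` commuting with `A` and not a rank one partner
of `D`; then every root subgroup `C` containing some `a b` with `a ∈ A#`, `b ∈ B` is a rank one
partner of `D`. -/
theorem line_rankOne {S : Set (Subgroup G)} (hS : IsRootSubgroupSet S)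
    {A B C D : Subgroup G} (hA : A ∈ S) (hB : B ∈ S) (hC : C ∈ S) (hD : D ∈ S)
    (hAD : IsRankOnePair A D) (hAB : ∀ a ∈ A, ∀ b ∈ B, a * b = b * a)
    (hBD : ¬ IsRankOnePair D B) {a b : G} (ha : a ∈ A) (ha1 : a ≠ 1) (hb : b ∈ B)
    (hab : a * b ∈ C) : IsRankOnePair C D := by
  rcases hS.pair D hD B hB with h | h | h
  · exact rankOne_of_mul_mem hS hC hD hAD ha ha1
      (fun d hd => (comm_of_commutator_eq_bot h hd hb).symm) hab
  · exact absurd h hBD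
  · exact rankOne_of_line_comm hS hA hB hC hD hAD hAB h ha ha1 hb hab

theorem fadj_reach_symm {S : Set (Subgroup G)} {A B : Subgroup G}
    (h : Relation.ReflTransGen (FAdj S) A B) : Relation.ReflTransGen (FAdj S) B A := by
  induction h with
  | refl => exact Relation.ReflTransGen.refl
  | tail _ hbc ih =>
    exact Relation.ReflTransGen.head ⟨hbc.2.1, hbc.1, RankOnePair_symm hbc.2.2⟩ ih

/-- Timmesfeld II (2.7): a line partner `B` of `A`, both non-isolated, is connected to `A` in the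
graph of rank one pairs. -/
theorem linePartner_reach {S : Set (Subgroup G)} (hS : IsRootSubgroupSet S)
    {A B D E : Subgroup G} (hA : A ∈ S) (hD : D ∈ S) (hE : E ∈ S) (hAD : IsRankOnePair A D)
    (hBE : IsRankOnePair B E) (hBL : B ∈ linePartners S A) :
    Relation.ReflTransGen (FAdj S) A B := by
  obtain ⟨⟨hB, hBA, hcomm⟩, hpart⟩ := hBL
  have hAni := not_isolated_of_partner hA hD hAD
  have hinf : A ⊓ B = ⊥ := (root_inf_trivial hS hAni hA B hB).resolve_right (Ne.symm hBA)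
  obtain ⟨a, ha, ha1⟩ := exists_ne_one_of_ne_bot (hS.ne_bot A hA)
  obtain ⟨b, hb, hb1⟩ := exists_ne_one_of_ne_bot (hS.ne_bot B hB)
  have hab1 : a * b ≠ 1 := by
    intro h
    have : a ∈ A ⊓ B := by
      refine Subgroup.mem_inf.mpr ⟨ha, ?_⟩
      have e : a = b⁻¹ := eq_inv_of_mul_eq_one_left h
      rw [e]; exact B.inv_mem hb
    rw [hinf, Subgroup.mem_bot] at this
    exact ha1 this
  obtain ⟨C, ⟨hC, -⟩, habC⟩ := hpart.2.1 (a * b)
    (Subgroup.mul_mem _ (Subgroup.mem_sup_left ha) (Subgroup.mem_sup_right hb)) hab1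
  have hABc : ∀ x ∈ A, ∀ y ∈ B, x * y = y * x := fun x hx y hy =>
    comm_of_commutator_eq_bot hcomm hx hy
  have e1 : FAdj S A D := ⟨hA, hD, hAD⟩
  have e4 : FAdj S E B := ⟨hE, hB, RankOnePair_symm hBE⟩
  by_cases hDB : IsRankOnePair D B
  · exact Relation.ReflTransGen.head e1 (Relation.ReflTransGen.single ⟨hD, hB, hDB⟩)
  by_cases hEA : IsRankOnePair E A
  · exact Relation.ReflTransGen.head ⟨hA, hE, RankOnePair_symm hEA⟩
      (Relation.ReflTransGen.single e4)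
  have hCD : IsRankOnePair C D := line_rankOne hS hA hB hC hD hAD hABc hDB ha ha1 hb habC
  have hCE : IsRankOnePair C E := by
    refine line_rankOne hS hB hA hC hE hBE (fun x hx y hy => (hABc y hy x hx).symm) hEA hb hb1
      ha ?_
    rw [← hABc a ha b hb]; exact habC
  exact Relation.ReflTransGen.head e1 (Relation.ReflTransGen.head ⟨hD, hC, RankOnePair_symm hCD⟩
    (Relation.ReflTransGen.head ⟨hC, hE, hCE⟩ (Relation.ReflTransGen.single e4)))

theorem partner_of_component {S : Set (Subgroup G)} {X : Subgroup G}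
    (h : ∃ X' ∈ componentOf (FAdj S) S X, X' ≠ X) : ∃ D ∈ S, IsRankOnePair X D := by
  obtain ⟨X', ⟨-, hreach⟩, hX'⟩ := h
  rcases Relation.ReflTransGen.cases_head hreach with h | ⟨D, hXD, -⟩
  · exact absurd h.symm hX'
  · exact ⟨D, hXD.2.1, hXD.2.2⟩

theorem not_linePartner_of_components {S : Set (Subgroup G)} (hS : IsRootSubgroupSet S)
    {A B : Subgroup G} (hA : A ∈ S)
    (hne : componentOf (FAdj S) S A ≠ componentOf (FAdj S) S B)
    (hA2 : ∃ A' ∈ componentOf (FAdj S) S A, A' ≠ A)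
    (hB2 : ∃ B' ∈ componentOf (FAdj S) S B, B' ≠ B) : B ∉ linePartners S A := by
  intro hBL
  obtain ⟨D, hD, hAD⟩ := partner_of_component hA2
  obtain ⟨E, hE, hBE⟩ := partner_of_component hB2
  have key := linePartner_reach hS hA hD hE hAD hBE hBL
  apply hne
  ext X
  constructor
  · rintro ⟨hX, h⟩
    exact ⟨hX, (fadj_reach_symm key).trans h⟩
  · rintro ⟨hX, h⟩
    exact ⟨hX, key.trans h⟩

end Cfsg.Agent.Helper8
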