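import Cfsg.Agent.Helper8.RootLine

/-!
# Connectedness of the graph of rank one pairs (Timmesfeld II (2.8))
-/

set_option autoImplicit false

namespace Cfsg.Agent.Helper8

open Cfsg
open scoped commutatorElement

variable {G : Type*} [Group G]

theorem conj_of_reach {S : Set (Subgroup G)} {A B : Subgroup G}
    (h : Relation.ReflTransGen (FAdj S) A B) : ∃ g : G, B = conjBy A g := by
  induction h with
  | refl => exact ⟨1, (conjBy_one A).symm⟩
  | tail _ hbc ih =>
    obtain ⟨g, rfl⟩ := ih
    obtain ⟨x, -, hx⟩ := RankOne.right_mem_unipotent hbc.2.2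
    exact ⟨x * g, by rw [hx, conjBy_conjBy]⟩

/-- In the commutator case `X^e` is a line partner of `X` for `e ∈ E#`. -/
theorem conj_mem_linePartners {S : Set (Subgroup G)} (hS : IsRootSubgroupSet S)
    {X E : Subgroup G} (hX : X ∈ S) (hE : E ∈ S) (hXni : ¬ IsIsolatedIn (FAdj S) S X)
    (h : RootCommutatorCase S X E) {e : G} (he : e ∈ E) (he1 : e ≠ 1) :
    conjBy X e ∈ linePartners S X := by
  have hXe := hS.conj_mem X hX e
  have hpart := (root_commutator_partition hS hXni hX hE h.1).2.1
  have hsup : X ⊔ conjBy X e = X ⊔ ⁅X, E⁆ := by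
    apply le_antisymm
    · exact sup_le le_sup_left (conj_le_sup_comm he)
    · refine sup_le le_sup_left ?_
      rw [← h.2.2.2 e he he1, Subgroup.closure_le]
      rintro _ ⟨x, hx, rfl⟩
      have e2 : x * e * x⁻¹ * e⁻¹ = x * (e * x⁻¹ * e⁻¹) := by group
      show x * e * x⁻¹ * e⁻¹ ∈ X ⊔ conjBy X e
      rw [e2]
      exact Subgroup.mul_mem _ (Subgroup.mem_sup_left hx)
        (Subgroup.mem_sup_right ⟨x⁻¹, X.inv_mem hx, rfl⟩)
  refine ⟨⟨hXe, ?_, ?_⟩, ?_⟩
  · intro heq
    obtain ⟨x, hx, hx1⟩ := exists_ne_one_of_ne_bot (hS.ne_bot X hX)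
    have h2 : e * x * e⁻¹ * x⁻¹ ∈ X ⊓ ⁅X, E⁆ := by
      refine Subgroup.mem_inf.mpr ⟨X.mul_mem ?_ (X.inv_mem hx), ?_⟩
      · have : e * x * e⁻¹ ∈ conjBy X e := ⟨x, hx, rfl⟩
        rwa [heq] at this
      · have := Subgroup.commutator_mem_commutator he hx
        rw [commutatorElement_def, Subgroup.commutator_comm] at this
        exact this
    rw [comm_inf_eq_bot hS hXni hX h, Subgroup.mem_bot] at h2
    have h3 : x * e = e * x := by
      have e3 : e * x = (e * x * e⁻¹ * x⁻¹) * (x * e) := by group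
      rw [e3, h2, one_mul]
    exact comm_ne hS hXni hX h hx hx1 he he1 h3
  · rw [Subgroup.commutator_eq_bot_iff_le_centralizer]
    intro x hx
    rw [Subgroup.mem_centralizer_iff]
    intro y hy
    have hy' : y ∈ X ⊔ ⁅X, E⁆ := conj_le_sup_comm he hy
    have hle : X ⊔ ⁅X, E⁆ ≤ Subgroup.centralizer ({x} : Set G) := by
      refine sup_le ?_ ?_
      · intro z hz
        rw [Subgroup.mem_centralizer_singleton_iff]
        have hXc := hS.commutative X hX
        exact congrArg Subtype.val (mul_comm' (⟨z, hz⟩ : X) ⟨x, hx⟩)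
      · intro z hz
        rw [Subgroup.mem_centralizer_singleton_iff]
        exact h.2.1 z hz x (Subgroup.mem_sup_left hx)
    have := hle hy'
    rw [Subgroup.mem_centralizer_singleton_iff] at this
    exact this
  · rw [hsup]; exact hpart

theorem conj_reach_of_mem {S : Set (Subgroup G)} (hS : IsRootSubgroupSet S)
    (hni : ∀ X ∈ S, ¬ IsIsolatedIn (FAdj S) S X) {X E : Subgroup G} (hX : X ∈ S) (hE : E ∈ S)
    {e : G} (he : e ∈ E) : Relation.ReflTransGen (FAdj S) X (conjBy X e) := by
  rcases hS.pair X hX E hE with h | h | h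
  · have : conjBy X e = X :=
      conjBy_eq_iff_mem_normalizer.mpr (mem_normalizer_of_centralizes fun y hy =>
        (comm_of_commutator_eq_bot h hy he).symm)
    rw [this]
  · have h1 := RankOne.conj h e
    rw [conjBy_of_mem he] at h1
    exact Relation.ReflTransGen.head ⟨hX, hE, h⟩
      (Relation.ReflTransGen.single ⟨hE, hS.conj_mem X hX e, RankOnePair_symm h1⟩)
  · by_cases he1 : e = 1
    · rw [he1, conjBy_one]
    obtain ⟨D, hD, hXD⟩ := exists_partner_of_not_isolated (hni X hX) hX
    have hXe := hS.conj_mem X hX e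
    obtain ⟨D', hD', hXD'⟩ := exists_partner_of_not_isolated (hni _ hXe) hXe
    exact linePartner_reach hS hX hD hD' hXD hXD'
      (conj_mem_linePartners hS hX hE (hni X hX) h he he1)

theorem connected_of_class {S : Set (Subgroup G)} (hS : IsRootSubgroupSet S)
    (hni : ∀ X ∈ S, ¬ IsIsolatedIn (FAdj S) S X) (X : Subgroup G) (hX : X ∈ S) (g : G) :
    Relation.ReflTransGen (FAdj S) X (conjBy X g) := by
  let K : Subgroup G :=
    { carrier := {g | ∀ X ∈ S, Relation.ReflTransGen (FAdj S) X (conjBy X g)}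
      one_mem' := fun X hX => by rw [conjBy_one]
      mul_mem' := by
        intro g h hg hh X hX
        rw [← conjBy_conjBy]
        exact (hh X hX).trans (hg _ (hS.conj_mem X hX h))
      inv_mem' := by
        intro g hg X hX
        have h1 := hg _ (hS.conj_mem X hX g⁻¹)
        rw [conjBy_conjBy, mul_inv_cancel, conjBy_one] at h1
        exact fadj_reach_symm h1 }
  have hle : (⨆ E ∈ S, E) ≤ K :=
    iSup₂_le fun E hE e he X hX => conj_reach_of_mem hS hni hX hE he
  have hg : g ∈ K := hle (hS.generates ▸ Subgroup.mem_top g)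
  exact hg X hX

end Cfsg.Agent.Helper8
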