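import Cfsg.Agent.Helper8.RootSpecial

/-!
# Double transitivity on the root subgroups of a line (Timmesfeld II (2.13)-type)
-/

set_option autoImplicit false

namespace Cfsg.Agent.Helper8

open Cfsg
open scoped commutatorElement

variable {G : Type*} [Group G]

/-- Variant of `comm_comm_eq` with a weaker covering hypothesis. -/
theorem comm_comm_eq' {S : Set (Subgroup G)} (hS : IsRootSubgroupSet S) {A B C : Subgroup G}
    (hA : A ∈ S) (hB : B ∈ S) (hC : C ∈ S) (hAB : IsRankOnePair A B) (hCA : C ≠ A)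
    (hAC : ∀ a ∈ A, ∀ c ∈ C, a * c = c * a)
    (hcover : ∀ a ∈ A, ∀ c ∈ C, a * c ≠ 1 → ∃ E ∈ S, a * c ∈ E)
    (hCni : ¬ IsIsolatedIn (FAdj S) S C) (hcc : RootCommutatorCase S B C) :
    ⁅A, ⁅B, C⁆⁆ = C := by
  have hccAF := commCase_left_comm hS hA hB hC hAB hAC hcc
  have hF := hcc.1
  have hAni := not_isolated_of_partner hA hB hAB
  have hinf : A ⊓ C = ⊥ := (root_inf_trivial hS hAni hA C hC).resolve_right (Ne.symm hCA)
  obtain ⟨a, ha, ha1⟩ := exists_ne_one_of_ne_bot (RankOne.left_ne_bot hAB)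
  obtain ⟨b, hb, hb1, hpar⟩ := hAB.cond_left a ha ha1
  obtain ⟨c, hc, hc1⟩ := exists_ne_one_of_ne_bot (hS.ne_bot C hC)
  have hf : b⁻¹ * c * b * c⁻¹ ∈ ⁅B, C⁆ := by
    have := Subgroup.commutator_mem_commutator (B.inv_mem hb) hc
    rwa [commutatorElement_def, inv_inv] at this
  obtain ⟨f, hfdef⟩ : ∃ f, f = b⁻¹ * c * b * c⁻¹ := ⟨_, rfl⟩
  rw [← hfdef] at hf
  have hx : a * f * a⁻¹ * f⁻¹ ∈ ⁅A, ⁅B, C⁆⁆ := by
    have := Subgroup.commutator_mem_commutator ha hf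
    rwa [commutatorElement_def] at this
  obtain ⟨x, hxdef⟩ : ∃ x, x = a * f * a⁻¹ * f⁻¹ := ⟨_, rfl⟩
  rw [← hxdef] at hx
  have hfc : f * c = c * f := hcc.2.1 f hf c (Subgroup.mem_sup_right hc)
  have hy₀ := partner_conj_comm hpar (c := c) (fun z hz => hAC z hz c hc)
  have hca : c * a⁻¹ = a⁻¹ * c := by
    have e : c * a⁻¹ = a⁻¹ * (a * c) * a⁻¹ := by group
    rw [e, hAC a ha c hc]; group
  have hy₀e : a * b⁻¹ * c * b * a⁻¹ = (x * c) * f := by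
    calc a * b⁻¹ * c * b * a⁻¹ = a * (b⁻¹ * c * b * c⁻¹) * (c * a⁻¹) := by group
      _ = a * f * (a⁻¹ * c) := by rw [hca, ← hfdef]
      _ = (a * f * a⁻¹ * f⁻¹) * (f * c) := by group
      _ = x * (c * f) := by rw [hfc, ← hxdef]
      _ = (x * c) * f := by group
  have hyB : ∀ b' ∈ B, (x * c) * b' = b' * (x * c) := by
    intro b' hb'
    have h1 := hy₀ b' hb'
    rw [hy₀e] at h1
    have h2 : f * b' = b' * f := hcc.2.1 f hf b' (Subgroup.mem_sup_left hb')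
    have : (x * c) * b' * f = b' * (x * c) * f := by
      calc (x * c) * b' * f = (x * c) * (b' * f) := by group
        _ = (x * c) * (f * b') := by rw [h2]
        _ = ((x * c) * f) * b' := by group
        _ = b' * ((x * c) * f) := h1
        _ = b' * (x * c) * f := by group
    exact mul_right_cancel this
  have hyA : ∀ a' ∈ A, (x * c) * a' = a' * (x * c) := by
    intro a' ha'
    have h1 : x * a' = a' * x := hccAF.2.1 x hx a' (Subgroup.mem_sup_left ha')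
    have h2 := hAC a' ha' c hc
    calc (x * c) * a' = x * (c * a') := by group
      _ = x * (a' * c) := by rw [h2]
      _ = (x * a') * c := by group
      _ = (a' * x) * c := by rw [h1]
      _ = a' * (x * c) := by group
  have hycen : x * c ∈ Subgroup.centralizer ((A ⊔ B : Subgroup G) : Set G) := by
    have hle : A ⊔ B ≤ Subgroup.centralizer ({x * c} : Set G) := by
      refine sup_le ?_ ?_
      · intro z hz
        rw [Subgroup.mem_centralizer_singleton_iff]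
        exact (hyA z hz).symm
      · intro z hz
        rw [Subgroup.mem_centralizer_singleton_iff]
        exact (hyB z hz).symm
    rw [Subgroup.mem_centralizer_iff]
    intro z hz
    have := hle hz
    rw [Subgroup.mem_centralizer_singleton_iff] at this
    exact this
  have hac1 : a * c ≠ 1 := by
    intro h
    have : a ∈ A ⊓ C := by
      refine Subgroup.mem_inf.mpr ⟨ha, ?_⟩
      rw [eq_inv_of_mul_eq_one_left h]; exact C.inv_mem hc
    rw [hinf, Subgroup.mem_bot] at this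
    exact ha1 this
  have hy1 : x * c = 1 := by
    by_contra hne
    apply root_central_translate hS hA ⟨hB, hAB⟩ hycen hne a ha ha1
    obtain ⟨f', hf', hxf'⟩ := comm_surj' hccAF ha ha1 x hx
    have hcf' : f'⁻¹ * c = c * f'⁻¹ :=
      hcc.2.1 f'⁻¹ (Subgroup.inv_mem _ hf') c (Subgroup.mem_sup_right hc)
    have e : x * c * a = f' * (a * c) * f'⁻¹ := by
      have h2 := hAC a ha c hc
      calc x * c * a = x * (c * a) := by group
        _ = x * (a * c) := by rw [h2]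
        _ = (f' * a * f'⁻¹ * a⁻¹) * (a * c) := by rw [hxf']
        _ = f' * a * (f'⁻¹ * c) := by group
        _ = f' * a * (c * f'⁻¹) := by rw [hcf']
        _ = f' * (a * c) * f'⁻¹ := by group
    obtain ⟨E', hE', hacE'⟩ := hcover a ha c hc hac1
    refine ⟨?_, conjBy E' f', hS.conj_mem E' hE' f', ?_⟩
    · rw [e]
      intro h
      apply hac1
      have e2 : a * c = f'⁻¹ * (f' * (a * c) * f'⁻¹) * f' := by group
      rw [e2, h]; group
    · rw [e]; exact ⟨_, hacE', rfl⟩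
  have hcx : c ∈ C ⊓ ⁅A, ⁅B, C⁆⁆ := by
    refine Subgroup.mem_inf.mpr ⟨hc, ?_⟩
    rw [eq_inv_of_mul_eq_one_right hy1]
    exact Subgroup.inv_mem _ hx
  rcases root_inf_trivial hS hCni hC _ hccAF.1 with h | h
  · exfalso
    rw [h, Subgroup.mem_bot] at hcx
    exact hc1 hcx
  · exact h.symm

/-- For a line `A ⊔ B` there are a member `B' ≠ A` of the line and a root subgroup `E` with
`[A, E] = B'` (so `E` fixes `B'` and is transitive on the other members of the line). -/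
theorem exists_elation {S : Set (Subgroup G)} (hS : IsRootSubgroupSet S)
    (hF : ∀ X ∈ S, ¬ IsIsolatedIn (FAdj S) S X) {A B : Subgroup G} (hA : A ∈ S)
    (hBL : B ∈ linePartners S A) :
    ∃ B' ∈ membersIn S (A ⊔ B), B' ≠ A ∧ ∃ E ∈ S, RootCommutatorCase S A E ∧ ⁅A, E⁆ = B' ∧
      A ⊔ B' = A ⊔ B := by
  obtain ⟨⟨hB, hBA, hcomm⟩, hpart⟩ := hBL
  have hAB : ∀ a ∈ A, ∀ b ∈ B, a * b = b * a := fun a ha b hb =>
    comm_of_commutator_eq_bot hcomm ha hb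
  have hAni := hF A hA
  obtain ⟨D, hD, hAD⟩ := exists_partner_of_not_isolated hAni hA
  have hinfAB : A ⊓ B = ⊥ := (root_inf_trivial hS hAni hA B hB).resolve_right (Ne.symm hBA)
  have hAc := hS.commutative A hA
  have hBc := hS.commutative B hB
  have hAcomm : ∀ y ∈ A, ∀ y' ∈ A, y * y' = y' * y := fun y hy y' hy' =>
    congrArg Subtype.val (mul_comm' (⟨y, hy⟩ : A) ⟨y', hy'⟩)
  have hBcomm : ∀ y ∈ B, ∀ y' ∈ B, y * y' = y' * y := fun y hy y' hy' =>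
    congrArg Subtype.val (mul_comm' (⟨y, hy⟩ : B) ⟨y', hy'⟩)
  have hNcomm : ∀ x ∈ A ⊔ B, ∀ y ∈ A ⊔ B, x * y = y * x := by
    intro x hx y hy
    obtain ⟨a, ha, b, hb, rfl⟩ := (mem_sup_of_commute hAB).mp hx
    obtain ⟨a', ha', b', hb', rfl⟩ := (mem_sup_of_commute hAB).mp hy
    calc a * b * (a' * b') = a * (b * a') * b' := by group
      _ = a * (a' * b) * b' := by rw [hAB a' ha' b hb]
      _ = (a * a') * (b * b') := by group
      _ = (a' * a) * (b' * b) := by rw [hAcomm a ha a' ha', hBcomm b hb b' hb']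
      _ = a' * (a * b') * b := by group
      _ = a' * (b' * a) * b := by rw [hAB a ha b' hb']
      _ = a' * b' * (a * b) := by group
  obtain ⟨B₁, hB₁L, hB₁A, hB₁D⟩ :
      ∃ B₁ ∈ membersIn S (A ⊔ B), B₁ ≠ A ∧ ¬ IsRankOnePair D B₁ := by
    by_cases hDB : IsRankOnePair D B
    · obtain ⟨a₀, ha₀, b₀, hb₀, hab1, hnot⟩ :=
        exists_not_rankOne_mul (RankOnePair_symm hAD) hDB hAB hinfAB
      obtain ⟨B₁, hB₁, hmem⟩ := hpart.2.1 (a₀ * b₀)
        (Subgroup.mul_mem _ (Subgroup.mem_sup_left ha₀) (Subgroup.mem_sup_right hb₀)) hab1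
      refine ⟨B₁, hB₁, ?_, ?_⟩
      · intro h
        rw [h] at hmem
        exact hnot _ hAD hmem
      · intro h
        exact hnot B₁ (RankOnePair_symm h) hmem
    · exact ⟨B, ⟨hB, le_sup_right⟩, hBA, hDB⟩
  obtain ⟨hB₁, hB₁le⟩ := hB₁L
  have hAB₁ : ∀ a ∈ A, ∀ b ∈ B₁, a * b = b * a := fun a ha b hb =>
    hNcomm a (Subgroup.mem_sup_left ha) b (hB₁le hb)
  have hinf₁ : A ⊓ B₁ = ⊥ := (root_inf_trivial hS hAni hA B₁ hB₁).resolve_right (Ne.symm hB₁A)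
  have hcover : ∀ a ∈ A, ∀ c ∈ B₁, a * c ≠ 1 → ∃ E ∈ S, a * c ∈ E := by
    intro a ha c hc h1
    obtain ⟨E, hE, hmem⟩ := hpart.2.1 (a * c)
      (Subgroup.mul_mem _ (Subgroup.mem_sup_left ha) (hB₁le hc)) h1
    exact ⟨E, hE.1, hmem⟩
  have hcc : RootCommutatorCase S D B₁ := by
    rcases hS.pair D hD B₁ hB₁ with h | h | h
    · exfalso
      obtain ⟨b₁, hb₁, hb₁1⟩ := exists_ne_one_of_ne_bot (hS.ne_bot B₁ hB₁)
      obtain ⟨a, ha, ha1⟩ := exists_ne_one_of_ne_bot (hS.ne_bot A hA)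
      have hcen : b₁ ∈ Subgroup.centralizer ((A ⊔ D : Subgroup G) : Set G) := by
        have hle : A ⊔ D ≤ Subgroup.centralizer ({b₁} : Set G) := by
          refine sup_le ?_ ?_
          · intro z hz
            rw [Subgroup.mem_centralizer_singleton_iff]
            exact hAB₁ z hz b₁ hb₁
          · intro z hz
            rw [Subgroup.mem_centralizer_singleton_iff]
            exact comm_of_commutator_eq_bot h hz hb₁
        rw [Subgroup.mem_centralizer_iff]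
        intro z hz
        have := hle hz
        rw [Subgroup.mem_centralizer_singleton_iff] at this
        exact this
      apply root_central_translate hS hA ⟨hD, hAD⟩ hcen hb₁1 a ha ha1
      have e : b₁ * a = a * b₁ := (hAB₁ a ha b₁ hb₁).symm
      have h1 : a * b₁ ≠ 1 := by
        intro h2
        have : a ∈ A ⊓ B₁ := by
          refine Subgroup.mem_inf.mpr ⟨ha, ?_⟩
          rw [eq_inv_of_mul_eq_one_left h2]; exact B₁.inv_mem hb₁
        rw [hinf₁, Subgroup.mem_bot] at this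
        exact ha1 this
      obtain ⟨E, hE, hmem⟩ := hcover a ha b₁ hb₁ h1
      rw [e]
      exact ⟨h1, E, hE, hmem⟩
    · exact absurd h hB₁D
    · exact h
  have hccAF := commCase_left_comm hS hA hD hB₁ hAD hAB₁ hcc
  have heq := comm_comm_eq' hS hA hD hB₁ hAD hB₁A hAB₁ hcover (hF B₁ hB₁) hcc
  refine ⟨B₁, ⟨hB₁, hB₁le⟩, hB₁A, ⁅D, B₁⁆, hcc.1, hccAF, heq, ?_⟩
  apply le_antisymm (sup_le le_sup_left hB₁le)
  refine sup_le le_sup_left ?_
  obtain ⟨b₁, hb₁, hb₁1⟩ := exists_ne_one_of_ne_bot (hS.ne_bot B₁ hB₁)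
  obtain ⟨a₀, ha₀, b₀, hb₀, hb₁e⟩ := (mem_sup_of_commute hAB).mp (hB₁le hb₁)
  have hb₀1 : b₀ ≠ 1 := by
    intro h0
    have : b₁ ∈ A ⊓ B₁ := by
      refine Subgroup.mem_inf.mpr ⟨?_, hb₁⟩
      rw [hb₁e, h0, mul_one]; exact ha₀
    rw [hinf₁, Subgroup.mem_bot] at this
    exact hb₁1 this
  have hb₀mem : b₀ ∈ A ⊔ B₁ := by
    have e : b₀ = a₀⁻¹ * b₁ := by rw [hb₁e]; group
    rw [e]
    exact Subgroup.mul_mem _ (Subgroup.mem_sup_left (A.inv_mem ha₀)) (Subgroup.mem_sup_right hb₁)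
  have hpart₁ := (root_commutator_partition hS hAni hA hcc.1 hccAF.1).2.1
  rw [heq] at hpart₁
  obtain ⟨M₀, ⟨hM₀, hM₀le⟩, hb₀M⟩ := hpart₁.2.1 b₀ hb₀mem hb₀1
  rcases root_inf_trivial hS (hF B hB) hB M₀ hM₀ with h | h
  · exfalso
    have : b₀ ∈ B ⊓ M₀ := Subgroup.mem_inf.mpr ⟨hb₀, hb₀M⟩
    rw [h, Subgroup.mem_bot] at this
    exact hb₀1 this
  · rw [h]; exact hM₀le

theorem elation_props {S : Set (Subgroup G)} (hS : IsRootSubgroupSet S) {A E : Subgroup G}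
    (hAni : ¬ IsIsolatedIn (FAdj S) S A) (hA : A ∈ S) (hE : E ∈ S)
    (hcc : RootCommutatorCase S A E) :
    (∀ e ∈ E, conjBy ⁅A, E⁆ e = ⁅A, E⁆) ∧ (∀ e ∈ E, conjBy (A ⊔ ⁅A, E⁆) e = A ⊔ ⁅A, E⁆) ∧
    (∀ C ∈ membersIn S (A ⊔ ⁅A, E⁆), C ≠ ⁅A, E⁆ → ∃ e ∈ E, C = conjBy A e) ∧
    (∀ e ∈ E, conjBy A e ∈ membersIn S (A ⊔ ⁅A, E⁆) ∧ conjBy A e ≠ ⁅A, E⁆) := by
  have h1 : ∀ e ∈ E, conjBy ⁅A, E⁆ e = ⁅A, E⁆ := fun e he =>
    conjBy_eq_iff_mem_normalizer.mpr (mem_normalizer_of_centralizes fun y hy =>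
      (hcc.2.1 y hy e (Subgroup.mem_sup_right he)).symm)
  obtain ⟨hmem, -, -, -⟩ := root_commutator_partition hS hAni hA hE hcc.1
  refine ⟨h1, ?_, ?_, ?_⟩
  · have hle : ∀ e ∈ E, conjBy (A ⊔ ⁅A, E⁆) e ≤ A ⊔ ⁅A, E⁆ := by
      intro e he
      show (A ⊔ ⁅A, E⁆).map (MulAut.conj e).toMonoidHom ≤ A ⊔ ⁅A, E⁆
      rw [Subgroup.map_sup]
      refine sup_le (conj_le_sup_comm he) ?_
      have := h1 e he
      exact le_trans (le_of_eq this) le_sup_right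
    intro e he
    apply le_antisymm (hle e he)
    have h2 := hle e⁻¹ (E.inv_mem he)
    have h3 : conjBy (conjBy (A ⊔ ⁅A, E⁆) e⁻¹) e ≤ conjBy (A ⊔ ⁅A, E⁆) e :=
      Subgroup.map_mono h2
    rwa [conjBy_conjBy, mul_inv_cancel, conjBy_one] at h3
  · intro C hC hne
    rw [hmem] at hC
    rcases hC with ⟨e, he, rfl⟩ | hC
    · exact ⟨e, he, rfl⟩
    · exact absurd hC hne
  · intro e he
    refine ⟨?_, ?_⟩
    · rw [hmem]
      exact Or.inl ⟨e, he, rfl⟩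
    · intro h
      rw [← h1 e he] at h
      have h2 : A = ⁅A, E⁆ := conjBy_inj h
      apply hS.ne_bot A hA
      have h3 := comm_inf_eq_bot hS hAni hA hcc
      rw [← h2, inf_idem] at h3
      exact h3

/-- Timmesfeld II (2.13)-type statement: double transitivity on the members of a line. -/
theorem line_two_transitive {S : Set (Subgroup G)} (hS : IsRootSubgroupSet S)
    (hF : ∀ A ∈ S, ¬ IsIsolatedIn (FAdj S) S A) {A B : Subgroup G} (hA : A ∈ S)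
    (hBL : B ∈ linePartners S A) :
    ∀ C₁ ∈ membersIn S (A ⊔ B), ∀ C₂ ∈ membersIn S (A ⊔ B), ∀ D₁ ∈ membersIn S (A ⊔ B),
      ∀ D₂ ∈ membersIn S (A ⊔ B), C₁ ≠ C₂ → D₁ ≠ D₂ →
        ∃ x ∈ ⨆ E ∈ normalizingMembers S (A ⊔ B), E, conjBy C₁ x = D₁ ∧ conjBy C₂ x = D₂ := by
  obtain ⟨B₁, hB₁T, hB₁A, E₁, hE₁, hcc₁, heq₁, hsup₁⟩ := exists_elation hS hF hA hBL
  obtain ⟨p1, p2, p3, p4⟩ := elation_props hS (hF A hA) hA hE₁ hcc₁
  rw [heq₁] at p1 p2 p3 p4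
  rw [hsup₁] at p2 p3 p4
  have hB₁ : B₁ ∈ S := hB₁T.1
  have hAL : A ∈ linePartners S B₁ := by
    refine ⟨⟨hA, hB₁A.symm, ?_⟩, ?_⟩
    · rw [Subgroup.commutator_eq_bot_iff_le_centralizer]
      intro b hb
      rw [Subgroup.mem_centralizer_iff]
      intro a ha
      exact (hcc₁.2.1 b (by rw [heq₁]; exact hb) a (Subgroup.mem_sup_left ha)).symm
    · rw [sup_comm, hsup₁]
      exact hBL.2
  obtain ⟨B₂, hB₂T', hB₂B₁, E₂, hE₂, hcc₂, heq₂, hsup₂⟩ := exists_elation hS hF hB₁ hAL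
  have hN₂ : B₁ ⊔ B₂ = A ⊔ B := by rw [hsup₂, sup_comm, hsup₁]
  obtain ⟨q1, q2, q3, q4⟩ := elation_props hS (hF B₁ hB₁) hB₁ hE₂ hcc₂
  rw [heq₂] at q1 q2 q3 q4
  rw [hN₂] at q2 q3 q4
  have hE₁M : E₁ ≤ ⨆ E ∈ normalizingMembers S (A ⊔ B), E :=
    le_iSup₂_of_le E₁ ⟨hE₁, fun e he => conjBy_eq_iff_mem_normalizer.mp (p2 e he)⟩ le_rfl
  have hE₂M : E₂ ≤ ⨆ E ∈ normalizingMembers S (A ⊔ B), E :=
    le_iSup₂_of_le E₂ ⟨hE₂, fun e he => conjBy_eq_iff_mem_normalizer.mp (q2 e he)⟩ le_rfl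
  have hMnorm : (⨆ E ∈ normalizingMembers S (A ⊔ B), E) ≤
      Subgroup.normalizer ((A ⊔ B : Subgroup G) : Set G) := iSup₂_le fun E hE => hE.2
  have hT : ∀ x ∈ ⨆ E ∈ normalizingMembers S (A ⊔ B), E, ∀ C ∈ membersIn S (A ⊔ B),
      conjBy C x ∈ membersIn S (A ⊔ B) := by
    intro x hx C hC
    refine ⟨hS.conj_mem C hC.1 x, ?_⟩
    have h1 : conjBy C x ≤ conjBy (A ⊔ B) x := Subgroup.map_mono hC.2
    rwa [conjBy_eq_iff_mem_normalizer.mpr (hMnorm hx)] at h1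
  -- transitivity of `E₁` off `B₁`
  have f1 : ∀ C ∈ membersIn S (A ⊔ B), ∀ C' ∈ membersIn S (A ⊔ B), C ≠ B₁ → C' ≠ B₁ →
      ∃ e ∈ E₁, conjBy C e = C' := by
    intro C hC C' hC' hne hne'
    obtain ⟨e, he, rfl⟩ := p3 C hC hne
    obtain ⟨e', he', rfl⟩ := p3 C' hC' hne'
    refine ⟨e' * e⁻¹, E₁.mul_mem he' (E₁.inv_mem he), ?_⟩
    rw [conjBy_conjBy, inv_mul_cancel_right]
  -- a third member
  have hAT : A ∈ membersIn S (A ⊔ B) := ⟨hA, le_sup_left⟩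
  obtain ⟨X₀, hX₀T, hX₀1, hX₀2⟩ :
      ∃ X₀ ∈ membersIn S (A ⊔ B), X₀ ≠ B₁ ∧ X₀ ≠ B₂ := by
    by_cases hAB₂ : A = B₂
    · obtain ⟨e₁, he₁, he₁1⟩ := exists_ne_one_of_ne_bot (hS.ne_bot E₁ hE₁)
      refine ⟨conjBy A e₁, (p4 e₁ he₁).1, (p4 e₁ he₁).2, ?_⟩
      rw [← hAB₂]
      exact (conj_mem_linePartners hS hA hE₁ (hF A hA) hcc₁ he₁ he₁1).1.2.1
    · exact ⟨A, hAT, hB₁A.symm, hAB₂⟩
  -- transitivity
  have f4 : ∀ C ∈ membersIn S (A ⊔ B),
      ∃ x ∈ ⨆ E ∈ normalizingMembers S (A ⊔ B), E, conjBy C x = B₁ := by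
    intro C hC
    by_cases hCB₁ : C = B₁
    · exact ⟨1, Subgroup.one_mem _, by rw [conjBy_one]; exact hCB₁⟩
    by_cases hCB₂ : C = B₂
    · obtain ⟨e, he, hCe⟩ := f1 C hC X₀ hX₀T hCB₁ hX₀1
      obtain ⟨e₂, he₂, hX₀e⟩ := q3 X₀ hX₀T hX₀2
      refine ⟨e₂⁻¹ * e, Subgroup.mul_mem _ (Subgroup.inv_mem _ (hE₂M he₂)) (hE₁M he), ?_⟩
      rw [← conjBy_conjBy, hCe, hX₀e, conjBy_conjBy, inv_mul_cancel, conjBy_one]
    · obtain ⟨e₂, he₂, hCe⟩ := q3 C hC hCB₂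
      refine ⟨e₂⁻¹, Subgroup.inv_mem _ (hE₂M he₂), ?_⟩
      rw [hCe, conjBy_conjBy, inv_mul_cancel, conjBy_one]
  intro C₁ hC₁ C₂ hC₂ D₁ hD₁ D₂ hD₂ hC hD
  obtain ⟨x₁, hx₁, hx₁C⟩ := f4 C₁ hC₁
  obtain ⟨y₁, hy₁, hy₁D⟩ := f4 D₁ hD₁
  have hC₂' : conjBy C₂ x₁ ≠ B₁ := by
    intro h
    rw [← hx₁C] at h
    exact hC (conjBy_inj h).symm
  have hD₂' : conjBy D₂ y₁ ≠ B₁ := by
    intro h
    rw [← hy₁D] at h
    exact hD (conjBy_inj h).symm
  obtain ⟨e, he, hee⟩ := f1 _ (hT x₁ hx₁ C₂ hC₂) _ (hT y₁ hy₁ D₂ hD₂) hC₂' hD₂'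
  refine ⟨y₁⁻¹ * (e * x₁), Subgroup.mul_mem _ (Subgroup.inv_mem _ hy₁)
    (Subgroup.mul_mem _ (hE₁M he) hx₁), ?_, ?_⟩
  · rw [← conjBy_conjBy, ← conjBy_conjBy, hx₁C, p1 e he, ← hy₁D, conjBy_conjBy,
      inv_mul_cancel, conjBy_one]
  · rw [← conjBy_conjBy, ← conjBy_conjBy, hee, conjBy_conjBy, inv_mul_cancel, conjBy_one]

end Cfsg.Agent.Helper8
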