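import Cfsg.Agent.Helper8.RankOne3

/-!
# Rank one pairs inside a larger group, and homomorphic images of sets of root subgroups
-/

set_option autoImplicit false

namespace Cfsg.Agent.Helper8

open Cfsg

variable {G : Type*} [Group G]

theorem conjBy_subgroupOf (A X : Subgroup G) (x : X) :
    conjBy (A.subgroupOf X) x = (conjBy A (x : G)).subgroupOf X := by
  ext y
  rw [mem_conjBy, Subgroup.mem_subgroupOf, Subgroup.mem_subgroupOf, mem_conjBy]
  rfl

/-- A rank one pair `(A, B)` makes `⟨A, B⟩` a rank one group. -/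
theorem rankOneGroup_subtype {A B : Subgroup G} (hp : IsRankOnePair A B) :
    IsRankOneGroup ↥(A ⊔ B) (A.subgroupOf (A ⊔ B)) (B.subgroupOf (A ⊔ B)) := by
  have hA : A ≤ A ⊔ B := le_sup_left
  have hB : B ≤ A ⊔ B := le_sup_right
  refine ⟨?_, ?_, ?_, ?_, ?_, ?_⟩
  · rw [← Subgroup.subgroupOf_sup hA hB, Subgroup.subgroupOf_self]
  · intro h
    apply hp.ne
    have := Subgroup.subgroupOf_inj.mp h
    rwa [inf_of_le_left hA, inf_of_le_left hB] at this
  · have := hp.nilpotent_left
    exact nilpotent_of_mulEquiv (Subgroup.subgroupOfEquivOfLe hA).symm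
  · have := hp.nilpotent_right
    exact nilpotent_of_mulEquiv (Subgroup.subgroupOfEquivOfLe hB).symm
  · intro a ha ha1
    have haA : (a : G) ∈ A := Subgroup.mem_subgroupOf.mp ha
    have ha1' : (a : G) ≠ 1 := fun h => ha1 (Subtype.ext h)
    obtain ⟨b, hb, hb1, hAB⟩ := hp.cond_left a haA ha1'
    refine ⟨⟨b, hB hb⟩, Subgroup.mem_subgroupOf.mpr hb,
      fun h => hb1 (congrArg Subtype.val h), ?_⟩
    rw [conjBy_subgroupOf, conjBy_subgroupOf]
    show (conjBy A b⁻¹).subgroupOf _ = (conjBy B (a : G)⁻¹).subgroupOf _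
    rw [hAB]
  · intro b hb hb1
    have hbB : (b : G) ∈ B := Subgroup.mem_subgroupOf.mp hb
    have hb1' : (b : G) ≠ 1 := fun h => hb1 (Subtype.ext h)
    obtain ⟨a, ha, ha1, hBA⟩ := hp.cond_right b hbB hb1'
    refine ⟨⟨a, hA ha⟩, Subgroup.mem_subgroupOf.mpr ha,
      fun h => ha1 (congrArg Subtype.val h), ?_⟩
    rw [conjBy_subgroupOf, conjBy_subgroupOf]
    show (conjBy B a⁻¹).subgroupOf _ = (conjBy A (b : G)⁻¹).subgroupOf _
    rw [hBA]

theorem map_conjBy {H : Type*} [Group H] (f : G →* H) (A : Subgroup G) (g : G) :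
    (conjBy A g).map f = conjBy (A.map f) (f g) := by
  show (A.map (MulAut.conj g).toMonoidHom).map f =
    (A.map f).map (MulAut.conj (f g)).toMonoidHom
  rw [Subgroup.map_map, Subgroup.map_map]
  congr 1
  ext x
  simp [MulAut.conj_apply]

theorem mem_normalizer_of_forall_comm {A : Subgroup G} {x : G}
    (h : ∀ y ∈ A, y * x = x * y) : x ∈ Subgroup.normalizer (A : Set G) := by
  rw [Subgroup.mem_normalizer_iff]
  intro y
  constructor
  · intro hy
    rw [← h y hy, mul_inv_cancel_right]; exact hy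
  · intro hy
    have h1 := h _ hy
    have h2 : y = x * y * x⁻¹ := by
      have : x * y * x⁻¹ * x = x * (x * y * x⁻¹) := h1
      have e : x * y = x * (x * y * x⁻¹) := by rw [← this]; group
      exact mul_left_cancel e
    rw [h2]; exact hy

/-- The image of a rank one pair under a homomorphism is a rank one pair, unless the two
images coincide. -/
theorem rankOne_map {H : Type*} [Group H] {A B : Subgroup G} (hp : IsRankOnePair A B)
    (f : G →* H) : A.map f = B.map f ∨ IsRankOnePair (A.map f) (B.map f) := by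
  have hA : A ≤ A ⊔ B := le_sup_left
  have hB : B ≤ A ⊔ B := le_sup_right
  have h0 := rankOneGroup_subtype hp
  have h0' : IsRankOneGroup ↥(A ⊔ B) (B.subgroupOf (A ⊔ B)) (A.subgroupOf (A ⊔ B)) :=
    ⟨(sup_comm _ _).trans h0.1, RankOnePair_symm h0.2⟩
  by_cases hKc : f.ker.subgroupOf (A ⊔ B) ≤ Subgroup.center ↥(A ⊔ B)
  · right
    have hker : ∀ x ∈ A ⊔ B, f x = 1 → x ∈ Subgroup.normalizer (A : Set G) ∧
        x ∈ Subgroup.normalizer (B : Set G) := by
      intro x hx hfx
      have hxc : (⟨x, hx⟩ : ↥(A ⊔ B)) ∈ Subgroup.center ↥(A ⊔ B) :=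
        hKc (by rw [Subgroup.mem_subgroupOf]; exact MonoidHom.mem_ker.mpr hfx)
      rw [Subgroup.mem_center_iff] at hxc
      have hcomm : ∀ y ∈ A ⊔ B, y * x = x * y := fun y hy =>
        congrArg Subtype.val (hxc ⟨y, hy⟩)
      exact ⟨mem_normalizer_of_forall_comm fun y hy => hcomm y (hA hy),
        mem_normalizer_of_forall_comm fun y hy => hcomm y (hB hy)⟩
    refine ⟨?_, ?_, ?_, ?_, ?_⟩
    · intro heq
      obtain ⟨b, hb, hb1⟩ := exists_ne_one_of_ne_bot (RankOne.right_ne_bot hp)
      have hfb : f b ∈ A.map f := heq ▸ Subgroup.mem_map_of_mem f hb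
      obtain ⟨a, ha, hab⟩ := hfb
      have hx : b * a⁻¹ ∈ A ⊔ B := Subgroup.mul_mem _ (hB hb) (Subgroup.inv_mem _ (hA ha))
      have hfx : f (b * a⁻¹) = 1 := by rw [map_mul, map_inv, hab, mul_inv_cancel]
      have h1 := (hker _ hx hfx).1
      have h2 : b ∈ B ⊓ Subgroup.normalizer (A : Set G) := by
        refine Subgroup.mem_inf.mpr ⟨hb, ?_⟩
        have e : b = b * a⁻¹ * a := by group
        rw [e]
        exact Subgroup.mul_mem _ h1 (Subgroup.le_normalizer ha)
      rw [RankOne.inf_normalizer' hp, Subgroup.mem_bot] at h2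
      exact hb1 h2
    · have := hp.nilpotent_left
      exact nilpotent_of_surjective (f.subgroupMap A) (f.subgroupMap_surjective A)
    · have := hp.nilpotent_right
      exact nilpotent_of_surjective (f.subgroupMap B) (f.subgroupMap_surjective B)
    · rintro _ ⟨a, ha, rfl⟩ ha1
      have ha1' : a ≠ 1 := fun h => ha1 (by rw [h, map_one])
      obtain ⟨b, hb, hb1, hAB⟩ := hp.cond_left a ha ha1'
      refine ⟨f b, Subgroup.mem_map_of_mem f hb, ?_, ?_⟩
      · intro hfb
        have h1 := (hker b (hB hb) hfb).1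
        have h2 : b ∈ B ⊓ Subgroup.normalizer (A : Set G) := Subgroup.mem_inf.mpr ⟨hb, h1⟩
        rw [RankOne.inf_normalizer' hp, Subgroup.mem_bot] at h2
        exact hb1 h2
      · rw [← map_inv, ← map_inv, ← map_conjBy, ← map_conjBy, hAB]
    · rintro _ ⟨b, hb, rfl⟩ hb1
      have hb1' : b ≠ 1 := fun h => hb1 (by rw [h, map_one])
      obtain ⟨a, ha, ha1, hBA⟩ := hp.cond_right b hb hb1'
      refine ⟨f a, Subgroup.mem_map_of_mem f ha, ?_, ?_⟩
      · intro hfa
        have h1 := (hker a (hA ha) hfa).2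
        have h2 : a ∈ A ⊓ Subgroup.normalizer (B : Set G) := Subgroup.mem_inf.mpr ⟨ha, h1⟩
        rw [RankOne.inf_normalizer hp, Subgroup.mem_bot] at h2
        exact ha1 h2
      · rw [← map_inv, ← map_inv, ← map_conjBy, ← map_conjBy, hBA]
  · left
    have hKA := (rankOne_normal_dichotomy h0 (f.ker.subgroupOf (A ⊔ B))).resolve_right hKc
    have hKB := (rankOne_normal_dichotomy h0' (f.ker.subgroupOf (A ⊔ B))).resolve_right hKc
    have key : ∀ C : Subgroup G, f.ker.subgroupOf (A ⊔ B) ⊔ C.subgroupOf (A ⊔ B) = ⊤ →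
        ∀ x ∈ A ⊔ B, f x ∈ C.map f := by
      intro C hC x hx
      have hx' : (⟨x, hx⟩ : ↥(A ⊔ B)) ∈ f.ker.subgroupOf (A ⊔ B) ⊔ C.subgroupOf (A ⊔ B) :=
        hC ▸ Subgroup.mem_top _
      obtain ⟨k, hk, c, hc, hkc⟩ := Subgroup.mem_sup_of_normal_left.mp hx'
      have e : x = (k : G) * (c : G) := by
        rw [← Subgroup.coe_mul, hkc]
      rw [e, map_mul, MonoidHom.mem_ker.mp (Subgroup.mem_subgroupOf.mp hk), one_mul]
      exact Subgroup.mem_map_of_mem f (Subgroup.mem_subgroupOf.mp hc)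
    apply le_antisymm
    · rintro _ ⟨a, ha, rfl⟩
      exact key B hKB a (hA ha)
    · rintro _ ⟨b, hb, rfl⟩
      exact key A hKA b (hB hb)

theorem commutator_self_eq_bot_of_comm (K : Subgroup G) [IsMulCommutative K] : ⁅K, K⁆ = ⊥ := by
  rw [Subgroup.commutator_eq_bot_iff_le_centralizer]
  intro x hx
  rw [Subgroup.mem_centralizer_iff]
  intro y hy
  exact congrArg Subtype.val (mul_comm' (⟨y, hy⟩ : K) ⟨x, hx⟩)

theorem rootCommutatorCase_map {H : Type*} [Group H] {S : Set (Subgroup G)} {A B : Subgroup G}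
    (h : RootCommutatorCase S A B) (f : G →* H) :
    RootCommutatorCase ((fun A : Subgroup G => A.map f) '' S) (A.map f) (B.map f) := by
  obtain ⟨h1, h2, h3, h4⟩ := h
  refine ⟨?_, ?_, ?_, ?_⟩
  · rw [← Subgroup.map_commutator]
    exact ⟨_, h1, rfl⟩
  · rw [← Subgroup.map_commutator, ← Subgroup.map_sup]
    rintro _ ⟨c, hc, rfl⟩ _ ⟨x, hx, rfl⟩
    rw [← map_mul, ← map_mul, h2 c hc x hx]
  · rintro _ ⟨a, ha, rfl⟩ ha1
    have ha1' : a ≠ 1 := fun h => ha1 (by rw [h, map_one])
    rw [← Subgroup.map_commutator, ← h3 a ha ha1', MonoidHom.map_closure]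
    congr 1
    ext y
    constructor
    · rintro ⟨_, ⟨b, hb, rfl⟩, rfl⟩
      refine ⟨_, ⟨b, hb, rfl⟩, ?_⟩
      simp only [map_mul, map_inv]
    · rintro ⟨_, ⟨b, hb, rfl⟩, rfl⟩
      refine ⟨_, ⟨b, hb, rfl⟩, ?_⟩
      simp only [map_mul, map_inv]
  · rintro _ ⟨b, hb, rfl⟩ hb1
    have hb1' : b ≠ 1 := fun h => hb1 (by rw [h, map_one])
    rw [← Subgroup.map_commutator, ← h4 b hb hb1', MonoidHom.map_closure]
    congr 1
    ext y
    constructor
    · rintro ⟨_, ⟨a, ha, rfl⟩, rfl⟩
      refine ⟨_, ⟨a, ha, rfl⟩, ?_⟩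
      simp only [map_mul, map_inv]
    · rintro ⟨_, ⟨a, ha, rfl⟩, rfl⟩
      refine ⟨_, ⟨a, ha, rfl⟩, ?_⟩
      simp only [map_mul, map_inv]

/-- Timmesfeld II (2.?): homomorphic images of connected sets of root subgroups. -/
theorem root_map {H : Type*} [Group H] {S : Set (Subgroup G)} (hS : IsRootSubgroupSet S)
    (hc : IsConnectedFamily (FAdj S) S) (f : G →* H) (hf : Function.Surjective f) :
    (IsRootSubgroupSet ((fun A : Subgroup G => A.map f) '' S) ∧
      IsConnectedFamily (FAdj ((fun A : Subgroup G => A.map f) '' S))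
        ((fun A : Subgroup G => A.map f) '' S)) ∨
    ∃ A ∈ S, A.map f = ⊤ := by
  have hgen : (⨆ B ∈ S, B.map f) = ⊤ := by
    have h1 : (⨆ B ∈ S, B).map f = ⊤ := by
      rw [hS.generates]; exact Subgroup.map_top_of_surjective f hf
    rw [← h1]
    simp only [Subgroup.map_iSup]
  by_cases h0 : ∃ A ∈ S, A.map f = ⊥
  · right
    obtain ⟨A, hA, hA0⟩ := h0
    have hall : ∀ B, Relation.ReflTransGen (FAdj S) A B → B.map f = ⊥ := by
      intro B hAB
      induction hAB with
      | refl => exact hA0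
      | tail _ hstep ih =>
        obtain ⟨-, -, hp⟩ := hstep
        obtain ⟨c, hc', hc1⟩ := exists_ne_one_of_ne_bot (RankOne.left_ne_bot hp)
        obtain ⟨d, hd, -, hCD⟩ := hp.cond_left c hc' hc1
        have := congrArg (fun E => conjBy E c) hCD
        simp only [conjBy_conjBy, mul_inv_cancel, conjBy_one] at this
        rw [← this, map_conjBy, ih]
        exact Subgroup.map_bot _
    have htop : (⊤ : Subgroup H) = ⊥ := by
      rw [← hgen]
      exact le_antisymm (iSup₂_le fun B hB => (hall B (hc A hA B hB)).le) bot_le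
    exact ⟨A, hA, hA0.trans htop.symm⟩
  · left
    have h0' : ∀ A ∈ S, A.map f ≠ ⊥ := fun A hA h => h0 ⟨A, hA, h⟩
    constructor
    · refine ⟨?_, ?_, ?_, ?_, ?_⟩
      · rintro _ ⟨A, hA, rfl⟩
        have := hS.commutative A hA
        infer_instance
      · rintro _ ⟨A, hA, rfl⟩
        exact h0' A hA
      · rw [iSup_image]
        exact hgen
      · rintro _ ⟨A, hA, rfl⟩ h
        obtain ⟨g, rfl⟩ := hf h
        exact ⟨conjBy A g, hS.conj_mem A hA g, map_conjBy f A g⟩
      · rintro _ ⟨A, hA, rfl⟩ _ ⟨B, hB, rfl⟩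
        rcases hS.pair A hA B hB with h | h | h
        · left
          rw [← Subgroup.map_commutator, h, Subgroup.map_bot]
        · rcases rankOne_map h f with h' | h'
          · left
            have := hS.commutative B hB
            show ⁅A.map f, B.map f⁆ = ⊥
            rw [h']
            exact commutator_self_eq_bot_of_comm _
          · right; left; exact h'
        · right; right
          exact rootCommutatorCase_map h f
    · have hpath : ∀ C D, Relation.ReflTransGen (FAdj S) C D →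
          Relation.ReflTransGen (FAdj ((fun A : Subgroup G => A.map f) '' S))
            (C.map f) (D.map f) := by
        intro C D hCD
        induction hCD with
        | refl => exact Relation.ReflTransGen.refl
        | tail _ hstep ih =>
          obtain ⟨hC, hD, hp⟩ := hstep
          rcases rankOne_map hp f with h' | h'
          · rw [← h']; exact ih
          · exact ih.tail ⟨⟨_, hC, rfl⟩, ⟨_, hD, rfl⟩, h'⟩
      rintro _ ⟨A, hA, rfl⟩ _ ⟨B, hB, rfl⟩
      exact hpath A B (hc A hA B hB)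

end Cfsg.Agent.Helper8
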