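import Cfsg.Agent.Helper8.RootComm2

/-!
# The opposite configuration `[A, B] = C`, `[C, D] = A` of root subgroups (Timmesfeld II (2.4))
-/

set_option autoImplicit false

namespace Cfsg.Agent.Helper8

open Cfsg
open scoped commutatorElement

variable {G : Type*} [Group G]

theorem sup_induction' {B D : Subgroup G} {p : G → Prop} (hB : ∀ x ∈ B, p x)
    (hD : ∀ x ∈ D, p x) (mul : ∀ x y, p x → p y → p (x * y)) {x : G} (hx : x ∈ B ⊔ D) :
    p x := by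
  rw [Subgroup.sup_eq_closure] at hx
  induction hx using Subgroup.closure_induction'' with
  | one => exact hB 1 B.one_mem
  | mem x hx =>
    rcases hx with hx | hx
    · exact hB x hx
    · exact hD x hx
  | inv_mem x hx =>
    rcases hx with hx | hx
    · exact hB _ (B.inv_mem hx)
    · exact hD _ (D.inv_mem hx)
  | mul x y _ _ hx hy => exact mul x y hx hy

theorem commutatorElement_mul_inv_of_comm {x c b : G} (hbc : b * c = c * b) :
    ⁅x * c⁻¹, b⁆ = ⁅x, b⁆ := by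
  rw [commutatorElement_def, commutatorElement_def]
  have h1 : c⁻¹ * b * c = b := by rw [mul_assoc, hbc]; group
  calc x * c⁻¹ * b * (x * c⁻¹)⁻¹ * b⁻¹ = x * (c⁻¹ * b * c) * x⁻¹ * b⁻¹ := by group
    _ = x * b * x⁻¹ * b⁻¹ := by rw [h1]

theorem opp_identity {a b d : G} (h1 : d * a = a * d)
    (h2 : b * (b⁻¹ * a * b * a⁻¹) = (b⁻¹ * a * b * a⁻¹) * b) :
    (b * d * b⁻¹ * d⁻¹) * a * (b * d * b⁻¹ * d⁻¹)⁻¹ =
      b * (d * (b⁻¹ * a * b * a⁻¹) * d⁻¹ * (b⁻¹ * a * b * a⁻¹)⁻¹) * b⁻¹ * a := by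
  have h1' : d⁻¹ * a * d = a := by rw [mul_assoc, ← h1]; group
  have h1'' : d * a * d⁻¹ = a := by rw [h1]; group
  have h2' : b⁻¹ * a * b * a⁻¹ * b = a * b * a⁻¹ := by rw [← h2]; group
  calc (b * d * b⁻¹ * d⁻¹) * a * (b * d * b⁻¹ * d⁻¹)⁻¹
      = b * d * b⁻¹ * (d⁻¹ * a * d) * b * d⁻¹ * b⁻¹ := by group
    _ = b * d * b⁻¹ * a * b * d⁻¹ * b⁻¹ := by rw [h1']
    _ = b * (d * (b⁻¹ * a * b * a⁻¹) * d⁻¹) * (d * a * d⁻¹) * b⁻¹ := by group
    _ = b * (d * (b⁻¹ * a * b * a⁻¹) * d⁻¹) * a * b⁻¹ := by rw [h1'']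
    _ = b * (d * (b⁻¹ * a * b * a⁻¹) * d⁻¹ * (b⁻¹ * a * b * a⁻¹)⁻¹) * b⁻¹ *
          ((b * (b⁻¹ * a * b * a⁻¹)) * a * b⁻¹) := by group
    _ = b * (d * (b⁻¹ * a * b * a⁻¹) * d⁻¹ * (b⁻¹ * a * b * a⁻¹)⁻¹) * b⁻¹ * a := by
        rw [h2, h2']; group

/-- The opposite configuration: `A, B, C, D ∈ S` with `[A, B] = C` and `[C, D] = A`. -/
structure OppConfig (S : Set (Subgroup G)) (A B C D : Subgroup G) : Prop where
  hA : A ∈ S
  hB : B ∈ S
  hC : C ∈ S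
  hD : D ∈ S
  hAB : RootCommutatorCase S A B
  hCD : RootCommutatorCase S C D
  eAB : ⁅A, B⁆ = C
  eCD : ⁅C, D⁆ = A

namespace OppConfig

variable {S : Set (Subgroup G)} {A B C D : Subgroup G}

theorem swap (h : OppConfig S A B C D) : OppConfig S C D A B :=
  ⟨h.hC, h.hD, h.hA, h.hB, h.hCD, h.hAB, h.eCD, h.eAB⟩

theorem comm_AC (h : OppConfig S A B C D) {a c : G} (ha : a ∈ A) (hc : c ∈ C) :
    a * c = c * a :=
  (h.hAB.2.1 c (by rw [h.eAB]; exact hc) a (Subgroup.mem_sup_left ha)).symm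

theorem comm_BC (h : OppConfig S A B C D) {b c : G} (hb : b ∈ B) (hc : c ∈ C) :
    b * c = c * b :=
  (h.hAB.2.1 c (by rw [h.eAB]; exact hc) b (Subgroup.mem_sup_right hb)).symm

theorem comm_DA (h : OppConfig S A B C D) {d a : G} (hd : d ∈ D) (ha : a ∈ A) :
    d * a = a * d :=
  h.swap.comm_BC hd ha

theorem beta_mem (h : OppConfig S A B C D) {b a : G} (hb : b ∈ B) (ha : a ∈ A) :
    b * a * b⁻¹ * a⁻¹ ∈ C := by
  have := Subgroup.commutator_mem_commutator hb ha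
  rw [commutatorElement_def, Subgroup.commutator_comm, h.eAB] at this
  exact this

theorem beta_mem' (h : OppConfig S A B C D) {b a : G} (hb : b ∈ B) (ha : a ∈ A) :
    a * b * a⁻¹ * b⁻¹ ∈ C := by
  have := Subgroup.commutator_mem_commutator ha hb
  rw [commutatorElement_def, h.eAB] at this
  exact this

theorem beta_surj (h : OppConfig S A B C D) {b : G} (hb : b ∈ B) (hb1 : b ≠ 1) {c : G}
    (hc : c ∈ C) : ∃ a ∈ A, c = b * a * b⁻¹ * a⁻¹ := by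
  have hs := rootCommutatorCase_symm h.hAB
  have hc' : c ∈ ⁅B, A⁆ := by rw [Subgroup.commutator_comm, h.eAB]; exact hc
  exact comm_surj hs hb hb1 c hc'

theorem beta_surj' (h : OppConfig S A B C D) {a : G} (ha : a ∈ A) (ha1 : a ≠ 1) {c : G}
    (hc : c ∈ C) : ∃ b ∈ B, c = b * a * b⁻¹ * a⁻¹ :=
  comm_surj' h.hAB ha ha1 c (by rw [h.eAB]; exact hc)

theorem comm_BD_ne_bot (hS : IsRootSubgroupSet S) (h : OppConfig S A B C D) : ⁅B, D⁆ ≠ ⊥ := by
  intro hbd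
  apply hS.ne_bot A h.hA
  rw [← h.eCD, Subgroup.commutator_eq_bot_iff_le_centralizer]
  have hA' : A ≤ Subgroup.centralizer (D : Set G) := by
    intro a ha
    rw [Subgroup.mem_centralizer_iff]
    intro d hd
    exact h.comm_DA hd ha
  have hB' : B ≤ Subgroup.centralizer (D : Set G) :=
    Subgroup.commutator_eq_bot_iff_le_centralizer.mp hbd
  refine le_trans (le_of_eq h.eAB.symm) ?_
  rw [Subgroup.commutator_le]
  intro a ha b hb
  rw [commutatorElement_def]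
  exact Subgroup.mul_mem _ (Subgroup.mul_mem _ (Subgroup.mul_mem _ (hA' ha) (hB' hb))
    (Subgroup.inv_mem _ (hA' ha))) (Subgroup.inv_mem _ (hB' hb))

theorem not_commCase_BD (hS : IsRootSubgroupSet S) (h : OppConfig S A B C D) :
    ¬ RootCommutatorCase S B D := by
  intro hcc
  obtain ⟨b, hb, hb1⟩ := exists_ne_one_of_ne_bot (hS.ne_bot B h.hB)
  obtain ⟨d, hd, hd1⟩ := exists_ne_one_of_ne_bot (hS.ne_bot D h.hD)
  have hf : b * d * b⁻¹ * d⁻¹ ∈ ⁅B, D⁆ := by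
    have := Subgroup.commutator_mem_commutator hb hd
    rwa [commutatorElement_def] at this
  have hfd := hcc.2.1 _ hf d (Subgroup.mem_sup_right hd)
  have key : ∀ a₂ ∈ A, d * (b * a₂ * b⁻¹) = (b * a₂ * b⁻¹) * d := by
    intro a₂ ha₂
    obtain ⟨c', hc', rfl⟩ := h.swap.beta_surj hd hd1 ha₂
    obtain ⟨a, ha, hca⟩ := h.beta_surj (B.inv_mem hb) (inv_ne_one.mpr hb1) hc'
    rw [inv_inv] at hca
    subst hca
    have h1 : d * a = a * d := h.comm_DA hd ha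
    have h2 : b * (b⁻¹ * a * b * a⁻¹) = (b⁻¹ * a * b * a⁻¹) * b := h.comm_BC hb hc'
    have hid := opp_identity h1 h2
    have hfd' : d * (b * d * b⁻¹ * d⁻¹)⁻¹ = (b * d * b⁻¹ * d⁻¹)⁻¹ * d := by
      have e : d * (b * d * b⁻¹ * d⁻¹)⁻¹ =
          (b * d * b⁻¹ * d⁻¹)⁻¹ * ((b * d * b⁻¹ * d⁻¹) * d) * (b * d * b⁻¹ * d⁻¹)⁻¹ := by group
      rw [e, hfd]; group
    have h3 : d * ((b * d * b⁻¹ * d⁻¹) * a * (b * d * b⁻¹ * d⁻¹)⁻¹) =
        ((b * d * b⁻¹ * d⁻¹) * a * (b * d * b⁻¹ * d⁻¹)⁻¹) * d := by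
      calc d * ((b * d * b⁻¹ * d⁻¹) * a * (b * d * b⁻¹ * d⁻¹)⁻¹)
          = (d * (b * d * b⁻¹ * d⁻¹)) * a * (b * d * b⁻¹ * d⁻¹)⁻¹ := by group
        _ = (b * d * b⁻¹ * d⁻¹) * (d * a) * (b * d * b⁻¹ * d⁻¹)⁻¹ := by rw [← hfd]; group
        _ = (b * d * b⁻¹ * d⁻¹) * a * (d * (b * d * b⁻¹ * d⁻¹)⁻¹) := by rw [h1]; group
        _ = (b * d * b⁻¹ * d⁻¹) * a * (b * d * b⁻¹ * d⁻¹)⁻¹ * d := by rw [hfd']; group
    rw [hid] at h3
    have h4 : a * d * a⁻¹ = d := by rw [← h1]; group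
    calc d * (b * (d * (b⁻¹ * a * b * a⁻¹) * d⁻¹ * (b⁻¹ * a * b * a⁻¹)⁻¹) * b⁻¹)
        = d * (b * (d * (b⁻¹ * a * b * a⁻¹) * d⁻¹ * (b⁻¹ * a * b * a⁻¹)⁻¹) * b⁻¹ * a) * a⁻¹ := by
          group
      _ = b * (d * (b⁻¹ * a * b * a⁻¹) * d⁻¹ * (b⁻¹ * a * b * a⁻¹)⁻¹) * b⁻¹ * a * d * a⁻¹ := by
          rw [h3]
      _ = b * (d * (b⁻¹ * a * b * a⁻¹) * d⁻¹ * (b⁻¹ * a * b * a⁻¹)⁻¹) * b⁻¹ * (a * d * a⁻¹) := by
          group
      _ = b * (d * (b⁻¹ * a * b * a⁻¹) * d⁻¹ * (b⁻¹ * a * b * a⁻¹)⁻¹) * b⁻¹ * d := by rw [h4]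
  have hdC : ∀ c ∈ C, c * d * c⁻¹ * d⁻¹ = 1 := by
    intro c hc
    obtain ⟨a₂, ha₂, rfl⟩ := h.beta_surj hb hb1 hc
    have k1 := key a₂ ha₂
    have k2 : d * a₂⁻¹ = a₂⁻¹ * d := h.comm_DA hd (A.inv_mem ha₂)
    have k3 : (b * a₂ * b⁻¹ * a₂⁻¹) * d = d * (b * a₂ * b⁻¹ * a₂⁻¹) := by
      calc (b * a₂ * b⁻¹ * a₂⁻¹) * d = (b * a₂ * b⁻¹) * (a₂⁻¹ * d) := by group
        _ = (b * a₂ * b⁻¹) * (d * a₂⁻¹) := by rw [k2]
        _ = ((b * a₂ * b⁻¹) * d) * a₂⁻¹ := by group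
        _ = (d * (b * a₂ * b⁻¹)) * a₂⁻¹ := by rw [k1]
        _ = d * (b * a₂ * b⁻¹ * a₂⁻¹) := by group
    rw [k3]; group
  apply hS.ne_bot A h.hA
  rw [← h.eCD, ← h.hCD.2.2.2 d hd hd1, Subgroup.closure_eq_bot_iff]
  rintro _ ⟨c, hc, rfl⟩
  exact hdC c hc

theorem rankOne_BD (hS : IsRootSubgroupSet S) (h : OppConfig S A B C D) : IsRankOnePair B D := by
  rcases hS.pair B h.hB D h.hD with h1 | h1 | h1
  · exact absurd h1 (comm_BD_ne_bot hS h)
  · exact h1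
  · exact absurd h1 (not_commCase_BD hS h)

theorem comm_ne_AB (hS : IsRootSubgroupSet S) (h : OppConfig S A B C D) {a b : G} (ha : a ∈ A)
    (ha1 : a ≠ 1) (hb : b ∈ B) (hb1 : b ≠ 1) : a * b ≠ b * a := by
  intro hab
  have hBD := rankOne_BD hS h
  obtain ⟨d, hd, hd1, hpar⟩ := hBD.cond_left b hb hb1
  have hcen : ∀ b' ∈ B, a * b' * a⁻¹ * b'⁻¹ = 1 := by
    intro b' hb'
    have h1 : d⁻¹ * b' * d ∈ conjBy B d⁻¹ := by
      rw [mem_conjBy]
      have e : d⁻¹⁻¹ * (d⁻¹ * b' * d) * d⁻¹ = b' := by group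
      rw [e]; exact hb'
    rw [hpar, mem_conjBy] at h1
    have h2 := h.comm_DA h1 ha
    have h3 : d * a = a * d := h.comm_DA hd ha
    have m1 : d ∈ Subgroup.centralizer ({a} : Set G) :=
      Subgroup.mem_centralizer_singleton_iff.mpr h3
    have m2 : b ∈ Subgroup.centralizer ({a} : Set G) :=
      Subgroup.mem_centralizer_singleton_iff.mpr hab.symm
    have m3 : b⁻¹⁻¹ * (d⁻¹ * b' * d) * b⁻¹ ∈ Subgroup.centralizer ({a} : Set G) :=
      Subgroup.mem_centralizer_singleton_iff.mpr h2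
    have m4 : b' ∈ Subgroup.centralizer ({a} : Set G) := by
      have e : b' = d * (b⁻¹ * (b⁻¹⁻¹ * (d⁻¹ * b' * d) * b⁻¹) * b) * d⁻¹ := by group
      rw [e]
      exact Subgroup.mul_mem _ (Subgroup.mul_mem _ m1 (Subgroup.mul_mem _ (Subgroup.mul_mem _
        (Subgroup.inv_mem _ m2) m3) m2)) (Subgroup.inv_mem _ m1)
    have m5 := Subgroup.mem_centralizer_singleton_iff.mp m4
    rw [← m5]; group
  apply hS.ne_bot C h.hC
  rw [← h.eAB, ← h.hAB.2.2.1 a ha ha1, Subgroup.closure_eq_bot_iff]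
  rintro _ ⟨b', hb', rfl⟩
  exact hcen b' hb'

theorem inf_AC (hS : IsRootSubgroupSet S) (h : OppConfig S A B C D) : A ⊓ C = ⊥ := by
  rw [eq_bot_iff]
  intro x hx
  obtain ⟨hxA, hxC⟩ := Subgroup.mem_inf.mp hx
  rw [Subgroup.mem_bot]
  by_contra hx1
  obtain ⟨b, hb, hb1⟩ := exists_ne_one_of_ne_bot (hS.ne_bot B h.hB)
  exact comm_ne_AB hS h hxA hx1 hb hb1 (h.comm_BC hb hxC).symm

theorem comm_conj_C (h : OppConfig S A B C D) {d : G} (hd : d ∈ D) (hd1 : d ≠ 1) :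
    ⁅conjBy C d, B⁆ = C := by
  apply le_antisymm
  · rw [Subgroup.commutator_le]
    rintro _ ⟨c, hc, rfl⟩ b hb
    show ⁅d * c * d⁻¹, b⁆ ∈ C
    rw [← commutatorElement_mul_inv_of_comm (h.comm_BC hb hc), commutatorElement_def]
    exact h.beta_mem' hb (h.swap.beta_mem hd hc)
  · refine le_trans (le_of_eq h.eAB.symm) ?_
    rw [Subgroup.commutator_le]
    intro a ha b hb
    obtain ⟨c, hc, rfl⟩ := h.swap.beta_surj hd hd1 ha
    rw [commutatorElement_mul_inv_of_comm (h.comm_BC hb hc)]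
    exact Subgroup.commutator_mem_commutator (⟨c, hc, rfl⟩ : d * c * d⁻¹ ∈ conjBy C d) hb

theorem partner_conj (h : OppConfig S A B C D) {b₁ d₁ : G} (hb₁ : b₁ ∈ B) (hd₁ : d₁ ∈ D)
    (hd1 : d₁ ≠ 1) (hpar : conjBy B d₁⁻¹ = conjBy D b₁⁻¹) :
    conjBy A b₁⁻¹ = conjBy C d₁⁻¹ := by
  have hCb : conjBy C b₁⁻¹ = C :=
    conjBy_eq_iff_mem_normalizer.mpr (mem_normalizer_of_centralizes fun y hy =>
      h.comm_BC (B.inv_mem hb₁) hy)
  have e1 : conjBy A b₁⁻¹ = ⁅conjBy C b₁⁻¹, conjBy D b₁⁻¹⁆ := by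
    conv_lhs => rw [← h.eCD]
    exact Subgroup.map_commutator _ _ _
  have e2 : ⁅C, conjBy B d₁⁻¹⁆ = conjBy ⁅conjBy C d₁, B⁆ d₁⁻¹ := by
    have := Subgroup.map_commutator (conjBy C d₁) B (MulAut.conj d₁⁻¹).toMonoidHom
    refine (this.trans ?_).symm
    show ⁅conjBy (conjBy C d₁) d₁⁻¹, conjBy B d₁⁻¹⁆ = ⁅C, conjBy B d₁⁻¹⁆
    rw [conjBy_conjBy, inv_mul_cancel, conjBy_one]
  rw [e1, hCb, ← hpar, e2, comm_conj_C h hd₁ hd1]

theorem conjC_eq (hS : IsRootSubgroupSet S) (h : OppConfig S A B C D) {d : G} (hd : d ∈ D)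
    (hd1 : d ≠ 1) : ∃ b ∈ B, b ≠ 1 ∧ conjBy C d = conjBy A b := by
  have hBD := rankOne_BD hS h
  obtain ⟨b', hb', hb'1, hpar⟩ := hBD.cond_right d⁻¹ (D.inv_mem hd) (inv_ne_one.mpr hd1)
  have := partner_conj h hb' (D.inv_mem hd) (inv_ne_one.mpr hd1) hpar.symm
  rw [inv_inv] at this
  exact ⟨b'⁻¹, B.inv_mem hb', inv_ne_one.mpr hb'1, this.symm⟩

theorem T_inv_B (h : OppConfig S A B C D) {b' : G} (hb' : b' ∈ B) {E : Subgroup G}
    (hE : E ∈ (fun b : G => conjBy A b) '' (B : Set G) ∪ {C}) :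
    conjBy E b' ∈ (fun b : G => conjBy A b) '' (B : Set G) ∪ {C} := by
  rcases hE with ⟨b, hb, rfl⟩ | hE
  · left
    exact ⟨b' * b, B.mul_mem hb' hb, (conjBy_conjBy A b b').symm⟩
  · right
    rw [Set.mem_singleton_iff] at hE ⊢
    rw [hE]
    exact conjBy_eq_iff_mem_normalizer.mpr (mem_normalizer_of_centralizes fun y hy =>
      h.comm_BC hb' hy)

theorem T_inv_D (hS : IsRootSubgroupSet S) (h : OppConfig S A B C D) {d : G} (hd : d ∈ D)
    {E : Subgroup G} (hE : E ∈ (fun b : G => conjBy A b) '' (B : Set G) ∪ {C}) :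
    conjBy E d ∈ (fun b : G => conjBy A b) '' (B : Set G) ∪ {C} := by
  have hC' : ∀ d' ∈ D, conjBy C d' ∈ (fun b : G => conjBy A b) '' (B : Set G) ∪ {C} := by
    intro d' hd'
    by_cases hd'1 : d' = 1
    · right
      rw [hd'1, conjBy_one]; rfl
    · obtain ⟨b, hb, -, hb2⟩ := conjC_eq hS h hd' hd'1
      left
      exact ⟨b, hb, hb2.symm⟩
  rcases hE with ⟨b, hb, rfl⟩ | hE
  · by_cases hb1 : b = 1
    · left
      refine ⟨1, B.one_mem, ?_⟩
      subst hb1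
      simp only [conjBy_one]
      exact (conjBy_eq_iff_mem_normalizer.mpr (mem_normalizer_of_centralizes fun y hy =>
        h.comm_DA hd hy)).symm
    · obtain ⟨d₁, hd₁, -, hd₂⟩ := conjC_eq hS h.swap hb hb1
      show conjBy (conjBy A b) d ∈ _
      rw [hd₂, conjBy_conjBy]
      exact hC' _ (D.mul_mem hd hd₁)
  · rw [Set.mem_singleton_iff] at hE
    rw [hE]
    exact hC' d hd

theorem orbit_eq (hS : IsRootSubgroupSet S) (h : OppConfig S A B C D) :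
    {E | ∃ x ∈ B ⊔ D, E = conjBy A x} = (fun b : G => conjBy A b) '' (B : Set G) ∪ {C} := by
  ext E
  constructor
  · rintro ⟨x, hx, rfl⟩
    have hp : ∀ x ∈ B ⊔ D, ∀ E ∈ (fun b : G => conjBy A b) '' (B : Set G) ∪ {C},
        conjBy E x ∈ (fun b : G => conjBy A b) '' (B : Set G) ∪ {C} := by
      intro x hx
      refine sup_induction' (p := fun x => ∀ E ∈ (fun b : G => conjBy A b) '' (B : Set G) ∪ {C},
        conjBy E x ∈ (fun b : G => conjBy A b) '' (B : Set G) ∪ {C}) ?_ ?_ ?_ hx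
      · intro b hb E hE
        exact T_inv_B h hb hE
      · intro d hd E hE
        exact T_inv_D hS h hd hE
      · intro x y hx hy E hE
        rw [← conjBy_conjBy]
        exact hx _ (hy E hE)
    exact hp x hx A (Or.inl ⟨1, B.one_mem, conjBy_one A⟩)
  · rintro (⟨b, hb, rfl⟩ | hE)
    · exact ⟨b, Subgroup.mem_sup_left hb, rfl⟩
    · rw [Set.mem_singleton_iff] at hE
      obtain ⟨d, hd, hd1⟩ := exists_ne_one_of_ne_bot (hS.ne_bot D h.hD)
      obtain ⟨b, hb, -, hb2⟩ := conjC_eq hS h hd hd1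
      refine ⟨d⁻¹ * b, Subgroup.mul_mem _ (Subgroup.mem_sup_right (D.inv_mem hd))
        (Subgroup.mem_sup_left hb), ?_⟩
      rw [hE, ← conjBy_conjBy, ← hb2, conjBy_conjBy, inv_mul_cancel, conjBy_one]

theorem orbit_eq_orbit (hS : IsRootSubgroupSet S) (h : OppConfig S A B C D) :
    {E | ∃ x ∈ B ⊔ D, E = conjBy A x} = {E | ∃ x ∈ B ⊔ D, E = conjBy C x} := by
  have hCmem : C ∈ {E | ∃ x ∈ B ⊔ D, E = conjBy A x} := by
    rw [orbit_eq hS h]
    right; rfl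
  obtain ⟨x₀, hx₀, hC0⟩ := hCmem
  ext E
  constructor
  · rintro ⟨x, hx, rfl⟩
    refine ⟨x * x₀⁻¹, Subgroup.mul_mem _ hx (Subgroup.inv_mem _ hx₀), ?_⟩
    have e : conjBy C (x * x₀⁻¹) = conjBy (conjBy A x₀) (x * x₀⁻¹) := by rw [← hC0]
    rw [e, conjBy_conjBy]
    congr 1
    group
  · rintro ⟨x, hx, rfl⟩
    refine ⟨x * x₀, Subgroup.mul_mem _ hx hx₀, ?_⟩
    have e : conjBy C x = conjBy (conjBy A x₀) x := by rw [← hC0]
    rw [e, conjBy_conjBy]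

theorem partition (hS : IsRootSubgroupSet S) (h : OppConfig S A B C D) :
    IsSubgroupPartition (A ⊔ C) ((fun b : G => conjBy A b) '' (B : Set G) ∪ {C}) := by
  have hinf := inf_AC hS h
  have h1 : ∀ b ∈ B, conjBy A b ⊓ C = ⊥ := by
    intro b hb
    rw [eq_bot_iff]
    rintro x hx
    obtain ⟨hx1, hx2⟩ := Subgroup.mem_inf.mp hx
    rw [mem_conjBy] at hx1
    have hx3 : b⁻¹ * x * b = x := by
      have := h.comm_BC hb hx2
      rw [mul_assoc, ← this]; group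
    rw [hx3] at hx1
    have : x ∈ A ⊓ C := Subgroup.mem_inf.mpr ⟨hx1, hx2⟩
    rwa [hinf] at this
  have h2 : ∀ b ∈ B, conjBy A b ≠ A → A ⊓ conjBy A b = ⊥ := by
    intro b hb hne
    rw [eq_bot_iff]
    intro x hx
    obtain ⟨hx1, hx2⟩ := Subgroup.mem_inf.mp hx
    rw [mem_conjBy] at hx2
    rw [Subgroup.mem_bot]
    by_contra hx0
    have hy : x * (b⁻¹ * x * b)⁻¹ ∈ A ⊓ C := by
      refine Subgroup.mem_inf.mpr ⟨A.mul_mem hx1 (A.inv_mem hx2), ?_⟩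
      have e : x * (b⁻¹ * x * b)⁻¹ = x * b⁻¹ * x⁻¹ * b⁻¹⁻¹ := by group
      rw [e]
      exact h.beta_mem' (B.inv_mem hb) hx1
    rw [hinf, Subgroup.mem_bot] at hy
    have hxb : x * b = b * x := by
      have e : x * b = b * (x * (b⁻¹ * x * b)⁻¹)⁻¹ * x := by group
      rw [e, hy, inv_one, mul_one]
    have hb1 : b = 1 := by
      by_contra hb1
      exact comm_ne_AB hS h hx1 hx0 hb hb1 hxb
    apply hne
    rw [hb1, conjBy_one]
  refine ⟨?_, ?_, ?_⟩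
  · rintro E (⟨b, hb, rfl⟩ | hE)
    · have := conj_le_sup_comm (A := A) hb
      rwa [h.eAB] at this
    · rw [Set.mem_singleton_iff] at hE
      rw [hE]; exact le_sup_right
  · intro x hx hx1
    obtain ⟨a, ha, c, hc, rfl⟩ :=
      (mem_sup_of_commute (fun a ha c hc => h.comm_AC ha hc)).mp hx
    by_cases ha1 : a = 1
    · refine ⟨C, Or.inr rfl, ?_⟩
      rw [ha1, one_mul]; exact hc
    · obtain ⟨b, hb, hcb⟩ := h.beta_surj' ha ha1 hc
      refine ⟨conjBy A b, Or.inl ⟨b, hb, rfl⟩, ?_⟩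
      have e : a * c = b * a * b⁻¹ := by rw [h.comm_AC ha hc, hcb]; group
      rw [e]; exact ⟨a, ha, rfl⟩
  · intro E hE E' hE' hne
    rcases hE with ⟨b, hb, rfl⟩ | hE
    · rcases hE' with ⟨b', hb', rfl⟩ | hE'
      · rw [eq_bot_iff]
        intro x hx
        obtain ⟨hx1, hx2⟩ := Subgroup.mem_inf.mp hx
        rw [mem_conjBy] at hx1 hx2
        have hne' : conjBy A (b⁻¹ * b') ≠ A := by
          intro heq
          apply hne
          have h3 : conjBy (conjBy A (b⁻¹ * b')) b = conjBy A b := by rw [heq]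
          rw [conjBy_conjBy] at h3
          have e : b * (b⁻¹ * b') = b' := by group
          rw [e] at h3
          exact h3.symm
        have hy : b⁻¹ * x * b ∈ A ⊓ conjBy A (b⁻¹ * b') := by
          refine Subgroup.mem_inf.mpr ⟨hx1, ?_⟩
          rw [mem_conjBy]
          have e : (b⁻¹ * b')⁻¹ * (b⁻¹ * x * b) * (b⁻¹ * b') = b'⁻¹ * x * b' := by group
          rw [e]; exact hx2
        rw [h2 _ (B.mul_mem (B.inv_mem hb) hb') hne', Subgroup.mem_bot] at hy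
        rw [Subgroup.mem_bot]
        have e : x = b * (b⁻¹ * x * b) * b⁻¹ := by group
        rw [e, hy]; group
      · rw [Set.mem_singleton_iff] at hE'
        rw [hE']; exact h1 b hb
    · rw [Set.mem_singleton_iff] at hE
      rcases hE' with ⟨b', hb', rfl⟩ | hE'
      · rw [hE, inf_comm]; exact h1 b' hb'
      · rw [Set.mem_singleton_iff] at hE'
        exact absurd (hE.trans hE'.symm) hne

theorem cent_central (hS : IsRootSubgroupSet S) (h : OppConfig S A B C D) :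
    ∀ x ∈ (B ⊔ D) ⊓ Subgroup.centralizer ((A ⊔ C : Subgroup G) : Set G),
      ∀ y ∈ B ⊔ D, x * y = y * x := by
  have hBD := rankOne_BD hS h
  have hnormB : ∀ {A B C D : Subgroup G}, OppConfig S A B C D → ∀ b ∈ B, ∀ z ∈ A ⊔ C,
      b * z * b⁻¹ ∈ A ⊔ C := by
    intro A B C D h b hb z hz
    have hle : A ⊔ C ≤ (A ⊔ C).comap (MulAut.conj b).toMonoidHom := by
      refine sup_le (fun a ha => ?_) (fun c hc => ?_)
      · show b * a * b⁻¹ ∈ A ⊔ C
        have := conj_le_sup_comm (A := A) hb (⟨a, ha, rfl⟩ : b * a * b⁻¹ ∈ conjBy A b)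
        rwa [h.eAB] at this
      · show b * c * b⁻¹ ∈ A ⊔ C
        rw [h.comm_BC hb hc, mul_inv_cancel_right]
        exact Subgroup.mem_sup_right hc
    exact hle hz
  have hnorm : ∀ y ∈ B ⊔ D, ∀ z ∈ A ⊔ C, y * z * y⁻¹ ∈ A ⊔ C := by
    intro y hy
    refine sup_induction' (p := fun y => ∀ z ∈ A ⊔ C, y * z * y⁻¹ ∈ A ⊔ C) ?_ ?_ ?_ hy
    · intro b hb z hz
      exact hnormB h b hb z hz
    · intro d hd z hz
      have := hnormB h.swap d hd z (by rw [sup_comm]; exact hz)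
      rwa [sup_comm] at this
    · intro x y hx hy z hz
      have e : x * y * z * (x * y)⁻¹ = x * (y * z * y⁻¹) * x⁻¹ := by group
      rw [e]
      exact hx _ (hy z hz)
  let K : Subgroup ↥(B ⊔ D) :=
    (Subgroup.centralizer ((A ⊔ C : Subgroup G) : Set G)).subgroupOf (B ⊔ D)
  have : K.Normal := by
    constructor
    intro k hk g
    have hk' : (k : G) ∈ Subgroup.centralizer ((A ⊔ C : Subgroup G) : Set G) :=
      Subgroup.mem_subgroupOf.mp hk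
    rw [Subgroup.mem_centralizer_iff] at hk'
    refine Subgroup.mem_subgroupOf.mpr ?_
    rw [Subgroup.mem_centralizer_iff]
    intro z hz
    show z * ((g : G) * (k : G) * (g : G)⁻¹) = (g : G) * (k : G) * (g : G)⁻¹ * z
    have hz' : (g : G)⁻¹ * z * (g : G)⁻¹⁻¹ ∈ A ⊔ C :=
      hnorm _ (Subgroup.inv_mem _ g.2) z hz
    have h5 := hk' _ hz'
    calc z * ((g : G) * (k : G) * (g : G)⁻¹)
        = (g : G) * (((g : G)⁻¹ * z * (g : G)⁻¹⁻¹) * (k : G)) * (g : G)⁻¹ := by group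
      _ = (g : G) * ((k : G) * ((g : G)⁻¹ * z * (g : G)⁻¹⁻¹)) * (g : G)⁻¹ := by rw [h5]
      _ = (g : G) * (k : G) * (g : G)⁻¹ * z := by group
  rcases rankOne_normal_dichotomy (rankOneGroup_subtype hBD) K with hd | hd
  · exfalso
    have hdecomp : ∀ x ∈ B ⊔ D, ∃ k ∈ Subgroup.centralizer ((A ⊔ C : Subgroup G) : Set G),
        ∃ b ∈ B, x = k * b := by
      intro x hx
      have hx' : (⟨x, hx⟩ : ↥(B ⊔ D)) ∈ K ⊔ B.subgroupOf (B ⊔ D) := hd ▸ Subgroup.mem_top _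
      obtain ⟨k, hk, b', hb', hkb⟩ := Subgroup.mem_sup_of_normal_left.mp hx'
      refine ⟨k, Subgroup.mem_subgroupOf.mp hk, b', Subgroup.mem_subgroupOf.mp hb', ?_⟩
      rw [← Subgroup.coe_mul, hkb]
    apply hS.ne_bot A h.hA
    rw [← h.eCD, Subgroup.commutator_eq_bot_iff_le_centralizer]
    intro c hc
    rw [Subgroup.mem_centralizer_iff]
    intro d hd'
    obtain ⟨k, hk, b, hb, rfl⟩ := hdecomp d (Subgroup.mem_sup_right hd')
    rw [Subgroup.mem_centralizer_iff] at hk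
    have h1 := hk c (Subgroup.mem_sup_right hc)
    have h2 := h.comm_BC hb hc
    calc k * b * c = k * (b * c) := by group
      _ = k * (c * b) := by rw [h2]
      _ = (k * c) * b := by group
      _ = (c * k) * b := by rw [h1]
      _ = c * (k * b) := by group
  · intro x hx y hy
    obtain ⟨hx1, hx2⟩ := Subgroup.mem_inf.mp hx
    have h1 : (⟨x, hx1⟩ : ↥(B ⊔ D)) ∈ Subgroup.center ↥(B ⊔ D) :=
      hd (Subgroup.mem_subgroupOf.mpr hx2)
    rw [Subgroup.mem_center_iff] at h1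
    exact (congrArg Subtype.val (h1 ⟨y, hy⟩)).symm

end OppConfig

end Cfsg.Agent.Helper8
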