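import Cfsg.Agent.Helper8.RootLine2
import Cfsg.Agent.Helper8.RankOneQuad

/-!
# Special rank one pairs in non-degenerate classes of root subgroups (Timmesfeld II (2.9)-type)
-/

set_option autoImplicit false

namespace Cfsg.Agent.Helper8

open Cfsg
open scoped commutatorElement

variable {G : Type*} [Group G]

/-- A rank one pair `(A, B)` normalizing an abelian subgroup `N` on which `A` acts quadratically
while `⟨A, B⟩` does not, is special. -/
theorem special_of_conj_quadratic {A B N : Subgroup G} (hp : IsRankOnePair A B)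
    (hNc : ∀ x ∈ N, ∀ y ∈ N, x * y = y * x)
    (hnorm : ∀ g ∈ A ⊔ B, ∀ n ∈ N, g * n * g⁻¹ ∈ N)
    (hq : ∀ a ∈ A, ∀ a' ∈ A, ∀ n ∈ N, a' * (a * n * a⁻¹ * n⁻¹) * a'⁻¹ = a * n * a⁻¹ * n⁻¹)
    (hX : ∃ x ∈ A ⊔ B, ∃ y ∈ A ⊔ B, ∃ n ∈ N,
      y * (x * n * x⁻¹ * n⁻¹) * y⁻¹ ≠ x * n * x⁻¹ * n⁻¹) :
    IsSpecialRankOnePair A B := by
  let _ : CommGroup ↥N :=
    { (inferInstance : Group ↥N) with
      mul_comm := fun x y => Subtype.ext (hNc x x.2 y y.2) }
  let _ : DistribMulAction ↥(A ⊔ B) (Additive ↥N) :=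
    { smul := fun g n => Additive.ofMul
        ⟨(g : G) * ((Additive.toMul n : ↥N) : G) * (g : G)⁻¹,
          hnorm g g.2 _ (Additive.toMul n).2⟩
      one_smul := fun n => Additive.toMul.injective (Subtype.ext (by
        show ((1 : ↥(A ⊔ B)) : G) * ((Additive.toMul n : ↥N) : G) *
          ((1 : ↥(A ⊔ B)) : G)⁻¹ = ((Additive.toMul n : ↥N) : G)
        simp))
      mul_smul := fun g h n => Additive.toMul.injective (Subtype.ext (by
        show ((g * h : ↥(A ⊔ B)) : G) * ((Additive.toMul n : ↥N) : G) *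
          ((g * h : ↥(A ⊔ B)) : G)⁻¹ =
          (g : G) * ((h : G) * ((Additive.toMul n : ↥N) : G) * (h : G)⁻¹) * (g : G)⁻¹
        rw [Subgroup.coe_mul]; group))
      smul_zero := fun g => Additive.toMul.injective (Subtype.ext (by
        show (g : G) * ((1 : ↥N) : G) * (g : G)⁻¹ = ((1 : ↥N) : G)
        simp))
      smul_add := fun g m n => Additive.toMul.injective (Subtype.ext (by
        show (g : G) * ((Additive.toMul m * Additive.toMul n : ↥N) : G) * (g : G)⁻¹ =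
          ((g : G) * ((Additive.toMul m : ↥N) : G) * (g : G)⁻¹) *
            ((g : G) * ((Additive.toMul n : ↥N) : G) * (g : G)⁻¹)
        rw [Subgroup.coe_mul]; group)) }
  have hsmul : ∀ (g : ↥(A ⊔ B)) (n : Additive ↥N),
      ((Additive.toMul (g • n) : ↥N) : G) =
        (g : G) * ((Additive.toMul n : ↥N) : G) * (g : G)⁻¹ := fun _ _ => rfl
  have hsub : ∀ (g : ↥(A ⊔ B)) (n : Additive ↥N),
      ((Additive.toMul (g • n - n) : ↥N) : G) =
        (g : G) * ((Additive.toMul n : ↥N) : G) * (g : G)⁻¹ *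
          ((Additive.toMul n : ↥N) : G)⁻¹ := by
    intro g n
    rw [toMul_sub, div_eq_mul_inv, Subgroup.coe_mul, Subgroup.coe_inv, hsmul]
  have hA' : A ≤ A ⊔ B := le_sup_left
  have hB' : B ≤ A ⊔ B := le_sup_right
  have key := special_of_quadratic (N := Additive ↥N) (rankOneGroup_subtype hp)
    (by
      intro a ha a' ha' n
      have haA : (a : G) ∈ A := Subgroup.mem_subgroupOf.mp ha
      have ha'A : (a' : G) ∈ A := Subgroup.mem_subgroupOf.mp ha'
      apply Additive.toMul.injective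
      apply Subtype.ext
      rw [hsmul, hsub]
      exact hq a haA a' ha'A _ (Additive.toMul n).2)
    (by
      obtain ⟨x, hx, y, hy, n, hn, hne⟩ := hX
      refine ⟨⟨x, hx⟩, ⟨y, hy⟩, Additive.ofMul ⟨n, hn⟩, ?_⟩
      intro heq
      apply hne
      have h2 := congrArg (fun m : Additive ↥N => ((Additive.toMul m : ↥N) : G)) heq
      simp only [hsmul, hsub] at h2
      exact h2)
  refine ⟨hp, fun a ha ha1 b hb hb1 hab => ?_⟩
  have := key.2 ⟨a, hA' ha⟩ (Subgroup.mem_subgroupOf.mpr ha)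
    (fun h => ha1 (congrArg Subtype.val h)) ⟨b, hB' hb⟩ (Subgroup.mem_subgroupOf.mpr hb)
    (fun h => hb1 (congrArg Subtype.val h)) (by
      rw [conjBy_subgroupOf, conjBy_subgroupOf]
      show (conjBy A b⁻¹).subgroupOf _ = (conjBy B a⁻¹).subgroupOf _
      rw [hab])
  exact congrArg Subtype.val this

/-- If `b⁻¹ A b = a⁻¹ B a` and `c` centralizes `A`, then `a b⁻¹ c b a⁻¹` centralizes `B`. -/
theorem partner_conj_comm {A B : Subgroup G} {a b : G} (hpar : conjBy A b⁻¹ = conjBy B a⁻¹)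
    {c : G} (hc : ∀ x ∈ A, x * c = c * x) :
    ∀ b' ∈ B, (a * b⁻¹ * c * b * a⁻¹) * b' = b' * (a * b⁻¹ * c * b * a⁻¹) := by
  intro b' hb'
  have h1 : a⁻¹ * b' * a ∈ conjBy B a⁻¹ := by
    rw [mem_conjBy]
    have e : a⁻¹⁻¹ * (a⁻¹ * b' * a) * a⁻¹ = b' := by group
    rw [e]; exact hb'
  rw [← hpar, mem_conjBy] at h1
  have h2 := hc _ h1
  calc (a * b⁻¹ * c * b * a⁻¹) * b'
      = a * b⁻¹ * (c * (b⁻¹⁻¹ * (a⁻¹ * b' * a) * b⁻¹)) * b * a⁻¹ := by group
    _ = a * b⁻¹ * ((b⁻¹⁻¹ * (a⁻¹ * b' * a) * b⁻¹) * c) * b * a⁻¹ := by rw [h2]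
    _ = b' * (a * b⁻¹ * c * b * a⁻¹) := by group

/-- A member `B` which is a rank one partner of two commuting members `A`, `C` meeting
trivially: some product `a c` lies in no rank one partner of `B`. -/
theorem exists_not_rankOne_mul {A C B : Subgroup G} (hBA : IsRankOnePair B A)
    (hBC : IsRankOnePair B C) (hAC : ∀ a ∈ A, ∀ c ∈ C, a * c = c * a) (hinf : A ⊓ C = ⊥) :
    ∃ a ∈ A, ∃ c ∈ C, a * c ≠ 1 ∧ ∀ E : Subgroup G, IsRankOnePair E B → a * c ∉ E := by
  obtain ⟨b, hb, hb1⟩ := exists_ne_one_of_ne_bot (RankOne.left_ne_bot hBA)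
  obtain ⟨a, ha, ha1, hpa⟩ := hBA.cond_left b hb hb1
  obtain ⟨c, hc, hc1, hpc⟩ := hBC.cond_left b hb hb1
  have he1 : a * c⁻¹ ≠ 1 := by
    intro h
    have h2 : a ∈ A ⊓ C := by
      refine Subgroup.mem_inf.mpr ⟨ha, ?_⟩
      have e : a = c := by
        have := mul_inv_eq_one.mp h
        exact this
      rw [e]; exact hc
    rw [hinf, Subgroup.mem_bot] at h2
    exact ha1 h2
  refine ⟨a, ha, c⁻¹, C.inv_mem hc, he1, ?_⟩
  intro E hEB he
  have hcomm : ∀ b₁ ∈ B, ∀ b₂ ∈ B,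
      ((a * c⁻¹) * b₁ * (a * c⁻¹)⁻¹) * b₂ = b₂ * ((a * c⁻¹) * b₁ * (a * c⁻¹)⁻¹) := by
    intro b₁ hb₁ b₂ hb₂
    have h1 : a⁻¹ * b₂ * a ∈ conjBy B a⁻¹ := by
      rw [mem_conjBy]
      have e : a⁻¹⁻¹ * (a⁻¹ * b₂ * a) * a⁻¹ = b₂ := by group
      rw [e]; exact hb₂
    rw [hpa, mem_conjBy] at h1
    have h2 : c⁻¹ * b₁ * c ∈ conjBy B c⁻¹ := by
      rw [mem_conjBy]
      have e : c⁻¹⁻¹ * (c⁻¹ * b₁ * c) * c⁻¹ = b₁ := by group
      rw [e]; exact hb₁
    rw [hpc, mem_conjBy] at h2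
    have h3 := hAC _ h1 _ h2
    calc ((a * c⁻¹) * b₁ * (a * c⁻¹)⁻¹) * b₂
        = a * b⁻¹ * ((b⁻¹⁻¹ * (c⁻¹ * b₁ * c) * b⁻¹) * (b⁻¹⁻¹ * (a⁻¹ * b₂ * a) * b⁻¹)) * b *
            a⁻¹ := by group
      _ = a * b⁻¹ * ((b⁻¹⁻¹ * (a⁻¹ * b₂ * a) * b⁻¹) * (b⁻¹⁻¹ * (c⁻¹ * b₁ * c) * b⁻¹)) * b *
            a⁻¹ := by rw [h3]
      _ = b₂ * ((a * c⁻¹) * b₁ * (a * c⁻¹)⁻¹) := by group
  have h4 : (a * c⁻¹) * b * (a * c⁻¹)⁻¹ ∈ conjBy B (a * c⁻¹) ⊓ Subgroup.normalizer (B : Set G) :=
    Subgroup.mem_inf.mpr ⟨⟨b, hb, rfl⟩, mem_normalizer_of_centralizes fun y hy =>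
      hcomm b hb y hy⟩
  rw [RankOne.conj_right_inf_normalizer hEB he he1, Subgroup.mem_bot] at h4
  apply hb1
  have e : b = (a * c⁻¹)⁻¹ * ((a * c⁻¹) * b * (a * c⁻¹)⁻¹) * (a * c⁻¹) := by group
  rw [e, h4]; group

theorem commutator_le_centralizer_of_le {C D : Subgroup G} {T : Set G}
    (hC : C ≤ Subgroup.centralizer T) (hD : D ≤ Subgroup.centralizer T) :
    ⁅C, D⁆ ≤ Subgroup.centralizer T := by
  rw [Subgroup.commutator_le]
  intro c hc d hd
  rw [commutatorElement_def]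
  exact Subgroup.mul_mem _ (Subgroup.mul_mem _ (Subgroup.mul_mem _ (hC hc) (hD hd))
    (Subgroup.inv_mem _ (hC hc))) (Subgroup.inv_mem _ (hD hd))

theorem le_centralizer_of_comm_eq_bot {B C : Subgroup G} (h : ⁅B, C⁆ = ⊥) :
    C ≤ Subgroup.centralizer (B : Set G) := by
  rw [Subgroup.commutator_comm] at h
  exact Subgroup.commutator_eq_bot_iff_le_centralizer.mp h

/-- If `C`, `D` both commute with `B` then `[C, D] ≠ A` for a rank one partner `A` of `B`. -/
theorem not_both_comm {A B C D : Subgroup G} (hAB : IsRankOnePair A B) (heq : ⁅C, D⁆ = A)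
    (h1 : ⁅B, C⁆ = ⊥) (h2 : ⁅B, D⁆ = ⊥) : False := by
  have hle : A ≤ Subgroup.centralizer (B : Set G) := by
    rw [← heq]
    exact commutator_le_centralizer_of_le (le_centralizer_of_comm_eq_bot h1)
      (le_centralizer_of_comm_eq_bot h2)
  obtain ⟨a, ha, ha1⟩ := exists_ne_one_of_ne_bot (RankOne.left_ne_bot hAB)
  have h3 : a ∈ A ⊓ Subgroup.normalizer (B : Set G) := by
    refine Subgroup.mem_inf.mpr ⟨ha, mem_normalizer_of_centralizes fun y hy => ?_⟩
    have := hle ha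
    rw [Subgroup.mem_centralizer_iff] at this
    exact (this y hy).symm
  rw [RankOne.inf_normalizer hAB, Subgroup.mem_bot] at h3
  exact ha1 h3

theorem exists_comm_partner_core {S : Set (Subgroup G)} (hS : IsRootSubgroupSet S)
    (hni : ∀ X ∈ S, ¬ IsIsolatedIn (FAdj S) S X) {A B C D : Subgroup G} (hA : A ∈ S)
    (hB : B ∈ S) (hC : C ∈ S) (hD : D ∈ S) (hAB : IsRankOnePair A B)
    (hcc : RootCommutatorCase S C D) (heq : ⁅C, D⁆ = A) (hBC : IsRankOnePair B C)
    (hBD : ¬ RootCommutatorCase S B D) :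
    ∃ E ∈ linePartners S A, RootCommutatorCase S B E := by
  have hAC : ∀ a ∈ A, ∀ c ∈ C, a * c = c * a := fun a ha c hc =>
    hcc.2.1 a (heq ▸ ha) c (Subgroup.mem_sup_left hc)
  have hAD : ∀ a ∈ A, ∀ d ∈ D, a * d = d * a := fun a ha d hd =>
    hcc.2.1 a (heq ▸ ha) d (Subgroup.mem_sup_right hd)
  have hinfAC : A ⊓ C = ⊥ := by
    rw [inf_comm, ← heq]
    exact comm_inf_eq_bot hS (hni C hC) hC hcc
  obtain ⟨hmem, hpart, -, -⟩ := root_commutator_partition hS (hni C hC) hC hD hcc.1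
  obtain ⟨a, ha, c, hc, hac1, hnot⟩ :=
    exists_not_rankOne_mul (RankOnePair_symm hAB) hBC hAC hinfAC
  have hacmem : a * c ∈ C ⊔ ⁅C, D⁆ :=
    Subgroup.mul_mem _ (Subgroup.mem_sup_right (heq ▸ ha)) (Subgroup.mem_sup_left hc)
  obtain ⟨C', hC'L, hacC'⟩ := hpart.2.1 (a * c) hacmem hac1
  have hC'nr : ¬ IsRankOnePair C' B := fun h => hnot C' h hacC'
  rw [hmem] at hC'L
  rcases hC'L with ⟨d, hd, rfl⟩ | hC'L
  swap
  · exfalso
    rw [Set.mem_singleton_iff] at hC'L
    rw [hC'L, heq] at hC'nr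
    exact hC'nr hAB
  have hC' : conjBy C d ∈ S := hS.conj_mem C hC d
  have hcomm' : ⁅conjBy C d, D⁆ = A := by
    have h1 : conjBy D d = D := conjBy_of_mem hd
    have h2 : conjBy A d = A :=
      conjBy_eq_iff_mem_normalizer.mpr (mem_normalizer_of_centralizes fun y hy =>
        (hAD y hy d hd).symm)
    have h3 := Subgroup.map_commutator C D (MulAut.conj d).toMonoidHom
    have h4 : conjBy ⁅C, D⁆ d = ⁅conjBy C d, conjBy D d⁆ := h3
    rw [h1, heq, h2] at h4
    exact h4.symm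
  have hcc' : RootCommutatorCase S (conjBy C d) D :=
    commCase_of_mem hS hC' hD (by rw [hcomm']; exact hA)
  have hΛ : conjBy C d ∈ linePartners S A := by
    have := (root_commutator_partition hS (hni _ hC') hC' hD hcc'.1).2.2.1
    rwa [hcomm'] at this
  rcases hS.pair B hB (conjBy C d) hC' with h | h | h
  · exfalso
    rcases hS.pair B hB D hD with h' | h' | h'
    · exact not_both_comm hAB hcomm' h h'
    · -- `(B, D)` rank one
      have hccDC := rootCommutatorCase_symm hcc'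
      have heqDC : ⁅D, conjBy C d⁆ = A := by rw [Subgroup.commutator_comm]; exact hcomm'
      obtain ⟨hmem', hpart', -, -⟩ :=
        root_commutator_partition hS (hni D hD) hD hC' hccDC.1
      have hinfAD : A ⊓ D = ⊥ := by
        rw [inf_comm, ← heqDC]
        exact comm_inf_eq_bot hS (hni D hD) hD hccDC
      obtain ⟨a', ha', d', hd', had1, hnot'⟩ :=
        exists_not_rankOne_mul (RankOnePair_symm hAB) h' hAD hinfAD
      have hadmem : a' * d' ∈ D ⊔ ⁅D, conjBy C d⁆ :=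
        Subgroup.mul_mem _ (Subgroup.mem_sup_right (heqDC ▸ ha')) (Subgroup.mem_sup_left hd')
      obtain ⟨D', hD'L, hadD'⟩ := hpart'.2.1 (a' * d') hadmem had1
      rw [hmem'] at hD'L
      rcases hD'L with ⟨c', hc', rfl⟩ | hD'L
      · apply hnot' _ _ hadD'
        have h5 := RankOne.conj (RankOnePair_symm h') c'
        have h6 : conjBy B c' = B :=
          conjBy_eq_iff_mem_normalizer.mpr (mem_normalizer_of_centralizes fun y hy =>
            (comm_of_commutator_eq_bot h hy hc').symm)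
        rw [h6] at h5
        exact h5
      · rw [Set.mem_singleton_iff] at hD'L
        apply hnot' D' _ hadD'
        rw [hD'L, heqDC]
        exact hAB
    · exact hBD h'
  · exact absurd (RankOnePair_symm h) hC'nr
  · exact ⟨conjBy C d, hΛ, h⟩

/-- In a non-degenerate class of abstract root subgroups, a rank one pair `(A, B)` admits a line
partner of `A` in the commutator case with `B`. -/
theorem exists_line_comm_partner {S : Set (Subgroup G)} (hS : IsRootSubgroupSet S)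
    (hclass : IsConjClassOfSubgroups S) (hnd : IsNondegenerateRootSet S) {A B : Subgroup G}
    (hA : A ∈ S) (hB : B ∈ S) (hAB : IsRankOnePair A B) :
    ∃ E ∈ linePartners S A, RootCommutatorCase S B E := by
  have hni : ∀ X ∈ S, ¬ IsIsolatedIn (FAdj S) S X := by
    intro X hX
    obtain ⟨g, rfl⟩ := hclass.2 A hA X hX
    exact not_isolated_conj hS (not_isolated_of_partner hA hB hAB) hA g
  obtain ⟨C₀, hC₀, D₀, hD₀, hcc₀⟩ := hnd.2.2
  obtain ⟨g, hg⟩ := hclass.2 _ hcc₀.1 A hA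
  have hC : conjBy C₀ g ∈ S := hS.conj_mem C₀ hC₀ g
  have hD : conjBy D₀ g ∈ S := hS.conj_mem D₀ hD₀ g
  have heq : ⁅conjBy C₀ g, conjBy D₀ g⁆ = A := by
    rw [hg]
    exact (Subgroup.map_commutator C₀ D₀ (MulAut.conj g).toMonoidHom).symm
  have hcc : RootCommutatorCase S (conjBy C₀ g) (conjBy D₀ g) :=
    commCase_of_mem hS hC hD (by rw [heq]; exact hA)
  have hccDC := rootCommutatorCase_symm hcc
  have heqDC : ⁅conjBy D₀ g, conjBy C₀ g⁆ = A := by rw [Subgroup.commutator_comm]; exact heq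
  rcases hS.pair B hB _ hC with h | h | h
  · rcases hS.pair B hB _ hD with h' | h' | h'
    · exact absurd (not_both_comm hAB heq h h') id
    · refine exists_comm_partner_core hS hni hA hB hD hC hAB hccDC heqDC h' ?_
      intro hcon
      exact hS.ne_bot _ hcon.1 h
    · refine ⟨_, ?_, h'⟩
      have := (root_commutator_partition hS (hni _ hD) hD hC hccDC.1).2.2.1
      rwa [heqDC] at this
  · by_cases hBD : RootCommutatorCase S B (conjBy D₀ g)
    · refine ⟨_, ?_, hBD⟩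
      have := (root_commutator_partition hS (hni _ hD) hD hC hccDC.1).2.2.1
      rwa [heqDC] at this
    · exact exists_comm_partner_core hS hni hA hB hC hD hAB hcc heq h hBD
  · refine ⟨_, ?_, h⟩
    have := (root_commutator_partition hS (hni _ hC) hC hD hcc.1).2.2.1
    rwa [heq] at this

theorem class_not_isolated {S : Set (Subgroup G)} (hS : IsRootSubgroupSet S)
    (hclass : IsConjClassOfSubgroups S) {A B : Subgroup G} (hA : A ∈ S) (hB : B ∈ S)
    (hAB : IsRankOnePair A B) : ∀ X ∈ S, ¬ IsIsolatedIn (FAdj S) S X := by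
  intro X hX
  obtain ⟨g, rfl⟩ := hclass.2 A hA X hX
  exact not_isolated_conj hS (not_isolated_of_partner hA hB hAB) hA g

/-- `(A, B)` rank one, `C` commuting with `A` and `(B, C)` in the commutator case: then
`(A, [B, C])` is in the commutator case. -/
theorem commCase_left_comm {S : Set (Subgroup G)} (hS : IsRootSubgroupSet S)
    {A B C : Subgroup G} (hA : A ∈ S) (hB : B ∈ S) (hC : C ∈ S) (hAB : IsRankOnePair A B)
    (hAC : ∀ a ∈ A, ∀ c ∈ C, a * c = c * a) (hcc : RootCommutatorCase S B C) :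
    RootCommutatorCase S A ⁅B, C⁆ := by
  have hF := hcc.1
  have hBni : ¬ IsIsolatedIn (FAdj S) S B :=
    not_isolated_of_partner hB hA (RankOnePair_symm hAB)
  obtain ⟨a, ha, ha1⟩ := exists_ne_one_of_ne_bot (RankOne.left_ne_bot hAB)
  obtain ⟨b, hb, hb1, hpar⟩ := hAB.cond_left a ha ha1
  obtain ⟨c, hc, hc1⟩ := exists_ne_one_of_ne_bot (hS.ne_bot C hC)
  obtain ⟨b', hb', hb'1⟩ := exists_ne_one_of_ne_bot (RankOne.right_ne_bot hAB)
  have hf : b⁻¹ * c * b * c⁻¹ ∈ ⁅B, C⁆ := by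
    have := Subgroup.commutator_mem_commutator (B.inv_mem hb) hc
    rwa [commutatorElement_def, inv_inv] at this
  have hy₀ := partner_conj_comm hpar (c := c) (fun x hx => hAC x hx c hc)
  have hca : c * a⁻¹ = a⁻¹ * c := by
    have e : c * a⁻¹ = a⁻¹ * (a * c) * a⁻¹ := by group
    rw [e, hAC a ha c hc]; group
  obtain ⟨g, hgdef⟩ : ∃ g, g = a * (b⁻¹ * c * b * c⁻¹) * a⁻¹ := ⟨_, rfl⟩
  have hy₀e : a * b⁻¹ * c * b * a⁻¹ = g * c := by
    calc a * b⁻¹ * c * b * a⁻¹ = a * (b⁻¹ * c * b * c⁻¹) * (c * a⁻¹) := by group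
      _ = a * (b⁻¹ * c * b * c⁻¹) * (a⁻¹ * c) := by rw [hca]
      _ = g * c := by rw [hgdef]; group
  have hgmem : g ∈ conjBy ⁅B, C⁆ a := by rw [hgdef]; exact ⟨_, hf, rfl⟩
  have h1 := hy₀ b' hb'
  rw [hy₀e] at h1
  have hcb' : b' * c ≠ c * b' := comm_ne hS hBni hB hcc hb' hb'1 hc hc1
  have hcomm_contra : b' * g = g * b' → False := by
    intro hg
    apply hcb'
    have : g * (c * b') = g * (b' * c) := by
      calc g * (c * b') = (g * c) * b' := by group
        _ = b' * (g * c) := h1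
        _ = (b' * g) * c := by group
        _ = (g * b') * c := by rw [hg]
        _ = g * (b' * c) := by group
    exact (mul_left_cancel this).symm
  rcases hS.pair A hA _ hF with h | h | h
  · exfalso
    have haf : g = b⁻¹ * c * b * c⁻¹ := by
      rw [hgdef, comm_of_commutator_eq_bot h ha hf]; group
    have hBc := hS.commutative B hB
    have hbb' : b * b' = b' * b := congrArg Subtype.val (mul_comm' (⟨b, hb⟩ : B) ⟨b', hb'⟩)
    have e2 : b⁻¹ * b' * b = b' := by rw [mul_assoc, ← hbb']; group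
    have h2 : (b⁻¹ * c * b) * b' = b' * (b⁻¹ * c * b) := by
      have e : g * c = b⁻¹ * c * b := by rw [haf]; group
      rw [e] at h1; exact h1
    apply hcb'
    calc b' * c = b * ((b⁻¹ * b' * b) * (b⁻¹ * c * b)) * b⁻¹ := by group
      _ = b * (b' * (b⁻¹ * c * b)) * b⁻¹ := by rw [e2]
      _ = b * ((b⁻¹ * c * b) * b') * b⁻¹ := by rw [h2]
      _ = b * ((b⁻¹ * c * b) * (b⁻¹ * b' * b)) * b⁻¹ := by rw [e2]
      _ = c * b' := by group
  · exfalso
    have hFni := not_isolated_of_partner hF hA (RankOnePair_symm h)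
    have hnr := not_rankOne_conj_comm hS hA hC hB hAB hAC hcc ha ha1
    have hFa : conjBy ⁅B, C⁆ a ∈ S := hS.conj_mem _ hF a
    rcases hS.pair B hB _ hFa with h' | h' | h'
    · exact hcomm_contra (comm_of_commutator_eq_bot h' hb' hgmem)
    · exact hnr h'
    · have hk : b' * g * b'⁻¹ * g⁻¹ ∈ ⁅B, conjBy ⁅B, C⁆ a⁆ := by
        have := Subgroup.commutator_mem_commutator hb' hgmem
        rwa [commutatorElement_def] at this
      have hk2 : b' * g * b'⁻¹ * g⁻¹ = g * (c * b' * c⁻¹ * b'⁻¹) * g⁻¹ := by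
        have e : b' * g = g * c * b' * c⁻¹ := by
          calc b' * g = (b' * (g * c)) * c⁻¹ := by group
            _ = ((g * c) * b') * c⁻¹ := by rw [h1]
            _ = g * c * b' * c⁻¹ := by group
        rw [e]; group
      have hk3 : c * b' * c⁻¹ * b'⁻¹ ∈ ⁅B, conjBy ⁅B, C⁆ a⁆ := by
        have hcen := h'.2.1 _ hk g (Subgroup.mem_sup_right hgmem)
        have e : c * b' * c⁻¹ * b'⁻¹ = g⁻¹ * (b' * g * b'⁻¹ * g⁻¹) * g := by rw [hk2]; group
        have e2 : g⁻¹ * (b' * g * b'⁻¹ * g⁻¹) * g = b' * g * b'⁻¹ * g⁻¹ := by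
          rw [mul_assoc, hcen]; group
        rw [e, e2]; exact hk
      have hk4 : c * b' * c⁻¹ * b'⁻¹ ∈ ⁅B, C⁆ := by
        rw [Subgroup.commutator_comm]
        have := Subgroup.commutator_mem_commutator hc hb'
        rwa [commutatorElement_def] at this
      have hk5 : c * b' * c⁻¹ * b'⁻¹ ≠ 1 := by
        intro h5
        apply hcb'
        have e : c * b' = (c * b' * c⁻¹ * b'⁻¹) * (b' * c) := by group
        rw [e, h5, one_mul]
      have hFK : ⁅B, C⁆ = ⁅B, conjBy ⁅B, C⁆ a⁆ := by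
        rcases root_inf_trivial hS hFni hF _ h'.1 with h6 | h6
        · exfalso
          have : c * b' * c⁻¹ * b'⁻¹ ∈ ⁅B, C⁆ ⊓ ⁅B, conjBy ⁅B, C⁆ a⁆ :=
            Subgroup.mem_inf.mpr ⟨hk4, hk3⟩
          rw [h6, Subgroup.mem_bot] at this
          exact hk5 this
        · exact h6
      have hFcomm : ∀ x ∈ ⁅B, C⁆, ∀ y ∈ conjBy ⁅B, C⁆ a, x * y = y * x := by
        intro x hx y hy
        exact h'.2.1 x (by rw [← hFK]; exact hx) y (Subgroup.mem_sup_right hy)
      have hpair : IsRankOnePair ⁅B, C⁆ (conjBy ⁅B, C⁆ a) := by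
        have hFA := RankOnePair_symm h
        refine unipotent_pair hFA ⟨a, Subgroup.mem_sup_right ha, rfl⟩
          (RankOne.left_mem_unipotent _ A) ?_
        intro heq'
        have h7 : a ∈ A ⊓ Subgroup.normalizer ((⁅B, C⁆ : Subgroup G) : Set G) :=
          Subgroup.mem_inf.mpr ⟨ha, conjBy_eq_iff_mem_normalizer.mp heq'.symm⟩
        rw [RankOne.inf_normalizer h, Subgroup.mem_bot] at h7
        exact ha1 h7
      obtain ⟨x, hx, hx1⟩ := exists_ne_one_of_ne_bot (hS.ne_bot _ hF)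
      have h8 : x ∈ ⁅B, C⁆ ⊓ Subgroup.normalizer ((conjBy ⁅B, C⁆ a : Subgroup G) : Set G) :=
        Subgroup.mem_inf.mpr ⟨hx, mem_normalizer_of_centralizes fun y hy => hFcomm x hx y hy⟩
      rw [RankOne.inf_normalizer hpair, Subgroup.mem_bot] at h8
      exact hx1 h8
  · exact h

/-- For a rank one pair `(A, B)`, a line partner `C` of `A` and `(B, C)` in the commutator case:
`[A, [B, C]] = C`. -/
theorem comm_comm_eq {S : Set (Subgroup G)} (hS : IsRootSubgroupSet S) {A B C : Subgroup G}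
    (hA : A ∈ S) (hB : B ∈ S) (hAB : IsRankOnePair A B) (hCL : C ∈ linePartners S A)
    (hCni : ¬ IsIsolatedIn (FAdj S) S C) (hcc : RootCommutatorCase S B C) :
    ⁅A, ⁅B, C⁆⁆ = C := by
  obtain ⟨⟨hC, hCA, hcomm⟩, hpart⟩ := hCL
  have hAC : ∀ a ∈ A, ∀ c ∈ C, a * c = c * a := fun a ha c hc =>
    comm_of_commutator_eq_bot hcomm ha hc
  have hccAF := commCase_left_comm hS hA hB hC hAB hAC hcc
  have hF := hcc.1
  have hAni := not_isolated_of_partner hA hB hAB
  have hinf : A ⊓ C = ⊥ := (root_inf_trivial hS hAni hA C hC).resolve_right (Ne.symm hCA)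
  obtain ⟨a, ha, ha1⟩ := exists_ne_one_of_ne_bot (RankOne.left_ne_bot hAB)
  obtain ⟨b, hb, hb1, hpar⟩ := hAB.cond_left a ha ha1
  obtain ⟨c, hc, hc1⟩ := exists_ne_one_of_ne_bot (hS.ne_bot C hC)
  have hf : b⁻¹ * c * b * c⁻¹ ∈ ⁅B, C⁆ := by
    have := Subgroup.commutator_mem_commutator (B.inv_mem hb) hc
    rwa [commutatorElement_def, inv_inv] at this
  obtain ⟨f, hfdef⟩ : ∃ f, f = b⁻¹ * c * b * c⁻¹ := ⟨_, rfl⟩
  rw [← hfdef] at hf
  have hx : a * f * a⁻¹ * f⁻¹ ∈ ⁅A, ⁅B, C⁆⁆ := by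
    have := Subgroup.commutator_mem_commutator ha hf
    rwa [commutatorElement_def] at this
  obtain ⟨x, hxdef⟩ : ∃ x, x = a * f * a⁻¹ * f⁻¹ := ⟨_, rfl⟩
  rw [← hxdef] at hx
  have hfc : f * c = c * f := hcc.2.1 f hf c (Subgroup.mem_sup_right hc)
  have hy₀ := partner_conj_comm hpar (c := c) (fun z hz => hAC z hz c hc)
  have hca : c * a⁻¹ = a⁻¹ * c := by
    have e : c * a⁻¹ = a⁻¹ * (a * c) * a⁻¹ := by group
    rw [e, hAC a ha c hc]; group
  have hy₀e : a * b⁻¹ * c * b * a⁻¹ = (x * c) * f := by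
    calc a * b⁻¹ * c * b * a⁻¹ = a * (b⁻¹ * c * b * c⁻¹) * (c * a⁻¹) := by group
      _ = a * f * (a⁻¹ * c) := by rw [hca, ← hfdef]
      _ = (a * f * a⁻¹ * f⁻¹) * (f * c) := by group
      _ = x * (c * f) := by rw [hfc, ← hxdef]
      _ = (x * c) * f := by group
  have hyB : ∀ b' ∈ B, (x * c) * b' = b' * (x * c) := by
    intro b' hb'
    have h1 := hy₀ b' hb'
    rw [hy₀e] at h1
    have h2 : f * b' = b' * f := hcc.2.1 f hf b' (Subgroup.mem_sup_left hb')
    have : (x * c) * b' * f = b' * (x * c) * f := by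
      calc (x * c) * b' * f = (x * c) * (b' * f) := by group
        _ = (x * c) * (f * b') := by rw [h2]
        _ = ((x * c) * f) * b' := by group
        _ = b' * ((x * c) * f) := h1
        _ = b' * (x * c) * f := by group
    exact mul_right_cancel this
  have hyA : ∀ a' ∈ A, (x * c) * a' = a' * (x * c) := by
    intro a' ha'
    have h1 : x * a' = a' * x := hccAF.2.1 x hx a' (Subgroup.mem_sup_left ha')
    have h2 := hAC a' ha' c hc
    calc (x * c) * a' = x * (c * a') := by group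
      _ = x * (a' * c) := by rw [h2]
      _ = (x * a') * c := by group
      _ = (a' * x) * c := by rw [h1]
      _ = a' * (x * c) := by group
  have hycen : x * c ∈ Subgroup.centralizer ((A ⊔ B : Subgroup G) : Set G) := by
    have hle : A ⊔ B ≤ Subgroup.centralizer ({x * c} : Set G) := by
      refine sup_le ?_ ?_
      · intro z hz
        rw [Subgroup.mem_centralizer_singleton_iff]
        exact (hyA z hz).symm
      · intro z hz
        rw [Subgroup.mem_centralizer_singleton_iff]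
        exact (hyB z hz).symm
    rw [Subgroup.mem_centralizer_iff]
    intro z hz
    have := hle hz
    rw [Subgroup.mem_centralizer_singleton_iff] at this
    exact this
  have hac1 : a * c ≠ 1 := by
    intro h
    have : a ∈ A ⊓ C := by
      refine Subgroup.mem_inf.mpr ⟨ha, ?_⟩
      rw [eq_inv_of_mul_eq_one_left h]; exact C.inv_mem hc
    rw [hinf, Subgroup.mem_bot] at this
    exact ha1 this
  have hy1 : x * c = 1 := by
    by_contra hne
    apply root_central_translate hS hA ⟨hB, hAB⟩ hycen hne a ha ha1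
    obtain ⟨f', hf', hxf'⟩ := comm_surj' hccAF ha ha1 x hx
    have hcf' : f'⁻¹ * c = c * f'⁻¹ :=
      hcc.2.1 f'⁻¹ (Subgroup.inv_mem _ hf') c (Subgroup.mem_sup_right hc)
    have e : x * c * a = f' * (a * c) * f'⁻¹ := by
      have h2 := hAC a ha c hc
      calc x * c * a = x * (c * a) := by group
        _ = x * (a * c) := by rw [h2]
        _ = (f' * a * f'⁻¹ * a⁻¹) * (a * c) := by rw [hxf']
        _ = f' * a * (f'⁻¹ * c) := by group
        _ = f' * a * (c * f'⁻¹) := by rw [hcf']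
        _ = f' * (a * c) * f'⁻¹ := by group
    obtain ⟨E', ⟨hE', -⟩, hacE'⟩ := hpart.2.1 (a * c)
      (Subgroup.mul_mem _ (Subgroup.mem_sup_left ha) (Subgroup.mem_sup_right hc)) hac1
    refine ⟨?_, conjBy E' f', hS.conj_mem E' hE' f', ?_⟩
    · rw [e]
      intro h
      apply hac1
      have e2 : a * c = f'⁻¹ * (f' * (a * c) * f'⁻¹) * f' := by group
      rw [e2, h]; group
    · rw [e]; exact ⟨_, hacE', rfl⟩
  have hcx : c ∈ C ⊓ ⁅A, ⁅B, C⁆⁆ := by
    refine Subgroup.mem_inf.mpr ⟨hc, ?_⟩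
    rw [eq_inv_of_mul_eq_one_right hy1]
    exact Subgroup.inv_mem _ hx
  rcases root_inf_trivial hS hCni hC _ hccAF.1 with h | h
  · exfalso
    rw [h, Subgroup.mem_bot] at hcx
    exact hc1 hcx
  · exact h.symm

/-- A rank one pair `(A, B)` with a line partner `C` of `A` in the commutator case with `B` is
special. -/
theorem special_of_line_comm {S : Set (Subgroup G)} (hS : IsRootSubgroupSet S)
    {A B C : Subgroup G} (hA : A ∈ S) (hB : B ∈ S) (hAB : IsRankOnePair A B)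
    (hCL : C ∈ linePartners S A) (hCni : ¬ IsIsolatedIn (FAdj S) S C)
    (hcc : RootCommutatorCase S B C) : IsSpecialRankOnePair A B := by
  have heq := comm_comm_eq hS hA hB hAB hCL hCni hcc
  obtain ⟨⟨hC, hCA, hcomm⟩, hpart⟩ := hCL
  have hAC : ∀ a ∈ A, ∀ c ∈ C, a * c = c * a := fun a ha c hc =>
    comm_of_commutator_eq_bot hcomm ha hc
  have hccAF := commCase_left_comm hS hA hB hC hAB hAC hcc
  have hF := hcc.1
  have hAni := not_isolated_of_partner hA hB hAB
  have hBni := not_isolated_of_partner hB hA (RankOnePair_symm hAB)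
  have hCc := hS.commutative C hC
  have hFc := hS.commutative _ hF
  have hCcomm : ∀ y ∈ C, ∀ y' ∈ C, y * y' = y' * y := fun y hy y' hy' =>
    congrArg Subtype.val (mul_comm' (⟨y, hy⟩ : C) ⟨y', hy'⟩)
  have hFcomm : ∀ y ∈ ⁅B, C⁆, ∀ y' ∈ ⁅B, C⁆, y * y' = y' * y := fun y hy y' hy' =>
    congrArg Subtype.val (mul_comm' (⟨y, hy⟩ : (⁅B, C⁆ : Subgroup G)) ⟨y', hy'⟩)
  have hCF : ∀ c ∈ C, ∀ f ∈ ⁅B, C⁆, c * f = f * c := fun c hc f hf =>
    (hcc.2.1 f hf c (Subgroup.mem_sup_right hc)).symm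
  have hAx : ∀ a ∈ A, ∀ f ∈ ⁅B, C⁆, a * f * a⁻¹ * f⁻¹ ∈ C := by
    intro a ha f hf
    have := Subgroup.commutator_mem_commutator ha hf
    rw [commutatorElement_def, heq] at this
    exact this
  refine special_of_conj_quadratic (N := C ⊔ ⁅B, C⁆) hAB ?_ ?_ ?_ ?_
  · intro x hx y hy
    obtain ⟨c, hc, f, hf, rfl⟩ := (mem_sup_of_commute hCF).mp hx
    obtain ⟨c', hc', f', hf', rfl⟩ := (mem_sup_of_commute hCF).mp hy
    calc c * f * (c' * f') = c * (f * c') * f' := by group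
      _ = c * (c' * f) * f' := by rw [hCF c' hc' f hf]
      _ = (c * c') * (f * f') := by group
      _ = (c' * c) * (f' * f) := by rw [hCcomm c hc c' hc', hFcomm f hf f' hf']
      _ = c' * (c * f') * f := by group
      _ = c' * (f' * c) * f := by rw [hCF c hc f' hf']
      _ = c' * f' * (c * f) := by group
  · intro g hg
    refine sup_induction' (p := fun g => ∀ n ∈ C ⊔ ⁅B, C⁆, g * n * g⁻¹ ∈ C ⊔ ⁅B, C⁆)
      ?_ ?_ ?_ hg
    · intro a ha n hn
      have hle : C ⊔ ⁅B, C⁆ ≤ (C ⊔ ⁅B, C⁆).comap (MulAut.conj a).toMonoidHom := by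
        refine sup_le (fun c hc => ?_) (fun f hf => ?_)
        · show a * c * a⁻¹ ∈ C ⊔ ⁅B, C⁆
          rw [hAC a ha c hc, mul_inv_cancel_right]
          exact Subgroup.mem_sup_left hc
        · show a * f * a⁻¹ ∈ C ⊔ ⁅B, C⁆
          have e : a * f * a⁻¹ = (a * f * a⁻¹ * f⁻¹) * f := by group
          rw [e]
          exact Subgroup.mul_mem _ (Subgroup.mem_sup_left (hAx a ha f hf))
            (Subgroup.mem_sup_right hf)
      exact hle hn
    · intro b hb n hn
      have hle : C ⊔ ⁅B, C⁆ ≤ (C ⊔ ⁅B, C⁆).comap (MulAut.conj b).toMonoidHom := by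
        refine sup_le (fun c hc => ?_) (fun f hf => ?_)
        · show b * c * b⁻¹ ∈ C ⊔ ⁅B, C⁆
          have e : b * c * b⁻¹ = (b * c * b⁻¹ * c⁻¹) * c := by group
          rw [e]
          refine Subgroup.mul_mem _ (Subgroup.mem_sup_right ?_) (Subgroup.mem_sup_left hc)
          have := Subgroup.commutator_mem_commutator hb hc
          rwa [commutatorElement_def] at this
        · show b * f * b⁻¹ ∈ C ⊔ ⁅B, C⁆
          have := hcc.2.1 f hf b (Subgroup.mem_sup_left hb)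
          rw [← this, mul_inv_cancel_right]
          exact Subgroup.mem_sup_right hf
      exact hle hn
    · intro x y hx hy n hn
      have e : x * y * n * (x * y)⁻¹ = x * (y * n * y⁻¹) * x⁻¹ := by group
      rw [e]
      exact hx _ (hy n hn)
  · intro a ha a' ha' n hn
    obtain ⟨c, hc, f, hf, rfl⟩ := (mem_sup_of_commute hCF).mp hn
    have hmem : a * (c * f) * a⁻¹ * (c * f)⁻¹ ∈ C := by
      have e : a * (c * f) * a⁻¹ * (c * f)⁻¹ =
          (a * c * a⁻¹) * (a * f * a⁻¹ * f⁻¹) * c⁻¹ := by group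
      rw [e, hAC a ha c hc, mul_inv_cancel_right]
      exact C.mul_mem (C.mul_mem hc (hAx a ha f hf)) (C.inv_mem hc)
    have := hAC a' ha' _ hmem
    rw [this, mul_inv_cancel_right]
  · obtain ⟨a, ha, ha1⟩ := exists_ne_one_of_ne_bot (RankOne.left_ne_bot hAB)
    obtain ⟨b, hb, hb1⟩ := exists_ne_one_of_ne_bot (RankOne.right_ne_bot hAB)
    obtain ⟨f, hf, hf1⟩ := exists_ne_one_of_ne_bot (hS.ne_bot _ hF)
    refine ⟨a, Subgroup.mem_sup_left ha, b, Subgroup.mem_sup_right hb, f,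
      Subgroup.mem_sup_right hf, ?_⟩
    have hx := hAx a ha f hf
    have hx1 : a * f * a⁻¹ * f⁻¹ ≠ 1 := by
      intro h
      apply comm_ne hS hAni hA hccAF ha ha1 hf hf1
      have e : a * f = (a * f * a⁻¹ * f⁻¹) * (f * a) := by group
      rw [e, h, one_mul]
    intro h
    apply comm_ne hS hBni hB hcc hb hb1 hx hx1
    have e : b * (a * f * a⁻¹ * f⁻¹) = (b * (a * f * a⁻¹ * f⁻¹) * b⁻¹) * b := by group
    rw [e, h]

end Cfsg.Agent.Helper8
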