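import Mathlib

set_option autoImplicit false

namespace Cfsg.Agent.Helper8.SymmForm

universe u v

variable {F : Type u} [Field F] [Finite F]

theorem ringChar_ne_two (h2 : (2 : F) ≠ 0) : ringChar F ≠ 2 := by
  intro h
  apply h2
  have h3 : ((2 : ℕ) : F) = 0 := (ringChar.spec F 2).mpr (by rw [h])
  exact_mod_cast h3

/-- `a s² + b t² = 1` is solvable over a finite field of odd characteristic -/
theorem exists_sq_sum (h2 : (2 : F) ≠ 0) {a b : F} (ha : a ≠ 0) (hb : b ≠ 0) :
    ∃ s t : F, a * s ^ 2 + b * t ^ 2 = 1 := by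
  classical
  have := Fintype.ofFinite F
  have hodd := FiniteField.odd_card_of_char_ne_two (ringChar_ne_two h2)
  have hf : (Polynomial.C a * Polynomial.X ^ 2).degree = 2 := Polynomial.degree_C_mul_X_pow 2 ha
  have hg : (Polynomial.C b * Polynomial.X ^ 2 - Polynomial.C 1).degree = 2 := by
    rw [Polynomial.degree_sub_C]
    · exact Polynomial.degree_C_mul_X_pow 2 hb
    · rw [Polynomial.degree_C_mul_X_pow 2 hb]
      norm_num
  obtain ⟨s, t, hst⟩ := FiniteField.exists_root_sum_quadratic hf hg hodd
  refine ⟨s, t, ?_⟩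
  simp only [Polynomial.eval_mul, Polynomial.eval_C, Polynomial.eval_pow, Polynomial.eval_X,
    Polynomial.eval_sub] at hst
  linear_combination hst

theorem nonsq_ne_zero {a : F} (ha : ¬ IsSquare a) : a ≠ 0 := by
  rintro rfl
  exact ha ⟨0, by simp⟩

theorem nonsq_div (h2 : (2 : F) ≠ 0) {a α : F} (ha : ¬ IsSquare a) (hα : ¬ IsSquare α) :
    ∃ c : F, c ≠ 0 ∧ a = α * c ^ 2 := by
  classical
  have := Fintype.ofFinite F
  have hc := ringChar_ne_two h2
  have ha0 : a ≠ 0 := nonsq_ne_zero ha
  have hα0 : α ≠ 0 := nonsq_ne_zero hα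
  have h1 : a ^ (Fintype.card F / 2) = -1 := by
    rcases FiniteField.pow_dichotomy hc ha0 with h | h
    · exact absurd ((FiniteField.isSquare_iff hc ha0).mpr h) ha
    · exact h
  have h1' : α ^ (Fintype.card F / 2) = -1 := by
    rcases FiniteField.pow_dichotomy hc hα0 with h | h
    · exact absurd ((FiniteField.isSquare_iff hc hα0).mpr h) hα
    · exact h
  have h3 : IsSquare (a / α) := by
    rw [FiniteField.isSquare_iff hc (div_ne_zero ha0 hα0), div_pow, h1, h1']
    simp
  obtain ⟨c, hc'⟩ := h3
  refine ⟨c, ?_, ?_⟩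
  · rintro rfl
    rw [mul_zero] at hc'
    exact (div_ne_zero ha0 hα0) hc'
  · rw [div_eq_iff hα0] at hc'
    rw [hc']
    ring

theorem exists_norm_ne_zero {V : Type v} [AddCommGroup V] [Module F V] [FiniteDimensional F V]
    (h2 : (2 : F) ≠ 0) (B : LinearMap.BilinForm F V) (hS : B.IsSymm) (hB : B.Nondegenerate)
    (hd : 1 ≤ Module.finrank F V) : ∃ x, B x x ≠ 0 := by
  have : Invertible (2 : F) := invertibleOfNonzero h2
  have hB0 : B ≠ 0 := by
    rintro rfl
    have : Nontrivial V := Module.nontrivial_of_finrank_pos (R := F) (by omega)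
    exact LinearMap.BilinForm.not_nondegenerate_zero F V hB
  obtain ⟨x, hx⟩ := LinearMap.BilinForm.exists_bilinForm_self_ne_zero hB0 (LinearMap.BilinForm.isSymm_iff.mp hS)
  exact ⟨x, hx⟩

theorem finrank_orth {V : Type v} [AddCommGroup V] [Module F V] [FiniteDimensional F V]
    (B : LinearMap.BilinForm F V) {x : V} (hx : B x x ≠ 0) :
    Module.finrank F (B.orthogonal (F ∙ x)) + 1 = Module.finrank F V := by
  have hc := LinearMap.BilinForm.isCompl_span_singleton_orthogonal hx
  have h1 := Submodule.finrank_add_eq_of_isCompl hc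
  have hx0 : x ≠ 0 := by
    rintro rfl
    simp at hx
  rw [finrank_span_singleton hx0] at h1
  omega

theorem exists_norm_one {V : Type v} [AddCommGroup V] [Module F V] [FiniteDimensional F V]
    (h2 : (2 : F) ≠ 0) (B : LinearMap.BilinForm F V) (hS : B.IsSymm) (hB : B.Nondegenerate)
    (hd : 2 ≤ Module.finrank F V) : ∃ v, B v v = 1 := by
  obtain ⟨x, hx⟩ := exists_norm_ne_zero h2 B hS hB (by omega)
  have hWnd := LinearMap.BilinForm.restrict_nondegenerate_orthogonal_spanSingleton B hB
    hS.isRefl hx
  have hWdim := finrank_orth B hx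
  obtain ⟨y, hy⟩ := exists_norm_ne_zero h2 (B.restrict (B.orthogonal (F ∙ x)))
    (hS.restrict _) hWnd (by omega)
  have hy' : B (y : V) (y : V) ≠ 0 := hy
  have hxy : B x (y : V) = 0 := y.2 x (Submodule.mem_span_singleton_self x)
  have hyx : B (y : V) x = 0 := by
    rw [hS.eq]
    exact hxy
  obtain ⟨s, t, hst⟩ := exists_sq_sum h2 hx hy'
  refine ⟨s • x + t • (y : V), ?_⟩
  simp only [map_add, map_smul, LinearMap.add_apply, LinearMap.smul_apply, smul_eq_mul, hxy, hyx]
  linear_combination hst

theorem exists_family (h2 : (2 : F) ≠ 0) (α : F) (hα : ¬ IsSquare α) :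
    ∀ (n : ℕ) (V : Type v) [AddCommGroup V] [Module F V] [FiniteDimensional F V]
      (B : LinearMap.BilinForm F V), B.IsSymm → B.Nondegenerate →
      Module.finrank F V = n + 1 →
      ∃ b : Fin (n + 1) → V, (∀ i j, i ≠ j → B (b i) (b j) = 0) ∧
        (∀ i, i ≠ Fin.last n → B (b i) (b i) = 1) ∧
        (B (b (Fin.last n)) (b (Fin.last n)) = 1 ∨ B (b (Fin.last n)) (b (Fin.last n)) = α) := by
  intro n
  induction n with
  | zero =>
    intro V _ _ _ B hS hB hn
    have hsub : Subsingleton (Fin (0 + 1)) := (inferInstance : Subsingleton (Fin 1))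
    obtain ⟨x, hx⟩ := exists_norm_ne_zero h2 B hS hB (by omega)
    by_cases hsq : IsSquare (B x x)
    · obtain ⟨c, hc⟩ := hsq
      have hc0 : c ≠ 0 := by
        rintro rfl
        rw [mul_zero] at hc
        exact hx hc
      refine ⟨fun _ => c⁻¹ • x, ?_, ?_, ?_⟩
      · intro i j hij
        exact absurd (Subsingleton.elim i j) hij
      · intro i hi
        exact absurd (Subsingleton.elim i _) hi
      · left
        simp only [map_smul, LinearMap.smul_apply, smul_eq_mul]
        rw [hc]
        field_simp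
    · obtain ⟨c, hc0, hc⟩ := nonsq_div h2 hsq hα
      refine ⟨fun _ => c⁻¹ • x, ?_, ?_, ?_⟩
      · intro i j hij
        exact absurd (Subsingleton.elim i j) hij
      · intro i hi
        exact absurd (Subsingleton.elim i _) hi
      · right
        simp only [map_smul, LinearMap.smul_apply, smul_eq_mul]
        rw [hc]
        field_simp
  | succ n ih =>
    intro V _ _ _ B hS hB hn
    obtain ⟨w, hw⟩ := exists_norm_one h2 B hS hB (by omega)
    have hw0 : B w w ≠ 0 := by
      rw [hw]
      exact one_ne_zero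
    have hWnd := LinearMap.BilinForm.restrict_nondegenerate_orthogonal_spanSingleton B hB
      hS.isRefl hw0
    have hWdim := finrank_orth B hw0
    obtain ⟨b', h1, h2', h3⟩ := ih (B.orthogonal (F ∙ w)) (B.restrict (B.orthogonal (F ∙ w)))
      (hS.restrict _) hWnd (by omega)
    have hwb : ∀ i, B w (b' i : V) = 0 := fun i => (b' i).2 w (Submodule.mem_span_singleton_self w)
    have hbw : ∀ i, B (b' i : V) w = 0 := by
      intro i
      rw [hS.eq]
      exact hwb i
    refine ⟨Fin.cons w (fun i => (b' i : V)), ?_, ?_, ?_⟩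
    · intro i j
      refine Fin.cases ?_ (fun i => ?_) i <;> refine Fin.cases ?_ (fun j => ?_) j
      · intro h
        exact absurd rfl h
      · intro _
        simp only [Fin.cons_zero, Fin.cons_succ]
        exact hwb j
      · intro _
        simp only [Fin.cons_zero, Fin.cons_succ]
        exact hbw i
      · intro hij
        simp only [Fin.cons_succ]
        exact h1 i j (fun h => hij (by rw [h]))
    · intro i
      refine Fin.cases ?_ (fun i => ?_) i
      · intro _
        simp only [Fin.cons_zero]
        exact hw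
      · intro hi
        simp only [Fin.cons_succ]
        exact h2' i (fun h => hi (by rw [h, Fin.succ_last]))
    · rw [← Fin.succ_last]
      simp only [Fin.cons_succ]
      exact h3

theorem main {V : Type v} [AddCommGroup V] [Module F V] [FiniteDimensional F V]
    (h2 : (2 : F) ≠ 0) (B : LinearMap.BilinForm F V) (hS : B.IsSymm) (hB : B.Nondegenerate)
    {n : ℕ} (hn : Module.finrank F V = n + 1) (α : F) (hα : ¬ IsSquare α) :
    ∃ b : Module.Basis (Fin (n + 1)) F V, (∀ i j, i ≠ j → B (b i) (b j) = 0) ∧
      (∀ i, i ≠ Fin.last n → B (b i) (b i) = 1) ∧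
      (B (b (Fin.last n)) (b (Fin.last n)) = 1 ∨ B (b (Fin.last n)) (b (Fin.last n)) = α) := by
  classical
  obtain ⟨b, h1, h2', h3⟩ := exists_family h2 α hα n V B hS hB hn
  have hα0 : α ≠ 0 := nonsq_ne_zero hα
  have hnz : ∀ i, B (b i) (b i) ≠ 0 := by
    intro i
    by_cases hi : i = Fin.last n
    · subst hi
      rcases h3 with h | h
      · rw [h]
        exact one_ne_zero
      · rw [h]
        exact hα0
    · rw [h2' i hi]
      exact one_ne_zero
  have hli : LinearIndependent F b := by
    rw [Fintype.linearIndependent_iff]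
    intro c hc j
    have h4 := congrArg (fun x => B x (b j)) hc
    simp only [map_sum, map_smul, LinearMap.sum_apply, LinearMap.smul_apply, smul_eq_mul,
      map_zero, LinearMap.zero_apply] at h4
    rw [Finset.sum_eq_single j] at h4
    · exact (mul_eq_zero.mp h4).resolve_right (hnz j)
    · intro i _ hij
      rw [h1 i j hij, mul_zero]
    · intro h
      exact absurd (Finset.mem_univ j) h
  refine ⟨basisOfLinearIndependentOfCardEqFinrank hli (by rw [Fintype.card_fin, hn]), ?_, ?_, ?_⟩
  · intro i j hij
    simp only [coe_basisOfLinearIndependentOfCardEqFinrank]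
    exact h1 i j hij
  · intro i hi
    simp only [coe_basisOfLinearIndependentOfCardEqFinrank]
    exact h2' i hi
  · simp only [coe_basisOfLinearIndependentOfCardEqFinrank]
    exact h3

end Cfsg.Agent.Helper8.SymmForm
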