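import Mathlib
import Cfsg.Agent.Helper8.SymmForm

set_option autoImplicit false

namespace Cfsg.Agent.Helper8.SimilarForm

open Cfsg.Agent.Helper8.SymmForm

variable {F : Type*} [Field F]

/-- equal Gram matrices up to a scalar give a similarity -/
theorem exists_equiv {V ι : Type*} [AddCommGroup V] [Module F V]
    (B B' : LinearMap.BilinForm F V) (b b' : Module.Basis ι F V) (c : F)
    (h : ∀ i j, B' (b' i) (b' j) = c * B (b i) (b j)) (x y : V) :
    B' (b.equiv b' (Equiv.refl ι) x) (b.equiv b' (Equiv.refl ι) y) = c * B x y := by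
  have h1 : B'.comp (b.equiv b' (Equiv.refl ι) : V →ₗ[F] V) (b.equiv b' (Equiv.refl ι) : V →ₗ[F] V)
      = c • B := by
    apply LinearMap.BilinForm.ext_basis b
    intro i j
    simp [h]
  have h3 := congrArg (fun B'' : LinearMap.BilinForm F V => B'' x y) h1
  simpa using h3

theorem smul_nondeg {V : Type*} [AddCommGroup V] [Module F V] (B : LinearMap.BilinForm F V)
    (hB : B.Nondegenerate) {c : F} (hc : c ≠ 0) : (c • B).Nondegenerate := by
  constructor
  · intro x hx
    apply hB.1 x
    intro y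
    have h1 := hx y
    simp only [LinearMap.smul_apply, smul_eq_mul] at h1
    exact (mul_eq_zero.mp h1).resolve_left hc
  · intro y hy
    apply hB.2 y
    intro x
    have h1 := hy x
    simp only [LinearMap.smul_apply, smul_eq_mul] at h1
    exact (mul_eq_zero.mp h1).resolve_left hc

theorem isSquare_of_gram {V : Type*} [AddCommGroup V] [Module F V] {n : ℕ} (hn : Odd n)
    (B : LinearMap.BilinForm F V) (hB : B.Nondegenerate) (b b' : Module.Basis (Fin n) F V)
    (α : F) (h : ∀ i j, α * B (b' i) (b' j) = B (b i) (b j)) : IsSquare α := by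
  classical
  have hdet := (LinearMap.BilinForm.nondegenerate_iff_det_ne_zero b).mp hB
  have hM : LinearMap.BilinForm.toMatrix b B = α • LinearMap.BilinForm.toMatrix b' B := by
    ext i j
    simp [LinearMap.BilinForm.toMatrix_apply, h]
  have hP := LinearMap.BilinForm.toMatrix_mul_basis_toMatrix b b' B
  have h1 : (LinearMap.BilinForm.toMatrix b B).det
      = (LinearMap.BilinForm.toMatrix b B).det * (α ^ n * (b.toMatrix b').det ^ 2) := by
    conv_lhs => rw [hM, Matrix.det_smul, Fintype.card_fin, ← hP, Matrix.det_mul, Matrix.det_mul,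
      Matrix.det_transpose]
    ring
  have h2 : α ^ n * (b.toMatrix b').det ^ 2 = 1 := by
    have h3 : (LinearMap.BilinForm.toMatrix b B).det * 1
        = (LinearMap.BilinForm.toMatrix b B).det * (α ^ n * (b.toMatrix b').det ^ 2) := by
      rw [mul_one]
      exact h1
    exact (mul_left_cancel₀ hdet h3).symm
  obtain ⟨k, hk⟩ := hn
  have hpow : α ^ n = α * (α ^ k) ^ 2 := by
    rw [hk]
    ring
  have h3 : α * ((b.toMatrix b').det * α ^ k) ^ 2 = 1 := by
    rw [← h2, hpow]
    ring
  refine ⟨((b.toMatrix b').det * α ^ k)⁻¹, ?_⟩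
  rw [← mul_inv, ← sq]
  exact eq_inv_of_mul_eq_one_left h3

theorem main [Finite F] (h2 : (2 : F) ≠ 0) {n : ℕ} (hn : Odd n)
    (Q₁ Q₂ : QuadraticForm F (Fin n → F))
    (h₁ : (QuadraticMap.polarBilin Q₁).Nondegenerate)
    (h₂ : (QuadraticMap.polarBilin Q₂).Nondegenerate) :
    ∃ (g : (Fin n → F) ≃ₗ[F] (Fin n → F)) (c : F), c ≠ 0 ∧ ∀ v, Q₂ (g v) = c * Q₁ v := by
  classical
  have := Fintype.ofFinite F
  obtain ⟨n', rfl⟩ : ∃ n', n = n' + 1 := by
    obtain ⟨k, hk⟩ := hn
    exact ⟨2 * k, by omega⟩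
  have hfin : Module.finrank F (Fin (n' + 1) → F) = n' + 1 := by simp
  obtain ⟨α, hα⟩ := FiniteField.exists_nonsquare (ringChar_ne_two h2)
  have hα0 := nonsq_ne_zero hα
  have hS : ∀ Q : QuadraticForm F (Fin (n' + 1) → F),
      LinearMap.BilinForm.IsSymm (QuadraticMap.polarBilin Q) := by
    intro Q
    refine ⟨fun x y => ?_⟩
    rw [QuadraticMap.polarBilin_apply_apply, QuadraticMap.polarBilin_apply_apply,
      QuadraticMap.polar_comm]
  have hQ : ∀ (Q : QuadraticForm F (Fin (n' + 1) → F)) (v : Fin (n' + 1) → F),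
      Q v = (2 : F)⁻¹ * QuadraticMap.polarBilin Q v v := by
    intro Q v
    rw [QuadraticMap.polarBilin_apply_apply, QuadraticMap.polar_self, nsmul_eq_mul]
    push_cast
    field_simp
  have key : ∀ (b b' : Module.Basis (Fin (n' + 1)) F (Fin (n' + 1) → F)) (c : F), c ≠ 0 →
      (∀ i j, QuadraticMap.polarBilin Q₂ (b' i) (b' j)
        = c * QuadraticMap.polarBilin Q₁ (b i) (b j)) →
      ∃ (g : (Fin (n' + 1) → F) ≃ₗ[F] (Fin (n' + 1) → F)) (c : F), c ≠ 0 ∧
        ∀ v, Q₂ (g v) = c * Q₁ v := by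
    intro b b' c hc h
    refine ⟨b.equiv b' (Equiv.refl _), c, hc, ?_⟩
    intro v
    rw [hQ Q₂, hQ Q₁, exists_equiv (QuadraticMap.polarBilin Q₁) (QuadraticMap.polarBilin Q₂)
      b b' c h v v]
    ring
  obtain ⟨b1, o1, d1, e1⟩ := SymmForm.main h2 (QuadraticMap.polarBilin Q₁) (hS Q₁) h₁ hfin α hα
  obtain ⟨b2, o2, d2, e2⟩ := SymmForm.main h2 (QuadraticMap.polarBilin Q₂) (hS Q₂) h₂ hfin α hα
  by_cases hlast : QuadraticMap.polarBilin Q₂ (b2 (Fin.last n')) (b2 (Fin.last n'))
      = QuadraticMap.polarBilin Q₁ (b1 (Fin.last n')) (b1 (Fin.last n'))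
  · apply key b1 b2 1 one_ne_zero
    intro i j
    rw [one_mul]
    by_cases hij : i = j
    · subst hij
      by_cases hi : i = Fin.last n'
      · subst hi
        exact hlast
      · rw [d1 i hi, d2 i hi]
    · rw [o1 i j hij, o2 i j hij]
  · have hS₃ : LinearMap.BilinForm.IsSymm (α • QuadraticMap.polarBilin Q₁) := by
      refine ⟨fun x y => ?_⟩
      simp only [LinearMap.smul_apply, smul_eq_mul]
      rw [(hS Q₁).eq x y]
    have h₃ := smul_nondeg (QuadraticMap.polarBilin Q₁) h₁ hα0
    obtain ⟨b3, o3, d3, e3⟩ := SymmForm.main h2 (α • QuadraticMap.polarBilin Q₁) hS₃ h₃ hfin α hα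
    simp only [LinearMap.smul_apply, smul_eq_mul] at o3 d3 e3
    by_cases hlast' : QuadraticMap.polarBilin Q₂ (b2 (Fin.last n')) (b2 (Fin.last n'))
        = α * QuadraticMap.polarBilin Q₁ (b3 (Fin.last n')) (b3 (Fin.last n'))
    · apply key b3 b2 α hα0
      intro i j
      by_cases hij : i = j
      · subst hij
        by_cases hi : i = Fin.last n'
        · subst hi
          exact hlast'
        · rw [d3 i hi, d2 i hi]
      · rw [o3 i j hij, o2 i j hij]
    · exfalso
      apply hα
      apply isSquare_of_gram hn (QuadraticMap.polarBilin Q₁) h₁ b1 b3 α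
      intro i j
      by_cases hij : i = j
      · subst hij
        by_cases hi : i = Fin.last n'
        · subst hi
          rcases e1 with e1 | e1 <;> rcases e2 with e2 | e2 <;> rcases e3 with e3 | e3 <;>
            rw [e1, e2] at hlast <;> rw [e2, e3] at hlast' <;> rw [e3, e1] <;>
            first | rfl | exact absurd rfl hlast | exact absurd rfl hlast'
        · rw [d3 i hi, d1 i hi]
      · rw [o3 i j hij, o1 i j hij]

end Cfsg.Agent.Helper8.SimilarForm
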