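import Mathlib
import Cfsg.Agent.Helper8.SympBasis

set_option autoImplicit false

namespace Cfsg.Agent.Helper8.TensorAlt

open Cfsg.Agent.Helper8.SympBasis
open scoped TensorProduct

variable {F : Type*} [Field F]

/-- a basis with a dual family separates on the left -/
theorem sepLeft_of_dual {M ι : Type*} [AddCommGroup M] [Module F M] [Fintype ι] [DecidableEq ι]
    (B : LinearMap.BilinForm F M) (T : Module.Basis ι F M) (T' : ι → M)
    (h : ∀ i j, B (T i) (T' j) = if i = j then 1 else 0) : B.SeparatingLeft := by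
  intro z hz
  apply T.repr.injective
  ext j
  have h1 := hz (T' j)
  rw [← T.sum_repr z] at h1
  simp only [map_sum, map_smul, LinearMap.sum_apply, LinearMap.smul_apply, smul_eq_mul, h,
    mul_ite, mul_one, mul_zero, Finset.sum_ite_eq', Finset.mem_univ, if_true] at h1
  simpa using h1

/-- a nondegenerate alternating form has a symplectic basis with a dual family -/
theorem exists_dual {V : Type*} [AddCommGroup V] [Module F V] [FiniteDimensional F V]
    (B : LinearMap.BilinForm F V) (hA : B.IsAlt) (hN : B.Nondegenerate) :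
    ∃ (m : ℕ) (b : Module.Basis ((Fin m ⊕ Fin m) ⊕ Fin 0) F V)
      (b' : (Fin m ⊕ Fin m) ⊕ Fin 0 → V),
      (∀ x y, B (b x) (b' y) = if x = y then 1 else 0) ∧
      (∀ i j : Fin m, B (b (Sum.inl (Sum.inl i))) (b (Sum.inl (Sum.inl j))) = 0) := by
  obtain ⟨m, k, b, h1, h2, h3, h4⟩ := SympBasis.main B hA
  have hk : k = 0 := by
    by_contra hk
    have j : Fin k := ⟨0, Nat.pos_of_ne_zero hk⟩
    exact b.ne_zero (Sum.inr j) (hN.1 _ (h4 j))
  subst hk
  refine ⟨m, b, fun y => Sum.elim (Sum.elim (fun i => b (Sum.inl (Sum.inr i)))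
    (fun i => - b (Sum.inl (Sum.inl i)))) (fun j => j.elim0) y, ?_, h2⟩
  rintro ((i | i) | j) ((i' | i') | j')
  · simp only [Sum.elim_inl, h1, Sum.inl.injEq]
  · simp only [Sum.elim_inl, Sum.elim_inr, map_neg, h2, neg_zero, Sum.inl.injEq, reduceCtorEq,
      if_false]
  · exact j'.elim0
  · simp only [Sum.elim_inl, h3, Sum.inl.injEq, reduceCtorEq, if_false]
  · simp only [Sum.elim_inl, Sum.elim_inr, map_neg, Sum.inl.injEq, Sum.inr.injEq]
    rw [← alt_swap B hA (b (Sum.inl (Sum.inr i))) (b (Sum.inl (Sum.inl i'))), h1]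
    by_cases hii : i = i'
    · subst hii
      simp
    · have : ¬ i' = i := fun h => hii h.symm
      simp [hii, this]
  · exact j'.elim0
  · exact j.elim0
  · exact j.elim0
  · exact j.elim0

attribute [local ext] TensorProduct.ext in
theorem tmul_symm {U W : Type*} [AddCommGroup U] [Module F U] [AddCommGroup W] [Module F W]
    (B₁ : LinearMap.BilinForm F U) (B₂ : LinearMap.BilinForm F W)
    (hA₁ : B₁.IsAlt) (hA₂ : B₂.IsAlt) : (B₁.tmul B₂).IsSymm := by
  rw [LinearMap.isSymm_iff_eq_flip]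
  ext x₁ x₂ y₁ y₂
  show B₂ x₂ y₂ • B₁ x₁ y₁ = B₂ y₂ x₂ • B₁ y₁ x₁
  rw [alt_swap B₁ hA₁ x₁ y₁, alt_swap B₂ hA₂ x₂ y₂]
  simp

theorem main {U W : Type*} [AddCommGroup U] [Module F U] [FiniteDimensional F U]
    [AddCommGroup W] [Module F W] [FiniteDimensional F W]
    (B₁ : LinearMap.BilinForm F U) (B₂ : LinearMap.BilinForm F W)
    (h₁ : B₁.Nondegenerate) (h₂ : B₂.Nondegenerate) (hA₁ : B₁.IsAlt) (hA₂ : B₂.IsAlt)
    (k l : ℕ) (hU : Module.finrank F U = 2 * k) (hW : Module.finrank F W = 2 * l) :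
    (B₁.tmul B₂).IsSymm ∧ (B₁.tmul B₂).Nondegenerate ∧
      (∃ X : Submodule F (U ⊗[F] W), Module.finrank F X = 2 * k * l ∧
        ∀ x ∈ X, ∀ y ∈ X, (B₁.tmul B₂) x y = 0) := by
  classical
  have hsymm := tmul_symm B₁ B₂ hA₁ hA₂
  obtain ⟨m, b, b', hb, hee⟩ := exists_dual B₁ hA₁ h₁
  obtain ⟨n, c, c', hc, -⟩ := exists_dual B₂ hA₂ h₂
  have hm : m = k := by
    have := Module.finrank_eq_card_basis b
    simp only [Fintype.card_sum, Fintype.card_fin] at this
    omega
  have hn : n = l := by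
    have := Module.finrank_eq_card_basis c
    simp only [Fintype.card_sum, Fintype.card_fin] at this
    omega
  have hleft : (B₁.tmul B₂).SeparatingLeft := by
    refine sepLeft_of_dual (B₁.tmul B₂) (b.tensorProduct c) (fun p => b' p.1 ⊗ₜ[F] c' p.2) ?_
    rintro ⟨x, y⟩ ⟨x', y'⟩
    rw [Module.Basis.tensorProduct_apply]
    show B₂ (c y) (c' y') • B₁ (b x) (b' x') = _
    rw [hb, hc]
    by_cases hx : x = x' <;> by_cases hy : y = y' <;> simp [hx, hy]
  refine ⟨hsymm, ⟨hleft, ?_⟩, ?_⟩
  · intro y hy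
    apply hleft y
    intro x
    have h5 := hsymm.eq y x
    simp only [RingHom.id_apply] at h5
    rw [h5]
    exact hy x
  · let g : Fin m × ((Fin n ⊕ Fin n) ⊕ Fin 0) → U ⊗[F] W :=
      fun p => b (Sum.inl (Sum.inl p.1)) ⊗ₜ[F] c p.2
    have hg : g = (b.tensorProduct c) ∘
        (fun p : Fin m × ((Fin n ⊕ Fin n) ⊕ Fin 0) => (Sum.inl (Sum.inl p.1), p.2)) := by
      funext p
      simp only [g, Function.comp_apply, Module.Basis.tensorProduct_apply]
    have hli : LinearIndependent F g := by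
      rw [hg]
      apply (b.tensorProduct c).linearIndependent.comp
      rintro ⟨i, y⟩ ⟨i', y'⟩ h
      simp only [Prod.mk.injEq, Sum.inl.injEq] at h
      exact Prod.ext h.1 h.2
    refine ⟨Submodule.span F (Set.range g), ?_, ?_⟩
    · rw [finrank_span_eq_card hli]
      simp only [Fintype.card_prod, Fintype.card_sum, Fintype.card_fin]
      rw [hm, hn]
      ring
    · have hS : ∀ p q, (B₁.tmul B₂) (g p) (g q) = 0 := by
        intro p q
        show B₂ (c p.2) (c q.2) • B₁ (b (Sum.inl (Sum.inl p.1))) (b (Sum.inl (Sum.inl q.1))) = 0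
        rw [hee, smul_zero]
      have h1 : ∀ p, Submodule.span F (Set.range g) ≤ LinearMap.ker ((B₁.tmul B₂) (g p)) := by
        intro p
        rw [Submodule.span_le]
        rintro _ ⟨q, rfl⟩
        exact hS p q
      have h2 : ∀ y ∈ Submodule.span F (Set.range g),
          Submodule.span F (Set.range g) ≤ LinearMap.ker ((B₁.tmul B₂).flip y) := by
        intro y hy
        rw [Submodule.span_le]
        rintro _ ⟨p, rfl⟩
        exact h1 p hy
      intro x hx y hy
      exact h2 y hy hx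

end Cfsg.Agent.Helper8.TensorAlt
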