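import Mathlib

set_option autoImplicit false

namespace Cfsg.Agent.Helper8.TwoOrb

open scoped Matrix

section LA

variable {X Ω : Type*} [Fintype X] [Fintype Ω] [DecidableEq X] [DecidableEq Ω]

theorem la (hcard : Fintype.card X = Fintype.card Ω) (M M' : Matrix X Ω ℚ) (a b c d e : ℚ)
    (ha : a ≠ 0) (hab : a + b * (Fintype.card Ω : ℚ) ≠ 0) (he : e ≠ 0)
    (h1 : Mᵀ * M = a • (1 : Matrix Ω Ω ℚ) + b • (Matrix.of (fun _ _ => (1:ℚ)) : Matrix Ω Ω ℚ))
    (h2 : Mᵀ * M' = c • (1 : Matrix Ω Ω ℚ) + d • (Matrix.of (fun _ _ => (1:ℚ)) : Matrix Ω Ω ℚ))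
    (h3 : Mᵀ * (Matrix.of (fun _ _ => (1:ℚ)) : Matrix X Ω ℚ)
        = e • (Matrix.of (fun _ _ => (1:ℚ)) : Matrix Ω Ω ℚ)) :
    ∃ l m : ℚ, M' = l • M + m • (Matrix.of (fun _ _ => (1:ℚ)) : Matrix X Ω ℚ) := by
  set J : Matrix Ω Ω ℚ := Matrix.of (fun _ _ => (1:ℚ)) with hJ
  set JX : Matrix X Ω ℚ := Matrix.of (fun _ _ => (1:ℚ)) with hJX
  have hJJ : J * J = (Fintype.card Ω : ℚ) • J := by
    ext i j; simp [hJ, Matrix.mul_apply]
  set t : ℚ := b / (a + b * (Fintype.card Ω : ℚ)) with ht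
  have key : b - t * (a + b * (Fintype.card Ω : ℚ)) = 0 := by
    rw [ht, div_mul_cancel₀ _ hab, sub_self]
  have e1 : (a • (1 : Matrix Ω Ω ℚ) + b • J) * (1 - t • J)
      = a • (1 : Matrix Ω Ω ℚ) + (b - t * (a + b * (Fintype.card Ω : ℚ))) • J := by
    simp only [add_mul, mul_sub, Matrix.smul_mul, Matrix.mul_smul, one_mul, mul_one, hJJ,
      smul_smul]
    module
  have hinv : (a • (1 : Matrix Ω Ω ℚ) + b • J) * (a⁻¹ • ((1 : Matrix Ω Ω ℚ) - t • J)) = 1 := by
    rw [Matrix.mul_smul, e1, key, zero_smul, add_zero, smul_smul, inv_mul_cancel₀ ha, one_smul]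
  have hright : Mᵀ * (M * (a⁻¹ • ((1 : Matrix Ω Ω ℚ) - t • J))) = 1 := by
    rw [← Matrix.mul_assoc, h1, hinv]
  have hleft : (M * (a⁻¹ • ((1 : Matrix Ω Ω ℚ) - t • J))) * Mᵀ = 1 :=
    (Matrix.mul_eq_one_comm_of_equiv (Fintype.equivOfCardEq hcard.symm)).mp hright
  refine ⟨c / a, (d - c / a * b) / e, ?_⟩
  have hD0 : Mᵀ * (M' - ((c / a) • M + ((d - c / a * b) / e) • JX)) = 0 := by
    rw [Matrix.mul_sub, Matrix.mul_add, Matrix.mul_smul, Matrix.mul_smul, h1, h2, h3]
    have hc : c / a * a = c := div_mul_cancel₀ _ ha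
    have hd : (d - c / a * b) / e * e = d - c / a * b := div_mul_cancel₀ _ he
    simp only [smul_add, smul_smul, hc, hd]
    module
  have hD : M' - ((c / a) • M + ((d - c / a * b) / e) • JX) = 0 := by
    calc M' - ((c / a) • M + ((d - c / a * b) / e) • JX)
        = ((M * (a⁻¹ • ((1 : Matrix Ω Ω ℚ) - t • J))) * Mᵀ)
            * (M' - ((c / a) • M + ((d - c / a * b) / e) • JX)) := by
          rw [hleft, Matrix.one_mul]
      _ = (M * (a⁻¹ • ((1 : Matrix Ω Ω ℚ) - t • J)))
            * (Mᵀ * (M' - ((c / a) • M + ((d - c / a * b) / e) • JX))) := by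
          rw [Matrix.mul_assoc]
      _ = 0 := by rw [hD0, Matrix.mul_zero]
  exact sub_eq_zero.mp hD

end LA

section Count

open Classical

variable {G Ω : Type*} [Group G] [MulAction G Ω] [Fintype Ω] (H : Subgroup G) [Fintype (G ⧸ H)]

/-- the incidence matrix of the `G`-orbit on `(G ⧸ H) × Ω` attached to the `H`-orbit of `a` -/
noncomputable def A (a : Ω) : Matrix (G ⧸ H) Ω ℚ :=
  Matrix.of (fun q α => if q.out⁻¹ • α ∈ MulAction.orbit H a then (1:ℚ) else 0)

theorem mem_iff (a α : Ω) (x : G) :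
    ((x : G ⧸ H).out)⁻¹ • α ∈ MulAction.orbit H a ↔ x⁻¹ • α ∈ MulAction.orbit H a := by
  obtain ⟨h, hh⟩ := QuotientGroup.mk_out_eq_mul H x
  rw [hh, mul_inv_rev, mul_smul]
  have e : ((h:G))⁻¹ • (x⁻¹ • α) = (h⁻¹ : H) • (x⁻¹ • α) := rfl
  rw [e, ← MulAction.orbit_eq_iff, MulAction.orbit_smul, MulAction.orbit_eq_iff]

theorem A_mk (a α : Ω) (x : G) :
    A H a (x : G ⧸ H) α = if x⁻¹ • α ∈ MulAction.orbit H a then (1:ℚ) else 0 := by
  unfold A
  simp only [Matrix.of_apply]
  by_cases h : x⁻¹ • α ∈ MulAction.orbit H a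
  · rw [if_pos h, if_pos ((mem_iff H a α x).mpr h)]
  · rw [if_neg h, if_neg (fun h' => h ((mem_iff H a α x).mp h'))]

theorem A_smul (a α : Ω) (g : G) (q : G ⧸ H) : A H a (g • q) (g • α) = A H a q α := by
  induction q using QuotientGroup.induction_on with
  | H x =>
    rw [MulAction.Quotient.smul_mk, smul_eq_mul, A_mk, A_mk, mul_inv_rev, mul_smul, inv_smul_smul]

theorem A_sq (a α : Ω) (q : G ⧸ H) : A H a q α * A H a q α = A H a q α := by
  unfold A
  simp only [Matrix.of_apply]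
  split_ifs <;> simp

/-- the size of the `H`-orbit of `a`, as a rational -/
noncomputable def rs (a : Ω) : ℚ := ∑ α : Ω, if α ∈ MulAction.orbit H a then (1:ℚ) else 0

theorem row_sum (a : Ω) (q : G ⧸ H) : ∑ α, A H a q α = rs H a := by
  induction q using QuotientGroup.induction_on with
  | H x =>
    simp only [A_mk]
    exact Fintype.sum_equiv (MulAction.toPerm x⁻¹) _ _ (fun α => rfl)

theorem rs_ne_zero (a : Ω) : rs H a ≠ 0 := by
  have h1 : (1:ℚ) ≤ rs H a := by
    have := Finset.single_le_sum (s := Finset.univ)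
      (f := fun α : Ω => if α ∈ MulAction.orbit H a then (1:ℚ) else 0)
      (fun α _ => by positivity) (Finset.mem_univ a)
    simpa [rs, MulAction.mem_orbit_self] using this
  intro h0; rw [h0] at h1; norm_num at h1

theorem rs_ne_card (a b : Ω) (hb : b ∉ MulAction.orbit H a) : rs H a ≠ (Fintype.card Ω : ℚ) := by
  intro h
  have e : ∑ α : Ω, ((1:ℚ) - if α ∈ MulAction.orbit H a then (1:ℚ) else 0) = 0 := by
    rw [Finset.sum_sub_distrib]
    show _ - rs H a = 0
    rw [h]; simp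
  have h0 := (Finset.sum_eq_zero_iff_of_nonneg (fun α _ => by
    split_ifs <;> norm_num)).mp e b (Finset.mem_univ b)
  rw [if_neg hb] at h0
  norm_num at h0

theorem col_inv (a α : Ω) (g : G) : ∑ q, A H a q (g • α) = ∑ q, A H a q α := by
  symm
  exact Fintype.sum_equiv (MulAction.toPerm g) _ _ (fun q => (A_smul H a α g q).symm)

theorem col_sum [MulAction.IsPretransitive G Ω] (hcard : Fintype.card (G ⧸ H) = Fintype.card Ω)
    (a α : Ω) : ∑ q, A H a q α = rs H a := by
  have hconst : ∀ β, ∑ q, A H a q β = ∑ q, A H a q α := by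
    intro β
    obtain ⟨g, rfl⟩ := MulAction.exists_smul_eq G α β
    exact col_inv H a α g
  have e1 : ∑ β, ∑ q, A H a q β = (Fintype.card Ω : ℚ) * ∑ q, A H a q α := by
    simp only [hconst, Finset.sum_const, Finset.card_univ, nsmul_eq_mul]
  have e2 : ∑ β, ∑ q, A H a q β = (Fintype.card Ω : ℚ) * rs H a := by
    rw [Finset.sum_comm]
    simp only [row_sum, Finset.sum_const, Finset.card_univ, nsmul_eq_mul, hcard]
  have hn : (Fintype.card Ω : ℚ) ≠ 0 := by
    haveI : Nonempty Ω := ⟨α⟩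
    exact_mod_cast Fintype.card_ne_zero
  exact mul_left_cancel₀ hn (e1.symm.trans e2)

theorem gram_inv (a b α β : Ω) (g : G) :
    ((A H a)ᵀ * A H b) (g • α) (g • β) = ((A H a)ᵀ * A H b) α β := by
  simp only [Matrix.mul_apply, Matrix.transpose_apply]
  symm
  refine Fintype.sum_equiv (MulAction.toPerm g) _ _ (fun q => ?_)
  show _ = A H a (g • q) (g • α) * A H b (g • q) (g • β)
  rw [A_smul, A_smul]

theorem gram_form (h2 : MulAction.IsMultiplyPretransitive G Ω 2) (a b : Ω) (α0 β0 : Ω)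
    (hne : α0 ≠ β0) :
    (A H a)ᵀ * A H b =
      (((A H a)ᵀ * A H b) α0 α0 - ((A H a)ᵀ * A H b) α0 β0) • (1 : Matrix Ω Ω ℚ)
        + (((A H a)ᵀ * A H b) α0 β0) • (Matrix.of (fun _ _ => (1:ℚ)) : Matrix Ω Ω ℚ) := by
  have h2' : ∀ (a b c d : Ω), a ≠ b → c ≠ d → ∃ g : G, g • a = c ∧ g • b = d :=
    fun a b c d hab hcd => MulAction.is_two_pretransitive_iff.mp h2 hab hcd
  ext α β
  simp only [Matrix.add_apply, Matrix.smul_apply, Matrix.of_apply, smul_eq_mul, mul_one,
    Matrix.one_apply]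
  by_cases hαβ : α = β
  · subst hαβ
    rw [if_pos rfl, mul_one, sub_add_cancel]
    by_cases h0 : α = α0
    · rw [h0]
    · obtain ⟨g, hg1, _⟩ := h2' _ _ _ _ hne h0
      rw [← hg1, gram_inv]
  · rw [if_neg hαβ, mul_zero, zero_add]
    obtain ⟨g, hg1, hg2⟩ := h2' _ _ _ _ hne hαβ
    rw [← hg1, ← hg2, gram_inv]

theorem no_three (h2 : MulAction.IsMultiplyPretransitive G Ω 2)
    (hcard : Fintype.card (G ⧸ H) = Fintype.card Ω) (a b c : Ω)
    (hab : b ∉ MulAction.orbit H a) (hac : c ∉ MulAction.orbit H a)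
    (hbc : c ∉ MulAction.orbit H b) : False := by
  have hne : a ≠ b := fun h => hab (h ▸ MulAction.mem_orbit_self a)
  have h2' : ∀ (a b c d : Ω), a ≠ b → c ≠ d → ∃ g : G, g • a = c ∧ g • b = d :=
    fun a b c d hab hcd => MulAction.is_two_pretransitive_iff.mp h2 hab hcd
  haveI : MulAction.IsPretransitive G Ω := ⟨fun x y => by
    by_cases hxy : x = y
    · exact ⟨1, by rw [one_smul, hxy]⟩
    · obtain ⟨g, hg, _⟩ := h2' _ _ _ _ hxy (Ne.symm hxy)
      exact ⟨g, hg⟩⟩
  have hform := gram_form H h2 a a a b hne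
  have hform' := gram_form H h2 a b a b hne
  have hd : ((A H a)ᵀ * A H a) a a = rs H a := by
    rw [Matrix.mul_apply]
    simp only [Matrix.transpose_apply, A_sq]
    exact col_sum H hcard a a
  have hsum : (((A H a)ᵀ * A H a) a a - ((A H a)ᵀ * A H a) a b)
      + ((A H a)ᵀ * A H a) a b * (Fintype.card Ω : ℚ) = rs H a * rs H a := by
    have e1 : ∑ β, ((A H a)ᵀ * A H a) a β = rs H a * rs H a := by
      simp only [Matrix.mul_apply, Matrix.transpose_apply]
      rw [Finset.sum_comm]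
      simp only [← Finset.mul_sum, row_sum]
      rw [← Finset.sum_mul, col_sum H hcard a a]
    have e2 : ∑ β, ((A H a)ᵀ * A H a) a β
        = (((A H a)ᵀ * A H a) a a - ((A H a)ᵀ * A H a) a b)
          + ((A H a)ᵀ * A H a) a b * (Fintype.card Ω : ℚ) := by
      have : ∀ β, ((A H a)ᵀ * A H a) a β
          = (((A H a)ᵀ * A H a) a a - ((A H a)ᵀ * A H a) a b) * (if a = β then (1:ℚ) else 0)
            + ((A H a)ᵀ * A H a) a b := by
        intro β
        have := congrFun (congrFun hform a) β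
        simpa only [Matrix.add_apply, Matrix.smul_apply, Matrix.of_apply, smul_eq_mul, mul_one,
          Matrix.one_apply] using this
      rw [Finset.sum_congr rfl (fun β _ => this β)]
      simp only [Finset.sum_add_distrib, mul_ite, mul_one, mul_zero, Finset.sum_ite_eq,
        Finset.mem_univ, if_true, Finset.sum_const, Finset.card_univ, nsmul_eq_mul]
      ring
    rw [← e2, e1]
  have hrs0 := rs_ne_zero H a
  have hrsn := rs_ne_card H a b hab
  have ha' : ((A H a)ᵀ * A H a) a a - ((A H a)ᵀ * A H a) a b ≠ 0 := by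
    intro h0
    have ho : ((A H a)ᵀ * A H a) a b = rs H a := by linarith [hd]
    rw [h0, zero_add, ho] at hsum
    exact hrsn (mul_left_cancel₀ hrs0 hsum).symm
  have hab' : (((A H a)ᵀ * A H a) a a - ((A H a)ᵀ * A H a) a b)
      + ((A H a)ᵀ * A H a) a b * (Fintype.card Ω : ℚ) ≠ 0 := by
    rw [hsum]; exact mul_ne_zero hrs0 hrs0
  have h3 : (A H a)ᵀ * (Matrix.of (fun _ _ => (1:ℚ)) : Matrix (G ⧸ H) Ω ℚ)
      = rs H a • (Matrix.of (fun _ _ => (1:ℚ)) : Matrix Ω Ω ℚ) := by
    ext α β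
    simp only [Matrix.mul_apply, Matrix.transpose_apply, Matrix.of_apply, mul_one,
      Matrix.smul_apply, smul_eq_mul]
    exact col_sum H hcard a α
  obtain ⟨l, m, hlm⟩ := la hcard (A H a) (A H b) _ _ _ _ (rs H a) ha' hab' hrs0 hform hform' h3
  have e1 := congrFun (congrFun hlm ((1:G) : G ⧸ H)) b
  have e2 := congrFun (congrFun hlm ((1:G) : G ⧸ H)) c
  simp only [Matrix.add_apply, Matrix.smul_apply, Matrix.of_apply, smul_eq_mul, mul_one,
    A_mk, inv_one, one_smul] at e1 e2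
  rw [if_pos (MulAction.mem_orbit_self b), if_neg hab] at e1
  rw [if_neg hbc, if_neg hac] at e2
  linarith

end Count

theorem main3704 {G Ω : Type*} [Group G] [Finite G] [MulAction G Ω] [Finite Ω]
    (h2 : MulAction.IsMultiplyPretransitive G Ω 2) (H : Subgroup G)
    (hidx : H.index = Nat.card Ω) (hnt : ¬ MulAction.IsPretransitive H Ω) :
    Nat.card (MulAction.orbitRel.Quotient H Ω) = 2 := by
  classical
  haveI := Fintype.ofFinite Ω
  haveI := Fintype.ofFinite (G ⧸ H)
  have hcard : Fintype.card (G ⧸ H) = Fintype.card Ω := by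
    rw [← Nat.card_eq_fintype_card, ← Nat.card_eq_fintype_card, ← hidx]; rfl
  haveI : Finite (MulAction.orbitRel.Quotient H Ω) := Quotient.finite _
  by_contra hne
  have h2le : ¬ Nat.card (MulAction.orbitRel.Quotient H Ω) ≤ 1 := by
    intro h
    rw [Finite.card_le_one_iff_subsingleton] at h
    exact hnt ((MulAction.pretransitive_iff_subsingleton_quotient H Ω).mpr h)
  have h3 : 2 < Nat.card (MulAction.orbitRel.Quotient H Ω) := by omega
  haveI := Fintype.ofFinite (MulAction.orbitRel.Quotient H Ω)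
  rw [Nat.card_eq_fintype_card, Fintype.two_lt_card_iff] at h3
  obtain ⟨qa, qb, qc, hab, hac, hbc⟩ := h3
  induction qa using Quotient.inductionOn' with
  | h a =>
    induction qb using Quotient.inductionOn' with
    | h b =>
      induction qc using Quotient.inductionOn' with
      | h c =>
        refine no_three H h2 hcard a b c ?_ ?_ ?_
        · intro hmem
          exact hab (Quotient.sound' (s₁ := MulAction.orbitRel H Ω) hmem).symm
        · intro hmem
          exact hac (Quotient.sound' (s₁ := MulAction.orbitRel H Ω) hmem).symm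
        · intro hmem
          exact hbc (Quotient.sound' (s₁ := MulAction.orbitRel H Ω) hmem).symm

end Cfsg.Agent.Helper8.TwoOrb
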