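import Mathlib

set_option autoImplicit false

namespace Cfsg.Agent.Helper8.Witt

variable {X : Type*}

/-- an injective `k`-tuple with two prescribed entries -/
theorem exists_tuple {k : ℕ} (hk : 2 ≤ k) (e : Fin k ↪ X) (u v : X) (huv : u ≠ v) :
    ∃ a : Fin k ↪ X, a ⟨0, by omega⟩ = u ∧ a ⟨1, by omega⟩ = v := by
  classical
  have h01 : e ⟨0, by omega⟩ ≠ e ⟨1, by omega⟩ := by
    intro h
    have := e.injective h
    simp [Fin.ext_iff] at this
  have hπ₁ : Equiv.swap (e ⟨0, by omega⟩) u (e ⟨1, by omega⟩) ≠ u := by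
    intro h
    have h' : Equiv.swap (e ⟨0, by omega⟩) u (e ⟨1, by omega⟩)
        = Equiv.swap (e ⟨0, by omega⟩) u (e ⟨0, by omega⟩) := by
      rw [h, Equiv.swap_apply_left]
    exact h01 ((Equiv.swap (e ⟨0, by omega⟩) u).injective h').symm
  refine ⟨e.trans (Equiv.swap (Equiv.swap (e ⟨0, by omega⟩) u (e ⟨1, by omega⟩)) v *
    Equiv.swap (e ⟨0, by omega⟩) u).toEmbedding, ?_, ?_⟩
  · simp only [Function.Embedding.trans_apply, Equiv.coe_toEmbedding, Equiv.Perm.mul_apply,
      Equiv.swap_apply_left]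
    exact Equiv.swap_apply_of_ne_of_ne (Ne.symm hπ₁) huv
  · simp only [Function.Embedding.trans_apply, Equiv.coe_toEmbedding, Equiv.Perm.mul_apply,
      Equiv.swap_apply_left]

theorem main (G : Subgroup (Equiv.Perm (Option X))) (hfix : ∀ f ∈ G, f none = none)
    (k : ℕ) (hk : 2 ≤ k) (hkX : Nonempty (Fin k ↪ X))
    (htrans : ∀ a b : Fin k ↪ X, ∃ f ∈ G, ∀ i, f (some (a i)) = some (b i))
    (h g : Equiv.Perm (Option X)) (hg : g ∈ G) (x y : X)
    (h1 : h none = some x) (h2 : h (some x) = none) (h3 : h (some y) = some y)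
    (h4 : g (some x) = some y) (h5 : g (some y) = some x)
    (h6 : (g * h) ^ 3 ∈ G) (h7 : h ^ 2 ∈ G)
    (h8 : ∀ f ∈ G, f (some x) = some x → h * f * h ∈ G ∧ (h * f * h) (some x) = some x) :
    (∀ f ∈ Subgroup.closure ((G : Set (Equiv.Perm (Option X))) ∪ {h}), f none = none ↔ f ∈ G) ∧
      MulAction.IsMultiplyPretransitive
        (Subgroup.closure ((G : Set (Equiv.Perm (Option X))) ∪ {h})) (Option X) (k + 1) := by
  classical
  obtain ⟨e⟩ := hkX
  have hxy : x ≠ y := by
    rintro rfl
    rw [h2] at h3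
    exact Option.some_ne_none x h3.symm
  -- `G` maps points of `X` to points of `X`
  have hsome : ∀ f ∈ G, ∀ z : X, ∃ w : X, f (some z) = some w := by
    intro f hf z
    cases hfz : f (some z) with
    | none =>
      exfalso
      have : f (some z) = f none := by rw [hfz, hfix f hf]
      exact Option.some_ne_none z (f.injective this)
    | some w => exact ⟨w, rfl⟩
  have two : ∀ u v w : X, u ≠ v → u ≠ w → ∃ f ∈ G, f (some u) = some u ∧ f (some v) = some w := by
    intro u v w huv huw
    obtain ⟨a, ha0, ha1⟩ := exists_tuple hk e u v huv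
    obtain ⟨b, hb0, hb1⟩ := exists_tuple hk e u w huw
    obtain ⟨f, hf, hfab⟩ := htrans a b
    refine ⟨f, hf, ?_, ?_⟩
    · have := hfab ⟨0, by omega⟩
      rwa [ha0, hb0] at this
    · have := hfab ⟨1, by omega⟩
      rwa [ha1, hb1] at this
  have one : ∀ z w : X, ∃ f ∈ G, f (some z) = some w := by
    intro z w
    by_cases hzw : z = w
    · exact ⟨1, one_mem _, by rw [hzw]; rfl⟩
    · obtain ⟨a, ha0, ha1⟩ := exists_tuple hk e z w hzw
      obtain ⟨b, hb0, hb1⟩ := exists_tuple hk e w z (Ne.symm hzw)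
      obtain ⟨f, hf, hfab⟩ := htrans a b
      refine ⟨f, hf, ?_⟩
      have := hfab ⟨0, by omega⟩
      rwa [ha0, hb0] at this
  -- `h G h ⊆ G ∪ G h G`
  have star : ∀ c ∈ G, h * c * h ∈ G ∨ ∃ a ∈ G, ∃ b ∈ G, h * c * h = a * h * b := by
    intro c hc
    by_cases hcx : c (some x) = some x
    · left
      exact (h8 c hc hcx).1
    · right
      obtain ⟨w, hw⟩ := hsome c hc x
      have hxw : x ≠ w := by
        rintro rfl
        exact hcx hw
      obtain ⟨a, ha, hax, hay⟩ := two x y w hxy hxw
      have hb : g⁻¹ * a⁻¹ * c ∈ G := mul_mem (mul_mem (inv_mem hg) (inv_mem ha)) hc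
      have hbx : (g⁻¹ * a⁻¹ * c) (some x) = some x := by
        rw [Equiv.Perm.mul_apply, Equiv.Perm.mul_apply, hw, Equiv.Perm.inv_eq_iff_eq.mpr hay.symm,
          Equiv.Perm.inv_eq_iff_eq.mpr h4.symm]
      have hA := (h8 a ha hax).1
      have hB := (h8 _ hb hbx).1
      refine ⟨(h * a * h) * ((h ^ 2)⁻¹ * g⁻¹ * (g * h) ^ 3 * (h ^ 2)⁻¹), ?_,
        (g⁻¹ * (h ^ 2)⁻¹) * (h * (g⁻¹ * a⁻¹ * c) * h), ?_, ?_⟩
      · exact mul_mem hA (mul_mem (mul_mem (mul_mem (inv_mem h7) (inv_mem hg)) h6) (inv_mem h7))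
      · exact mul_mem (mul_mem (inv_mem hg) (inv_mem h7)) hB
      · have e3 : (g * h) ^ 3 = g * h * (g * h) * (g * h) := by
          rw [pow_succ, pow_succ, pow_one]
        have e2 : h ^ 2 = h * h := pow_two h
        rw [e3, e2]
        group
  -- the subgroup `G ∪ G h G`
  let D : Subgroup (Equiv.Perm (Option X)) :=
    { carrier := {f | f ∈ G ∨ ∃ a ∈ G, ∃ b ∈ G, f = a * h * b}
      one_mem' := Or.inl (one_mem _)
      mul_mem' := by
        rintro f f' (hf | ⟨a, ha, b, hb, rfl⟩) (hf' | ⟨a', ha', b', hb', rfl⟩)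
        · exact Or.inl (mul_mem hf hf')
        · exact Or.inr ⟨f * a', mul_mem hf ha', b', hb', by group⟩
        · exact Or.inr ⟨a, ha, b * f', mul_mem hb hf', by group⟩
        · rcases star (b * a') (mul_mem hb ha') with hd | ⟨a'', ha'', b'', hb'', hd⟩
          · left
            have : a * h * b * (a' * h * b') = a * (h * (b * a') * h) * b' := by group
            rw [this]
            exact mul_mem (mul_mem ha hd) hb'
          · right
            refine ⟨a * a'', mul_mem ha ha'', b'' * b', mul_mem hb'' hb', ?_⟩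
            have : a * h * b * (a' * h * b') = a * (h * (b * a') * h) * b' := by group
            rw [this, hd]
            group
      inv_mem' := by
        rintro f (hf | ⟨a, ha, b, hb, rfl⟩)
        · exact Or.inl (inv_mem hf)
        · right
          refine ⟨b⁻¹ * (h ^ 2)⁻¹, mul_mem (inv_mem hb) (inv_mem h7), a⁻¹, inv_mem ha, ?_⟩
          have e2 : h ^ 2 = h * h := pow_two h
          rw [e2]
          group }
  have hKD : Subgroup.closure ((G : Set (Equiv.Perm (Option X))) ∪ {h}) ≤ D := by
    rw [Subgroup.closure_le]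
    rintro f (hf | hf)
    · exact Or.inl hf
    · rw [Set.mem_singleton_iff] at hf
      exact Or.inr ⟨1, one_mem _, 1, one_mem _, by rw [hf]; group⟩
  have hGK : G ≤ Subgroup.closure ((G : Set (Equiv.Perm (Option X))) ∪ {h}) := by
    intro f hf
    exact Subgroup.subset_closure (Or.inl hf)
  have hhK : h ∈ Subgroup.closure ((G : Set (Equiv.Perm (Option X))) ∪ {h}) :=
    Subgroup.subset_closure (Or.inr rfl)
  refine ⟨?_, ?_⟩
  · intro f hf
    constructor
    · intro hfn
      rcases hKD hf with hd | ⟨a, ha, b, hb, rfl⟩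
      · exact hd
      · exfalso
        rw [Equiv.Perm.mul_apply, Equiv.Perm.mul_apply, hfix b hb, h1] at hfn
        obtain ⟨w, hw⟩ := hsome a ha x
        rw [hw] at hfn
        exact Option.some_ne_none w hfn
    · exact hfix f
  · rw [MulAction.isMultiplyPretransitive_iff]
    -- move the first entry to `none`
    have hmove : ∀ a : Fin (k + 1) ↪ Option X,
        ∃ f ∈ Subgroup.closure ((G : Set (Equiv.Perm (Option X))) ∪ {h}), f (a 0) = none := by
      intro a
      cases ha0 : a 0 with
      | none => exact ⟨1, one_mem _, rfl⟩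
      | some z =>
        obtain ⟨u, hu, huz⟩ := one z x
        refine ⟨h * u, mul_mem hhK (hGK hu), ?_⟩
        rw [Equiv.Perm.mul_apply, huz, h2]
    -- the case of first entries `none`
    have hcase : ∀ a b : Fin (k + 1) ↪ Option X, a 0 = none → b 0 = none →
        ∃ f ∈ G, ∀ j, f (a j) = b j := by
      intro a b ha0 hb0
      have hta : ∀ i : Fin k, ∃ z : X, a i.succ = some z := by
        intro i
        cases hai : a i.succ with
        | none =>
          exfalso
          have : a i.succ = a 0 := by rw [hai, ha0]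
          exact Fin.succ_ne_zero i (a.injective this)
        | some z => exact ⟨z, rfl⟩
      have htb : ∀ i : Fin k, ∃ z : X, b i.succ = some z := by
        intro i
        cases hbi : b i.succ with
        | none =>
          exfalso
          have : b i.succ = b 0 := by rw [hbi, hb0]
          exact Fin.succ_ne_zero i (b.injective this)
        | some z => exact ⟨z, rfl⟩
      choose ta hta' using hta
      choose tb htb' using htb
      have hta_inj : Function.Injective ta := by
        intro i j hij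
        have : a i.succ = a j.succ := by rw [hta', hta', hij]
        exact Fin.succ_injective _ (a.injective this)
      have htb_inj : Function.Injective tb := by
        intro i j hij
        have : b i.succ = b j.succ := by rw [htb', htb', hij]
        exact Fin.succ_injective _ (b.injective this)
      obtain ⟨f, hf, hfab⟩ := htrans ⟨ta, hta_inj⟩ ⟨tb, htb_inj⟩
      refine ⟨f, hf, fun j => ?_⟩
      refine Fin.cases ?_ (fun i => ?_) j
      · rw [ha0, hb0]
        exact hfix f hf
      · rw [hta', htb']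
        exact hfab i
    intro a b
    obtain ⟨f₁, hf₁, hf₁a⟩ := hmove a
    obtain ⟨f₂, hf₂, hf₂b⟩ := hmove b
    obtain ⟨f, hf, hfab⟩ := hcase ((⟨f₁, hf₁⟩ : Subgroup.closure
      ((G : Set (Equiv.Perm (Option X))) ∪ {h})) • a) ((⟨f₂, hf₂⟩ : Subgroup.closure
      ((G : Set (Equiv.Perm (Option X))) ∪ {h})) • b) hf₁a hf₂b
    refine ⟨⟨f₂, hf₂⟩⁻¹ * ⟨f, hGK hf⟩ * ⟨f₁, hf₁⟩, ?_⟩
    ext j : 1
    have := hfab j
    change f₂⁻¹ (f (f₁ (a j))) = b j
    rw [Equiv.Perm.inv_eq_iff_eq]
    exact this

end Cfsg.Agent.Helper8.Witt
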