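import Mathlib

set_option autoImplicit false

namespace Cfsg.Agent.Helper8.WittIndex

variable {F V : Type*} [Field F] [AddCommGroup V] [Module F V]

/-- the polar form vanishes on a totally singular subspace -/
theorem polar_zero (Q : QuadraticForm F V) (W : Submodule F V) (h : ∀ w ∈ W, Q w = 0)
    {x y : V} (hx : x ∈ W) (hy : y ∈ W) : QuadraticMap.polar Q x y = 0 := by
  unfold QuadraticMap.polar
  rw [h _ (W.add_mem hx hy), h x hx, h y hy]
  simp

/-- a singular vector orthogonal to a maximal totally singular subspace lies in it -/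
theorem mem_of_max (Q : QuadraticForm F V) (W : Submodule F V) (h : ∀ w ∈ W, Q w = 0)
    (hmax : ∀ W' : Submodule F V, W ≤ W' → (∀ w ∈ W', Q w = 0) → W' = W)
    {w : V} (hw : Q w = 0) (horth : ∀ x ∈ W, QuadraticMap.polar Q x w = 0) : w ∈ W := by
  have h1 : W ⊔ Submodule.span F {w} = W := by
    apply hmax _ le_sup_left
    intro z hz
    obtain ⟨x, hx, y, hy, rfl⟩ := Submodule.mem_sup.mp hz
    obtain ⟨c, rfl⟩ := Submodule.mem_span_singleton.mp hy
    rw [QuadraticMap.map_add (⇑Q) x (c • w), QuadraticMap.map_smul, QuadraticMap.polar_smul_right,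
      h x hx, hw, horth x hx]
    simp
  rw [← h1]
  exact (le_sup_right : Submodule.span F {w} ≤ W ⊔ Submodule.span F {w})
    (Submodule.mem_span_singleton_self w)

variable [FiniteDimensional F V]

theorem le_of_max (Q : QuadraticForm F V) (hQ : (QuadraticMap.polarBilin Q).Nondegenerate)
    (W₁ W₂ : Submodule F V) (h₁ : ∀ w ∈ W₁, Q w = 0) (h₂ : ∀ w ∈ W₂, Q w = 0)
    (hmax₂ : ∀ W : Submodule F V, W₂ ≤ W → (∀ w ∈ W, Q w = 0) → W = W₂) :
    Module.finrank F W₁ ≤ Module.finrank F W₂ := by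
  set B : LinearMap.BilinForm F V := QuadraticMap.polarBilin Q with hBdef
  have hBapp : ∀ x y, B x y = QuadraticMap.polar Q x y := fun x y => rfl
  have hinf : W₁ ⊓ B.orthogonal W₂ = W₁ ⊓ W₂ := by
    apply le_antisymm
    · intro x hx
      obtain ⟨hx1, hx2⟩ := Submodule.mem_inf.mp hx
      refine Submodule.mem_inf.mpr ⟨hx1, ?_⟩
      apply mem_of_max Q W₂ h₂ hmax₂ (h₁ x hx1)
      intro y hy
      have := hx2 y hy
      rwa [hBapp] at this
    · intro x hx
      obtain ⟨hx1, hx2⟩ := Submodule.mem_inf.mp hx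
      refine Submodule.mem_inf.mpr ⟨hx1, ?_⟩
      intro y hy
      rw [hBapp]
      exact polar_zero Q W₂ h₂ hy hx2
  have hsup : W₁ ⊔ B.orthogonal W₂ ≤ B.orthogonal (W₁ ⊓ W₂) := by
    apply sup_le
    · intro x hx y hy
      rw [hBapp]
      exact polar_zero Q W₁ h₁ (Submodule.mem_inf.mp hy).1 hx
    · exact LinearMap.BilinForm.orthogonal_le inf_le_right
  have e1 := Submodule.finrank_sup_add_finrank_inf_eq W₁ (B.orthogonal W₂)
  rw [hinf] at e1
  have e2 := Submodule.finrank_mono hsup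
  have e3 := LinearMap.BilinForm.finrank_orthogonal hQ W₂
  have e4 := LinearMap.BilinForm.finrank_orthogonal hQ (W₁ ⊓ W₂)
  have e5 : Module.finrank F W₂ ≤ Module.finrank F V := Submodule.finrank_le W₂
  have e6 : Module.finrank F (W₁ ⊓ W₂ : Submodule F V) ≤ Module.finrank F W₂ :=
    Submodule.finrank_mono inf_le_right
  omega

theorem main (Q : QuadraticForm F V) (hQ : (QuadraticMap.polarBilin Q).Nondegenerate)
    (W₁ W₂ : Submodule F V) (h₁ : ∀ w ∈ W₁, Q w = 0) (h₂ : ∀ w ∈ W₂, Q w = 0)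
    (hmax₁ : ∀ W : Submodule F V, W₁ ≤ W → (∀ w ∈ W, Q w = 0) → W = W₁)
    (hmax₂ : ∀ W : Submodule F V, W₂ ≤ W → (∀ w ∈ W, Q w = 0) → W = W₂) :
    Module.finrank F W₁ = Module.finrank F W₂ ∧ 2 * Module.finrank F W₁ ≤ Module.finrank F V := by
  refine ⟨le_antisymm (le_of_max Q hQ W₁ W₂ h₁ h₂ hmax₂) (le_of_max Q hQ W₂ W₁ h₂ h₁ hmax₁), ?_⟩
  have hle : W₁ ≤ LinearMap.BilinForm.orthogonal (QuadraticMap.polarBilin Q) W₁ := by
    intro x hx y hy
    exact polar_zero Q W₁ h₁ hy hx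
  have e1 := Submodule.finrank_mono hle
  have e2 := LinearMap.BilinForm.finrank_orthogonal hQ W₁
  have e3 : Module.finrank F W₁ ≤ Module.finrank F V := Submodule.finrank_le W₁
  omega

end Cfsg.Agent.Helper8.WittIndex
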